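import Mathlib
import Cfsg.Agent.Helper4.OCenter

set_option autoImplicit false
open Cfsg

namespace Cfsg.Agent.Helper27.NS1

open Matrix Cfsg.Agent.Helper4.OrthPlane Cfsg.Agent.Helper4.CartanD Cfsg.Agent.Helper4.Dickson

variable {ι : Type} [Fintype ι] [DecidableEq ι] {F : Type*} [Field F]

section quad

variable (Q : (ι → F) → F)

/-- A totally singular subspace has at most half the dimension. -/
theorem ts_bound (hQ : Cfsg.Geo.IsNondegenerateQuadraticForm Q) (W : Submodule F (ι → F))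
    (hW : ∀ w ∈ W, Q w = 0) : 2 * Module.finrank F W ≤ Fintype.card ι := by
  have h1 : W ≤ LinearMap.BilinForm.orthogonal (Bf Q hQ) W := by
    intro w hw
    rw [LinearMap.BilinForm.mem_orthogonal_iff]
    intro n hn
    show Bf Q hQ n w = 0
    have h2 := Q_add Q hQ n w
    rw [hW _ (W.add_mem hn hw), hW n hn, hW w hw] at h2
    simpa using h2.symm
  have h3 := LinearMap.BilinForm.finrank_orthogonal (Bf_nondeg Q hQ) W
  have h4 := Submodule.finrank_mono h1
  have h5 : Module.finrank F (ι → F) = Fintype.card ι := Module.finrank_fintype_fun_eq_card F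
  have h6 := Submodule.finrank_le W
  omega

theorem dk_mul (hQ : Cfsg.Geo.IsNondegenerateQuadraticForm Q) [Fintype F]
    (h : Fintype.card F ≠ 2 ∨ Fintype.card ι ≠ 4) (a b : GL ι F)
    (ha : a ∈ Cfsg.isometryGroup F Q) (hb : b ∈ Cfsg.isometryGroup F Q) :
    dk (a * b) = dk a + dk b := by
  have hS : ∀ v (hv : Q v ≠ 0), rG Q hQ v hv ∈ addSub Q := by
    intro v hv
    refine (mem_addSub Q _).mpr ⟨rG_mem Q hQ v hv, fun x hx => ?_⟩
    have h5 := dk_refl Q hQ 1 (one_mem _) v hv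
    rw [mul_one, dk_one, zero_add] at h5
    rw [dk_refl Q hQ x hx v hv, h5, add_comm]
  have hall := gen Q hQ h (addSub Q) hS
  exact ((mem_addSub Q _).mp (hall ha)).2 _ hb

theorem dk_rG (hQ : Cfsg.Geo.IsNondegenerateQuadraticForm Q) (v : ι → F) (hv : Q v ≠ 0) :
    dk (rG Q hQ v hv) = 1 := by
  have h5 := dk_refl Q hQ 1 (one_mem _) v hv
  rw [mul_one, dk_one, zero_add] at h5
  exact h5

noncomputable def dkHom (hQ : Cfsg.Geo.IsNondegenerateQuadraticForm Q) [Fintype F]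
    (h : Fintype.card F ≠ 2 ∨ Fintype.card ι ≠ 4) :
    ↥(Cfsg.isometryGroup F Q) →* Multiplicative (ZMod 2) :=
  MonoidHom.mk' (fun g => Multiplicative.ofAdd (dk (g : GL ι F))) (fun a b => by
    show Multiplicative.ofAdd (dk ((a : GL ι F) * (b : GL ι F))) = _
    rw [dk_mul Q hQ h _ _ a.2 b.2]
    rfl)

theorem dk_eq_zero_of_mem (hQ : Cfsg.Geo.IsNondegenerateQuadraticForm Q) [Fintype F]
    (h : Fintype.card F ≠ 2 ∨ Fintype.card ι ≠ 4) (g : ↥(Cfsg.isometryGroup F Q))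
    (hg : g ∈ commutator ↥(Cfsg.isometryGroup F Q)) : dk (g : GL ι F) = 0 := by
  have h1 := Abelianization.commutator_subset_ker (dkHom Q hQ h) hg
  rw [MonoidHom.mem_ker] at h1
  exact h1

theorem mem_of_dk_eq_zero (hQ : Cfsg.Geo.IsNondegenerateQuadraticForm Q) [Fintype F]
    (hch : (2 : F) = 0) (h : Fintype.card F ≠ 2 ∨ Fintype.card ι ≠ 4) (hne : Nonempty ι)
    (v : ι → F) (hv : Q v ≠ 0) (g : ↥(Cfsg.isometryGroup F Q))
    (hg : dk (g : GL ι F) = 0) : g ∈ commutator ↥(Cfsg.isometryGroup F Q) := by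
  by_contra hn
  have hidx := Cfsg.Agent.Helper4.OCenter.index_two Q hQ hch h hne
  have ht := refl_not_mem Q hQ h v hv
  have h1 : g * rO Q hQ v hv ∈ commutator ↥(Cfsg.isometryGroup F Q) :=
    (Subgroup.mul_mem_iff_of_index_two hidx).mpr ⟨fun h' => absurd h' hn, fun h' => absurd h' ht⟩
  have h2 := dk_eq_zero_of_mem Q hQ h _ h1
  have h3 : dk ((g : GL ι F) * rG Q hQ v hv) = dk (g : GL ι F) + dk (rG Q hQ v hv) :=
    dk_mul Q hQ h _ _ g.2 (rG_mem Q hQ v hv)
  have h4 : dk ((g : GL ι F) * rG Q hQ v hv) = 0 := h2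
  rw [h4, hg, dk_rG, zero_add] at h3
  exact absurd h3 (by decide)

end quad

end Cfsg.Agent.Helper27.NS1
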