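import Cfsg.Agent.Helper27.Co2N48

set_option autoImplicit false
open Cfsg

namespace Cfsg.Agent.Helper27

open Cfsg.Agent.Helper28.Golay

/-! ### arithmetic that the kernel evaluates quickly -/

/-- the `j`-th bit of `c` as a number -/
def btN (c j : ℕ) : ℕ := Nat.mod (Nat.shiftRight c j) 2

lemma btN_cases (c j : ℕ) :
    (c.testBit j = true ∧ btN c j = 1) ∨ (c.testBit j = false ∧ btN c j = 0) := by
  have h : btN c j = (c.testBit j).toNat := bitAt_eq c j
  rw [h]
  cases c.testBit j <;> simp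

/-- indicator of equality -/
def eqN (x y : ℕ) : ℕ := Nat.sub 1 (Nat.add (Nat.sub x y) (Nat.sub y x))

lemma eqN_eq (x y : ℕ) : eqN x y = if x = y then 1 else 0 := by
  show 1 - ((x - y) + (y - x)) = _
  split_ifs <;> omega

/-- indicator of evenness -/
def evN (k : ℕ) : ℕ := Nat.sub 1 (Nat.mod k 2)

lemma evN_eq (k : ℕ) : evN k = if Even k then 1 else 0 := by
  show 1 - k % 2 = _
  split_ifs with h
  · have := Nat.even_iff.mp h
    omega
  · have : ¬ k % 2 = 0 := fun h' => h (Nat.even_iff.mpr h')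
    omega

/-- sum of `F j x` over the members `x` of a list, `j` being the position -/
def walkN (F : ℕ → ℕ × ℕ → ℕ) : List (ℕ × ℕ) → ℕ → ℕ
  | [], _ => 0
  | x :: l, j => Nat.add (F j x) (walkN F l (Nat.succ j))

lemma walkN_eq (F : ℕ → ℕ × ℕ → ℕ) (L : List (ℕ × ℕ)) (off : ℕ) :
    walkN F L off = ∑ j ∈ Finset.range L.length, F (j + off) (L.getD j (0, 0)) := by
  induction L generalizing off with
  | nil => simp [walkN]
  | cons x l ih =>
    show F off x + walkN F l (off + 1) = _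
    rw [ih, List.length_cons, Finset.sum_range_succ']
    rw [List.getD_cons_zero, zero_add, add_comm]
    congr 1
    apply Finset.sum_congr rfl
    intro j _
    rw [List.getD_cons_succ, add_assoc, add_comm 1 off]

lemma sum_pt {M : Type*} [AddCommMonoid M] (f : ℕ → M) :
    ∑ p : GolayPt, f (idx p) = ∑ j ∈ Finset.range 24, f j := by
  rw [← Fin.sum_univ_eq_sum_range]
  exact Fintype.sum_equiv ptEquiv _ _ (fun p => rfl)

lemma sum_walkN (F : ℕ → ℕ × ℕ → ℕ) (L : List (ℕ × ℕ)) (hL : L.length = 24) :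
    ∑ p : GolayPt, F (idx p) (L.getD (idx p) (0, 0)) = walkN F L 0 := by
  rw [walkN_eq, hL, sum_pt (fun j => F j (L.getD j (0, 0)))]
  simp

/-- sum of `f` over `[base, base + 2^k)` -/
def sumPow : ℕ → ℕ → (ℕ → ℕ) → ℕ
  | 0, base, f => f base
  | k + 1, base, f => Nat.add (sumPow k base f) (sumPow k (Nat.add base (Nat.pow 2 k)) f)

lemma sumPow_eq (f : ℕ → ℕ) (k : ℕ) :
    ∀ base, sumPow k base f = ∑ i ∈ Finset.range (2 ^ k), f (base + i) := by
  induction k with
  | zero => intro base; simp [sumPow]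
  | succ k ih =>
    intro base
    show sumPow k base f + sumPow k (base + 2 ^ k) f = _
    rw [ih, ih, pow_succ, mul_two, Finset.sum_range_add]
    simp only [add_assoc]

/-- the encoder, written for the kernel -/
def encW : List ℕ → ℕ → ℕ → ℕ
  | [], _, _ => 0
  | b :: t, m, i => Nat.xor (Nat.mul (btN m i) b) (encW t m (Nat.succ i))

lemma encW_eq (l : List ℕ) (m i : ℕ) : encW l m i = encL l m i := by
  induction l generalizing i with
  | nil => rfl
  | cons b t ih =>
    show (btN m i * b) ^^^ encW t m (i + 1) = (if m.testBit i = true then b else 0) ^^^ encL t m (i + 1)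
    rw [ih]
    rcases btN_cases m i with ⟨h1, h2⟩ | ⟨h1, h2⟩ <;> simp [h1, h2]

/-- the codeword with information bits `m` -/
def encF (m : ℕ) : ℕ := encW B m 0

lemma encF_eq (m : ℕ) : encF m = encode m := encW_eq B m 0

/-- the number of set bits among the lowest 24, written for the kernel -/
def wtW (c : ℕ) : ℕ := Nat.add (Nat.add (Nat.add (Nat.add (Nat.add (Nat.add (Nat.add (Nat.add (Nat.add (Nat.add (Nat.add (Nat.add (Nat.add (Nat.add (Nat.add (Nat.add (Nat.add (Nat.add (Nat.add (Nat.add (Nat.add (Nat.add (Nat.add (btN c 0) (btN c 1)) (btN c 2)) (btN c 3)) (btN c 4)) (btN c 5)) (btN c 6)) (btN c 7)) (btN c 8)) (btN c 9)) (btN c 10)) (btN c 11)) (btN c 12)) (btN c 13)) (btN c 14)) (btN c 15)) (btN c 16)) (btN c 17)) (btN c 18)) (btN c 19)) (btN c 20)) (btN c 21)) (btN c 22)) (btN c 23)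

lemma wtW_eq (c : ℕ) : wtW c = wt c := rfl

lemma sum_cwFinset (P : ℕ → Bool) (G : Finset GolayPt → ℕ) :
    ∑ s ∈ cwFinset P, G s =
      ∑ m ∈ Finset.range (2 ^ 12), if P (encode m) = true then G (toSet (encode m)) else 0 := by
  rw [cwFinset, Finset.sum_image, Finset.sum_filter]
  intro a ha b hb hab
  have ha' := Finset.mem_range.1 (Finset.mem_filter.1 ha).1
  have hb' := Finset.mem_range.1 (Finset.mem_filter.1 hb).1
  have h2 := toSet_inj (enc_ok a ha').2 (enc_ok b hb').2 hab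
  rw [← (enc_ok a ha').1, ← (enc_ok b hb').1, h2]

/-! ### reference vectors with natural coordinates -/

/-- the integer vector with coordinates `f (L[idx p])` -/
def vC (f : ℕ × ℕ → ℕ) (L : List (ℕ × ℕ)) : GolayPt → ℤ :=
  fun p => (f (L.getD (idx p) (0, 0)) : ℤ)

/-- sum of all coordinates -/
def totC (f : ℕ × ℕ → ℕ) (L : List (ℕ × ℕ)) : ℕ := walkN (fun _ x => f x) L 0

/-- sum of the coordinates on the set bits of `c` -/
def selC (f : ℕ × ℕ → ℕ) (L : List (ℕ × ℕ)) (c : ℕ) : ℕ :=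
  walkN (fun j x => Nat.mul (btN c j) (f x)) L 0

lemma totC_cast (f : ℕ × ℕ → ℕ) (L : List (ℕ × ℕ)) (hL : L.length = 24) :
    (totC f L : ℤ) = ∑ p : GolayPt, vC f L p := by
  rw [totC, ← sum_walkN _ L hL]
  push_cast
  rfl

lemma selC_cast (f : ℕ × ℕ → ℕ) (L : List (ℕ × ℕ)) (hL : L.length = 24) (c : ℕ) :
    (selC f L c : ℤ) = ∑ p ∈ toSet c, vC f L p := by
  rw [selC, ← sum_walkN _ L hL, toSet, Finset.sum_filter]
  push_cast
  apply Finset.sum_congr rfl
  intro p _
  show ((btN c (idx p) * f (L.getD (idx p) (0, 0)) : ℕ) : ℤ) = _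
  rcases btN_cases c (idx p) with ⟨h1, h2⟩ | ⟨h1, h2⟩ <;> simp [h1, h2, vC]

lemma dotInt_add_right (a x y : GolayPt → ℤ) : dotInt a (x + y) = dotInt a x + dotInt a y := by
  rw [dotInt_comm, dotInt_add_left, dotInt_comm x, dotInt_comm y]

lemma dotInt_spike (a : GolayPt → ℤ) (i : GolayPt) (e : ℤ) :
    dotInt a (fun p => if p = i then e else 0) = a i * e := by
  unfold dotInt
  simp [Finset.sum_ite_eq']

lemma dot_sign (f : ℕ × ℕ → ℕ) (L : List (ℕ × ℕ)) (hL : L.length = 24) (c : ℕ) :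
    dotInt (vC f L) (fun p => if p ∈ toSet c then -1 else 1)
      = (totC f L : ℤ) - 2 * (selC f L c : ℤ) := by
  have h3 : ∑ p ∈ toSet c, vC f L p = ∑ p, if p ∈ toSet c then vC f L p else 0 := by
    rw [Finset.sum_ite_mem, Finset.univ_inter]
  rw [totC_cast f L hL, selC_cast f L hL, h3, Finset.mul_sum, ← Finset.sum_sub_distrib]
  unfold dotInt
  apply Finset.sum_congr rfl
  intro p _
  by_cases h : p ∈ toSet c <;> simp [h] <;> ring

lemma dot_uvec (f : ℕ × ℕ → ℕ) (L : List (ℕ × ℕ)) (hL : L.length = 24) (c : ℕ) (i : GolayPt) :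
    dotInt (vC f L) (uvec (toSet c) i) = (totC f L : ℤ) - 2 * (selC f L c : ℤ)
      + vC f L i * (if c.testBit (idx i) = true then 4 else -4) := by
  have e : uvec (toSet c) i = (fun p => if p ∈ toSet c then (-1 : ℤ) else 1)
      + (fun p => if p = i then (if c.testBit (idx i) = true then (4 : ℤ) else -4) else 0) := by
    funext p
    simp only [uvec, Pi.add_apply, mem_toSet]
  rw [e, dotInt_add_right, dot_sign f L hL, dotInt_spike]

lemma dot_sv (f : ℕ × ℕ → ℕ) (L : List (ℕ × ℕ)) (a : ℤ) (O δ : Finset GolayPt) (h : δ ⊆ O) :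
    dotInt (vC f L) (sv a O δ)
      = a * ((∑ p ∈ O, vC f L p) - 2 * ∑ p ∈ δ, vC f L p) := by
  have e : ∀ p, vC f L p * sv a O δ p
      = (if p ∈ O then a * vC f L p else 0) - 2 * (if p ∈ δ then a * vC f L p else 0) := by
    intro p
    unfold sv
    by_cases h1 : p ∈ O <;> by_cases h2 : p ∈ δ
    · simp only [h1, h2, if_true]; ring
    · simp only [h1, h2, if_true, if_false]; ring
    · exact absurd (h h2) h1
    · simp only [h1, h2, if_false]; ring
  unfold dotInt
  rw [Finset.sum_congr rfl (fun p _ => e p), Finset.sum_sub_distrib, ← Finset.mul_sum,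
    Finset.sum_ite_mem, Finset.sum_ite_mem, Finset.univ_inter, Finset.univ_inter,
    ← Finset.mul_sum, ← Finset.mul_sum]
  ring


/-! ### the three shapes of minimal vectors -/

lemma ite_mul_ite (a b : Prop) [Decidable a] [Decidable b] :
    (if a ∧ b then 1 else 0 : ℕ) = (if a then 1 else 0) * (if b then 1 else 0) := by
  by_cases ha : a <;> by_cases hb : b <;> simp [ha, hb]

/-- indicator that the odd vector with sign mask `c` and big position `j` has the wanted dot
product with the reference vector -/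
def posI (f : ℕ × ℕ → ℕ) (L : List (ℕ × ℕ)) (tp tn c j : ℕ) (x : ℕ × ℕ) : ℕ :=
  eqN (Nat.add (Nat.add (totC f L) tn) (Nat.mul (btN c j) (Nat.mul 4 (f x))))
    (Nat.add (Nat.add (Nat.mul 2 (selC f L c)) tp) (Nat.mul (Nat.sub 1 (btN c j)) (Nat.mul 4 (f x))))

lemma posI_eq (f : ℕ × ℕ → ℕ) (L : List (ℕ × ℕ)) (hL : L.length = 24) (tp tn c : ℕ)
    (i : GolayPt) :
    posI f L tp tn c (idx i) (L.getD (idx i) (0, 0))
      = if dotInt (vC f L) (uvec (toSet c) i) = (tp : ℤ) - tn then 1 else 0 := by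
  rw [posI, eqN_eq, dot_uvec f L hL]
  have hv : vC f L i = (f (L.getD (idx i) (0, 0)) : ℤ) := rfl
  rw [hv]
  show (if totC f L + tn + btN c (idx i) * (4 * f (L.getD (idx i) (0, 0)))
      = 2 * selC f L c + tp + (1 - btN c (idx i)) * (4 * f (L.getD (idx i) (0, 0))) then 1 else 0)
      = _
  apply if_congr _ rfl rfl
  rcases btN_cases c (idx i) with ⟨h1, h2⟩ | ⟨h1, h2⟩
  · rw [h1, h2]
    simp only [if_true]
    constructor <;> intro h <;> omega
  · rw [h1, h2]
    simp only [Bool.false_eq_true, if_false]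
    constructor <;> intro h <;> omega

/-- the pair of conditions defining a census -/
def CP (L : List (ℕ × ℕ)) (tp1 tn1 tp2 tn2 : ℕ) (x : GolayPt → ℤ) : Prop :=
  dotInt (vC Prod.fst L) x = (tp1 : ℤ) - tn1 ∧ dotInt (vC Prod.snd L) x = (tp2 : ℤ) - tn2

instance (L : List (ℕ × ℕ)) (tp1 tn1 tp2 tn2 : ℕ) : DecidablePred (CP L tp1 tn1 tp2 tn2) :=
  fun x => by unfold CP; infer_instance

/-- the number of big positions that fit a given sign mask -/
def pos3 (L : List (ℕ × ℕ)) (tp1 tn1 tp2 tn2 c : ℕ) : ℕ :=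
  walkN (fun j x => Nat.mul (posI Prod.fst L tp1 tn1 c j x) (posI Prod.snd L tp2 tn2 c j x)) L 0

lemma pos3_eq (L : List (ℕ × ℕ)) (hL : L.length = 24) (tp1 tn1 tp2 tn2 c : ℕ) :
    (Finset.univ.filter fun i : GolayPt => CP L tp1 tn1 tp2 tn2 (uvec (toSet c) i)).card
      = pos3 L tp1 tn1 tp2 tn2 c := by
  rw [Finset.card_filter, pos3, ← sum_walkN _ L hL]
  apply Finset.sum_congr rfl
  intro i _
  show _ = posI Prod.fst L tp1 tn1 c (idx i) (L.getD (idx i) (0, 0))
    * posI Prod.snd L tp2 tn2 c (idx i) (L.getD (idx i) (0, 0))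
  rw [posI_eq _ L hL, posI_eq _ L hL, ← ite_mul_ite]
  rfl

/-- the census of the odd minimal vectors -/
def cnt3 (L : List (ℕ × ℕ)) (tp1 tn1 tp2 tn2 : ℕ) : ℕ :=
  sumPow 12 0 fun m => pos3 L tp1 tn1 tp2 tn2 (encF m)

open Cfsg.Agent.S0394 in
lemma cnt3_eq (L : List (ℕ × ℕ)) (hL : L.length = 24) (tp1 tn1 tp2 tn2 : ℕ) :
    (D3.filter fun p => CP L tp1 tn1 tp2 tn2 (uvec p.1 p.2)).card = cnt3 L tp1 tn1 tp2 tn2 := by
  rw [Finset.card_filter, D3, Finset.sum_product, cnt3, sumPow_eq, allCW, sum_cwFinset]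
  apply Finset.sum_congr rfl
  intro m _
  rw [if_pos rfl, zero_add, encF_eq, ← pos3_eq L hL, Finset.card_filter]

/-! ### subsets of a set given by a mask -/

/-- indices of the set bits -/
def idxList (c : ℕ) : List ℕ := (List.range 24).filter fun j => Nat.beq (btN c j) 1

lemma mem_idxList (c j : ℕ) : j ∈ idxList c ↔ j < 24 ∧ c.testBit j = true := by
  rw [idxList, List.mem_filter, List.mem_range]
  rcases btN_cases c j with ⟨h1, h2⟩ | ⟨h1, h2⟩ <;> simp [h1, h2]

lemma pts_nodup (c : ℕ) : ((idxList c).map pt).Nodup := by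
  apply List.Nodup.map_on _ (List.Nodup.filter _ List.nodup_range)
  intro a ha b hb hab
  have h1 := ((mem_idxList c a).mp ha).1
  have h2 := ((mem_idxList c b).mp hb).1
  rw [← idx_pt a h1, ← idx_pt b h2, hab]

lemma pts_toFinset (c : ℕ) : ((idxList c).map pt).toFinset = toSet c := by
  ext p
  rw [List.mem_toFinset, List.mem_map, mem_toSet]
  constructor
  · rintro ⟨j, hj, rfl⟩
    obtain ⟨h1, h2⟩ := (mem_idxList c j).mp hj
    rw [idx_pt j h1]
    exact h2
  · intro h
    exact ⟨idx p, (mem_idxList c _).mpr ⟨idx_lt p, h⟩, pt_idx p⟩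

/-- sum of `leaf` over the sublists of a list of coefficient pairs, with the two partial sums and
the length -/
def subK (leaf : ℕ → ℕ → ℕ → ℕ) : List (ℕ × ℕ) → ℕ → ℕ → ℕ → ℕ
  | [], sa, sb, k => leaf sa sb k
  | x :: l, sa, sb, k =>
    Nat.add (subK leaf l sa sb k) (subK leaf l (Nat.add sa x.1) (Nat.add sb x.2) (Nat.succ k))

lemma subK_eq (leaf : ℕ → ℕ → ℕ → ℕ) (g : GolayPt → ℕ × ℕ) (pts : List GolayPt)
    (hnd : pts.Nodup) : ∀ sa sb k, subK leaf (pts.map g) sa sb k
      = ∑ δ ∈ pts.toFinset.powerset,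
          leaf (sa + ∑ p ∈ δ, (g p).1) (sb + ∑ p ∈ δ, (g p).2) (k + δ.card) := by
  induction pts with
  | nil => intro sa sb k; simp [subK]
  | cons a l ih =>
    intro sa sb k
    have ha : a ∉ l.toFinset := by
      rw [List.mem_toFinset]
      exact (List.nodup_cons.mp hnd).1
    rw [List.toFinset_cons, Finset.sum_powerset_insert ha]
    show subK leaf (l.map g) sa sb k + subK leaf (l.map g) (sa + (g a).1) (sb + (g a).2) (k + 1)
      = _
    rw [ih (List.nodup_cons.mp hnd).2, ih (List.nodup_cons.mp hnd).2]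
    congr 1
    apply Finset.sum_congr rfl
    intro δ hδ
    have haδ : a ∉ δ := fun h => ha (Finset.mem_powerset.mp hδ h)
    rw [Finset.sum_insert haδ, Finset.sum_insert haδ, Finset.card_insert_of_notMem haδ,
      add_assoc sa, add_assoc sb, add_assoc k, add_comm 1 δ.card]

/-- the number of sign patterns on the set with mask `c` that give the wanted dot products;
`h` is the size of the coordinates and `pf` weighs the number of minus signs -/
def cntSet (L : List (ℕ × ℕ)) (h : ℕ) (pf : ℕ → ℕ) (tp1 tn1 tp2 tn2 c : ℕ) : ℕ :=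
  subK (fun sa sb k => Nat.mul (Nat.mul
      (eqN (Nat.add (Nat.mul h (selC Prod.fst L c)) tn1) (Nat.add (Nat.mul (Nat.mul 2 h) sa) tp1))
      (eqN (Nat.add (Nat.mul h (selC Prod.snd L c)) tn2) (Nat.add (Nat.mul (Nat.mul 2 h) sb) tp2)))
      (pf k))
    ((idxList c).map fun j => L.getD j (0, 0)) 0 0 0

lemma dot_sv_iff (f : ℕ × ℕ → ℕ) (L : List (ℕ × ℕ)) (hL : L.length = 24) (h tp tn c : ℕ)
    (δ : Finset GolayPt) (hδ : δ ⊆ toSet c) :
    h * selC f L c + tn = 2 * h * (∑ p ∈ δ, f (L.getD (idx p) (0, 0))) + tp ↔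
      dotInt (vC f L) (sv (h : ℤ) (toSet c) δ) = (tp : ℤ) - tn := by
  rw [dot_sv f L _ _ _ hδ, ← selC_cast f L hL]
  have e : ∑ p ∈ δ, vC f L p = ((∑ p ∈ δ, f (L.getD (idx p) (0, 0)) : ℕ) : ℤ) := by
    push_cast
    rfl
  rw [e]
  generalize ∑ p ∈ δ, f (L.getD (idx p) (0, 0)) = sa
  generalize selC f L c = sel
  constructor
  · intro e1
    have e2 : ((h * sel + tn : ℕ) : ℤ) = ((2 * h * sa + tp : ℕ) : ℤ) := by rw [e1]
    push_cast at e2
    linarith
  · intro e1
    have e2 : ((h * sel + tn : ℕ) : ℤ) = ((2 * h * sa + tp : ℕ) : ℤ) := by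
      push_cast
      linarith
    exact_mod_cast e2

lemma cntSet_eq (L : List (ℕ × ℕ)) (hL : L.length = 24) (h : ℕ) (pf : ℕ → ℕ)
    (tp1 tn1 tp2 tn2 c : ℕ) :
    cntSet L h pf tp1 tn1 tp2 tn2 c = ∑ δ ∈ (toSet c).powerset,
      (if CP L tp1 tn1 tp2 tn2 (sv (h : ℤ) (toSet c) δ) then 1 else 0) * pf δ.card := by
  have e1 : ((idxList c).map fun j => L.getD j (0, 0))
      = ((idxList c).map pt).map fun p => L.getD (idx p) (0, 0) := by
    rw [List.map_map]
    apply List.map_congr_left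
    intro j hj
    show _ = L.getD (idx (pt j)) (0, 0)
    rw [idx_pt j ((mem_idxList c j).mp hj).1]
  rw [cntSet, e1, subK_eq _ _ _ (pts_nodup c), pts_toFinset]
  apply Finset.sum_congr rfl
  intro δ hδ
  rw [Finset.mem_powerset] at hδ
  show eqN (h * selC Prod.fst L c + tn1) (2 * h * (0 + ∑ p ∈ δ, (L.getD (idx p) (0, 0)).1) + tp1)
    * eqN (h * selC Prod.snd L c + tn2) (2 * h * (0 + ∑ p ∈ δ, (L.getD (idx p) (0, 0)).2) + tp2)
    * pf (0 + δ.card) = _
  rw [eqN_eq, eqN_eq, zero_add, zero_add, zero_add, ← ite_mul_ite]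
  congr 1
  apply if_congr _ rfl rfl
  exact and_congr (dot_sv_iff Prod.fst L hL h tp1 tn1 c δ hδ)
    (dot_sv_iff Prod.snd L hL h tp2 tn2 c δ hδ)

end Cfsg.Agent.Helper27
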