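import Cfsg.Agent.Helper27.Census

set_option autoImplicit false
open Cfsg

namespace Cfsg.Agent.Helper27

open Cfsg.Agent.Helper28.Golay

/-- the contribution of the codeword with information bits `m` to the census of the minimal
vectors supported on octads -/
def oct2 (L : List (ℕ × ℕ)) (tp1 tn1 tp2 tn2 m : ℕ) : ℕ :=
  cond (Nat.beq (wtW (encF m)) 8) (cntSet L 2 evN tp1 tn1 tp2 tn2 (encF m)) 0

lemma oct2_eq (L : List (ℕ × ℕ)) (tp1 tn1 tp2 tn2 m : ℕ) :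
    oct2 L tp1 tn1 tp2 tn2 m = if Nat.beq (wt (encode m)) 8 = true then
      cntSet L 2 evN tp1 tn1 tp2 tn2 (encode m) else 0 := by
  rw [oct2, encF_eq, wtW_eq]
  cases hb : Nat.beq (wt (encode m)) 8
  · simp
  · simp

/-- the census of the minimal vectors supported on octads -/
def cnt2 (L : List (ℕ × ℕ)) (tp1 tn1 tp2 tn2 : ℕ) : ℕ :=
  sumPow 12 0 (oct2 L tp1 tn1 tp2 tn2)

open Cfsg.Agent.S0394 in
lemma cnt2_eq (L : List (ℕ × ℕ)) (hL : L.length = 24) (tp1 tn1 tp2 tn2 : ℕ) :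
    (D2.filter fun p => CP L tp1 tn1 tp2 tn2 (sv 2 p.1 p.2)).card = cnt2 L tp1 tn1 tp2 tn2 := by
  rw [Finset.card_filter, D2, Finset.sum_sigma, cnt2, sumPow_eq, octFin, sum_cwFinset]
  apply Finset.sum_congr rfl
  intro m _
  rw [zero_add, oct2_eq]
  by_cases hb : Nat.beq (wt (encode m)) 8 = true
  · rw [if_pos hb, if_pos hb, cntSet_eq L hL, Finset.sum_filter]
    apply Finset.sum_congr rfl
    intro δ _
    rw [evN_eq]
    have e2 : ((2 : ℕ) : ℤ) = 2 := rfl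
    rw [e2]
    by_cases he : Even δ.card <;> simp [he]
  · rw [if_neg hb, if_neg hb]

/-- the census of the minimal vectors with two nonzero coordinates -/
def cnt1 (L : List (ℕ × ℕ)) (tp1 tn1 tp2 tn2 : ℕ) : ℕ :=
  ∑ T ∈ Finset.powersetCard 2 (Finset.univ : Finset GolayPt), ∑ δ ∈ T.powerset,
    eqN (4 * (∑ p ∈ T, (L.getD (idx p) (0, 0)).1) + tn1)
        (8 * (∑ p ∈ δ, (L.getD (idx p) (0, 0)).1) + tp1)
      * eqN (4 * (∑ p ∈ T, (L.getD (idx p) (0, 0)).2) + tn2)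
        (8 * (∑ p ∈ δ, (L.getD (idx p) (0, 0)).2) + tp2)

lemma dot_sv4_iff (f : ℕ × ℕ → ℕ) (L : List (ℕ × ℕ)) (tp tn : ℕ)
    (T δ : Finset GolayPt) (hδ : δ ⊆ T) :
    4 * (∑ p ∈ T, f (L.getD (idx p) (0, 0))) + tn = 8 * (∑ p ∈ δ, f (L.getD (idx p) (0, 0))) + tp ↔
      dotInt (vC f L) (sv 4 T δ) = (tp : ℤ) - tn := by
  rw [dot_sv f L _ _ _ hδ]
  have e : ∀ S : Finset GolayPt,
      ∑ p ∈ S, vC f L p = ((∑ p ∈ S, f (L.getD (idx p) (0, 0)) : ℕ) : ℤ) := by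
    intro S
    push_cast
    rfl
  rw [e, e]
  generalize ∑ p ∈ δ, f (L.getD (idx p) (0, 0)) = sa
  generalize ∑ p ∈ T, f (L.getD (idx p) (0, 0)) = sel
  constructor <;> intro e1 <;> omega

open Cfsg.Agent.S0394 in
lemma cnt1_eq (L : List (ℕ × ℕ)) (tp1 tn1 tp2 tn2 : ℕ) :
    (D1.filter fun p => CP L tp1 tn1 tp2 tn2 (sv 4 p.1 p.2)).card = cnt1 L tp1 tn1 tp2 tn2 := by
  rw [Finset.card_filter, D1, Finset.sum_sigma, cnt1]
  apply Finset.sum_congr rfl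
  intro T _
  apply Finset.sum_congr rfl
  intro δ hδ
  rw [Finset.mem_powerset] at hδ
  rw [eqN_eq, eqN_eq, ← ite_mul_ite]
  apply if_congr _ rfl rfl
  exact (and_congr (dot_sv4_iff Prod.fst L tp1 tn1 T δ hδ)
    (dot_sv4_iff Prod.snd L tp2 tn2 T δ hδ)).symm

/-! ### the census -/

/-- the number of minimal vectors with prescribed dot products with two reference vectors -/
theorem census (L : List (ℕ × ℕ)) (hL : L.length = 24) (tp1 tn1 tp2 tn2 : ℕ) :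
    {x : GolayPt → ℤ | x ∈ leechLattice ∧ sqNorm x = 32 ∧ CP L tp1 tn1 tp2 tn2 x}.ncard
      = cnt1 L tp1 tn1 tp2 tn2 + cnt2 L tp1 tn1 tp2 tn2 + cnt3 L tp1 tn1 tp2 tn2 := by
  have hset : {x : GolayPt → ℤ | x ∈ leechLattice ∧ sqNorm x = 32 ∧ CP L tp1 tn1 tp2 tn2 x}
      = ↑((Cfsg.Agent.S0394.F1 ∪ Cfsg.Agent.S0394.F2 ∪ Cfsg.Agent.S0394.F3).filter (CP L tp1 tn1 tp2 tn2)) := by
    ext x
    have h := Set.ext_iff.mp Cfsg.Agent.S0394.V32_eq x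
    rw [Finset.coe_filter]
    constructor
    · rintro ⟨h1, h2, h3⟩
      exact ⟨h.mp ⟨h1, h2⟩, h3⟩
    · rintro ⟨h1, h3⟩
      obtain ⟨h1', h2'⟩ := h.mpr h1
      exact ⟨h1', h2', h3⟩
  rw [hset, Set.ncard_coe_finset, Finset.filter_union,
    Finset.card_union_of_disjoint (Finset.disjoint_filter_filter Cfsg.Agent.S0394.disj3),
    Finset.filter_union,
    Finset.card_union_of_disjoint (Finset.disjoint_filter_filter Cfsg.Agent.S0394.disj12)]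
  have c1 : (Cfsg.Agent.S0394.F1.filter (CP L tp1 tn1 tp2 tn2)).card = cnt1 L tp1 tn1 tp2 tn2 := by
    rw [Cfsg.Agent.S0394.F1, Finset.filter_image, Finset.card_image_of_injOn]
    · exact cnt1_eq L tp1 tn1 tp2 tn2
    · rintro ⟨T, ε⟩ hp ⟨T', ε'⟩ hp' e
      have hp1 := (Finset.mem_filter.mp hp).1
      have hp1' := (Finset.mem_filter.mp hp').1
      rw [Cfsg.Agent.S0394.mem_D1] at hp1 hp1'
      obtain ⟨rfl, rfl⟩ := Cfsg.Agent.S0394.sv_inj 4 (by norm_num) T ε T' ε' hp1.2 hp1'.2 e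
      rfl
  have c2 : (Cfsg.Agent.S0394.F2.filter (CP L tp1 tn1 tp2 tn2)).card = cnt2 L tp1 tn1 tp2 tn2 := by
    rw [Cfsg.Agent.S0394.F2, Finset.filter_image, Finset.card_image_of_injOn]
    · exact cnt2_eq L hL tp1 tn1 tp2 tn2
    · rintro ⟨T, ε⟩ hp ⟨T', ε'⟩ hp' e
      have hp1 := (Finset.mem_filter.mp hp).1
      have hp1' := (Finset.mem_filter.mp hp').1
      rw [Cfsg.Agent.S0394.mem_D2] at hp1 hp1'
      obtain ⟨rfl, rfl⟩ := Cfsg.Agent.S0394.sv_inj 2 (by norm_num) T ε T' ε' hp1.2.1 hp1'.2.1 e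
      rfl
  have c3 : (Cfsg.Agent.S0394.F3.filter (CP L tp1 tn1 tp2 tn2)).card = cnt3 L tp1 tn1 tp2 tn2 := by
    rw [Cfsg.Agent.S0394.F3, Finset.filter_image, Finset.card_image_of_injOn]
    · exact cnt3_eq L hL tp1 tn1 tp2 tn2
    · rintro ⟨c, i⟩ hp ⟨c', i'⟩ hp' e
      obtain ⟨rfl, rfl⟩ := Cfsg.Agent.S0394.uvec_inj c c' i i' e
      rfl
  rw [c1, c2, c3]

end Cfsg.Agent.Helper27
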