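import Mathlib
import Cfsg.Prelude.Def_Spor_Conway

set_option autoImplicit false

namespace Cfsg.Agent.Helper27

open Cfsg

/-- indicator word of a set of points. -/
def gInd (S : Finset GolayPt) : GolayPt → ZMod 2 := fun p => if p ∈ S then 1 else 0

lemma zmod2_ite (a : ZMod 2) : (if a ≠ 0 then (1 : ZMod 2) else 0) = a := by
  revert a; decide

lemma zmod2_one_add_one : (1 : ZMod 2) + 1 = 0 := by decide

lemma support₂_gInd (S : Finset GolayPt) : support₂ (gInd S) = S := by
  ext p
  simp [support₂, gInd]

lemma gInd_support₂ (w : GolayPt → ZMod 2) : gInd (support₂ w) = w := by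
  funext p
  simp only [gInd, support₂, Finset.mem_filter, Finset.mem_univ, true_and]
  exact zmod2_ite (w p)

lemma mem_supports_iff (S : Finset GolayPt) :
    S ∈ supports (golayCode : Set (GolayPt → ZMod 2)) ↔ gInd S ∈ golayCode := by
  constructor
  · rintro ⟨w, hw, rfl⟩
    rw [gInd_support₂]; exact hw
  · intro h
    exact ⟨gInd S, h, support₂_gInd S⟩

lemma gInd_symmDiff (S T : Finset GolayPt) : gInd (symmDiff S T) = gInd S + gInd T := by
  funext p
  simp only [gInd, Finset.mem_symmDiff, Pi.add_apply]
  by_cases h1 : p ∈ S <;> by_cases h2 : p ∈ T <;> simp [h1, h2, zmod2_one_add_one]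

lemma gInd_univ : gInd Finset.univ = 1 := by
  funext p; simp [gInd]

lemma card_eq_hammingNorm (S : Finset GolayPt) : hammingNorm (gInd S) = S.card := by
  rw [← support₂_gInd S]
  simp only [support₂_gInd]
  unfold hammingNorm
  congr 1
  ext p
  simp [gInd]

lemma supports_symmDiff (S T : Finset GolayPt)
    (hS : S ∈ supports (golayCode : Set (GolayPt → ZMod 2)))
    (hT : T ∈ supports (golayCode : Set (GolayPt → ZMod 2))) :
    symmDiff S T ∈ supports (golayCode : Set (GolayPt → ZMod 2)) := by
  rw [mem_supports_iff] at hS hT ⊢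
  rw [gInd_symmDiff]
  exact golayCode.add_mem hS hT

lemma supports_compl (S : Finset GolayPt)
    (hS : S ∈ supports (golayCode : Set (GolayPt → ZMod 2))) :
    Sᶜ ∈ supports (golayCode : Set (GolayPt → ZMod 2)) := by
  have h := supports_symmDiff _ _ Spor.univ_mem_supports_golayCode hS
  have e : symmDiff Finset.univ S = Sᶜ := by
    ext p
    simp [Finset.mem_symmDiff]
  rw [e] at h
  exact h

/-- normal form of the members of `leechSet`. -/
lemma leechSet_cases (x : GolayPt → ℤ) (hx : x ∈ leechSet) :
    ((∀ i, x i % 2 = 0) ∧ (∑ i, x i) % 8 = 0 ∧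
      (Finset.univ.filter fun i => x i % 4 = 2) ∈ supports (golayCode : Set (GolayPt → ZMod 2))) ∨
    ((∀ i, x i % 2 = 1) ∧ (∑ i, x i) % 8 = 4 ∧
      (Finset.univ.filter fun i => x i % 4 = 3) ∈ supports (golayCode : Set (GolayPt → ZMod 2))) := by
  obtain ⟨m, h2, h8, hk⟩ := hx
  rcases Int.emod_two_eq_zero_or_one m with hm | hm
  · left
    refine ⟨fun i => ?_, ?_, ?_⟩
    · have h := h2 i
      unfold Int.ModEq at h
      omega
    · unfold Int.ModEq at h8
      omega
    · have h := hk 2
      have e : (Finset.univ.filter fun i => x i ≡ 2 [ZMOD 4])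
          = (Finset.univ.filter fun i => x i % 4 = 2) := by
        apply Finset.filter_congr
        intro i _
        unfold Int.ModEq
        omega
      rw [e] at h
      exact h
  · right
    refine ⟨fun i => ?_, ?_, ?_⟩
    · have h := h2 i
      unfold Int.ModEq at h
      omega
    · unfold Int.ModEq at h8
      omega
    · have h := hk 3
      have e : (Finset.univ.filter fun i => x i ≡ 3 [ZMOD 4])
          = (Finset.univ.filter fun i => x i % 4 = 3) := by
        apply Finset.filter_congr
        intro i _
        unfold Int.ModEq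
        omega
      rw [e] at h
      exact h

lemma mem_leechSet_of_even (x : GolayPt → ℤ) (h2 : ∀ i, x i % 2 = 0) (h8 : (∑ i, x i) % 8 = 0)
    (hA : (Finset.univ.filter fun i => x i % 4 = 2) ∈ supports (golayCode : Set (GolayPt → ZMod 2))) :
    x ∈ leechSet := by
  refine ⟨0, fun i => ?_, ?_, fun k => ?_⟩
  · unfold Int.ModEq; have := h2 i; omega
  · unfold Int.ModEq; omega
  · have hk : k % 4 = 0 ∨ k % 4 = 1 ∨ k % 4 = 2 ∨ k % 4 = 3 := by omega
    rcases hk with hk | hk | hk | hk
    · have e : (Finset.univ.filter fun i => x i ≡ k [ZMOD 4])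
          = (Finset.univ.filter fun i => x i % 4 = 2)ᶜ := by
        ext i
        simp only [Finset.mem_filter, Finset.mem_univ, true_and, Finset.mem_compl]
        unfold Int.ModEq
        have := h2 i
        omega
      rw [e]; exact supports_compl _ hA
    · have e : (Finset.univ.filter fun i => x i ≡ k [ZMOD 4]) = ∅ := by
        ext i
        simp only [Finset.mem_filter, Finset.mem_univ, true_and, Finset.notMem_empty, iff_false]
        unfold Int.ModEq
        have := h2 i
        omega
      rw [e]; exact Spor.empty_mem_supports_golayCode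
    · have e : (Finset.univ.filter fun i => x i ≡ k [ZMOD 4])
          = (Finset.univ.filter fun i => x i % 4 = 2) := by
        apply Finset.filter_congr
        intro i _
        unfold Int.ModEq
        omega
      rw [e]; exact hA
    · have e : (Finset.univ.filter fun i => x i ≡ k [ZMOD 4]) = ∅ := by
        ext i
        simp only [Finset.mem_filter, Finset.mem_univ, true_and, Finset.notMem_empty, iff_false]
        unfold Int.ModEq
        have := h2 i
        omega
      rw [e]; exact Spor.empty_mem_supports_golayCode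

lemma mem_leechSet_of_odd (x : GolayPt → ℤ) (h2 : ∀ i, x i % 2 = 1) (h8 : (∑ i, x i) % 8 = 4)
    (hA : (Finset.univ.filter fun i => x i % 4 = 3) ∈ supports (golayCode : Set (GolayPt → ZMod 2))) :
    x ∈ leechSet := by
  refine ⟨1, fun i => ?_, ?_, fun k => ?_⟩
  · unfold Int.ModEq; have := h2 i; omega
  · unfold Int.ModEq; omega
  · have hk : k % 4 = 0 ∨ k % 4 = 1 ∨ k % 4 = 2 ∨ k % 4 = 3 := by omega
    rcases hk with hk | hk | hk | hk
    · have e : (Finset.univ.filter fun i => x i ≡ k [ZMOD 4]) = ∅ := by
        ext i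
        simp only [Finset.mem_filter, Finset.mem_univ, true_and, Finset.notMem_empty, iff_false]
        unfold Int.ModEq
        have := h2 i
        omega
      rw [e]; exact Spor.empty_mem_supports_golayCode
    · have e : (Finset.univ.filter fun i => x i ≡ k [ZMOD 4])
          = (Finset.univ.filter fun i => x i % 4 = 3)ᶜ := by
        ext i
        simp only [Finset.mem_filter, Finset.mem_univ, true_and, Finset.mem_compl]
        unfold Int.ModEq
        have := h2 i
        omega
      rw [e]; exact supports_compl _ hA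
    · have e : (Finset.univ.filter fun i => x i ≡ k [ZMOD 4]) = ∅ := by
        ext i
        simp only [Finset.mem_filter, Finset.mem_univ, true_and, Finset.notMem_empty, iff_false]
        unfold Int.ModEq
        have := h2 i
        omega
      rw [e]; exact Spor.empty_mem_supports_golayCode
    · have e : (Finset.univ.filter fun i => x i ≡ k [ZMOD 4])
          = (Finset.univ.filter fun i => x i % 4 = 3) := by
        apply Finset.filter_congr
        intro i _
        unfold Int.ModEq
        omega
      rw [e]; exact hA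

lemma leechSet_zero : (0 : GolayPt → ℤ) ∈ leechSet := by
  apply mem_leechSet_of_even
  · intro i; simp
  · simp
  · have e : (Finset.univ.filter fun i : GolayPt => (0 : GolayPt → ℤ) i % 4 = 2) = ∅ := by
      ext i
      simp
    rw [e]; exact Spor.empty_mem_supports_golayCode

lemma leechSet_neg (x : GolayPt → ℤ) (hx : x ∈ leechSet) : -x ∈ leechSet := by
  rcases leechSet_cases x hx with ⟨h2, h8, hA⟩ | ⟨h2, h8, hA⟩
  · apply mem_leechSet_of_even
    · intro i; have := h2 i; simp only [Pi.neg_apply]; omega
    · simp only [Pi.neg_apply]; rw [Finset.sum_neg_distrib]; omega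
    · have e : (Finset.univ.filter fun i => (-x) i % 4 = 2)
          = (Finset.univ.filter fun i => x i % 4 = 2) := by
        apply Finset.filter_congr
        intro i _
        simp only [Pi.neg_apply]
        omega
      rw [e]; exact hA
  · apply mem_leechSet_of_odd
    · intro i; have := h2 i; simp only [Pi.neg_apply]; omega
    · simp only [Pi.neg_apply]; rw [Finset.sum_neg_distrib]; omega
    · have e : (Finset.univ.filter fun i => (-x) i % 4 = 3)
          = (Finset.univ.filter fun i => x i % 4 = 3)ᶜ := by
        ext i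
        simp only [Finset.mem_filter, Finset.mem_univ, true_and, Finset.mem_compl, Pi.neg_apply]
        have := h2 i
        omega
      rw [e]; exact supports_compl _ hA

lemma leechSet_add (x y : GolayPt → ℤ) (hx : x ∈ leechSet) (hy : y ∈ leechSet) :
    x + y ∈ leechSet := by
  rcases leechSet_cases x hx with ⟨h2, h8, hA⟩ | ⟨h2, h8, hA⟩ <;>
  rcases leechSet_cases y hy with ⟨k2, k8, kA⟩ | ⟨k2, k8, kA⟩
  · apply mem_leechSet_of_even
    · intro i; have := h2 i; have := k2 i; simp only [Pi.add_apply]; omega
    · simp only [Pi.add_apply]; rw [Finset.sum_add_distrib]; omega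
    · have e : (Finset.univ.filter fun i => (x + y) i % 4 = 2)
          = symmDiff (Finset.univ.filter fun i => x i % 4 = 2)
              (Finset.univ.filter fun i => y i % 4 = 2) := by
        ext i
        simp only [Finset.mem_filter, Finset.mem_univ, true_and, Finset.mem_symmDiff, Pi.add_apply]
        have := h2 i; have := k2 i
        omega
      rw [e]; exact supports_symmDiff _ _ hA kA
  · apply mem_leechSet_of_odd
    · intro i; have := h2 i; have := k2 i; simp only [Pi.add_apply]; omega
    · simp only [Pi.add_apply]; rw [Finset.sum_add_distrib]; omega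
    · have e : (Finset.univ.filter fun i => (x + y) i % 4 = 3)
          = symmDiff (Finset.univ.filter fun i => x i % 4 = 2)
              (Finset.univ.filter fun i => y i % 4 = 3) := by
        ext i
        simp only [Finset.mem_filter, Finset.mem_univ, true_and, Finset.mem_symmDiff, Pi.add_apply]
        have := h2 i; have := k2 i
        omega
      rw [e]; exact supports_symmDiff _ _ hA kA
  · apply mem_leechSet_of_odd
    · intro i; have := h2 i; have := k2 i; simp only [Pi.add_apply]; omega
    · simp only [Pi.add_apply]; rw [Finset.sum_add_distrib]; omega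
    · have e : (Finset.univ.filter fun i => (x + y) i % 4 = 3)
          = symmDiff (Finset.univ.filter fun i => x i % 4 = 3)
              (Finset.univ.filter fun i => y i % 4 = 2) := by
        ext i
        simp only [Finset.mem_filter, Finset.mem_univ, true_and, Finset.mem_symmDiff, Pi.add_apply]
        have := h2 i; have := k2 i
        omega
      rw [e]; exact supports_symmDiff _ _ hA kA
  · apply mem_leechSet_of_even
    · intro i; have := h2 i; have := k2 i; simp only [Pi.add_apply]; omega
    · simp only [Pi.add_apply]; rw [Finset.sum_add_distrib]; omega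
    · have e : (Finset.univ.filter fun i => (x + y) i % 4 = 2)
          = (symmDiff (Finset.univ.filter fun i => x i % 4 = 3)
              (Finset.univ.filter fun i => y i % 4 = 3))ᶜ := by
        ext i
        simp only [Finset.mem_filter, Finset.mem_univ, true_and, Finset.mem_symmDiff,
          Finset.mem_compl, Pi.add_apply]
        have := h2 i; have := k2 i
        omega
      rw [e]; exact supports_compl _ (supports_symmDiff _ _ hA kA)

/-- `leechSet` as an additive subgroup. -/
def leechSub : AddSubgroup (GolayPt → ℤ) where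
  carrier := leechSet
  add_mem' := fun {a b} ha hb => leechSet_add a b ha hb
  zero_mem' := leechSet_zero
  neg_mem' := fun {a} ha => leechSet_neg a ha

lemma leechLattice_eq : leechLattice = leechSub := by
  unfold leechLattice
  apply le_antisymm
  · rw [AddSubgroup.closure_le]
    exact fun x hx => hx
  · exact fun x hx => AddSubgroup.subset_closure hx

lemma mem_leechLattice_iff (x : GolayPt → ℤ) : x ∈ leechLattice ↔ x ∈ leechSet := by
  rw [leechLattice_eq]; rfl

lemma sq_even_mod (a : ℤ) (h : a % 2 = 0) :
    (16 : ℤ) ∣ a ^ 2 - (if a % 4 = 2 then 4 else 0) := by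
  have h4 : a % 4 = 0 ∨ a % 4 = 2 := by omega
  rcases h4 with h4 | h4
  · obtain ⟨q, rfl⟩ : ∃ q, a = 4 * q := ⟨a / 4, by omega⟩
    rw [if_neg (by omega)]
    exact ⟨q ^ 2, by ring⟩
  · obtain ⟨q, rfl⟩ : ∃ q, a = 4 * q + 2 := ⟨a / 4, by omega⟩
    rw [if_pos (by omega)]
    exact ⟨q ^ 2 + q, by ring⟩

lemma sq_odd_mod (a : ℤ) (h : a % 2 = 1) :
    (16 : ℤ) ∣ a ^ 2 - 2 * a + 1 - (if a % 4 = 3 then 4 else 0) := by
  have h4 : a % 4 = 1 ∨ a % 4 = 3 := by omega
  rcases h4 with h4 | h4
  · obtain ⟨q, rfl⟩ : ∃ q, a = 4 * q + 1 := ⟨a / 4, by omega⟩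
    rw [if_neg (by omega)]
    exact ⟨q ^ 2, by ring⟩
  · obtain ⟨q, rfl⟩ : ∃ q, a = 4 * q + 3 := ⟨a / 4, by omega⟩
    rw [if_pos (by omega)]
    exact ⟨q ^ 2 + q, by ring⟩

lemma sq_four_mod (a : ℤ) (h : a % 4 = 0) : (32 : ℤ) ∣ a ^ 2 - 4 * a := by
  have h8 : a % 8 = 0 ∨ a % 8 = 4 := by omega
  rcases h8 with h8 | h8
  · obtain ⟨t, rfl⟩ : ∃ t, a = 8 * t := ⟨a / 8, by omega⟩
    exact ⟨2 * t ^ 2 - t, by ring⟩
  · obtain ⟨t, rfl⟩ : ∃ t, a = 8 * t + 4 := ⟨a / 8, by omega⟩
    exact ⟨2 * t ^ 2 + t, by ring⟩

lemma sum_ite_four (p : GolayPt → Prop) [DecidablePred p] :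
    ∑ i, (if p i then (4 : ℤ) else 0) = 4 * ((Finset.univ.filter p).card : ℤ) := by
  rw [Finset.card_filter]
  push_cast
  rw [Finset.mul_sum]
  apply Finset.sum_congr rfl
  intro i _
  split_ifs <;> simp

lemma card_golayPt : (Finset.univ : Finset GolayPt).card = 24 := by decide

/-- squared lengths of lattice vectors are divisible by 16, given that the code is doubly even. -/
lemma sixteen_dvd_sqNorm
    (hDE : ∀ S ∈ supports (golayCode : Set (GolayPt → ZMod 2)), 4 ∣ S.card)
    (x : GolayPt → ℤ) (hx : x ∈ leechSet) : (16 : ℤ) ∣ sqNorm x := by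
  rcases leechSet_cases x hx with ⟨h2, h8, hA⟩ | ⟨h2, h8, hA⟩
  · have h1 : (16 : ℤ) ∣ ∑ i, (x i ^ 2 - (if x i % 4 = 2 then 4 else 0)) :=
      Finset.dvd_sum (fun i _ => sq_even_mod _ (h2 i))
    obtain ⟨c, hc⟩ := hDE _ hA
    rw [Finset.sum_sub_distrib, sum_ite_four, hc] at h1
    unfold sqNorm
    obtain ⟨t, ht⟩ := h1
    push_cast at ht
    exact ⟨t + c, by linarith⟩
  · have h1 : (16 : ℤ) ∣ ∑ i, (x i ^ 2 - 2 * x i + 1 - (if x i % 4 = 3 then 4 else 0)) :=
      Finset.dvd_sum (fun i _ => sq_odd_mod _ (h2 i))
    obtain ⟨c, hc⟩ := hDE _ hA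
    rw [Finset.sum_sub_distrib, sum_ite_four, hc, Finset.sum_add_distrib, Finset.sum_sub_distrib,
      ← Finset.mul_sum] at h1
    have h24 : ∑ _i : GolayPt, (1 : ℤ) = 24 := by
      rw [Finset.sum_const, card_golayPt]; norm_num
    rw [h24] at h1
    unfold sqNorm
    obtain ⟨t, ht⟩ := h1
    push_cast at ht
    omega

/-- the shortest non-zero lattice vectors have squared length at least 32, given that the code is
doubly even with minimum weight 8. -/
lemma min_sqNorm
    (hDE : ∀ S ∈ supports (golayCode : Set (GolayPt → ZMod 2)), 4 ∣ S.card)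
    (hMin : ∀ S ∈ supports (golayCode : Set (GolayPt → ZMod 2)), S.Nonempty → 8 ≤ S.card)
    (x : GolayPt → ℤ) (hx : x ∈ leechSet) (h0 : x ≠ 0) : 32 ≤ sqNorm x := by
  have h16 := sixteen_dvd_sqNorm hDE x hx
  have hpos : 0 < sqNorm x := by
    obtain ⟨j, hj⟩ := Function.ne_iff.mp h0
    have hj' : x j ≠ 0 := hj
    have h1 : x j ^ 2 ≤ sqNorm x := by
      unfold sqNorm
      exact Finset.single_le_sum (f := fun i => x i ^ 2) (fun _ _ => sq_nonneg _) (Finset.mem_univ j)
    have h2 : 0 < x j ^ 2 := by positivity
    linarith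
  rcases leechSet_cases x hx with ⟨h2, h8, hA⟩ | ⟨h2, h8, hA⟩
  · by_cases hne : (Finset.univ.filter fun i => x i % 4 = 2).Nonempty
    · have h8c := hMin _ hA hne
      have h1 : ∑ i, (if x i % 4 = 2 then (4 : ℤ) else 0) ≤ ∑ i, x i ^ 2 := by
        apply Finset.sum_le_sum
        intro i _
        split_ifs with h
        · have h3 : x i ≤ -2 ∨ 2 ≤ x i := by omega
          rcases h3 with h3 | h3 <;> nlinarith
        · positivity
      rw [sum_ite_four] at h1
      unfold sqNorm
      have h9 : (8 : ℤ) ≤ ((Finset.univ.filter fun i => x i % 4 = 2).card : ℤ) := by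
        exact_mod_cast h8c
      linarith
    · have h4 : ∀ i, x i % 4 = 0 := by
        intro i
        by_contra h
        apply hne
        refine ⟨i, ?_⟩
        simp only [Finset.mem_filter, Finset.mem_univ, true_and]
        have := h2 i
        omega
      have h32 : (32 : ℤ) ∣ sqNorm x := by
        have h1 : (32 : ℤ) ∣ ∑ i, (x i ^ 2 - 4 * x i) :=
          Finset.dvd_sum (fun i _ => sq_four_mod _ (h4 i))
        rw [Finset.sum_sub_distrib, ← Finset.mul_sum] at h1
        unfold sqNorm
        omega
      exact Int.le_of_dvd hpos h32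
  · have h24 : (24 : ℤ) ≤ sqNorm x := by
      unfold sqNorm
      have h1 : ∑ _i : GolayPt, (1 : ℤ) ≤ ∑ i, x i ^ 2 := by
        apply Finset.sum_le_sum
        intro i _
        have h3 : x i ≤ -1 ∨ 1 ≤ x i := by have := h2 i; omega
        rcases h3 with h3 | h3 <;> nlinarith
      rw [Finset.sum_const, card_golayPt] at h1
      norm_num at h1
      exact h1
    omega

/-- the two code facts from the weight enumerator. -/
lemma code_facts
    (hW : ∀ w : GolayPt → ZMod 2, w ∈ golayCode → hammingNorm w = 0 ∨ hammingNorm w = 8 ∨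
      hammingNorm w = 12 ∨ hammingNorm w = 16 ∨ hammingNorm w = 24) :
    (∀ S ∈ supports (golayCode : Set (GolayPt → ZMod 2)), 4 ∣ S.card) ∧
    (∀ S ∈ supports (golayCode : Set (GolayPt → ZMod 2)), S.Nonempty → 8 ≤ S.card) := by
  constructor
  · intro S hS
    have h := hW _ ((mem_supports_iff S).mp hS)
    rw [card_eq_hammingNorm] at h
    omega
  · intro S hS hne
    have h := hW _ ((mem_supports_iff S).mp hS)
    rw [card_eq_hammingNorm] at h
    have hc : 0 < S.card := Finset.card_pos.mpr hne
    omega

end Cfsg.Agent.Helper27
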