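import Cfsg.Agent.Helper27.LeechCross
import Cfsg.Agent.S0391

set_option autoImplicit false
open Cfsg

namespace Cfsg.Agent.Helper27

/-- the quotient of the integer vectors by twice the lattice -/
abbrev QL : Type := (GolayPt → ℤ) ⧸ twoL

/-- the class of a vector modulo twice the lattice -/
def cls (x : GolayPt → ℤ) : QL := QuotientAddGroup.mk x

lemma cls_eq_iff (a b : GolayPt → ℤ) :
    cls a = cls b ↔ ∃ z ∈ leechLattice, a - b = 2 • z := mk_eq_iff a b

/-- the lattice vectors of a given sum of squares -/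
def shellSet (N : ℤ) : Set (GolayPt → ℤ) := {x | x ∈ leechLattice ∧ sqNorm x = N}

lemma shell32 : (shellSet 32).ncard = 196560 := Cfsg.Agent.S0394.result
lemma shell48 : (shellSet 48).ncard = 16773120 := Cfsg.Agent.S0395.result
lemma shell64 : (shellSet 64).ncard = 398034000 := Cfsg.Agent.S0396.result

/-- the shell as a finite set -/
noncomputable def shellFin (N : ℤ) : Finset (GolayPt → ℤ) := by
  classical
  exact if h : (shellSet N).Finite then h.toFinset else ∅

lemma mem_shellFin (N : ℤ) (hN : (shellSet N).ncard ≠ 0) (x : GolayPt → ℤ) :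
    x ∈ shellFin N ↔ x ∈ leechLattice ∧ sqNorm x = N := by
  have hfin : (shellSet N).Finite := Set.finite_of_ncard_ne_zero hN
  unfold shellFin
  rw [dif_pos hfin, Set.Finite.mem_toFinset]
  rfl

lemma card_shellFin (N : ℤ) (hN : (shellSet N).ncard ≠ 0) :
    (shellFin N).card = (shellSet N).ncard := by
  have hfin : (shellSet N).Finite := Set.finite_of_ncard_ne_zero hN
  unfold shellFin
  rw [dif_pos hfin, Set.ncard_eq_toFinset_card _ hfin]

lemma h32 : (shellSet 32).ncard ≠ 0 := by rw [shell32]; norm_num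
lemma h48 : (shellSet 48).ncard ≠ 0 := by rw [shell48]; norm_num
lemma h64 : (shellSet 64).ncard ≠ 0 := by rw [shell64]; norm_num

/-- the classes of lattice vectors, as a finite set -/
noncomputable def clsFin : Finset QL := by
  classical
  exact if h : ((leechLattice.map (QuotientAddGroup.mk' twoL) : AddSubgroup QL) : Set QL).Finite
    then h.toFinset else ∅

lemma clsSet_finite :
    ((leechLattice.map (QuotientAddGroup.mk' twoL) : AddSubgroup QL) : Set QL).Finite := by
  have h := card_classes
  have h2 : Nat.card (leechLattice.map (QuotientAddGroup.mk' twoL) : AddSubgroup QL) ≠ 0 := by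
    rw [h]; norm_num
  exact Set.finite_coe_iff.mp (Nat.finite_of_card_ne_zero h2)

lemma mem_clsFin (q : QL) : q ∈ clsFin ↔ ∃ x ∈ leechLattice, cls x = q := by
  unfold clsFin
  rw [dif_pos clsSet_finite, Set.Finite.mem_toFinset]
  constructor
  · rintro ⟨x, hx, rfl⟩
    exact ⟨x, hx, rfl⟩
  · rintro ⟨x, hx, rfl⟩
    exact ⟨x, hx, rfl⟩

lemma card_clsFin : clsFin.card = 2 ^ 24 := by
  unfold clsFin
  rw [dif_pos clsSet_finite, ← Set.ncard_eq_toFinset_card _ clsSet_finite, ← card_classes]
  exact (Nat.card_coe_set_eq _).symm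

/-- the classes of the vectors of a shell -/
noncomputable def shellCls (N : ℤ) : Finset QL := by
  classical
  exact (shellFin N).image cls

lemma shellCls_subset (N : ℤ) (hN : (shellSet N).ncard ≠ 0) : shellCls N ⊆ clsFin := by
  classical
  intro q hq
  unfold shellCls at hq
  obtain ⟨x, hx, rfl⟩ := Finset.mem_image.mp hq
  rw [mem_clsFin]
  exact ⟨x, ((mem_shellFin N hN x).mp hx).1, rfl⟩

lemma ne_zero_of_sqNorm {x : GolayPt → ℤ} {N : ℤ} (hN : N ≠ 0) (h : sqNorm x = N) : x ≠ 0 := by
  intro h0
  rw [h0, sqNorm_zero'] at h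
  exact hN h.symm

/-- small shells: fibres of the class map have at most two elements -/
lemma fib_le_two (N : ℤ) (hN : (shellSet N).ncard ≠ 0) (hN0 : N ≠ 0) (hN64 : N < 64)
    (q : QL) : by
      classical
      exact ((shellFin N).filter (fun a => cls a = q)).card ≤ 2 := by
  classical
  by_cases hne : ((shellFin N).filter (fun a => cls a = q)).Nonempty
  · obtain ⟨y, hy⟩ := hne
    rw [Finset.mem_filter, mem_shellFin N hN] at hy
    have hsub : (shellFin N).filter (fun a => cls a = q) ⊆ {y, -y} := by
      intro a ha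
      rw [Finset.mem_filter, mem_shellFin N hN] at ha
      rw [Finset.mem_insert, Finset.mem_singleton]
      have hc : ∃ z ∈ leechLattice, y - a = 2 • z := by
        rw [← cls_eq_iff, hy.2, ha.2]
      have key := Cfsg.Agent.S5551.result y a hy.1.1 ha.1.1 (ne_zero_of_sqNorm hN0 hy.1.2)
        (ne_zero_of_sqNorm hN0 ha.1.2) (by rw [hy.1.2]; exact hN64.le)
        (by rw [ha.1.2]; exact hN64.le) hc
      exact key.2 (by rw [hy.1.2]; exact hN64)
    exact (Finset.card_le_card hsub).trans Finset.card_le_two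
  · rw [Finset.not_nonempty_iff_eq_empty] at hne
    rw [hne]
    simp

/-- the shell of sum of squares 64: fibres have at most 48 elements -/
lemma fib_le_48 (q : QL) : by
      classical
      exact ((shellFin 64).filter (fun a => cls a = q)).card ≤ 48 := by
  classical
  apply cross_card_le
  · intro y hy
    rw [Finset.mem_filter, mem_shellFin 64 h64] at hy
    exact hy.1
  · intro y hy y' hy'
    rw [Finset.mem_filter] at hy hy'
    rw [← cls_eq_iff, hy.2, hy'.2]

lemma card_le_two_mul (N : ℤ) (hN : (shellSet N).ncard ≠ 0) (hN0 : N ≠ 0) (hN64 : N < 64) :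
    (shellFin N).card ≤ 2 * (shellCls N).card := by
  classical
  unfold shellCls
  apply Finset.card_le_mul_card_image
  intro b _
  exact fib_le_two N hN hN0 hN64 b

lemma card_le_48_mul : (shellFin 64).card ≤ 48 * (shellCls 64).card := by
  classical
  unfold shellCls
  apply Finset.card_le_mul_card_image
  intro b _
  exact fib_le_48 b

lemma mem_shellCls (N : ℤ) (hN : (shellSet N).ncard ≠ 0) (q : QL) :
    q ∈ shellCls N ↔ ∃ x ∈ leechLattice, sqNorm x = N ∧ cls x = q := by
  classical
  unfold shellCls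
  rw [Finset.mem_image]
  constructor
  · rintro ⟨x, hx, rfl⟩
    rw [mem_shellFin N hN] at hx
    exact ⟨x, hx.1, hx.2, rfl⟩
  · rintro ⟨x, hx, hn, rfl⟩
    exact ⟨x, (mem_shellFin N hN x).mpr ⟨hx, hn⟩, rfl⟩

lemma shellCls_disjoint (N M : ℤ) (hN : (shellSet N).ncard ≠ 0) (hM : (shellSet M).ncard ≠ 0)
    (hN0 : N ≠ 0) (hM0 : M ≠ 0) (hN64 : N ≤ 64) (hM64 : M ≤ 64) (hNM : N ≠ M) :
    Disjoint (shellCls N) (shellCls M) := by
  classical
  rw [Finset.disjoint_left]
  intro q hq hq'
  rw [mem_shellCls N hN] at hq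
  rw [mem_shellCls M hM] at hq'
  obtain ⟨x, hx, hxn, rfl⟩ := hq
  obtain ⟨y, hy, hyn, hxy⟩ := hq'
  have hc : ∃ z ∈ leechLattice, x - y = 2 • z := by
    rw [← cls_eq_iff, hxy]
  have key := Cfsg.Agent.S5551.result x y hx hy (ne_zero_of_sqNorm hN0 hxn)
    (ne_zero_of_sqNorm hM0 hyn) (by rw [hxn]; exact hN64) (by rw [hyn]; exact hM64) hc
  rw [hxn, hyn] at key
  exact hNM key.1

lemma zero_not_mem_shellCls (N : ℤ) (hN : (shellSet N).ncard ≠ 0) (hN0 : N ≠ 0) (hN64 : N ≤ 64) :
    cls 0 ∉ shellCls N := by
  intro h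
  rw [mem_shellCls N hN] at h
  obtain ⟨x, hx, hxn, hc⟩ := h
  rw [cls_eq_iff] at hc
  obtain ⟨z, hz, hxz⟩ := hc
  rw [sub_zero] at hxz
  have hz0 : z ≠ 0 := by
    intro h0
    rw [h0, smul_zero] at hxz
    exact ne_zero_of_sqNorm hN0 hxn hxz
  have h32 := Cfsg.Agent.S0391.result z hz hz0
  rw [hxz, sqNorm_two_smul] at hxn
  omega

lemma zero_mem_clsFin : cls 0 ∈ clsFin := by
  rw [mem_clsFin]
  exact ⟨0, leechLattice.zero_mem, rfl⟩

/-- the union of the four kinds of classes -/
noncomputable def allCls : Finset QL := by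
  classical
  exact insert (cls 0) (shellCls 32 ∪ shellCls 48 ∪ shellCls 64)

lemma allCls_subset : allCls ⊆ clsFin := by
  classical
  unfold allCls
  intro q hq
  rw [Finset.mem_insert, Finset.mem_union, Finset.mem_union] at hq
  rcases hq with rfl | (hq | hq) | hq
  · exact zero_mem_clsFin
  · exact shellCls_subset 32 h32 hq
  · exact shellCls_subset 48 h48 hq
  · exact shellCls_subset 64 h64 hq

lemma card_allCls : allCls.card =
    1 + (shellCls 32).card + (shellCls 48).card + (shellCls 64).card := by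
  classical
  unfold allCls
  have hd1 : Disjoint (shellCls 32) (shellCls 48) :=
    shellCls_disjoint 32 48 h32 h48 (by norm_num) (by norm_num) (by norm_num) (by norm_num)
      (by norm_num)
  have hd2 : Disjoint (shellCls 32) (shellCls 64) :=
    shellCls_disjoint 32 64 h32 h64 (by norm_num) (by norm_num) (by norm_num) (by norm_num)
      (by norm_num)
  have hd3 : Disjoint (shellCls 48) (shellCls 64) :=
    shellCls_disjoint 48 64 h48 h64 (by norm_num) (by norm_num) (by norm_num) (by norm_num)
      (by norm_num)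
  have hd4 : Disjoint (shellCls 32 ∪ shellCls 48) (shellCls 64) := by
    rw [Finset.disjoint_union_left]
    exact ⟨hd2, hd3⟩
  have hz : cls 0 ∉ shellCls 32 ∪ shellCls 48 ∪ shellCls 64 := by
    rw [Finset.mem_union, Finset.mem_union]
    rintro ((h | h) | h)
    · exact zero_not_mem_shellCls 32 h32 (by norm_num) (by norm_num) h
    · exact zero_not_mem_shellCls 48 h48 (by norm_num) (by norm_num) h
    · exact zero_not_mem_shellCls 64 h64 (by norm_num) (by norm_num) h
  rw [Finset.card_insert_of_notMem hz, Finset.card_union_of_disjoint hd4,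
    Finset.card_union_of_disjoint hd1]
  ring

lemma allCls_eq_and_card : allCls = clsFin ∧ (shellCls 64).card = 8292375 := by
  classical
  have hc := card_allCls
  have hsub := Finset.card_le_card allCls_subset
  rw [card_clsFin] at hsub
  have e1 := card_le_two_mul 32 h32 (by norm_num) (by norm_num)
  have e2 := card_le_two_mul 48 h48 (by norm_num) (by norm_num)
  have e3 := card_le_48_mul
  rw [card_shellFin 32 h32, shell32] at e1
  rw [card_shellFin 48 h48, shell48] at e2
  rw [card_shellFin 64 h64, shell64] at e3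
  have hp : (2 : ℕ) ^ 24 = 16777216 := by norm_num
  rw [hp] at hsub
  constructor
  · apply Finset.eq_of_subset_of_card_le allCls_subset
    rw [card_clsFin, hp]
    omega
  · omega

/-- every class of the lattice modulo twice the lattice has a short representative -/
lemma short_rep (x : GolayPt → ℤ) (hx : x ∈ leechLattice) :
    ∃ y ∈ leechLattice, sqNorm y ≤ 64 ∧ ∃ z ∈ leechLattice, x - y = 2 • z := by
  classical
  have hmem : cls x ∈ allCls := by
    rw [allCls_eq_and_card.1, mem_clsFin]
    exact ⟨x, hx, rfl⟩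
  unfold allCls at hmem
  rw [Finset.mem_insert, Finset.mem_union, Finset.mem_union] at hmem
  rcases hmem with h | (h | h) | h
  · refine ⟨0, leechLattice.zero_mem, ?_, (cls_eq_iff x 0).mp h⟩
    rw [sqNorm_zero']; norm_num
  · rw [mem_shellCls 32 h32] at h
    obtain ⟨y, hy, hyn, hc⟩ := h
    exact ⟨y, hy, by rw [hyn]; norm_num, (cls_eq_iff x y).mp hc.symm⟩
  · rw [mem_shellCls 48 h48] at h
    obtain ⟨y, hy, hyn, hc⟩ := h
    exact ⟨y, hy, by rw [hyn]; norm_num, (cls_eq_iff x y).mp hc.symm⟩
  · rw [mem_shellCls 64 h64] at h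
    obtain ⟨y, hy, hyn, hc⟩ := h
    exact ⟨y, hy, by rw [hyn], (cls_eq_iff x y).mp hc.symm⟩

/-- every fibre over a class of the shell 64 has exactly 48 elements -/
lemma fib_eq_48 (x : GolayPt → ℤ) (hx : x ∈ leechLattice) (hxn : sqNorm x = 64) : by
      classical
      exact ((shellFin 64).filter (fun a => cls a = cls x)).card = 48 := by
  classical
  by_contra hne
  have hlt : ((shellFin 64).filter (fun a => cls a = cls x)).card < 48 :=
    lt_of_le_of_ne (fib_le_48 (cls x)) hne
  have hsum : (shellFin 64).card =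
      ∑ b ∈ (shellFin 64).image cls, ((shellFin 64).filter (fun a => cls a = b)).card :=
    Finset.card_eq_sum_card_image cls (shellFin 64)
  have hmem : cls x ∈ (shellFin 64).image cls :=
    Finset.mem_image.mpr ⟨x, (mem_shellFin 64 h64 x).mpr ⟨hx, hxn⟩, rfl⟩
  have hlt2 : ∑ b ∈ (shellFin 64).image cls, ((shellFin 64).filter (fun a => cls a = b)).card
      < ∑ _b ∈ (shellFin 64).image cls, 48 := by
    apply Finset.sum_lt_sum
    · intro b _
      exact fib_le_48 b
    · exact ⟨cls x, hmem, hlt⟩
  rw [← hsum, Finset.sum_const, card_shellFin 64 h64, shell64] at hlt2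
  have hc : ((shellFin 64).image cls).card = 8292375 := allCls_eq_and_card.2
  rw [hc] at hlt2
  norm_num at hlt2

end Cfsg.Agent.Helper27
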