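import Cfsg.Agent.Helper27.Co0Xi
import Cfsg.Agent.Helper27.LeechClasses
import Cfsg.Agent.Helper28.M24Trans

set_option autoImplicit false
open Cfsg

namespace Cfsg.Agent.Helper27

open Cfsg.Agent.Helper28.Golay (map3 map4 trans1 five_set_trans)
open scoped Pointwise

lemma perm_inv_app (f : Equiv.Perm GolayPt) (x : GolayPt) : f⁻¹ (f x) = x :=
  f.symm_apply_apply x

lemma four_trans (a b c d a' b' c' d' : GolayPt) (hab : a ≠ b) (hac : a ≠ c) (hbc : b ≠ c)
    (had : a ≠ d) (hbd : b ≠ d) (hcd : c ≠ d) (hab' : a' ≠ b') (hac' : a' ≠ c') (hbc' : b' ≠ c')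
    (had' : a' ≠ d') (hbd' : b' ≠ d') (hcd' : c' ≠ d') :
    ∃ σ ∈ M24, σ a = a' ∧ σ b = b' ∧ σ c = c' ∧ σ d = d' := by
  obtain ⟨τ, hτ, h0, h1, h2, h3⟩ := map4 a b c d hab hac hbc had hbd hcd
  obtain ⟨τ', hτ', h0', h1', h2', h3'⟩ := map4 a' b' c' d' hab' hac' hbc' had' hbd' hcd'
  refine ⟨τ' * τ⁻¹, M24.mul_mem hτ' (M24.inv_mem hτ), ?_, ?_, ?_, ?_⟩
  · rw [Equiv.Perm.mul_apply, ← h0, perm_inv_app, h0']
  · rw [Equiv.Perm.mul_apply, ← h1, perm_inv_app, h1']
  · rw [Equiv.Perm.mul_apply, ← h2, perm_inv_app, h2']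
  · rw [Equiv.Perm.mul_apply, ← h3, perm_inv_app, h3']

lemma three_trans (a b c a' b' c' : GolayPt) (hab : a ≠ b) (hac : a ≠ c) (hbc : b ≠ c)
    (hab' : a' ≠ b') (hac' : a' ≠ c') (hbc' : b' ≠ c') :
    ∃ σ ∈ M24, σ a = a' ∧ σ b = b' ∧ σ c = c' := by
  obtain ⟨τ, hτ, h0, h1, h2⟩ := map3 a b c hab hac hbc
  obtain ⟨τ', hτ', h0', h1', h2'⟩ := map3 a' b' c' hab' hac' hbc'
  refine ⟨τ' * τ⁻¹, M24.mul_mem hτ' (M24.inv_mem hτ), ?_, ?_, ?_⟩
  · rw [Equiv.Perm.mul_apply, ← h0, perm_inv_app, h0']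
  · rw [Equiv.Perm.mul_apply, ← h1, perm_inv_app, h1']
  · rw [Equiv.Perm.mul_apply, ← h2, perm_inv_app, h2']

lemma tsum_t0 (x : GolayPt → ℤ) :
    tsum x (some 0) = x (some 0) + x (some 1) + x (some 2) + x (some 3) := by
  unfold tsum
  rw [← Finset.sum_filter]
  have e : (Finset.univ.filter fun l : GolayPt => tau l = tau (some 0))
      = {some 0, some 1, some 2, some 3} := by decide +kernel
  rw [e, Finset.sum_insert (by decide), Finset.sum_insert (by decide),
    Finset.sum_insert (by decide), Finset.sum_singleton]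
  ring

/-- the basic move: bring four chosen coordinates into the first tetrad and apply the sextet
involution -/
lemma xi_move (v : leechLattice) (a b1 b2 b3 : GolayPt) (h1 : a ≠ b1) (h2 : a ≠ b2)
    (h3 : a ≠ b3) (h12 : b1 ≠ b2) (h13 : b1 ≠ b3) (h23 : b2 ≠ b3) :
    ∃ g : Co0, 2 * ((g • v : leechLattice) : GolayPt → ℤ) (some 0)
      = -(v.1 a - v.1 b1 - v.1 b2 - v.1 b3) := by
  obtain ⟨σ, hσ, e0, e1, e2, e3⟩ := four_trans (some 0) (some 1) (some 2) (some 3) a b1 b2 b3
    (by decide) (by decide) (by decide) (by decide) (by decide) (by decide) h1 h2 h12 h3 h13 h23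
  refine ⟨xiC * permC σ⁻¹ (M24.inv_mem hσ), ?_⟩
  rw [mul_smul_coe, xiC_apply, tsum_t0]
  have hs : sgnT (some 0) = -1 := by decide
  have e : ∀ i, ((permC σ⁻¹ (M24.inv_mem hσ) • v : leechLattice) : GolayPt → ℤ) i = v.1 (σ i) :=
    fun i => rfl
  rw [hs, e, e, e, e, e0, e1, e2, e3]
  ring

lemma card_le_of_sq (x : GolayPt → ℤ) (p : GolayPt → Prop) [DecidablePred p] (m : ℤ)
    (_hm : 0 ≤ m) (h : ∀ i, p i → m ≤ x i ^ 2) :
    m * ((Finset.univ.filter p).card : ℤ) ≤ sqNorm x := by
  have e : m * ((Finset.univ.filter p).card : ℤ) = ∑ i, if p i then m else 0 := by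
    rw [Finset.sum_ite, Finset.sum_const_zero, add_zero, Finset.sum_const, nsmul_eq_mul, mul_comm]
  rw [e]
  apply Finset.sum_le_sum
  intro i _
  split_ifs with hp
  · exact h i hp
  · positivity

lemma exists_three_not (F : Finset GolayPt) (hF : F.card ≤ 20) (a : GolayPt) :
    ∃ b1 b2 b3 : GolayPt, b1 ∉ F ∧ b2 ∉ F ∧ b3 ∉ F ∧ a ≠ b1 ∧ a ≠ b2 ∧ a ≠ b3 ∧
      b1 ≠ b2 ∧ b1 ≠ b3 ∧ b2 ≠ b3 := by
  have hc : 3 ≤ ((insert a F)ᶜ).card := by
    rw [Finset.card_compl]
    have h1 : (insert a F).card ≤ F.card + 1 := Finset.card_insert_le a F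
    have h2 : Fintype.card GolayPt = 24 := by decide
    omega
  obtain ⟨s, hs, hs3⟩ := Finset.exists_subset_card_eq hc
  obtain ⟨b1, b2, b3, h12, h13, h23, rfl⟩ := Finset.card_eq_three.mp hs3
  have hm : ∀ b ∈ ({b1, b2, b3} : Finset GolayPt), b ∉ F ∧ a ≠ b := by
    intro b hb
    have := hs hb
    rw [Finset.mem_compl, Finset.mem_insert, not_or] at this
    exact ⟨this.2, fun h => this.1 h.symm⟩
  have m1 := hm b1 (by simp)
  have m2 := hm b2 (by simp)
  have m3 := hm b3 (by simp)
  exact ⟨b1, b2, b3, m1.1, m2.1, m3.1, m1.2, m2.2, m3.2, h12, h13, h23⟩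

lemma even_to_odd_aux (v : leechLattice) (hn : sqNorm v.1 ≤ 64) (a : GolayPt)
    (ha : v.1 a % 4 = 2) :
    ∃ g : Co0, ∀ i, ((g • v : leechLattice) : GolayPt → ℤ) i % 2 = 1 := by
  have h4 := four_card_le v.1
  have hc : (Finset.univ.filter fun i => v.1 i % 4 = 2).card ≤ 20 := by
    have := le_trans h4 hn
    omega
  obtain ⟨b1, b2, b3, hb1, hb2, hb3, h1, h2, h3, h12, h13, h23⟩ := exists_three_not _ hc a
  have hev : ∀ i, v.1 i % 2 = 0 := fun i => by
    have := parity_const v.1 v.2 i a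
    omega
  have hb : ∀ b, b ∉ (Finset.univ.filter fun i => v.1 i % 4 = 2) → v.1 b % 4 = 0 := by
    intro b hb
    have := hev b
    simp only [Finset.mem_filter, Finset.mem_univ, true_and] at hb
    omega
  obtain ⟨g, hg⟩ := xi_move v a b1 b2 b3 h1 h2 h3 h12 h13 h23
  refine ⟨g, fun i => ?_⟩
  have hp := parity_const (g • v).1 (g • v).2 i (some 0)
  have := hb b1 hb1
  have := hb b2 hb2
  have := hb b3 hb3
  omega

lemma even_to_odd (v : leechLattice) (hn : sqNorm v.1 ≤ 64) (hev : ∀ i, v.1 i % 2 = 0)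
    (a : GolayPt) (ha : v.1 a % 8 ≠ 0) :
    ∃ g : Co0, ∀ i, ((g • v : leechLattice) : GolayPt → ℤ) i % 2 = 1 := by
  by_cases h2 : ∃ i, v.1 i % 4 = 2
  · obtain ⟨i, hi⟩ := h2
    exact even_to_odd_aux v hn i hi
  · have h4 : ∀ i, v.1 i % 4 = 0 := fun i => by
      have := hev i
      have : ¬ v.1 i % 4 = 2 := fun h => h2 ⟨i, h⟩
      omega
    have ha4 : v.1 a % 8 = 4 := by
      have := h4 a
      omega
    have hcard := card_le_of_sq v.1 (fun i => v.1 i % 8 = 4) 16 (by norm_num) (fun i hi => by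
      have h' : v.1 i ≥ 4 ∨ v.1 i ≤ -4 := by omega
      rcases h' with h' | h' <;> nlinarith)
    have hc : (Finset.univ.filter fun i => v.1 i % 8 = 4).card ≤ 20 := by
      have := le_trans hcard hn
      omega
    obtain ⟨b1, b2, b3, hb1, hb2, hb3, h1, h2', h3, h12, h13, h23⟩ := exists_three_not _ hc a
    have hb : ∀ b, b ∉ (Finset.univ.filter fun i => v.1 i % 8 = 4) → v.1 b % 8 = 0 := by
      intro b hb
      have := h4 b
      simp only [Finset.mem_filter, Finset.mem_univ, true_and] at hb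
      omega
    obtain ⟨g, hg⟩ := xi_move v a b1 b2 b3 h1 h2' h3 h12 h13 h23
    have := hb b1 hb1
    have := hb b2 hb2
    have := hb b3 hb3
    have h0 : ((g • v : leechLattice) : GolayPt → ℤ) (some 0) % 4 = 2 := by omega
    obtain ⟨g', hg'⟩ := even_to_odd_aux (g • v) (by rw [co0_norm]; exact hn) (some 0) h0
    exact ⟨g' * g, hg'⟩

lemma eight_to_odd (v : leechLattice) (hn : sqNorm v.1 = 64) (h8 : ∀ i, v.1 i % 8 = 0) :
    ∃ g : Co0, ∀ i, ((g • v : leechLattice) : GolayPt → ℤ) i % 2 = 1 := by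
  have hne : ∃ a, v.1 a ≠ 0 := by
    by_contra h
    have h' : ∀ a, v.1 a = 0 := fun a => by
      by_contra h''
      exact h ⟨a, h''⟩
    have : v.1 = 0 := funext h'
    rw [this, sqNorm_zero'] at hn
    norm_num at hn
  obtain ⟨a, ha⟩ := hne
  have hcard := card_le_of_sq v.1 (fun i => v.1 i ≠ 0) 64 (by norm_num) (fun i hi => by
    have := h8 i
    have h' : v.1 i ≥ 8 ∨ v.1 i ≤ -8 := by omega
    rcases h' with h' | h' <;> nlinarith)
  have hc : (Finset.univ.filter fun i => v.1 i ≠ 0).card ≤ 20 := by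
    rw [hn] at hcard
    omega
  obtain ⟨b1, b2, b3, hb1, hb2, hb3, h1, h2, h3, h12, h13, h23⟩ := exists_three_not _ hc a
  have hb : ∀ b, b ∉ (Finset.univ.filter fun i => v.1 i ≠ 0) → v.1 b = 0 := by
    intro b hb
    simp only [Finset.mem_filter, Finset.mem_univ, true_and, not_not] at hb
    exact hb
  have hle : v.1 a ^ 2 ≤ 64 := by
    rw [← hn]
    unfold sqNorm
    exact Finset.single_le_sum (fun i _ => sq_nonneg (v.1 i)) (Finset.mem_univ a)
  have ha8 : v.1 a = 8 ∨ v.1 a = -8 := by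
    have := h8 a
    have h1 : -8 ≤ v.1 a ∧ v.1 a ≤ 8 := by constructor <;> nlinarith
    omega
  obtain ⟨g, hg⟩ := xi_move v a b1 b2 b3 h1 h2 h3 h12 h13 h23
  rw [hb b1 hb1, hb b2 hb2, hb b3 hb3] at hg
  have h0 : ((g • v : leechLattice) : GolayPt → ℤ) (some 0) % 8 = 4 := by
    rcases ha8 with h | h <;> rw [h] at hg <;> omega
  have hev : ∀ i, ((g • v : leechLattice) : GolayPt → ℤ) i % 2 = 0 := fun i => by
    have := parity_const _ (g • v).2 i (some 0)
    omega
  obtain ⟨g', hg'⟩ := even_to_odd (g • v) (by rw [co0_norm, hn]) hev (some 0) (by omega)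
  exact ⟨g' * g, hg'⟩

/-- every nonzero lattice vector of sum of squares at most 64 is equivalent to an odd one -/
lemma to_odd (v : leechLattice) (hn : sqNorm v.1 ≤ 64) (h0 : v.1 ≠ 0) :
    ∃ g : Co0, ∀ i, ((g • v : leechLattice) : GolayPt → ℤ) i % 2 = 1 := by
  rcases Int.emod_two_eq_zero_or_one (v.1 none) with h | h
  · have hev : ∀ i, v.1 i % 2 = 0 := fun i => by
      rw [parity_const v.1 v.2 i none]
      exact h
    by_cases h8 : ∀ i, v.1 i % 8 = 0
    · have hn64 : sqNorm v.1 = 64 := by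
        obtain ⟨a, ha⟩ := Function.ne_iff.mp h0
        have hle : v.1 a ^ 2 ≤ sqNorm v.1 := by
          unfold sqNorm
          exact Finset.single_le_sum (fun i _ => sq_nonneg (v.1 i)) (Finset.mem_univ a)
        have h64 : 64 ≤ v.1 a ^ 2 := by
          have := h8 a
          have ha' : v.1 a ≠ 0 := ha
          have h' : v.1 a ≥ 8 ∨ v.1 a ≤ -8 := by omega
          rcases h' with h' | h' <;> nlinarith
        linarith
      exact eight_to_odd v hn64 h8
    · have h8' : ∃ a, v.1 a % 8 ≠ 0 := by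
        by_contra hc
        apply h8
        intro i
        by_contra hi
        exact hc ⟨i, hi⟩
      obtain ⟨a, ha⟩ := h8'
      exact even_to_odd v hn hev a ha
  · refine ⟨1, fun i => ?_⟩
    rw [one_smul, parity_const v.1 v.2 i none]
    exact h

/-- odd vectors can be sign-normalised -/
lemma odd_norm (v : leechLattice) (ho : ∀ i, v.1 i % 2 = 1) :
    ∃ g : Co0, ∀ i, ((g • v : leechLattice) : GolayPt → ℤ) i % 4 = 1 := by
  have hx := (mem_leechLattice_iff v.1).mp v.2
  rcases leechSet_cases v.1 hx with ⟨h2, -, -⟩ | ⟨-, -, hA⟩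
  · exfalso
    have := h2 none
    have := ho none
    omega
  · refine ⟨signC _ hA, fun i => ?_⟩
    rw [signC_apply]
    simp only [signFun, Finset.mem_filter, Finset.mem_univ, true_and]
    have := ho i
    split_ifs with h <;> omega

/-- every vector of sum of squares at most 64 is equivalent to one with all coordinates
congruent to 1 modulo 4 -/
lemma to_one (v : leechLattice) (hn : sqNorm v.1 ≤ 64) (h0 : v.1 ≠ 0) :
    ∃ g : Co0, ∀ i, ((g • v : leechLattice) : GolayPt → ℤ) i % 4 = 1 := by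
  obtain ⟨g1, h1⟩ := to_odd v hn h0
  obtain ⟨g2, h2⟩ := odd_norm (g1 • v) h1
  exact ⟨g2 * g1, h2⟩

/-- negation as an automorphism -/
def negC : Co0 :=
  mkCo0 (fun x => -x) (fun x => -x) (fun _ hx => leechLattice.neg_mem hx)
    (fun _ hx => leechLattice.neg_mem hx) (fun x _ => neg_neg x) (fun x _ => neg_neg x)
    (fun x _ y _ => neg_add x y) (fun x _ => by
      unfold sqNorm
      apply Finset.sum_congr rfl
      intro i _
      simp only [Pi.neg_apply]
      ring)

lemma negC_apply (v : leechLattice) : ((negC • v : leechLattice) : GolayPt → ℤ) = -v.1 := rfl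

lemma mem_smul_iff (σ : Equiv.Perm GolayPt) (S : Finset GolayPt) (k : GolayPt) :
    k ∈ σ • S ↔ σ.symm k ∈ S := by
  rw [Finset.mem_smul_finset]
  constructor
  · rintro ⟨y, hy, rfl⟩
    rw [Equiv.Perm.smul_def, Equiv.symm_apply_apply]
    exact hy
  · intro h
    exact ⟨σ.symm k, h, by rw [Equiv.Perm.smul_def, Equiv.apply_symm_apply]⟩

/-! ### sum of squares 32 -/

theorem trans32 (v : leechLattice) (hn : sqNorm v.1 = 32) :
    ∃ g : Co0, ((g • v : leechLattice) : GolayPt → ℤ) = uvec ∅ none := by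
  obtain ⟨g1, h1⟩ := to_one v (by rw [hn]; norm_num) (ne_zero_of_sqNorm (by norm_num) hn)
  have hwn : sqNorm (g1 • v).1 = 32 := by rw [co0_norm, hn]
  rcases min_cases (g1 • v).1 ((mem_leechLattice_iff _).mp (g1 • v).2) hwn with
    ⟨T, ε, -, -, e⟩ | ⟨O, ε, -, -, -, e⟩ | ⟨c, i, -, e⟩
  · exfalso
    have := h1 none
    rw [e] at this
    unfold sv at this
    split_ifs at this <;> omega
  · exfalso
    have := h1 none
    rw [e] at this
    unfold sv at this
    split_ifs at this <;> omega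
  · have hce : c = ∅ := by
      apply Finset.eq_empty_of_forall_notMem
      intro k hk
      have h3 := (uvec_mod c i k).mpr hk
      have h' := h1 k
      rw [e] at h'
      omega
    subst hce
    obtain ⟨σ, hσ, hσi⟩ := trans1 i none
    refine ⟨permC σ hσ * g1, ?_⟩
    rw [mul_smul_coe, permC_apply, e]
    funext k
    have hk : σ.symm k = i ↔ k = none := by rw [Equiv.symm_apply_eq, hσi]
    simp only [permFun, uvec, Finset.notMem_empty, if_false, hk]

/-! ### sum of squares 48 -/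

/-- the reference triple -/
def S1 : Finset GolayPt := {some 1, some 2, some 3}

lemma link48 : ∀ i : GolayPt, sgnT i * (2 * fvec ∅ (some 0) i - tsum (fvec ∅ (some 0)) i)
    = 2 * (-(tvec ∅ S1 i)) := by decide +kernel

theorem trans48 (v : leechLattice) (hn : sqNorm v.1 = 48) :
    ∃ g : Co0, ((g • v : leechLattice) : GolayPt → ℤ) = tvec ∅ S1 := by
  obtain ⟨g1, h1⟩ := to_one v (by rw [hn]; norm_num) (ne_zero_of_sqNorm (by norm_num) hn)
  have hwn : sqNorm (g1 • v).1 = 48 := by rw [co0_norm, hn]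
  rcases n48_cases (g1 • v).1 ((mem_leechLattice_iff _).mp (g1 • v).2) hwn with
    ⟨d, ε, -, -, -, e⟩ | ⟨O, ε, i, s, -, -, -, -, hs, e⟩ | ⟨c, S, -, hS, e⟩ | ⟨c, i, -, e⟩
  · exfalso
    have := h1 none
    rw [e] at this
    unfold sv at this
    split_ifs at this <;> omega
  · exfalso
    have := h1 none
    rw [e] at this
    unfold cvec sv at this
    rcases hs with rfl | rfl <;> split_ifs at this <;> omega
  · have hce : c = ∅ := by
      apply Finset.eq_empty_of_forall_notMem
      intro k hk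
      have h3 := (tvec_mod c S k).mpr hk
      have h' := h1 k
      rw [e] at h'
      omega
    subst hce
    obtain ⟨x, y, z, hxy, hxz, hyz, rfl⟩ := Finset.card_eq_three.mp hS
    obtain ⟨σ, hσ, hx, hy, hz⟩ := three_trans x y z (some 1) (some 2) (some 3) hxy hxz hyz
      (by decide) (by decide) (by decide)
    refine ⟨permC σ hσ * g1, ?_⟩
    rw [mul_smul_coe, permC_apply, e]
    funext k
    simp only [permFun, tvec, S1, Finset.notMem_empty, if_false, Finset.mem_insert,
      Finset.mem_singleton, Equiv.symm_apply_eq, hx, hy, hz]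
  · have hce : c = ∅ := by
      apply Finset.eq_empty_of_forall_notMem
      intro k hk
      have h3 := (fvec_mod c i k).mpr hk
      have h' := h1 k
      rw [e] at h'
      omega
    subst hce
    obtain ⟨σ, hσ, hσi⟩ := trans1 i (some 0)
    have e2 : ((permC σ hσ • (g1 • v) : leechLattice) : GolayPt → ℤ) = fvec ∅ (some 0) := by
      rw [permC_apply, e]
      funext k
      have hk : σ.symm k = i ↔ k = some 0 := by rw [Equiv.symm_apply_eq, hσi]
      simp only [permFun, fvec, Finset.notMem_empty, if_false, hk]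
    refine ⟨negC * (xiC * (permC σ hσ * g1)), ?_⟩
    rw [mul_smul_coe, mul_smul_coe, mul_smul_coe, negC_apply]
    funext k
    have h3 := xiC_apply (permC σ hσ • (g1 • v)) k
    rw [e2, link48 k] at h3
    simp only [Pi.neg_apply]
    omega

/-! ### sum of squares 64 -/

/-- the reference 5-set -/
def S5r : Finset GolayPt := {some 1, some 2, some 3, some 10, some 12}

lemma link64 : ∀ i : GolayPt,
    sgnT i * (2 * gv ∅ {some 0} {some 4, some 7} i - tsum (gv ∅ {some 0} {some 4, some 7}) i)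
    = 2 * (-(gv ∅ ∅ S5r i)) := by decide +kernel

theorem trans64 (v : leechLattice) (hn : sqNorm v.1 = 64) :
    ∃ g : Co0, ((g • v : leechLattice) : GolayPt → ℤ) = gv ∅ ∅ S5r := by
  obtain ⟨g1, h1⟩ := to_one v (by rw [hn]) (ne_zero_of_sqNorm (by norm_num) hn)
  have hwn : sqNorm (g1 • v).1 = 64 := by rw [co0_norm, hn]
  rcases n64_cases (g1 • v).1 ((mem_leechLattice_iff _).mp (g1 • v).2) hwn with
    ⟨i, η, -, e⟩ | ⟨O, ε, j, -, -, -, -, e⟩ | ⟨c, ε, T, η, -, -, -, -, -, -, e⟩ |
    ⟨c, S5, S3, -, hd, hcard, e⟩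
  · exfalso
    have := h1 none
    rw [e] at this
    unfold sv at this
    split_ifs at this <;> omega
  · exfalso
    have := h1 none
    rw [e] at this
    have := evec_even O ε j none
    omega
  · exfalso
    have := h1 none
    rw [e] at this
    have := ev_even c ε T η none
    omega
  · have hce : c = ∅ := by
      apply Finset.eq_empty_of_forall_notMem
      intro k hk
      have h3 := (gv_mod c S5 S3 k).mpr hk
      have h' := h1 k
      rw [e] at h'
      omega
    subst hce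
    have hcs : (S5.card = 0 ∧ S3.card = 5) ∨ (S5.card = 1 ∧ S3.card = 2) := by omega
    rcases hcs with ⟨h5, h3⟩ | ⟨h5, h3⟩
    · rw [Finset.card_eq_zero] at h5
      subst h5
      obtain ⟨σ, hσ, hσS⟩ := five_set_trans S3 S5r h3 (by decide)
      refine ⟨permC σ hσ * g1, ?_⟩
      rw [mul_smul_coe, permC_apply, e, ← hσS]
      funext k
      simp only [permFun, gv, Finset.notMem_empty, if_false, mem_smul_iff]
    · obtain ⟨p, rfl⟩ := Finset.card_eq_one.mp h5
      obtain ⟨q, r, hqr, rfl⟩ := Finset.card_eq_two.mp h3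
      have hpq : p ≠ q := by
        intro h
        rw [Finset.disjoint_left] at hd
        exact hd (Finset.mem_singleton_self p) (by rw [h]; simp)
      have hpr : p ≠ r := by
        intro h
        rw [Finset.disjoint_left] at hd
        exact hd (Finset.mem_singleton_self p) (by rw [h]; simp)
      obtain ⟨σ, hσ, hx, hy, hz⟩ := three_trans p q r (some 0) (some 4) (some 7) hpq hpr hqr
        (by decide) (by decide) (by decide)
      have e2 : ((permC σ hσ • (g1 • v) : leechLattice) : GolayPt → ℤ)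
          = gv ∅ {some 0} {some 4, some 7} := by
        rw [permC_apply, e]
        funext k
        simp only [permFun, gv, Finset.notMem_empty, if_false, Finset.mem_insert,
          Finset.mem_singleton, Equiv.symm_apply_eq, hx, hy, hz]
      refine ⟨negC * (xiC * (permC σ hσ * g1)), ?_⟩
      rw [mul_smul_coe, mul_smul_coe, mul_smul_coe, negC_apply]
      funext k
      have h3 := xiC_apply (permC σ hσ • (g1 • v)) k
      rw [e2, link64 k] at h3
      simp only [Pi.neg_apply]
      omega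

end Cfsg.Agent.Helper27
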