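import Cfsg.Agent.Helper27.Census2
import Cfsg.Agent.S0401

set_option autoImplicit false
open Cfsg

namespace Cfsg.Agent.Helper27

open Cfsg.Agent.Helper28.Golay

/-- sets of lattice vectors, as functions or as members of the lattice -/
lemma ncard_sub (R : (GolayPt → ℤ) → Prop) :
    {w : GolayPt → ℤ | w ∈ leechLattice ∧ R w}.ncard = {w : leechLattice | R w.1}.ncard := by
  have e : {w : GolayPt → ℤ | w ∈ leechLattice ∧ R w}
      = Subtype.val '' {w : leechLattice | R w.1} := by
    ext w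
    constructor
    · rintro ⟨h1, h2⟩
      exact ⟨⟨w, h1⟩, h2, rfl⟩
    · rintro ⟨w', h2, rfl⟩
      exact ⟨w'.2, h2⟩
  rw [e, Set.ncard_image_of_injective _ Subtype.val_injective]

/-- transport of a set of lattice vectors by an automorphism -/
lemma ncard_smul (g : Co0) (A B : Set leechLattice) (h : ∀ w, w ∈ A ↔ g • w ∈ B) :
    A.ncard = B.ncard := by
  have e : B = (fun w : leechLattice => g • w) '' A := by
    ext y
    constructor
    · intro hy
      refine ⟨g⁻¹ • y, (h _).mpr ?_, smul_inv_smul g y⟩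
      rw [smul_inv_smul]
      exact hy
    · rintro ⟨w, hw, rfl⟩
      exact (h w).mp hw
  rw [e, Set.ncard_image_of_injective _ (MulAction.injective g)]

/-- the census, for members of the lattice -/
theorem census_sub (L : List (ℕ × ℕ)) (hL : L.length = 24) (tp1 tn1 tp2 tn2 : ℕ) :
    {w : leechLattice | sqNorm w.1 = 32 ∧ CP L tp1 tn1 tp2 tn2 w.1}.ncard
      = cnt1 L tp1 tn1 tp2 tn2 + cnt2 L tp1 tn1 tp2 tn2 + cnt3 L tp1 tn1 tp2 tn2 := by
  rw [← census L hL]
  exact (ncard_sub (fun x => sqNorm x = 32 ∧ CP L tp1 tn1 tp2 tn2 x)).symm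

lemma dot_zero_left (a x : GolayPt → ℤ) (h : ∀ p, a p = 0) : dotInt a x = 0 := by
  unfold dotInt
  apply Finset.sum_eq_zero
  intro p _
  rw [h p, zero_mul]

/-- the census with a single reference vector -/
theorem census_one (L : List (ℕ × ℕ)) (hL : L.length = 24) (h0 : ∀ p, vC Prod.snd L p = 0)
    (tp tn : ℕ) :
    {w : leechLattice | sqNorm w.1 = 32 ∧ dotInt (vC Prod.fst L) w.1 = (tp : ℤ) - tn}.ncard
      = cnt1 L tp tn 0 0 + cnt2 L tp tn 0 0 + cnt3 L tp tn 0 0 := by
  rw [← census_sub L hL]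
  congr 1
  ext w
  constructor
  · rintro ⟨h1, h2⟩
    refine ⟨h1, h2, ?_⟩
    rw [dot_zero_left _ _ h0]
    norm_num
  · rintro ⟨h1, h2, -⟩
    exact ⟨h1, h2⟩

/-- transport of the census of a vector to a reference vector in its orbit -/
theorem census_transport (g : Co0) (v r : leechLattice) (hg : g • v = r) (t : ℤ) :
    {w : leechLattice | sqNorm w.1 = 32 ∧ dotInt v.1 w.1 = t}.ncard
      = {w : leechLattice | sqNorm w.1 = 32 ∧ dotInt r.1 w.1 = t}.ncard := by
  apply ncard_smul g
  intro w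
  show (sqNorm w.1 = 32 ∧ dotInt v.1 w.1 = t) ↔
    (sqNorm (g • w : leechLattice).1 = 32 ∧ dotInt r.1 (g • w : leechLattice).1 = t)
  rw [co0_norm, ← hg, co0_dot]

end Cfsg.Agent.Helper27
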