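import Cfsg.Agent.Helper27.CensusRef

set_option autoImplicit false
open Cfsg

namespace Cfsg.Agent.Helper27

set_option maxRecDepth 100000 in
lemma cu24_1 : cnt1 L5 24 0 0 0 = 23 := by decide +kernel

set_option maxRecDepth 100000 in
lemma cu24_2 : cnt2 L5 24 0 0 0 = 253 := by decide +kernel

set_option maxRecDepth 100000 in
lemma cu24_3 : cnt3 L5 24 0 0 0 = 276 := by decide +kernel

end Cfsg.Agent.Helper27
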