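import Cfsg.Agent.Helper27.CensusRef

set_option autoImplicit false
open Cfsg

namespace Cfsg.Agent.Helper27

set_option maxRecDepth 100000 in
lemma cv0_1 : cnt1 Lt 0 0 0 0 = 926 := by decide +kernel

set_option maxRecDepth 100000 in
lemma cv0_2 : cnt2 Lt 0 0 0 0 = 47168 := by decide +kernel

set_option maxRecDepth 100000 in
lemma cv0_3 : cnt3 Lt 0 0 0 0 = 45056 := by decide +kernel

end Cfsg.Agent.Helper27
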