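import Cfsg.Agent.Helper27.CensusRef

set_option autoImplicit false
open Cfsg

namespace Cfsg.Agent.Helper27

set_option maxRecDepth 100000 in
lemma cv8_1 : cnt1 Lt 0 8 0 0 = 0 := by decide +kernel

set_option maxRecDepth 100000 in
lemma cv8_2 : cnt2 Lt 0 8 0 0 = 22528 := by decide +kernel

set_option maxRecDepth 100000 in
lemma cv8_3 : cnt3 Lt 0 8 0 0 = 24576 := by decide +kernel

end Cfsg.Agent.Helper27
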