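import Cfsg.Agent.Helper27.Leech
import Cfsg.Agent.Helper27.LeechMin
import Cfsg.Agent.S0392
import Cfsg.Agent.S0432
import Cfsg.Agent.S0433

set_option autoImplicit false
open Cfsg

namespace Cfsg.Agent.Helper27

lemma co0_smul_def (g : Co0) (v : leechLattice) : g • v = g.1 v := rfl

lemma co0_add (g : Co0) (v w : leechLattice) : g • (v + w) = g • v + g • w := g.2.1 v w

lemma co0_norm (g : Co0) (v : leechLattice) :
    sqNorm ((g • v : leechLattice) : GolayPt → ℤ) = sqNorm (v : GolayPt → ℤ) := g.2.2 v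

lemma co0_zero (g : Co0) : g • (0 : leechLattice) = 0 := by
  have h := co0_add g 0 0
  rw [add_zero] at h
  exact left_eq_add.mp h

lemma co0_neg (g : Co0) (v : leechLattice) : g • (-v) = -(g • v) := by
  have h := co0_add g v (-v)
  rw [add_neg_cancel, co0_zero] at h
  exact (neg_eq_of_add_eq_zero_right h.symm).symm

lemma co0_sub (g : Co0) (v w : leechLattice) : g • (v - w) = g • v - g • w := by
  rw [sub_eq_add_neg, co0_add, co0_neg, ← sub_eq_add_neg]

lemma co0_dot (g : Co0) (v w : leechLattice) :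
    dotInt ((g • v : leechLattice) : GolayPt → ℤ) ((g • w : leechLattice) : GolayPt → ℤ)
      = dotInt (v : GolayPt → ℤ) (w : GolayPt → ℤ) :=
  dot_pres (fun v => g • v) (co0_add g) (co0_norm g) v w

lemma co0_cong (g : Co0) (v w : leechLattice)
    (h : ∃ z ∈ leechLattice, (v : GolayPt → ℤ) - (w : GolayPt → ℤ) = 2 • z) :
    ∃ z ∈ leechLattice, ((g • v : leechLattice) : GolayPt → ℤ) -
      ((g • w : leechLattice) : GolayPt → ℤ) = 2 • z := by
  obtain ⟨z, hz, hvw⟩ := h
  refine ⟨((g • (⟨z, hz⟩ : leechLattice) : leechLattice) : GolayPt → ℤ),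
    (g • (⟨z, hz⟩ : leechLattice)).2, ?_⟩
  have e : v - w = (⟨z, hz⟩ : leechLattice) + ⟨z, hz⟩ := by
    apply Subtype.ext
    show (v : GolayPt → ℤ) - w = z + z
    rw [hvw, two_smul]
  have h2 := co0_sub g v w
  rw [e, co0_add] at h2
  have h3 := congrArg (fun u : leechLattice => (u : GolayPt → ℤ)) h2
  rw [two_smul]
  exact h3.symm

/-- an element of the automorphism group from a pair of mutually inverse maps -/
def mkCo0 (φ ψ : (GolayPt → ℤ) → (GolayPt → ℤ))
    (hφ : ∀ x ∈ leechLattice, φ x ∈ leechLattice) (hψ : ∀ x ∈ leechLattice, ψ x ∈ leechLattice)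
    (h1 : ∀ x ∈ leechLattice, ψ (φ x) = x) (h2 : ∀ x ∈ leechLattice, φ (ψ x) = x)
    (hadd : ∀ x ∈ leechLattice, ∀ y ∈ leechLattice, φ (x + y) = φ x + φ y)
    (hn : ∀ x ∈ leechLattice, sqNorm (φ x) = sqNorm x) : Co0 :=
  ⟨{ toFun := fun v => ⟨φ v.1, hφ v.1 v.2⟩
     invFun := fun v => ⟨ψ v.1, hψ v.1 v.2⟩
     left_inv := fun v => Subtype.ext (h1 v.1 v.2)
     right_inv := fun v => Subtype.ext (h2 v.1 v.2) },
   ⟨fun v w => Subtype.ext (hadd v.1 v.2 w.1 w.2), fun v => hn v.1 v.2⟩⟩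

lemma mkCo0_apply (φ ψ : (GolayPt → ℤ) → (GolayPt → ℤ))
    (hφ : ∀ x ∈ leechLattice, φ x ∈ leechLattice) (hψ : ∀ x ∈ leechLattice, ψ x ∈ leechLattice)
    (h1 : ∀ x ∈ leechLattice, ψ (φ x) = x) (h2 : ∀ x ∈ leechLattice, φ (ψ x) = x)
    (hadd : ∀ x ∈ leechLattice, ∀ y ∈ leechLattice, φ (x + y) = φ x + φ y)
    (hn : ∀ x ∈ leechLattice, sqNorm (φ x) = sqNorm x) (v : leechLattice) :
    ((mkCo0 φ ψ hφ hψ h1 h2 hadd hn • v : leechLattice) : GolayPt → ℤ) = φ v.1 := rfl

/-- coordinate permutation of vectors -/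
def permFun (σ : Equiv.Perm GolayPt) (x : GolayPt → ℤ) : GolayPt → ℤ := fun i => x (σ.symm i)

lemma permFun_mem (σ : Equiv.Perm GolayPt) (hσ : σ ∈ M24) (x : GolayPt → ℤ)
    (hx : x ∈ leechLattice) : permFun σ x ∈ leechLattice :=
  Cfsg.Agent.S0432.result σ⁻¹ (M24.inv_mem hσ) x hx

lemma sqNorm_permFun (σ : Equiv.Perm GolayPt) (x : GolayPt → ℤ) :
    sqNorm (permFun σ x) = sqNorm x := by
  unfold sqNorm permFun
  exact Equiv.sum_comp σ.symm (fun i => x i ^ 2)

lemma permFun_permFun (σ τ : Equiv.Perm GolayPt) (x : GolayPt → ℤ) :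
    permFun σ (permFun τ x) = permFun (σ * τ) x := by
  funext i
  rfl

lemma permFun_one (x : GolayPt → ℤ) : permFun 1 x = x := rfl

/-- the automorphism given by a coordinate permutation from the code's group -/
def permC (σ : Equiv.Perm GolayPt) (hσ : σ ∈ M24) : Co0 :=
  mkCo0 (permFun σ) (permFun σ⁻¹) (fun x hx => permFun_mem σ hσ x hx)
    (fun x hx => permFun_mem σ⁻¹ (M24.inv_mem hσ) x hx)
    (fun x _ => by rw [permFun_permFun, inv_mul_cancel, permFun_one])
    (fun x _ => by rw [permFun_permFun, mul_inv_cancel, permFun_one])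
    (fun _ _ _ _ => rfl) (fun x _ => sqNorm_permFun σ x)

lemma permC_apply (σ : Equiv.Perm GolayPt) (hσ : σ ∈ M24) (v : leechLattice) :
    ((permC σ hσ • v : leechLattice) : GolayPt → ℤ) = permFun σ v.1 := rfl

lemma permC_apply' (σ : Equiv.Perm GolayPt) (hσ : σ ∈ M24) (v : leechLattice) (i : GolayPt) :
    ((permC σ hσ • v : leechLattice) : GolayPt → ℤ) i = (v : GolayPt → ℤ) (σ.symm i) := rfl

/-- sign change on a set of coordinates -/
def signFun (c : Finset GolayPt) (x : GolayPt → ℤ) : GolayPt → ℤ :=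
  fun i => if i ∈ c then -x i else x i

lemma signFun_mem (c : Finset GolayPt) (hc : c ∈ supports (golayCode : Set (GolayPt → ZMod 2)))
    (x : GolayPt → ℤ) (hx : x ∈ leechLattice) : signFun c x ∈ leechLattice :=
  Cfsg.Agent.S0433.result c hc x hx

lemma signFun_signFun (c : Finset GolayPt) (x : GolayPt → ℤ) : signFun c (signFun c x) = x := by
  funext i
  simp only [signFun]
  split_ifs <;> simp

lemma sqNorm_signFun (c : Finset GolayPt) (x : GolayPt → ℤ) : sqNorm (signFun c x) = sqNorm x := by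
  unfold sqNorm
  apply Finset.sum_congr rfl
  intro i _
  simp only [signFun]
  split_ifs <;> ring

lemma signFun_add (c : Finset GolayPt) (x y : GolayPt → ℤ) :
    signFun c (x + y) = signFun c x + signFun c y := by
  funext i
  simp only [signFun, Pi.add_apply]
  split_ifs <;> ring

/-- the automorphism given by sign changes on a codeword -/
def signC (c : Finset GolayPt) (hc : c ∈ supports (golayCode : Set (GolayPt → ZMod 2))) : Co0 :=
  mkCo0 (signFun c) (signFun c) (fun x hx => signFun_mem c hc x hx)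
    (fun x hx => signFun_mem c hc x hx)
    (fun x _ => signFun_signFun c x) (fun x _ => signFun_signFun c x)
    (fun x _ y _ => signFun_add c x y) (fun x _ => sqNorm_signFun c x)

lemma signC_apply (c : Finset GolayPt) (hc : c ∈ supports (golayCode : Set (GolayPt → ZMod 2)))
    (v : leechLattice) :
    ((signC c hc • v : leechLattice) : GolayPt → ℤ) = signFun c v.1 := rfl

lemma mul_smul_coe (g h : Co0) (v : leechLattice) : (g * h) • v = g • (h • v) := rfl

lemma eight_dvd_dot (x y : GolayPt → ℤ) (hx : x ∈ leechLattice) (hy : y ∈ leechLattice) :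
    (8 : ℤ) ∣ dotInt x y := by
  have h1 := Cfsg.Agent.S0392.result x hx
  have h2 := Cfsg.Agent.S0392.result y hy
  have h3 := Cfsg.Agent.S0392.result (x + y) (leechLattice.add_mem hx hy)
  rw [sqNorm_add] at h3
  obtain ⟨a, ha⟩ := h1
  obtain ⟨b, hb⟩ := h2
  obtain ⟨c, hc⟩ := h3
  exact ⟨c - a - b, by linarith⟩

/-- parity of a lattice vector is constant -/
lemma parity_const (x : GolayPt → ℤ) (hx : x ∈ leechLattice) (i j : GolayPt) :
    x i % 2 = x j % 2 := by
  rcases leechSet_cases x ((mem_leechLattice_iff x).mp hx) with ⟨h, -, -⟩ | ⟨h, -, -⟩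
  · rw [h i, h j]
  · rw [h i, h j]

end Cfsg.Agent.Helper27
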