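import Cfsg.Agent.Helper27.Co0Trans
import Cfsg.Agent.Helper28.M24Data
import Cfsg.Prelude.Def_SporadicCombinatorics

set_option autoImplicit false
open Cfsg

namespace Cfsg.Agent.Helper27

open scoped Pointwise

/-- the automorphism stabilises the standard cross -/
def stabP (g : Co0) : Prop :=
  ∀ v : leechLattice, (v : GolayPt → ℤ) ∈ stdCross →
    ((g • v : leechLattice) : GolayPt → ℤ) ∈ stdCross

lemma leechE_eq (i : GolayPt) : (leechE i : GolayPt → ℤ) = Pi.single i 8 := by
  funext j
  rw [leechE_apply, Pi.single_apply]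

lemma leechE_std (i : GolayPt) : (leechE i : GolayPt → ℤ) ∈ stdCross :=
  ⟨i, 8, Or.inl rfl, leechE_eq i⟩

lemma dot_single (k : GolayPt) (a : ℤ) (x : GolayPt → ℤ) : dotInt (Pi.single k a) x = a * x k := by
  unfold dotInt
  rw [Finset.sum_eq_single k]
  · rw [Pi.single_eq_same]
  · intro l _ hl
    rw [Pi.single_eq_of_ne hl, zero_mul]
  · intro h
    exact absurd (Finset.mem_univ k) h

lemma co0_ext (g g' : Co0)
    (h : ∀ v : leechLattice, ((g • v : leechLattice) : GolayPt → ℤ) = ((g' • v : leechLattice) : GolayPt → ℤ)) :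
    g = g' :=
  Subtype.ext (Equiv.ext fun v => Subtype.ext (h v))

/-- the monomial automorphism with permutation part `σ` and sign set `c` -/
def monoC (σ : Equiv.Perm GolayPt) (hσ : σ ∈ M24) (c : Finset GolayPt)
    (hc : c ∈ supports (golayCode : Set (GolayPt → ZMod 2))) : Co0 :=
  signC c hc * permC σ hσ

lemma monoC_apply (σ : Equiv.Perm GolayPt) (hσ : σ ∈ M24) (c : Finset GolayPt)
    (hc : c ∈ supports (golayCode : Set (GolayPt → ZMod 2))) (v : leechLattice) :
    ((monoC σ hσ c hc • v : leechLattice) : GolayPt → ℤ) = signedPerm σ c v.1 := rfl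

lemma signedPerm_single (σ : Equiv.Perm GolayPt) (c : Finset GolayPt) (i : GolayPt) (s : ℤ) :
    signedPerm σ c (Pi.single i s) = Pi.single (σ i) (if σ i ∈ c then -s else s) := by
  funext k
  unfold signedPerm
  by_cases hk : k = σ i
  · subst hk
    rw [Equiv.symm_apply_apply, Pi.single_eq_same, Pi.single_eq_same]
  · have h2 : σ.symm k ≠ i := fun h => hk (by rw [← h, Equiv.apply_symm_apply])
    rw [Pi.single_eq_of_ne h2, Pi.single_eq_of_ne hk]
    simp

lemma stab_mono (σ : Equiv.Perm GolayPt) (hσ : σ ∈ M24) (c : Finset GolayPt)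
    (hc : c ∈ supports (golayCode : Set (GolayPt → ZMod 2))) : stabP (monoC σ hσ c hc) := by
  rintro v ⟨i, s, hs, hv⟩
  rw [monoC_apply, hv, signedPerm_single]
  refine ⟨σ i, _, ?_, rfl⟩
  rcases hs with rfl | rfl <;> split_ifs <;> simp

lemma mono_of_stab (g : Co0) (h : stabP g) :
    ∃ (σ : Equiv.Perm GolayPt) (c : Finset GolayPt), σ ∈ M24 ∧
      c ∈ supports (golayCode : Set (GolayPt → ZMod 2)) ∧
      ∀ v : leechLattice, ((g • v : leechLattice) : GolayPt → ℤ) = signedPerm σ c v.1 := by
  have h1 : ∀ i, ∃ (k : GolayPt) (s : ℤ), (s = 8 ∨ s = -8) ∧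
      ((g • leechE i : leechLattice) : GolayPt → ℤ) = Pi.single k s :=
    fun i => h (leechE i) (leechE_std i)
  choose π s hs hπ using h1
  have hinj : Function.Injective π := by
    intro i j hij
    by_contra hne
    have hd := co0_dot g (leechE i) (leechE j)
    rw [hπ i, hπ j, hij, dot_single, Pi.single_eq_same, leechE_eq i, dot_single, leechE_apply,
      if_neg hne] at hd
    rcases hs i with h1 | h1 <;> rcases hs j with h2 | h2 <;> rw [h1, h2] at hd <;>
      norm_num at hd
  have hbij : Function.Bijective π := Finite.injective_iff_bijective.mp hinj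
  let σ : Equiv.Perm GolayPt := Equiv.ofBijective π hbij
  have hσ : ∀ i, σ i = π i := fun i => rfl
  let c : Finset GolayPt := Finset.univ.filter fun k => s (σ.symm k) = -8
  have hcmem : ∀ k, k ∈ c ↔ s (σ.symm k) = -8 := by
    intro k
    simp only [c, Finset.mem_filter, Finset.mem_univ, true_and]
  have key : ∀ v : leechLattice,
      ((g • v : leechLattice) : GolayPt → ℤ) = signedPerm σ c v.1 := by
    intro v
    funext j
    have hk := cmat_key (fun v => g • v) (co0_add g) v j
    have hc : ∀ i, cmat (fun v => g • v) j i = if i = σ.symm j then s i else 0 := by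
      intro i
      show ((g • leechE i : leechLattice) : GolayPt → ℤ) j = _
      rw [hπ i, Pi.single_apply]
      have e : j = π i ↔ i = σ.symm j := by
        rw [Equiv.eq_symm_apply, hσ]
        exact eq_comm
      simp only [e]
    simp only [hc] at hk
    rw [Finset.sum_eq_single (σ.symm j)] at hk
    · rw [if_pos rfl] at hk
      unfold signedPerm
      by_cases hj : j ∈ c
      · rw [if_pos hj]
        rw [(hcmem j).mp hj] at hk
        omega
      · rw [if_neg hj]
        have h8 : s (σ.symm j) = 8 := by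
          rcases hs (σ.symm j) with h | h
          · exact h
          · exact absurd ((hcmem j).mpr h) hj
        rw [h8] at hk
        omega
    · intro i _ hi
      rw [if_neg hi, zero_mul]
    · intro h
      exact absurd (Finset.mem_univ _) h
  refine ⟨σ, c, ?_, ?_, key⟩
  · rw [Cfsg.Agent.Helper28.Golay.mem_M24_iff_forall]
    intro d hd
    obtain ⟨hDE, -⟩ := code_facts Cfsg.Agent.S0359.result
    have hx : sv 2 d ∅ ∈ leechLattice :=
      (mem_leechLattice_iff _).mpr (sv2_mem' d ∅ hd (Finset.empty_subset _) (by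
        obtain ⟨q, hq⟩ := hDE d hd
        rw [hq]
        push_cast
        simp only [Finset.card_empty, Nat.cast_zero]
        omega))
    have hy := key ⟨_, hx⟩
    have hyL := (g • (⟨_, hx⟩ : leechLattice)).2
    rcases leechSet_cases _ ((mem_leechLattice_iff _).mp hyL) with ⟨-, -, hA⟩ | ⟨ho, -, -⟩
    · have e : (Finset.univ.filter fun i =>
          ((g • (⟨_, hx⟩ : leechLattice) : leechLattice) : GolayPt → ℤ) i % 4 = 2) = σ • d := by
        ext k
        rw [mem_smul_iff, Finset.mem_filter, hy]
        simp only [Finset.mem_univ, true_and, signedPerm, sv]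
        by_cases hk : σ.symm k ∈ d <;> by_cases hc : k ∈ c <;> simp [hk, hc]
      rw [← e]
      exact hA
    · exfalso
      have := ho none
      rw [hy] at this
      simp only [signedPerm, sv] at this
      split_ifs at this <;> omega
  · have hx : uvec ∅ none ∈ leechLattice :=
      (mem_leechLattice_iff _).mpr (uvec_mem ∅ none Spor.empty_mem_supports_golayCode)
    have hy := key ⟨_, hx⟩
    have hyL := (g • (⟨_, hx⟩ : leechLattice)).2
    have hx1 : ∀ k, uvec ∅ none k % 4 = 1 := by
      intro k
      unfold uvec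
      by_cases hk : k = none <;> simp [hk]
    rcases leechSet_cases _ ((mem_leechLattice_iff _).mp hyL) with ⟨he, -, -⟩ | ⟨-, -, hA⟩
    · exfalso
      have h1 := he none
      rw [hy] at h1
      simp only [signedPerm] at h1
      have := hx1 (σ.symm none)
      split_ifs at h1 <;> omega
    · have e : (Finset.univ.filter fun i =>
          ((g • (⟨_, hx⟩ : leechLattice) : leechLattice) : GolayPt → ℤ) i % 4 = 3) = c := by
        ext k
        rw [Finset.mem_filter, hy]
        simp only [Finset.mem_univ, true_and, signedPerm]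
        have := hx1 (σ.symm k)
        by_cases hc : k ∈ c
        · rw [if_pos hc]
          constructor
          · intro _; exact hc
          · intro _; omega
        · rw [if_neg hc]
          constructor
          · intro h; omega
          · intro h; exact absurd h hc
      rw [← e]
      exact hA

lemma mono_inj (σ σ' : Equiv.Perm GolayPt) (c c' : Finset GolayPt)
    (h : ∀ v : leechLattice, signedPerm σ c v.1 = signedPerm σ' c' v.1) : σ = σ' ∧ c = c' := by
  have hσ : σ = σ' := by
    apply Equiv.ext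
    intro i
    have h1 := congrFun (h (leechE i)) (σ i)
    rw [leechE_eq, signedPerm_single, signedPerm_single, Pi.single_eq_same] at h1
    by_contra hne
    rw [Pi.single_eq_of_ne hne] at h1
    split_ifs at h1 <;> omega
  subst hσ
  refine ⟨rfl, ?_⟩
  ext k
  have h1 := congrFun (h (leechE (σ.symm k))) k
  rw [leechE_eq, signedPerm_single, signedPerm_single, Equiv.apply_symm_apply,
    Pi.single_eq_same, Pi.single_eq_same] at h1
  by_cases h2 : k ∈ c <;> by_cases h3 : k ∈ c'
  · exact ⟨fun _ => h3, fun _ => h2⟩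
  · rw [if_pos h2, if_neg h3] at h1; omega
  · rw [if_neg h2, if_pos h3] at h1; omega
  · exact ⟨fun h => absurd h h2, fun h => absurd h h3⟩

lemma card_stab : Nat.card {g : Co0 // stabP g} = 4096 * 244823040 := by
  let F : (↥M24 × ↥(Cfsg.Agent.S0394.allCW)) → {g : Co0 // stabP g} := fun p =>
    ⟨monoC p.1.1 p.1.2 p.2.1 ((Cfsg.Agent.S0394.mem_allCW _).mp p.2.2),
      stab_mono p.1.1 p.1.2 p.2.1 ((Cfsg.Agent.S0394.mem_allCW _).mp p.2.2)⟩
  have hF : Function.Bijective F := by
    constructor
    · rintro ⟨⟨σ, hσ⟩, ⟨c, hc⟩⟩ ⟨⟨σ', hσ'⟩, ⟨c', hc'⟩⟩ hp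
      have h1 : monoC σ hσ c ((Cfsg.Agent.S0394.mem_allCW _).mp hc)
          = monoC σ' hσ' c' ((Cfsg.Agent.S0394.mem_allCW _).mp hc') := congrArg Subtype.val hp
      have h2 := mono_inj σ σ' c c' (fun v => by
        rw [← monoC_apply σ hσ c ((Cfsg.Agent.S0394.mem_allCW _).mp hc),
          ← monoC_apply σ' hσ' c' ((Cfsg.Agent.S0394.mem_allCW _).mp hc'), h1])
      obtain ⟨rfl, rfl⟩ := h2
      rfl
    · rintro ⟨g, hg⟩
      obtain ⟨σ, c, hσ, hc, key⟩ := mono_of_stab g hg
      refine ⟨⟨⟨σ, hσ⟩, ⟨c, (Cfsg.Agent.S0394.mem_allCW _).mpr hc⟩⟩, ?_⟩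
      apply Subtype.ext
      apply co0_ext
      intro v
      rw [key v]
      rfl
  rw [← Nat.card_congr (Equiv.ofBijective F hF), Nat.card_prod,
    Cfsg.Agent.Helper28.Golay.card_M24, Nat.card_eq_fintype_card, Fintype.card_coe,
    Cfsg.Agent.S0394.card_allCW]

end Cfsg.Agent.Helper27
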