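import Cfsg.Agent.Helper27.Co0Mono

set_option autoImplicit false
open Cfsg

namespace Cfsg.Agent.Helper27

open scoped Pointwise
open Cfsg.Agent.Helper28.Golay (trans1 trans2 toSet mem_toSet toSet_mem_supports_iff isCW
  smul_mem_supports)

lemma dotInt_comm (x y : GolayPt → ℤ) : dotInt x y = dotInt y x := by
  unfold dotInt
  apply Finset.sum_congr rfl
  intro i _
  ring

lemma sqNorm_single (i : GolayPt) (s : ℤ) : sqNorm (Pi.single i s : GolayPt → ℤ) = s ^ 2 := by
  unfold sqNorm
  rw [Finset.sum_eq_single i]
  · rw [Pi.single_eq_same]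
  · intro l _ hl
    rw [Pi.single_eq_of_ne hl]
    norm_num
  · intro h
    exact absurd (Finset.mem_univ i) h

lemma single_mem (i : GolayPt) (s : ℤ) (hs : s = 8 ∨ s = -8) :
    (Pi.single i s : GolayPt → ℤ) ∈ leechLattice := by
  rcases hs with rfl | rfl
  · rw [← leechE_eq]
    exact (leechE i).2
  · have h := leechLattice.neg_mem (leechE i).2
    rw [leechE_eq, ← Pi.single_neg] at h
    exact h

/-- the members of the standard cross are congruent to each other -/
lemma single_cong (i : GolayPt) (s : ℤ) (hs : s = 8 ∨ s = -8) :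
    ∃ z ∈ leechLattice, (Pi.single i s : GolayPt → ℤ) - Pi.single none 8 = 2 • z := by
  refine ⟨Pi.single i (s / 2) - Pi.single none 4, ?_, ?_⟩
  · rw [mem_leechLattice_iff]
    apply mem_leechSet_of_even
    · intro k
      simp only [Pi.sub_apply, Pi.single_apply]
      rcases hs with rfl | rfl <;> split_ifs <;> norm_num
    · simp only [Pi.sub_apply]
      rw [Finset.sum_sub_distrib, Finset.sum_pi_single', Finset.sum_pi_single']
      simp only [Finset.mem_univ, if_true]
      rcases hs with rfl | rfl <;> norm_num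
    · apply empty_filter_mem
      intro k
      simp only [Pi.sub_apply, Pi.single_apply]
      rcases hs with rfl | rfl <;> split_ifs <;> norm_num
  · funext k
    simp only [Pi.sub_apply, Pi.single_apply, Pi.smul_apply, nsmul_eq_mul]
    rcases hs with rfl | rfl <;> split_ifs <;> norm_num

/-- the lattice vectors of sum of squares 64 congruent to a member of the standard cross all
belong to the standard cross -/
lemma cross_std (y : GolayPt → ℤ) (hy : y ∈ leechLattice) (hn : sqNorm y = 64)
    (hc : ∃ z ∈ leechLattice, y - Pi.single none 8 = 2 • z) : y ∈ stdCross := by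
  by_contra hns
  have h0 : ∀ i, y i = 0 := by
    intro i
    obtain ⟨z, hz, hyz⟩ := hc
    obtain ⟨z', hz', hez⟩ := single_cong i 8 (Or.inl rfl)
    have hc2 : ∃ w ∈ leechLattice, y - Pi.single i 8 = 2 • w :=
      ⟨z - z', leechLattice.sub_mem hz hz', by rw [smul_sub, ← hyz, ← hez]; abel⟩
    have hne : y ≠ Pi.single i 8 := fun h => hns ⟨i, 8, Or.inl rfl, h⟩
    rcases Cfsg.Agent.S5592.result y (Pi.single i 8) hy (single_mem i 8 (Or.inl rfl)) hne
      (le_of_eq hn) (le_of_eq (by rw [sqNorm_single]; norm_num)) hc2 with h | ⟨-, -, hd⟩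
    · exfalso
      apply hns
      refine ⟨i, -8, Or.inr rfl, ?_⟩
      rw [h, Pi.single_neg]
    · rw [dotInt_comm, dot_single] at hd
      omega
  have : y = 0 := funext h0
  rw [this, sqNorm_zero'] at hn
  norm_num at hn

lemma permC_inv (σ : Equiv.Perm GolayPt) (hσ : σ ∈ M24) :
    (permC σ hσ)⁻¹ = permC σ⁻¹ (M24.inv_mem hσ) := by
  apply inv_eq_of_mul_eq_one_right
  apply co0_ext
  intro v
  show permFun σ (permFun σ⁻¹ v.1) = v.1
  rw [permFun_permFun, mul_inv_cancel, permFun_one]

lemma signC_inv (c : Finset GolayPt) (hc : c ∈ supports (golayCode : Set (GolayPt → ZMod 2))) :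
    (signC c hc)⁻¹ = signC c hc := by
  apply inv_eq_of_mul_eq_one_right
  apply co0_ext
  intro v
  exact signFun_signFun c v.1

lemma permFun_single (σ : Equiv.Perm GolayPt) (i : GolayPt) (s : ℤ) :
    permFun σ (Pi.single i s) = Pi.single (σ i) s := by
  funext k
  simp only [permFun, Pi.single_apply, Equiv.symm_apply_eq]

lemma signFun_single (c : Finset GolayPt) (i : GolayPt) (s : ℤ) :
    signFun c (Pi.single i s) = Pi.single i (if i ∈ c then -s else s) := by
  funext k
  simp only [signFun, Pi.single_apply]
  by_cases hk : k = i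
  · subst hk
    simp
  · simp [hk]

lemma stab_perm (σ : Equiv.Perm GolayPt) (hσ : σ ∈ M24) : stabP (permC σ hσ) := by
  rintro v ⟨i, s, hs, hv⟩
  show permFun σ v.1 ∈ stdCross
  rw [hv, permFun_single]
  exact ⟨σ i, s, hs, rfl⟩

lemma stab_sign (c : Finset GolayPt) (hc : c ∈ supports (golayCode : Set (GolayPt → ZMod 2))) :
    stabP (signC c hc) := by
  rintro v ⟨i, s, hs, hv⟩
  show signFun c v.1 ∈ stdCross
  rw [hv, signFun_single]
  refine ⟨i, _, ?_, rfl⟩
  rcases hs with rfl | rfl <;> split_ifs <;> simp

lemma stab_neg : stabP negC := by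
  rintro v ⟨i, s, hs, hv⟩
  show -v.1 ∈ stdCross
  rw [hv, ← Pi.single_neg]
  refine ⟨i, -s, ?_, rfl⟩
  rcases hs with rfl | rfl <;> simp

lemma stab_mul (g h : Co0) (hg : stabP g) (hh : stabP h) : stabP (g * h) :=
  fun v hv => hg (h • v) (hh v hv)

lemma stab_inv (g : Co0) (hg : stabP g) : stabP g⁻¹ := by
  obtain ⟨σ, c, hσ, hc, key⟩ := mono_of_stab g hg
  have e : g = monoC σ hσ c hc := co0_ext _ _ (fun v => by rw [key v]; rfl)
  rw [e, monoC, mul_inv_rev, permC_inv, signC_inv]
  exact stab_mul _ _ (stab_perm _ _) (stab_sign _ _)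

/-- the stabiliser of the standard cross -/
def Hsub : Subgroup Co0 where
  carrier := {g | stabP g}
  mul_mem' := fun hg hh => stab_mul _ _ hg hh
  one_mem' := fun _ hv => hv
  inv_mem' := fun hg => stab_inv _ hg

lemma mem_Hsub (g : Co0) : g ∈ Hsub ↔ stabP g := Iff.rfl

lemma card_Hsub : Nat.card Hsub = 4096 * 244823040 := card_stab

/-- the reference vector of the standard cross -/
def x0 : leechLattice := leechE none

lemma x0_coe : (x0 : GolayPt → ℤ) = Pi.single none 8 := leechE_eq none

lemma fix_stab (g : Co0) (hg : g • x0 = x0) : stabP g := by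
  rintro v ⟨i, s, hs, hv⟩
  apply cross_std _ (g • v).2
  · rw [co0_norm, hv, sqNorm_single]
    rcases hs with rfl | rfl <;> norm_num
  · have hc := co0_cong g v x0 (by rw [hv, x0_coe]; exact single_cong i s hs)
    rw [hg, x0_coe] at hc
    exact hc

lemma orbit_x0 : MulAction.orbit Co0 x0 = {v : leechLattice | sqNorm v.1 = 64} := by
  ext v
  constructor
  · rintro ⟨g, rfl⟩
    show sqNorm (g • x0).1 = 64
    rw [co0_norm]
    exact sqNorm_leechE none
  · intro hv
    obtain ⟨g1, h1⟩ := trans64 v hv
    obtain ⟨g2, h2⟩ := trans64 x0 (sqNorm_leechE none)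
    refine ⟨g1⁻¹ * g2, ?_⟩
    have e : g2 • x0 = g1 • v := Subtype.ext (h2.trans h1.symm)
    show (g1⁻¹ * g2) • x0 = v
    rw [mul_smul, e, inv_smul_smul]

lemma ncard_shell64 :
    ({v : leechLattice | sqNorm v.1 = 64} : Set leechLattice).ncard = 398034000 := by
  rw [← Cfsg.Agent.S0396.result, ← Set.ncard_image_of_injective _ Subtype.val_injective]
  congr 1
  ext x
  constructor
  · rintro ⟨v, hv, rfl⟩
    exact ⟨v.2, hv⟩
  · rintro ⟨hx, hn⟩
    exact ⟨⟨x, hx⟩, hn, rfl⟩

lemma orbit_H : MulAction.orbit Hsub x0 = {v : leechLattice | v.1 ∈ stdCross} := by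
  ext v
  constructor
  · rintro ⟨h, rfl⟩
    exact h.2 x0 (leechE_std none)
  · rintro ⟨i, s, hs, hv⟩
    obtain ⟨σ, hσ, hσi⟩ := trans1 none i
    rcases hs with rfl | rfl
    · refine ⟨⟨permC σ hσ, stab_perm σ hσ⟩, ?_⟩
      apply Subtype.ext
      show permFun σ x0.1 = v.1
      rw [hv, x0_coe, permFun_single, hσi]
    · refine ⟨⟨negC * permC σ hσ, stab_mul _ _ stab_neg (stab_perm σ hσ)⟩, ?_⟩
      apply Subtype.ext
      show -(permFun σ x0.1) = v.1
      rw [hv, x0_coe, permFun_single, hσi, Pi.single_neg]

/-- the 48 members of the standard cross -/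
def crossVec (p : GolayPt × Bool) : leechLattice := if p.2 then leechE p.1 else -leechE p.1

lemma crossVec_coe (p : GolayPt × Bool) :
    (crossVec p : GolayPt → ℤ) = Pi.single p.1 (if p.2 then 8 else -8) := by
  unfold crossVec
  by_cases h : p.2
  · rw [if_pos h, if_pos h, leechE_eq]
  · rw [if_neg h, if_neg h, AddSubgroup.coe_neg, leechE_eq, Pi.single_neg]

lemma crossVec_inj : Function.Injective crossVec := by
  rintro ⟨i, b⟩ ⟨j, b'⟩ h
  have h1 := congrArg (fun u : leechLattice => (u : GolayPt → ℤ)) h
  simp only [crossVec_coe] at h1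
  have h2 := congrFun h1 i
  rw [Pi.single_eq_same] at h2
  have hij : i = j := by
    by_contra hne
    rw [Pi.single_eq_of_ne hne] at h2
    split_ifs at h2 <;> omega
  subst hij
  rw [Pi.single_eq_same] at h2
  have hb : b = b' := by
    cases b <;> cases b' <;> simp at h2 <;> rfl
  rw [hb]

lemma ncard_S0 : ({v : leechLattice | v.1 ∈ stdCross} : Set leechLattice).ncard = 48 := by
  have e : ({v : leechLattice | v.1 ∈ stdCross} : Set leechLattice) = crossVec '' Set.univ := by
    ext v
    constructor
    · rintro ⟨i, s, hs, hv⟩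
      rcases hs with rfl | rfl
      · exact ⟨(i, true), Set.mem_univ _, Subtype.ext (by rw [crossVec_coe, hv]; rfl)⟩
      · exact ⟨(i, false), Set.mem_univ _, Subtype.ext (by rw [crossVec_coe, hv]; rfl)⟩
    · rintro ⟨p, -, rfl⟩
      refine ⟨p.1, _, ?_, crossVec_coe p⟩
      split_ifs <;> simp
  rw [e, Set.ncard_image_of_injective _ crossVec_inj, Set.ncard_univ, Nat.card_eq_fintype_card]
  decide

/-- the order of the automorphism group of the lattice -/
theorem card_Co0 : Nat.card Co0 = 8315553613086720000 := by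
  have h1 := Subgroup.index_mul_card (MulAction.stabilizer Co0 x0)
  rw [MulAction.index_stabilizer, orbit_x0, ncard_shell64] at h1
  have h2 := Subgroup.index_mul_card (MulAction.stabilizer Hsub x0)
  rw [MulAction.index_stabilizer, orbit_H, ncard_S0, card_Hsub] at h2
  have h4 : Nat.card (MulAction.stabilizer Hsub x0) = Nat.card (MulAction.stabilizer Co0 x0) :=
    Nat.card_congr
      { toFun := fun h => ⟨h.1.1, h.2⟩
        invFun := fun k => ⟨⟨k.1, fix_stab k.1 k.2⟩, k.2⟩
        left_inv := fun _ => rfl
        right_inv := fun _ => rfl }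
  rw [h4] at h2
  generalize Nat.card (MulAction.stabilizer Co0 x0) = k at h1 h2
  omega

/-! ### the centre -/

lemma sep_cw (i k : GolayPt) (h : k ≠ i) :
    ∃ c ∈ supports (golayCode : Set (GolayPt → ZMod 2)), k ∈ c ∧ i ∉ c := by
  obtain ⟨σ, hσ, h1, h2⟩ := trans2 (some 0) (some 5) k i (by decide) h
  have hc0 : toSet 5279 ∈ supports (golayCode : Set (GolayPt → ZMod 2)) :=
    (toSet_mem_supports_iff (by norm_num)).mpr (by decide +kernel)
  refine ⟨σ • toSet 5279, smul_mem_supports hσ hc0, ?_, ?_⟩
  · rw [mem_smul_iff, ← h1, Equiv.symm_apply_apply, mem_toSet]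
    decide +kernel
  · rw [mem_smul_iff, ← h2, Equiv.symm_apply_apply, mem_toSet]
    decide +kernel

lemma negC_ne_one : negC ≠ 1 := by
  intro h
  have h1 := congrArg (fun g : Co0 => ((g • x0 : leechLattice) : GolayPt → ℤ) none) h
  simp only [negC_apply, one_smul, x0_coe, Pi.neg_apply, Pi.single_eq_same] at h1
  omega

lemma negC_comm (g : Co0) : g * negC = negC * g := by
  apply co0_ext
  intro v
  have e : negC • v = -v := Subtype.ext (negC_apply v)
  rw [mul_smul_coe, mul_smul_coe, e, co0_neg, negC_apply]
  rfl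

lemma center_cases (z : Co0) (hz : z ∈ Subgroup.center Co0) : z = 1 ∨ z = negC := by
  rw [Subgroup.mem_center_iff] at hz
  -- the image of each frame vector is supported on the same coordinate
  have hsupp : ∀ i k, k ≠ i → ((z • leechE i : leechLattice) : GolayPt → ℤ) k = 0 := by
    intro i k hk
    obtain ⟨c, hc, hkc, hic⟩ := sep_cw i k hk
    have e1 : signC c hc • leechE i = leechE i := by
      apply Subtype.ext
      rw [signC_apply, leechE_eq, signFun_single, if_neg hic]
    have e2 := congrArg (fun g : Co0 => g • leechE i) (hz (signC c hc))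
    simp only [mul_smul_coe] at e2
    rw [e1] at e2
    have e3 := congrFun (congrArg (fun u : leechLattice => (u : GolayPt → ℤ)) e2) k
    simp only [signC_apply, signFun, if_pos hkc] at e3
    omega
  have hval : ∀ i, ((z • leechE i : leechLattice) : GolayPt → ℤ) i = 8 ∨
      ((z • leechE i : leechLattice) : GolayPt → ℤ) i = -8 := by
    intro i
    have hn := co0_norm z (leechE i)
    rw [sqNorm_leechE] at hn
    unfold sqNorm at hn
    rw [Finset.sum_eq_single i] at hn
    · have h1 : -8 ≤ ((z • leechE i : leechLattice) : GolayPt → ℤ) i ∧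
          ((z • leechE i : leechLattice) : GolayPt → ℤ) i ≤ 8 := by constructor <;> nlinarith
      have h2 : ((z • leechE i : leechLattice) : GolayPt → ℤ) i ≠ 0 := by
        intro h0
        rw [h0] at hn
        norm_num at hn
      generalize ((z • leechE i : leechLattice) : GolayPt → ℤ) i = a at hn h1 h2
      have h3 : a = 8 ∨ a = -8 := by
        by_contra hne
        push Not at hne
        have h4 : a ^ 2 < 64 := by
          have : -7 ≤ a ∧ a ≤ 7 := by omega
          nlinarith
        omega
      exact h3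
    · intro k _ hk
      rw [hsupp i k hk]
      norm_num
    · intro h
      exact absurd (Finset.mem_univ i) h
  -- the sign is constant
  have hconst : ∀ i, ((z • leechE i : leechLattice) : GolayPt → ℤ) i
      = ((z • leechE none : leechLattice) : GolayPt → ℤ) none := by
    intro i
    obtain ⟨σ, hσ, hσi⟩ := trans1 none i
    have e1 : permC σ hσ • leechE none = leechE i := by
      apply Subtype.ext
      rw [permC_apply, leechE_eq, permFun_single, hσi, leechE_eq]
    have e2 := congrArg (fun g : Co0 => g • leechE none) (hz (permC σ hσ))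
    simp only [mul_smul_coe] at e2
    rw [e1] at e2
    have e3 := congrFun (congrArg (fun u : leechLattice => (u : GolayPt → ℤ)) e2) i
    simp only [permC_apply, permFun] at e3
    rw [← hσi, Equiv.symm_apply_apply] at e3
    rw [← hσi]
    exact e3.symm
  have key : ∀ (v : leechLattice) (j : GolayPt), 8 * ((z • v : leechLattice) : GolayPt → ℤ) j
      = ((z • leechE none : leechLattice) : GolayPt → ℤ) none * v.1 j := by
    intro v j
    have hk := cmat_key (fun v => z • v) (co0_add z) v j
    rw [hk, Finset.sum_eq_single j]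
    · show ((z • leechE j : leechLattice) : GolayPt → ℤ) j * v.1 j = _
      rw [hconst j]
    · intro i _ hi
      show ((z • leechE i : leechLattice) : GolayPt → ℤ) j * v.1 i = 0
      rw [hsupp i j (Ne.symm hi), zero_mul]
    · intro h
      exact absurd (Finset.mem_univ j) h
  rcases hval none with h8 | h8
  · left
    apply co0_ext
    intro v
    funext j
    have := key v j
    rw [h8] at this
    rw [one_smul]
    omega
  · right
    apply co0_ext
    intro v
    funext j
    have := key v j
    rw [h8] at this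
    rw [negC_apply, Pi.neg_apply]
    omega

theorem card_center : Nat.card (Subgroup.center Co0) = 2 := by
  have e : ((Subgroup.center Co0 : Subgroup Co0) : Set Co0) = {1, negC} := by
    ext z
    constructor
    · intro hz
      rcases center_cases z hz with h | h
      · rw [h]; exact Set.mem_insert _ _
      · rw [h]; exact Set.mem_insert_of_mem _ rfl
    · rintro (rfl | rfl)
      · exact Subgroup.one_mem _
      · rw [SetLike.mem_coe, Subgroup.mem_center_iff]
        exact negC_comm
  have h1 : Nat.card (Subgroup.center Co0) = ((Subgroup.center Co0 : Subgroup Co0) : Set Co0).ncard :=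
    Nat.card_coe_set_eq _
  rw [h1, e, Set.ncard_pair (Ne.symm negC_ne_one)]

end Cfsg.Agent.Helper27
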