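import Cfsg.Agent.Helper27.Co2Stab

set_option autoImplicit false
open Cfsg

namespace Cfsg.Agent.Helper27

/-- minimal vectors orthogonal to the reference vector -/
def Good0 (w : leechLattice) : Prop := sqNorm w.1 = 32 ∧ w.1 pa = w.1 pb

lemma good0_stab (g : Co0) (hg : g • v0 = v0) (w : leechLattice) (h : Good0 w) :
    Good0 (g • w) := by
  refine ⟨by rw [co0_norm]; exact h.1, ?_⟩
  have := stab_dot g hg w
  have := h.2
  omega

lemma orth_A (w : leechLattice) (h : Good0 w) (i : GolayPt) (hi : w.1 i % 4 = 2) :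
    ∃ g : Co0, g • v0 = v0 ∧ ∀ k, ((g • w : leechLattice) : GolayPt → ℤ) k % 2 = 1 := by
  obtain ⟨hDE, hMin⟩ := code_facts Cfsg.Agent.S0359.result
  have hev : ∀ k, w.1 k % 2 = 0 := fun k => by
    have := parity_const w.1 w.2 k i
    omega
  have hA : (Finset.univ.filter fun k => w.1 k % 4 = 2) ∈
      supports (golayCode : Set (GolayPt → ZMod 2)) := by
    rcases leechSet_cases w.1 ((mem_leechLattice_iff _).mp w.2) with ⟨-, -, hA⟩ | ⟨ho, -, -⟩
    · exact hA
    · exfalso
      have := ho i
      have := hev i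
      omega
  have hmem : ∀ k, k ∈ (Finset.univ.filter fun k => w.1 k % 4 = 2) ↔ w.1 k % 4 = 2 := fun k => by
    simp
  have hne : (Finset.univ.filter fun k => w.1 k % 4 = 2).Nonempty := ⟨i, (hmem i).mpr hi⟩
  have h8 := hMin _ hA hne
  have h4 := four_card_le w.1
  rw [h.1] at h4
  have hp : ∃ p ∈ (Finset.univ.filter fun k => w.1 k % 4 = 2), p ≠ pa ∧ p ≠ pb := by
    by_contra hcon
    have hsub : (Finset.univ.filter fun k => w.1 k % 4 = 2) ⊆ {pa, pb} := by
      intro p hp
      rw [Finset.mem_insert, Finset.mem_singleton]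
      by_cases h1 : p = pa
      · exact Or.inl h1
      · right
        by_contra h2
        exact hcon ⟨p, hp, h1, h2⟩
    have h1 := Finset.card_le_card hsub
    have h2 : ({pa, pb} : Finset GolayPt).card ≤ 2 := Finset.card_le_two
    omega
  obtain ⟨p, hpc, hpa, hpb⟩ := hp
  obtain ⟨q, hqc, hqa, hqb, hqp⟩ :=
    exists_not_pair (Finset.univ.filter fun k => w.1 k % 4 = 2) (by omega) p
  obtain ⟨g, hg, hgw⟩ := move_v0 w p q hpa hpb hqa hqb (Ne.symm hqp)
  refine ⟨g, hg, fun k => ?_⟩
  have hp2 : w.1 p % 4 = 2 := (hmem p).mp hpc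
  have hq0 : w.1 q % 4 = 0 := by
    have : ¬ w.1 q % 4 = 2 := fun h' => hqc ((hmem q).mpr h')
    have := hev q
    omega
  have hpar := parity_const (g • w).1 (g • w).2 k pa
  have := h.2
  omega

lemma orth_B (w : leechLattice) (h : Good0 w) (h4 : ∀ k, w.1 k % 4 = 0) (p : GolayPt)
    (hpa : p ≠ pa) (hpb : p ≠ pb) (hp : w.1 p % 8 = 4) :
    ∃ g : Co0, g • v0 = v0 ∧ ∀ k, ((g • w : leechLattice) : GolayPt → ℤ) k % 2 = 1 := by
  have hcard := card_le_of_sq w.1 (fun k => w.1 k % 8 = 4) 16 (by norm_num) (fun k hk => by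
    have h' : w.1 k ≥ 4 ∨ w.1 k ≤ -4 := by omega
    rcases h' with h' | h' <;> nlinarith)
  rw [h.1] at hcard
  obtain ⟨q, hqF, hqa, hqb, hqp⟩ :=
    exists_not_pair (Finset.univ.filter fun k => w.1 k % 8 = 4) (by omega) p
  have hq0 : w.1 q % 8 = 0 := by
    have : ¬ w.1 q % 8 = 4 := fun h' => hqF (by simp [h'])
    have := h4 q
    omega
  obtain ⟨g, hg, hgw⟩ := move_v0 w p q hpa hpb hqa hqb (Ne.symm hqp)
  have h2 : ((g • w : leechLattice) : GolayPt → ℤ) pa % 4 = 2 := by
    have := h.2
    omega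
  obtain ⟨g', hg', hodd⟩ := orth_A (g • w) (good0_stab g hg w h) pa h2
  exact ⟨g' * g, by rw [mul_smul, hg, hg'], hodd⟩

lemma small_zero (w : leechLattice) (hn : sqNorm w.1 = 32) (p : GolayPt) (h8 : w.1 p % 8 = 0) :
    w.1 p = 0 := by
  have hle : w.1 p ^ 2 ≤ 32 := by
    rw [← hn]
    unfold sqNorm
    exact Finset.single_le_sum (fun i _ => sq_nonneg (w.1 i)) (Finset.mem_univ p)
  have : -6 ≤ w.1 p ∧ w.1 p ≤ 6 := by constructor <;> nlinarith
  omega

lemma orth_odd (w : leechLattice) (h : Good0 w) :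
    ∃ g : Co0, g • v0 = v0 ∧ ∀ k, ((g • w : leechLattice) : GolayPt → ℤ) k % 2 = 1 := by
  rcases Int.emod_two_eq_zero_or_one (w.1 none) with he | ho
  · have hev : ∀ k, w.1 k % 2 = 0 := fun k => by
      rw [parity_const w.1 w.2 k none]
      exact he
    by_cases h2 : ∃ i, w.1 i % 4 = 2
    · obtain ⟨i, hi⟩ := h2
      exact orth_A w h i hi
    · have h4 : ∀ k, w.1 k % 4 = 0 := fun k => by
        have := hev k
        have : ¬ w.1 k % 4 = 2 := fun h' => h2 ⟨k, h'⟩
        omega
      by_cases hB : ∃ p, p ≠ pa ∧ p ≠ pb ∧ w.1 p % 8 = 4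
      · obtain ⟨p, hpa, hpb, hp⟩ := hB
        exact orth_B w h h4 p hpa hpb hp
      · have h0 : ∀ p, p ≠ pa → p ≠ pb → w.1 p = 0 := by
          intro p hpa hpb
          apply small_zero w h.1
          have := h4 p
          have : ¬ w.1 p % 8 = 4 := fun h' => hB ⟨p, hpa, hpb, h'⟩
          omega
        obtain ⟨g, hg, hgw⟩ := move_v0 w (some 10) (some 12) (by decide) (by decide)
          (by decide) (by decide) (by decide)
        rw [h0 (some 10) (by decide) (by decide), h0 (some 12) (by decide) (by decide)] at hgw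
        have hy0 : ((g • w : leechLattice) : GolayPt → ℤ) pa = 0 := by
          have := h.2
          omega
        have hG := good0_stab g hg w h
        have key : ∃ g' : Co0, g' • v0 = v0 ∧
            ∀ k, ((g' • (g • w) : leechLattice) : GolayPt → ℤ) k % 2 = 1 := by
          have hyev : ∀ k, ((g • w : leechLattice) : GolayPt → ℤ) k % 2 = 0 := fun k => by
            have := parity_const _ (g • w).2 k pa
            omega
          by_cases h2' : ∃ i, ((g • w : leechLattice) : GolayPt → ℤ) i % 4 = 2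
          · obtain ⟨i, hi⟩ := h2'
            exact orth_A (g • w) hG i hi
          · have h4' : ∀ k, ((g • w : leechLattice) : GolayPt → ℤ) k % 4 = 0 := fun k => by
              have := hyev k
              have : ¬ ((g • w : leechLattice) : GolayPt → ℤ) k % 4 = 2 := fun h' => h2' ⟨k, h'⟩
              omega
            have hex : ∃ p, p ≠ pa ∧ p ≠ pb ∧ ((g • w : leechLattice) : GolayPt → ℤ) p % 8 = 4 := by
              by_contra hcon
              have hz : ∀ p, ((g • w : leechLattice) : GolayPt → ℤ) p = 0 := by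
                intro p
                by_cases h1 : p = pa
                · rw [h1]; exact hy0
                · by_cases h2 : p = pb
                  · rw [h2, ← hG.2]; exact hy0
                  · apply small_zero (g • w) hG.1
                    have := h4' p
                    have : ¬ ((g • w : leechLattice) : GolayPt → ℤ) p % 8 = 4 :=
                      fun h' => hcon ⟨p, h1, h2, h'⟩
                    omega
              have hn := hG.1
              have e0 : ((g • w : leechLattice) : GolayPt → ℤ) = 0 := funext hz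
              rw [e0, sqNorm_zero'] at hn
              norm_num at hn
            obtain ⟨p, hpa, hpb, hp⟩ := hex
            exact orth_B (g • w) hG h4' p hpa hpb hp
        obtain ⟨g', hg', hodd⟩ := key
        exact ⟨g' * g, by rw [mul_smul, hg, hg'], hodd⟩
  · refine ⟨1, one_smul _ _, fun k => ?_⟩
    rw [one_smul, parity_const w.1 w.2 k none]
    exact ho

lemma permFun_neg (σ : Equiv.Perm GolayPt) (x : GolayPt → ℤ) :
    permFun σ (-x) = -permFun σ x := rfl

lemma orth_ref (w : leechLattice) (h : Good0 w) (ho : ∀ k, w.1 k % 2 = 1) :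
    ∃ g : Co0, g • v0 = v0 ∧ (((g • w : leechLattice) : GolayPt → ℤ) = uvec ∅ none ∨
      ((g • w : leechLattice) : GolayPt → ℤ) = -uvec ∅ none) := by
  have hx := (mem_leechLattice_iff w.1).mp w.2
  rcases leechSet_cases w.1 hx with ⟨h2, -, -⟩ | ⟨-, -, hA⟩
  · exfalso
    have := h2 none
    have := ho none
    omega
  · have hmem : ∀ k, k ∈ (Finset.univ.filter fun k => w.1 k % 4 = 3) ↔ w.1 k % 4 = 3 :=
      fun k => by simp
    have hy1 : ∀ k, ((signC _ hA • w : leechLattice) : GolayPt → ℤ) k % 4 = 1 := by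
      intro k
      rw [signC_apply]
      simp only [signFun]
      have := ho k
      by_cases hk : k ∈ (Finset.univ.filter fun k => w.1 k % 4 = 3)
      · rw [if_pos hk]
        have := (hmem k).mp hk
        omega
      · rw [if_neg hk]
        have : ¬ w.1 k % 4 = 3 := fun h' => hk ((hmem k).mpr h')
        omega
    obtain ⟨i, hi⟩ := odd_normal (signC _ hA • w) (by rw [co0_norm]; exact h.1) hy1
    have hab : pa ∈ (Finset.univ.filter fun k => w.1 k % 4 = 3) ↔
        pb ∈ (Finset.univ.filter fun k => w.1 k % 4 = 3) := by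
      rw [hmem, hmem, h.2]
    have hyab : ((signC _ hA • w : leechLattice) : GolayPt → ℤ) pa
        = ((signC _ hA • w : leechLattice) : GolayPt → ℤ) pb := by
      rw [signC_apply]
      simp only [signFun]
      by_cases ha : pa ∈ (Finset.univ.filter fun k => w.1 k % 4 = 3)
      · rw [if_pos ha, if_pos (hab.mp ha), h.2]
      · rw [if_neg ha, if_neg (fun hb => ha (hab.mpr hb)), h.2]
    rw [hi, uvec_empty, uvec_empty] at hyab
    have hia : i ≠ pa := by
      intro hia
      rw [hia] at hyab
      simp at hyab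
      exact absurd hyab (by decide)
    have hib : i ≠ pb := by
      intro hib
      rw [hib] at hyab
      simp at hyab
      exact absurd hyab (by decide)
    obtain ⟨σ, hσ, ea, eb, ei⟩ := three_trans pa pb i pa pb none (by decide) (Ne.symm hia)
      (Ne.symm hib) (by decide) (by decide) (by decide)
    have hperm : permFun σ (uvec ∅ i) = uvec ∅ none := by
      funext k
      have hk : σ.symm k = i ↔ k = none := by rw [Equiv.symm_apply_eq, ei]
      simp only [permFun, uvec_empty, hk]
    by_cases ha : pa ∈ (Finset.univ.filter fun k => w.1 k % 4 = 3)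
    · have hb := hab.mp ha
      refine ⟨permC σ hσ * (negC * signC _ hA), ?_, Or.inr ?_⟩
      · rw [mul_smul, negsignC_v0 _ hA ha hb, permC_v0 σ hσ ea eb]
      · show permFun σ (-((signC _ hA • w : leechLattice) : GolayPt → ℤ)) = -uvec ∅ none
        rw [hi, permFun_neg, hperm]
    · have hb : pb ∉ (Finset.univ.filter fun k => w.1 k % 4 = 3) := fun hb => ha (hab.mpr hb)
      refine ⟨permC σ hσ * signC _ hA, ?_, Or.inl ?_⟩
      · rw [mul_smul, signC_v0 _ hA ha hb, permC_v0 σ hσ ea eb]
      · show permFun σ ((signC _ hA • w : leechLattice) : GolayPt → ℤ) = uvec ∅ none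
        rw [hi, hperm]

theorem orth_trans (w : leechLattice) (h : Good0 w) :
    ∃ g : Co0, g • v0 = v0 ∧ (((g • w : leechLattice) : GolayPt → ℤ) = uvec ∅ none ∨
      ((g • w : leechLattice) : GolayPt → ℤ) = -uvec ∅ none) := by
  obtain ⟨g1, hg1, hodd⟩ := orth_odd w h
  obtain ⟨g2, hg2, hr⟩ := orth_ref (g1 • w) (good0_stab g1 hg1 w h) hodd
  exact ⟨g2 * g1, by rw [mul_smul, hg1, hg2], hr⟩

/-- the stabiliser of a minimal vector is transitive, up to sign, on the minimal vectors
orthogonal to it -/
theorem orth_trans_gen (v w w' : leechLattice) (hv : sqNorm v.1 = 32) (hw : sqNorm w.1 = 32)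
    (hw' : sqNorm w'.1 = 32) (hd : dotInt v.1 w.1 = 0) (hd' : dotInt v.1 w'.1 = 0) :
    ∃ g : Co0, g • v = v ∧ (g • w = w' ∨ g • w = -w') := by
  obtain ⟨g1, h1⟩ := trans32 v hv
  obtain ⟨g2, h2⟩ := trans32 v0 v0_norm
  have e0 : (g2⁻¹ * g1) • v = v0 := by
    have e : g1 • v = g2 • v0 := Subtype.ext (h1.trans h2.symm)
    rw [mul_smul, e, inv_smul_smul]
  set g0 := g2⁻¹ * g1 with hg0
  have good : ∀ u : leechLattice, sqNorm u.1 = 32 → dotInt v.1 u.1 = 0 → Good0 (g0 • u) := by
    intro u hu hdu
    refine ⟨by rw [co0_norm]; exact hu, ?_⟩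
    have h := co0_dot g0 v u
    rw [e0, dot_v0, hdu] at h
    omega
  obtain ⟨h, hh, hr⟩ := orth_trans (g0 • w) (good w hw hd)
  obtain ⟨h', hh', hr'⟩ := orth_trans (g0 • w') (good w' hw' hd')
  have hh'i : h'⁻¹ • v0 = v0 := by rw [inv_smul_eq_iff, hh']
  refine ⟨g0⁻¹ * (h'⁻¹ * (h * g0)), ?_, ?_⟩
  · rw [mul_smul, mul_smul, mul_smul, e0, hh, hh'i, ← e0, inv_smul_smul]
  · have hcase : h • (g0 • w) = h' • (g0 • w') ∨ h • (g0 • w) = -(h' • (g0 • w')) := by
      rcases hr with hr | hr <;> rcases hr' with hr' | hr'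
      · left; exact Subtype.ext (hr.trans hr'.symm)
      · right
        apply Subtype.ext
        rw [AddSubgroup.coe_neg, hr, hr', neg_neg]
      · right
        apply Subtype.ext
        rw [AddSubgroup.coe_neg, hr, hr']
      · left; exact Subtype.ext (hr.trans hr'.symm)
    rcases hcase with hc | hc
    · left
      rw [mul_smul, mul_smul, mul_smul, hc, inv_smul_smul, inv_smul_smul]
    · right
      rw [mul_smul, mul_smul, mul_smul, hc, ← co0_neg, inv_smul_smul, co0_neg, inv_smul_smul]

end Cfsg.Agent.Helper27
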