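import Cfsg.Agent.Helper27.LeechMin
import Cfsg.Agent.S0359

set_option autoImplicit false
open Cfsg

namespace Cfsg.Agent.Helper27

/-- signed scaled indicator vector: `±a` on `T` (minus exactly on `ε`), zero elsewhere -/
def sv (a : ℤ) (T ε : Finset GolayPt) : GolayPt → ℤ :=
  fun k => if k ∈ T then (if k ∈ ε then -a else a) else 0

/-- the odd minimal vector with residue-3 set `c` and exceptional position `i` -/
def uvec (c : Finset GolayPt) (i : GolayPt) : GolayPt → ℤ :=
  fun k => (if k ∈ c then -1 else 1) + (if k = i then (if i ∈ c then 4 else -4) else 0)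

lemma sum_ind (T : Finset GolayPt) : ∑ k, (if k ∈ T then (1 : ℤ) else 0) = T.card := by
  rw [Finset.sum_ite_mem, Finset.univ_inter, Finset.sum_const]
  simp

lemma sum_sv (a : ℤ) (T ε : Finset GolayPt) (h : ε ⊆ T) :
    ∑ k, sv a T ε k = a * ((T.card : ℤ) - 2 * ε.card) := by
  have e : ∀ k, sv a T ε k = a * (if k ∈ T then 1 else 0) - 2 * a * (if k ∈ ε then 1 else 0) := by
    intro k
    unfold sv
    by_cases hT : k ∈ T
    · by_cases hε : k ∈ ε
      · simp only [hT, hε, if_true]; ring
      · simp only [hT, hε, if_true, if_false]; ring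
    · have hε : k ∉ ε := fun hε => hT (h hε)
      simp only [hT, hε, if_false]; ring
  rw [Finset.sum_congr rfl (fun k _ => e k), Finset.sum_sub_distrib, ← Finset.mul_sum,
    ← Finset.mul_sum, sum_ind, sum_ind]
  ring

lemma sqNorm_sv (a : ℤ) (T ε : Finset GolayPt) : sqNorm (sv a T ε) = a ^ 2 * T.card := by
  unfold sqNorm
  have e : ∀ k, sv a T ε k ^ 2 = a ^ 2 * (if k ∈ T then 1 else 0) := by
    intro k
    unfold sv
    by_cases hT : k ∈ T
    · by_cases hε : k ∈ ε
      · simp only [hT, hε, if_true]; ring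
      · simp only [hT, hε, if_true, if_false]; ring
    · simp only [hT, if_false]; ring
  rw [Finset.sum_congr rfl (fun k _ => e k), ← Finset.mul_sum, sum_ind]

lemma empty_filter_mem (x : GolayPt → ℤ) (h : ∀ k, x k % 4 ≠ 2) :
    (Finset.univ.filter fun i => x i % 4 = 2) ∈ supports (golayCode : Set (GolayPt → ZMod 2)) := by
  have e : (Finset.univ.filter fun i => x i % 4 = 2) = ∅ := by
    ext i
    simp only [Finset.mem_filter, Finset.mem_univ, true_and, Finset.notMem_empty, iff_false]
    exact h i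
  rw [e]; exact Spor.empty_mem_supports_golayCode

lemma sv4_mem (T ε : Finset GolayPt) (hT : T.card = 2) (h : ε ⊆ T) : sv 4 T ε ∈ leechSet := by
  apply mem_leechSet_of_even
  · intro k; unfold sv; split_ifs <;> rfl
  · rw [sum_sv 4 T ε h, hT]
    push_cast
    omega
  · apply empty_filter_mem
    intro k; unfold sv; split_ifs <;> decide

lemma sv4_norm (T ε : Finset GolayPt) (hT : T.card = 2) : sqNorm (sv 4 T ε) = 32 := by
  rw [sqNorm_sv, hT]; norm_num

lemma sv2_mem (O ε : Finset GolayPt) (hO : O ∈ octads) (h : ε ⊆ O) (he : Even ε.card) :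
    sv 2 O ε ∈ leechSet := by
  apply mem_leechSet_of_even
  · intro k; unfold sv; split_ifs <;> rfl
  · rw [sum_sv 2 O ε h, hO.2]
    obtain ⟨r, hr⟩ := he
    rw [hr]; push_cast; omega
  · have e : (Finset.univ.filter fun k => sv 2 O ε k % 4 = 2) = O := by
      ext k
      simp only [Finset.mem_filter, Finset.mem_univ, true_and]
      unfold sv
      by_cases hk : k ∈ O
      · by_cases hε : k ∈ ε <;> simp [hk, hε]
      · simp [hk]
    rw [e]; exact hO.1

lemma sv2_norm (O ε : Finset GolayPt) (hO : O ∈ octads) : sqNorm (sv 2 O ε) = 32 := by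
  rw [sqNorm_sv, hO.2]; norm_num

lemma sum_pm (c : Finset GolayPt) :
    ∑ k, (if k ∈ c then (-1 : ℤ) else 1) = 24 - 2 * (c.card : ℤ) := by
  have e : ∀ k, (if k ∈ c then (-1 : ℤ) else 1) = 1 - 2 * (if k ∈ c then 1 else 0) := by
    intro k; split_ifs <;> ring
  rw [Finset.sum_congr rfl (fun k _ => e k), Finset.sum_sub_distrib, ← Finset.mul_sum, sum_ind,
    Finset.sum_const, card_golayPt]
  simp

lemma sum_uvec (c : Finset GolayPt) (i : GolayPt) :
    ∑ k, uvec c i k = 24 - 2 * (c.card : ℤ) + (if i ∈ c then 4 else -4) := by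
  unfold uvec
  rw [Finset.sum_add_distrib, sum_pm, Finset.sum_ite_eq']
  simp

lemma uvec_mod (c : Finset GolayPt) (i k : GolayPt) : uvec c i k % 4 = 3 ↔ k ∈ c := by
  unfold uvec
  by_cases hk : k = i
  · subst hk
    by_cases h : k ∈ c <;> simp [h]
  · by_cases h : k ∈ c <;> simp [h, hk]

lemma uvec_odd (c : Finset GolayPt) (i k : GolayPt) : uvec c i k % 2 = 1 := by
  unfold uvec
  split_ifs <;> rfl

lemma uvec_mem (c : Finset GolayPt) (i : GolayPt)
    (hc : c ∈ supports (golayCode : Set (GolayPt → ZMod 2))) : uvec c i ∈ leechSet := by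
  obtain ⟨hDE, -⟩ := code_facts Cfsg.Agent.S0359.result
  apply mem_leechSet_of_odd
  · exact uvec_odd c i
  · rw [sum_uvec]
    have := hDE c hc
    split_ifs <;> omega
  · have e : (Finset.univ.filter fun k => uvec c i k % 4 = 3) = c := by
      ext k
      simp only [Finset.mem_filter, Finset.mem_univ, true_and]
      exact uvec_mod c i k
    rw [e]; exact hc

lemma uvec_sq (c : Finset GolayPt) (i k : GolayPt) :
    uvec c i k ^ 2 = 1 + (if k = i then 8 else 0) := by
  unfold uvec
  by_cases hk : k = i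
  · subst hk
    by_cases h : k ∈ c <;> simp [h]
  · by_cases h : k ∈ c <;> simp [h, hk]

lemma uvec_norm (c : Finset GolayPt) (i : GolayPt) : sqNorm (uvec c i) = 32 := by
  unfold sqNorm
  rw [Finset.sum_congr rfl (fun k _ => uvec_sq c i k), Finset.sum_add_distrib,
    Finset.sum_ite_eq', Finset.sum_const, card_golayPt]
  simp

/-! ### classification of the minimal vectors -/

lemma sq_ge_four (a : ℤ) (h : a % 4 = 2) : 4 ≤ a ^ 2 := by
  have h' : a ≥ 2 ∨ a ≤ -2 := by omega
  rcases h' with h' | h' <;> nlinarith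

lemma sq_odd_eight (a : ℤ) (h : a % 2 = 1) : (8 : ℤ) ∣ a ^ 2 - 1 := by
  obtain ⟨q, rfl⟩ : ∃ q, a = 2 * q + 1 := ⟨a / 2, by omega⟩
  have h2 : (2 : ℤ) ∣ q * (q + 1) := by
    rcases Int.emod_two_eq_zero_or_one q with h | h
    · exact Dvd.dvd.mul_right (Int.dvd_of_emod_eq_zero h) _
    · exact Dvd.dvd.mul_left (Int.dvd_of_emod_eq_zero (by omega)) _
  obtain ⟨r, hr⟩ := h2
  exact ⟨r, by linear_combination 4 * hr⟩

/-- even minimal vectors with nonempty residue-2 set -/
lemma min_even_ne (x : GolayPt → ℤ) (h8 : (∑ i, x i) % 8 = 0)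
    (hA : (Finset.univ.filter fun i => x i % 4 = 2) ∈
      supports (golayCode : Set (GolayPt → ZMod 2)))
    (hne : (Finset.univ.filter fun i => x i % 4 = 2).Nonempty) (hn : sqNorm x = 32) :
    ∃ O ε : Finset GolayPt, O ∈ octads ∧ ε ⊆ O ∧ Even ε.card ∧ x = sv 2 O ε := by
  obtain ⟨hDE, hMin⟩ := code_facts Cfsg.Agent.S0359.result
  set c := (Finset.univ.filter fun i => x i % 4 = 2) with hc
  have hc8 := hMin c hA hne
  have hmem : ∀ k, k ∈ c ↔ x k % 4 = 2 := by
    intro k; rw [hc]; simp
  have hle : ∀ k ∈ Finset.univ, (if k ∈ c then (4 : ℤ) else 0) ≤ x k ^ 2 := by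
    intro k _
    by_cases hk : k ∈ c
    · rw [if_pos hk]
      exact sq_ge_four _ ((hmem k).mp hk)
    · rw [if_neg hk]; positivity
  have hsum : ∑ k, (if k ∈ c then (4 : ℤ) else 0) = 4 * (c.card : ℤ) := by
    have e : ∀ k, (if k ∈ c then (4 : ℤ) else 0) = 4 * (if k ∈ c then 1 else 0) := by
      intro k; split_ifs <;> ring
    rw [Finset.sum_congr rfl (fun k _ => e k), ← Finset.mul_sum, sum_ind]
  have hn' : ∑ k, x k ^ 2 = 32 := hn
  have hle2 := Finset.sum_le_sum hle
  rw [hsum, hn'] at hle2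
  have hcard : c.card = 8 := by omega
  have heq : ∀ k ∈ Finset.univ, (if k ∈ c then (4 : ℤ) else 0) = x k ^ 2 := by
    apply (Finset.sum_eq_sum_iff_of_le hle).mp
    rw [hsum, hn', hcard]; norm_num
  have hval : ∀ k, k ∈ c → (x k = 2 ∨ x k = -2) := by
    intro k hk
    have h1 := heq k (Finset.mem_univ k)
    rw [if_pos hk] at h1
    exact sq_eq_sq_iff_eq_or_eq_neg.mp (by rw [← h1]; norm_num)
  have hzero : ∀ k, k ∉ c → x k = 0 := by
    intro k hk
    have h1 := heq k (Finset.mem_univ k)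
    rw [if_neg hk] at h1
    exact pow_eq_zero_iff (two_ne_zero) |>.mp h1.symm
  set ε := (Finset.univ.filter fun i => x i = -2) with hε
  have hεc : ε ⊆ c := by
    intro k hk
    rw [hε] at hk
    simp only [Finset.mem_filter, Finset.mem_univ, true_and] at hk
    rw [hmem, hk]; rfl
  have hx : x = sv 2 c ε := by
    funext k
    unfold sv
    by_cases hk : k ∈ c
    · rw [if_pos hk]
      rcases hval k hk with h | h
      · have : k ∉ ε := by
          rw [hε]; simp only [Finset.mem_filter, Finset.mem_univ, true_and]; omega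
        rw [if_neg this, h]
      · have : k ∈ ε := by
          rw [hε]; simp only [Finset.mem_filter, Finset.mem_univ, true_and]; exact h
        rw [if_pos this, h]
    · rw [if_neg hk]; exact hzero k hk
  refine ⟨c, ε, ⟨hA, hcard⟩, hεc, ?_, hx⟩
  have hs := sum_sv 2 c ε hεc
  rw [← hx, hcard] at hs
  rw [hs] at h8
  push_cast at h8
  exact Nat.even_iff.mpr (by omega)

/-- even minimal vectors with empty residue-2 set -/
lemma min_even_empty (x : GolayPt → ℤ) (h4 : ∀ i, x i % 4 = 0) (hn : sqNorm x = 32) :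
    ∃ T ε : Finset GolayPt, T.card = 2 ∧ ε ⊆ T ∧ x = sv 4 T ε := by
  have hn' : ∑ k, x k ^ 2 = 32 := hn
  have hy : ∀ k, x k = 4 * (x k / 4) := by
    intro k; have := h4 k; omega
  have hsq : ∀ k, x k ^ 2 = 16 * (x k / 4) ^ 2 := by
    intro k
    have h := hy k
    generalize x k / 4 = q at h ⊢
    rw [h]; ring
  have hsum2 : ∑ k, (x k / 4) ^ 2 = 2 := by
    rw [Finset.sum_congr rfl (fun k _ => hsq k), ← Finset.mul_sum] at hn'
    omega
  have hbd : ∀ k, (x k / 4) ^ 2 ≤ 2 := by
    intro k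
    rw [← hsum2]
    exact Finset.single_le_sum (f := fun k => (x k / 4) ^ 2) (fun i _ => by positivity)
      (Finset.mem_univ k)
  have hrange : ∀ k, x k / 4 = 0 ∨ x k / 4 = 1 ∨ x k / 4 = -1 := by
    intro k
    have h := hbd k
    generalize x k / 4 = q at h
    have h1 : q ≤ 1 := by by_contra hh; push Not at hh; nlinarith
    have h2 : -1 ≤ q := by by_contra hh; push Not at hh; nlinarith
    omega
  set T := (Finset.univ.filter fun i => x i ≠ 0) with hT
  set ε := (Finset.univ.filter fun i => x i = -4) with hε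
  have hmemT : ∀ k, k ∈ T ↔ x k ≠ 0 := by
    intro k; rw [hT]; simp
  have hmemε : ∀ k, k ∈ ε ↔ x k = -4 := by
    intro k; rw [hε]; simp
  have hind : ∀ k, (x k / 4) ^ 2 = if k ∈ T then 1 else 0 := by
    intro k
    have h := hy k
    by_cases hk : k ∈ T
    · rw [if_pos hk]
      have h0 := (hmemT k).mp hk
      rcases hrange k with h' | h' | h'
      · exfalso; omega
      · rw [h']; norm_num
      · rw [h']; norm_num
    · rw [if_neg hk]
      have h0 : x k = 0 := by
        by_contra h0; exact hk ((hmemT k).mpr h0)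
      rw [h0]; norm_num
  have hcard : T.card = 2 := by
    rw [Finset.sum_congr rfl (fun k _ => hind k), sum_ind] at hsum2
    exact_mod_cast hsum2
  refine ⟨T, ε, hcard, ?_, ?_⟩
  · intro k hk
    rw [hmemT]
    have := (hmemε k).mp hk
    omega
  · funext k
    unfold sv
    have h := hy k
    by_cases hk : k ∈ T
    · rw [if_pos hk]
      have h0 := (hmemT k).mp hk
      rcases hrange k with h' | h' | h'
      · exfalso; omega
      · have : k ∉ ε := by rw [hmemε]; omega
        rw [if_neg this]; omega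
      · have : k ∈ ε := by rw [hmemε]; omega
        rw [if_pos this]; omega
    · rw [if_neg hk]
      by_contra h0; exact hk ((hmemT k).mpr h0)

/-- odd minimal vectors -/
lemma min_odd (x : GolayPt → ℤ) (h2 : ∀ i, x i % 2 = 1)
    (hA : (Finset.univ.filter fun i => x i % 4 = 3) ∈
      supports (golayCode : Set (GolayPt → ZMod 2)))
    (hn : sqNorm x = 32) :
    ∃ c : Finset GolayPt, ∃ i : GolayPt,
      c ∈ supports (golayCode : Set (GolayPt → ZMod 2)) ∧ x = uvec c i := by
  have hn' : ∑ k, x k ^ 2 = 32 := hn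
  set c := (Finset.univ.filter fun i => x i % 4 = 3) with hc
  have hmem : ∀ k, k ∈ c ↔ x k % 4 = 3 := by
    intro k; rw [hc]; simp
  have hz0 : ∀ k, 0 ≤ x k ^ 2 - 1 := by
    intro k
    have := h2 k
    have h' : x k ≥ 1 ∨ x k ≤ -1 := by omega
    rcases h' with h' | h' <;> nlinarith
  have hzs : ∑ k, (x k ^ 2 - 1) = 8 := by
    rw [Finset.sum_sub_distrib, hn', Finset.sum_const, card_golayPt]
    simp
  have hz8 : ∀ k, x k ^ 2 - 1 ≤ 8 := by
    intro k
    rw [← hzs]
    exact Finset.single_le_sum (f := fun k => x k ^ 2 - 1) (fun i _ => hz0 i) (Finset.mem_univ k)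
  have hzc : ∀ k, x k ^ 2 - 1 = 0 ∨ x k ^ 2 - 1 = 8 := by
    intro k
    have h1 := hz0 k
    have h3 := hz8 k
    obtain ⟨r, hr⟩ := sq_odd_eight (x k) (h2 k)
    omega
  have hex : ∃ i, x i ^ 2 - 1 = 8 := by
    by_contra hno
    push Not at hno
    have : ∑ k, (x k ^ 2 - 1) = 0 := by
      apply Finset.sum_eq_zero
      intro k _
      rcases hzc k with h | h
      · exact h
      · exact absurd h (hno k)
    omega
  obtain ⟨i, hi⟩ := hex
  have hrest : ∀ k, k ≠ i → x k ^ 2 - 1 = 0 := by
    have h1 := Finset.add_sum_erase Finset.univ (fun k => x k ^ 2 - 1) (Finset.mem_univ i)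
    rw [hzs, hi] at h1
    have h3 : ∑ k ∈ Finset.univ.erase i, (x k ^ 2 - 1) = 0 := by omega
    have h4 := (Finset.sum_eq_zero_iff_of_nonneg (fun k _ => hz0 k)).mp h3
    intro k hk
    exact h4 k (Finset.mem_erase.mpr ⟨hk, Finset.mem_univ k⟩)
  refine ⟨c, i, hA, ?_⟩
  funext k
  by_cases hk : k = i
  · subst hk
    have h9 : x k ^ 2 = 3 ^ 2 := by omega
    rcases sq_eq_sq_iff_eq_or_eq_neg.mp h9 with h | h
    · have hkc : k ∈ c := by rw [hmem, h]; rfl
      unfold uvec
      simp [hkc, h]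
    · have hkc : k ∉ c := by rw [hmem, h]; decide
      unfold uvec
      simp [hkc, h]
  · have h1 : x k ^ 2 = 1 ^ 2 := by have := hrest k hk; omega
    rcases sq_eq_sq_iff_eq_or_eq_neg.mp h1 with h | h
    · have hkc : k ∉ c := by rw [hmem, h]; decide
      unfold uvec
      simp [hkc, h, hk]
    · have hkc : k ∈ c := by rw [hmem, h]; rfl
      unfold uvec
      simp [hkc, h, hk]

/-- the three shapes of minimal vectors -/
theorem min_cases (x : GolayPt → ℤ) (hx : x ∈ leechSet) (hn : sqNorm x = 32) :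
    (∃ T ε : Finset GolayPt, T.card = 2 ∧ ε ⊆ T ∧ x = sv 4 T ε) ∨
    (∃ O ε : Finset GolayPt, O ∈ octads ∧ ε ⊆ O ∧ Even ε.card ∧ x = sv 2 O ε) ∨
    (∃ c : Finset GolayPt, ∃ i : GolayPt,
      c ∈ supports (golayCode : Set (GolayPt → ZMod 2)) ∧ x = uvec c i) := by
  rcases leechSet_cases x hx with ⟨h2, h8, hA⟩ | ⟨h2, h8, hA⟩
  · by_cases hne : (Finset.univ.filter fun i => x i % 4 = 2).Nonempty
    · right; left
      exact min_even_ne x h8 hA hne hn
    · left
      apply min_even_empty x _ hn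
      intro i
      have h := h2 i
      have h' : ¬ x i % 4 = 2 := by
        intro h'
        exact hne ⟨i, by simp [h']⟩
      omega
  · right; right
    exact min_odd x h2 hA hn

end Cfsg.Agent.Helper27
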