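import Cfsg.Agent.Helper27.Co2Count
import Cfsg.Agent.Helper27.Co2Orth
import Cfsg.Agent.Helper27.Co0Order
import Cfsg.Agent.S0394

set_option autoImplicit false
open Cfsg

/-! Minimal vectors classified by their dot product with a fixed minimal vector: counts and
transitivity of the stabiliser. -/

namespace Cfsg.Agent.Helper27

/-- the minimal vectors with a given dot product with a vector -/
def dotSet (v : leechLattice) (d : ℤ) : Set leechLattice :=
  {x : leechLattice | sqNorm x.1 = 32 ∧ dotInt v.1 x.1 = d}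

lemma dotSet_smul (g : Co0) (v x : leechLattice) (d : ℤ) :
    x ∈ dotSet v d ↔ g • x ∈ dotSet (g • v) d := by
  show (sqNorm x.1 = 32 ∧ dotInt v.1 x.1 = d) ↔
    (sqNorm (g • x : leechLattice).1 = 32 ∧
      dotInt (g • v : leechLattice).1 (g • x : leechLattice).1 = d)
  rw [co0_norm, co0_dot]

lemma dotSet_neg (v x : leechLattice) (d : ℤ) :
    x ∈ dotSet v d ↔ negC • x ∈ dotSet v (-d) := by
  show (sqNorm x.1 = 32 ∧ dotInt v.1 x.1 = d) ↔
    (sqNorm (-x.1) = 32 ∧ dotInt v.1 (-x.1) = -d)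
  rw [sqNorm_neg', dotInt_neg_right, neg_inj]

set_option maxRecDepth 100000 in
lemma co1_c1a : cnt1 co2L 0 16 0 0 = 88 := by decide +kernel

set_option maxRecDepth 100000 in
lemma co1_c2a : cnt2 co2L 0 16 0 0 = 2464 := by decide +kernel

set_option maxRecDepth 100000 in
lemma co1_c3a : cnt3 co2L 0 16 0 0 = 2048 := by decide +kernel

set_option maxRecDepth 100000 in
lemma co1_c1b : cnt1 co2L 0 0 0 0 = 926 := by decide +kernel

set_option maxRecDepth 100000 in
lemma co1_c2b : cnt2 co2L 0 0 0 0 = 47168 := by decide +kernel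

set_option maxRecDepth 100000 in
lemma co1_c3b : cnt3 co2L 0 0 0 0 = 45056 := by decide +kernel

lemma dot_count_aux (v : leechLattice) (hv : sqNorm v.1 = 32) (tn : ℕ) (N : ℕ)
    (h : cnt1 co2L 0 tn 0 0 + cnt2 co2L 0 tn 0 0 + cnt3 co2L 0 tn 0 0 = N) :
    (dotSet v (-(tn : ℤ))).ncard = N := by
  obtain ⟨g, hg⟩ := Cfsg.Agent.S0400.result v co2A hv co2A_norm
  have h0 := census_one co2L co2L_len co2L_snd 0 tn
  rw [h] at h0
  rw [← h0]
  apply ncard_smul g
  intro x
  rw [dotSet_smul g v x, hg]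
  show (sqNorm (g • x : leechLattice).1 = 32 ∧ dotInt co2A.1 (g • x : leechLattice).1 = -(tn : ℤ)) ↔
    (sqNorm (g • x : leechLattice).1 = 32 ∧
      dotInt co2A.1 (g • x : leechLattice).1 = ((0 : ℕ) : ℤ) - (tn : ℤ))
  have e : ((0 : ℕ) : ℤ) - (tn : ℤ) = -(tn : ℤ) := by simp
  rw [e]

theorem dot_count_m16 (v : leechLattice) (hv : sqNorm v.1 = 32) :
    (dotSet v (-16)).ncard = 4600 := by
  have := dot_count_aux v hv 16 4600 (by rw [co1_c1a, co1_c2a, co1_c3a])
  exact this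

theorem dot_count_m8 (v : leechLattice) (hv : sqNorm v.1 = 32) :
    (dotSet v (-8)).ncard = 47104 := co2_count v hv

theorem dot_count_0 (v : leechLattice) (hv : sqNorm v.1 = 32) :
    (dotSet v 0).ncard = 93150 := by
  have := dot_count_aux v hv 0 93150 (by rw [co1_c1b, co1_c2b, co1_c3b])
  simpa using this

theorem dot_count_16 (v : leechLattice) (hv : sqNorm v.1 = 32) :
    (dotSet v 16).ncard = 4600 := by
  rw [← dot_count_m16 v hv]
  exact ncard_smul negC _ _ (fun x => dotSet_neg v x 16)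

theorem dot_count_8 (v : leechLattice) (hv : sqNorm v.1 = 32) :
    (dotSet v 8).ncard = 47104 := by
  rw [← dot_count_m8 v hv]
  exact ncard_smul negC _ _ (fun x => dotSet_neg v x 8)

/-! ### transitivity -/

theorem dot_trans_m16 (v : leechLattice) (hv : sqNorm v.1 = 32) :
    ∀ y ∈ dotSet v (-16), ∀ y' ∈ dotSet v (-16), ∃ g : Co0, g • v = v ∧ g • y = y' :=
  fun y hy y' hy' => m4_trans_gen v y y' hv hy.1 hy'.1 hy.2 hy'.2

theorem dot_trans_m8 (v : leechLattice) (hv : sqNorm v.1 = 32) :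
    ∀ y ∈ dotSet v (-8), ∀ y' ∈ dotSet v (-8), ∃ g : Co0, g • v = v ∧ g • y = y' :=
  fun y hy y' hy' => m2_trans_gen v y y' hv hy.1 hy'.1 hy.2 hy'.2

lemma dot_trans_of_neg (v : leechLattice) (d : ℤ)
    (h : ∀ y ∈ dotSet v (-d), ∀ y' ∈ dotSet v (-d), ∃ g : Co0, g • v = v ∧ g • y = y') :
    ∀ y ∈ dotSet v d, ∀ y' ∈ dotSet v d, ∃ g : Co0, g • v = v ∧ g • y = y' := by
  intro y hy y' hy'
  obtain ⟨g, hg, hgy⟩ := h _ ((dotSet_neg v y d).mp hy) _ ((dotSet_neg v y' d).mp hy')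
  refine ⟨g, hg, ?_⟩
  have e : ∀ z : leechLattice, negC • z = -z := fun z => Subtype.ext (negC_apply z)
  rw [e, e, co0_neg, neg_inj] at hgy
  exact hgy

theorem dot_trans_16 (v : leechLattice) (hv : sqNorm v.1 = 32) :
    ∀ y ∈ dotSet v 16, ∀ y' ∈ dotSet v 16, ∃ g : Co0, g • v = v ∧ g • y = y' :=
  dot_trans_of_neg v 16 (dot_trans_m16 v hv)

theorem dot_trans_8 (v : leechLattice) (hv : sqNorm v.1 = 32) :
    ∀ y ∈ dotSet v 8, ∀ y' ∈ dotSet v 8, ∃ g : Co0, g • v = v ∧ g • y = y' :=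
  dot_trans_of_neg v 8 (dot_trans_m8 v hv)

/-- the orthogonal reference vector `4 e_a + 4 e_b` -/
def w0f : GolayPt → ℤ := Pi.single pa 4 + Pi.single pb 4

lemma w0f_chk : Chk w0f := by decide +kernel

/-- the orthogonal reference vector -/
def w0 : leechLattice := ⟨w0f, mem_of_chk _ w0f_chk⟩

lemma w0_mem : w0 ∈ dotSet v0 0 := by
  constructor <;> decide +kernel

/-- an automorphism fixing `v0` and negating `w0` -/
lemma swap_ref : ∃ s : Co0, s • v0 = v0 ∧ s • w0 = -w0 := by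
  obtain ⟨τ, hτ, ha, hb, -⟩ := three_trans pa pb (some 0) pb pa (some 0) (by decide) (by decide)
    (by decide) (by decide) (by decide) (by decide)
  refine ⟨negC * permC τ hτ, negperm_v0 τ hτ ha hb, ?_⟩
  apply Subtype.ext
  show -(permFun τ (Pi.single pa 4 + Pi.single pb 4)) = -(Pi.single pa 4 + Pi.single pb 4)
  congr 1
  funext k
  simp only [permFun, Pi.add_apply, Pi.single_apply, Equiv.symm_apply_eq, ha, hb]
  ring

/-- an automorphism fixing `v` and negating an orthogonal minimal vector -/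
lemma neg_elt (v w : leechLattice) (hv : sqNorm v.1 = 32) (hw : w ∈ dotSet v 0) :
    ∃ s : Co0, s • v = v ∧ s • w = -w := by
  obtain ⟨g1, hg1⟩ := Cfsg.Agent.S0400.result v v0 hv v0_norm
  have hw1 : g1 • w ∈ dotSet v0 0 := by
    have := (dotSet_smul g1 v w 0).mp hw
    rwa [hg1] at this
  obtain ⟨g3, hg3, hg3w⟩ := orth_trans_gen v0 (g1 • w) w0 v0_norm hw1.1 w0_mem.1 hw1.2 w0_mem.2
  obtain ⟨s, hs1, hs2⟩ := swap_ref
  have hk1 : (g3 * g1) • v = v0 := by rw [mul_smul, hg1, hg3]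
  refine ⟨(g3 * g1)⁻¹ * s * (g3 * g1), ?_, ?_⟩
  · rw [mul_smul, mul_smul, hk1, hs1, ← hk1, inv_smul_smul]
  · have hk2 : (g3 * g1) • w = w0 ∨ (g3 * g1) • w = -w0 := by
      rw [mul_smul]
      exact hg3w
    rw [mul_smul, mul_smul, inv_smul_eq_iff, co0_neg]
    rcases hk2 with h | h
    · rw [h, hs2]
    · rw [h, co0_neg, hs2]

theorem dot_trans_0 (v : leechLattice) (hv : sqNorm v.1 = 32) :
    ∀ y ∈ dotSet v 0, ∀ y' ∈ dotSet v 0, ∃ g : Co0, g • v = v ∧ g • y = y' := by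
  intro y hy y' hy'
  obtain ⟨g, hg, hgy⟩ := orth_trans_gen v y y' hv hy.1 hy'.1 hy.2 hy'.2
  rcases hgy with h | h
  · exact ⟨g, hg, h⟩
  · obtain ⟨s, hs1, hs2⟩ := neg_elt v y' hv hy'
    exact ⟨s * g, by rw [mul_smul, hg, hs1], by rw [mul_smul, h, co0_neg, hs2, neg_neg]⟩

/-! ### the extreme dot products -/

lemma sqNorm_zero_imp (y : GolayPt → ℤ) (h : sqNorm y = 0) : y = 0 := by
  unfold sqNorm at h
  funext i
  have h1 := (Finset.sum_eq_zero_iff_of_nonneg (fun i _ => sq_nonneg (y i))).mp h i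
    (Finset.mem_univ i)
  exact pow_eq_zero_iff (by norm_num) |>.mp h1

lemma dotSet_m32 (v : leechLattice) (hv : sqNorm v.1 = 32) : dotSet v (-32) = {-v} := by
  ext x
  constructor
  · rintro ⟨h1, h2⟩
    have h3 : sqNorm (v.1 + x.1) = 0 := by
      rw [sqNorm_add, hv, h1, h2]; norm_num
    have h4 := sqNorm_zero_imp _ h3
    show x = -v
    apply Subtype.ext
    show x.1 = -v.1
    exact (neg_eq_of_add_eq_zero_right h4).symm
  · rintro rfl
    constructor
    · show sqNorm (-v.1) = 32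
      rw [sqNorm_neg', hv]
    · show dotInt v.1 (-v.1) = -32
      rw [dotInt_neg_right, dotInt_self, hv]

/-- the number of minimal vectors, as members of the lattice -/
lemma ncard_shell32 :
    ({v : leechLattice | sqNorm v.1 = 32} : Set leechLattice).ncard = 196560 := by
  rw [← Cfsg.Agent.S0394.result, ← Set.ncard_image_of_injective _ Subtype.val_injective]
  congr 1
  ext x
  constructor
  · rintro ⟨v, hv, rfl⟩
    exact ⟨v.2, hv⟩
  · rintro ⟨hx, hn⟩
    exact ⟨⟨x, hx⟩, hn, rfl⟩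

end Cfsg.Agent.Helper27
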