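import Mathlib
import Cfsg.Agent.Helper20.Frob

set_option autoImplicit false

/-! A simplicity criterion: a finite group acting transitively with a simple point stabiliser,
whose suborbit lengths admit no intermediate block sums dividing the group order, and with no
regular normal subgroup (excluded by Frobenius' theorem), is simple. -/

namespace Cfsg.Agent.Helper27

section SimpleCrit

variable {G X : Type*} [Group G] [MulAction G X]

/-- the cardinality of a union of pairwise disjoint finite sets indexed by a finset -/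
lemma ncard_biUnion_fin {k : ℕ} (O : Fin k → Set X) (s : Fin k → ℕ)
    (hfin : ∀ i, (O i).Finite) (hdisj : ∀ i j, i ≠ j → Disjoint (O i) (O j))
    (hcard : ∀ i, (O i).ncard = s i) (I : Finset (Fin k)) :
    (⋃ i ∈ I, O i).Finite ∧ (⋃ i ∈ I, O i).ncard = ∑ i ∈ I, s i := by
  classical
  induction I using Finset.induction_on with
  | empty => simp
  | insert a I ha ih =>
    rw [Finset.set_biUnion_insert, Finset.sum_insert ha]
    refine ⟨(hfin a).union ih.1, ?_⟩
    rw [Set.ncard_union_eq ?_ (hfin a) ih.1, hcard, ih.2]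
    rw [Set.disjoint_iUnion₂_right]
    intro i hi
    exact hdisj a i (fun h => ha (h ▸ hi))

/-- a set invariant under the point stabiliser is the base point plus a union of suborbits -/
lemma suborbit_union {k : ℕ} (Ω : Set X) (x0 : X)
    (O : Fin k → Set X) (s : Fin k → ℕ)
    (hΩfin : Ω.Finite)
    (hcover : ∀ x ∈ Ω, x ≠ x0 → ∃ i, x ∈ O i)
    (hOsub : ∀ i, O i ⊆ Ω) (hOx0 : ∀ i, x0 ∉ O i)
    (hdisj : ∀ i j, i ≠ j → Disjoint (O i) (O j))
    (hcard : ∀ i, (O i).ncard = s i)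
    (hOtrans : ∀ i, ∀ y ∈ O i, ∀ y' ∈ O i, ∃ h : G, h • x0 = x0 ∧ h • y = y')
    (T : Set X) (hT : T ⊆ Ω) (hx0T : x0 ∈ T)
    (hTinv : ∀ h : G, h • x0 = x0 → ∀ y ∈ T, h • y ∈ T) :
    ∃ I : Finset (Fin k), T.ncard = 1 + ∑ i ∈ I, s i ∧ (I = ∅ → T = {x0}) ∧
      (I = Finset.univ → T = Ω) := by
  classical
  let I : Finset (Fin k) := Finset.univ.filter (fun i => ∃ y ∈ O i, y ∈ T)
  have hI1 : ∀ i ∈ I, O i ⊆ T := by
    intro i hi y' hy'
    obtain ⟨y, hy, hyT⟩ := (Finset.mem_filter.mp hi).2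
    obtain ⟨h, hh, hhy⟩ := hOtrans i y hy y' hy'
    rw [← hhy]
    exact hTinv h hh y hyT
  have hTeq : T = insert x0 (⋃ i ∈ I, O i) := by
    ext y
    constructor
    · intro hy
      by_cases hyx : y = x0
      · left; exact hyx
      · right
        obtain ⟨i, hi⟩ := hcover y (hT hy) hyx
        exact Set.mem_biUnion (Finset.mem_filter.mpr ⟨Finset.mem_univ _, y, hi, hy⟩) hi
    · rintro (rfl | hy)
      · exact hx0T
      · obtain ⟨i, hi, hy⟩ := Set.mem_iUnion₂.mp hy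
        exact hI1 i hi hy
  have hfinO : ∀ i, (O i).Finite := fun i => hΩfin.subset (hOsub i)
  obtain ⟨hUfin, hUcard⟩ := ncard_biUnion_fin O s hfinO hdisj hcard I
  have hx0U : x0 ∉ ⋃ i ∈ I, O i := by
    intro h
    obtain ⟨i, _, hy⟩ := Set.mem_iUnion₂.mp h
    exact hOx0 i hy
  refine ⟨I, ?_, ?_, ?_⟩
  · rw [hTeq, Set.ncard_insert_of_notMem hx0U hUfin, hUcard, add_comm]
  · intro hI
    rw [hTeq, hI]
    simp
  · intro hI
    apply Set.Subset.antisymm hT
    intro y hy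
    by_cases hyx : y = x0
    · rw [hyx]; exact hx0T
    · obtain ⟨i, hi⟩ := hcover y hy hyx
      exact hI1 i (by rw [hI]; exact Finset.mem_univ _) hi

/-- the key step: a nontrivial normal subgroup is transitive -/
lemma normal_trans [Finite G] {k : ℕ} (Ω : Set X) (x0 : X)
    (hΩfin : Ω.Finite)
    (hΩinv : ∀ g : G, ∀ x ∈ Ω, g • x ∈ Ω)
    (htrans : ∀ x ∈ Ω, ∃ g : G, g • x0 = x)
    (hH : IsSimpleGroup (MulAction.stabilizer G x0))
    (O : Fin k → Set X) (s : Fin k → ℕ)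
    (hcover : ∀ x ∈ Ω, x ≠ x0 → ∃ i, x ∈ O i)
    (hOsub : ∀ i, O i ⊆ Ω) (hOx0 : ∀ i, x0 ∉ O i)
    (hdisj : ∀ i j, i ≠ j → Disjoint (O i) (O j))
    (hcard : ∀ i, (O i).ncard = s i)
    (hOtrans : ∀ i, ∀ y ∈ O i, ∀ y' ∈ O i, ∃ h : G, h • x0 = x0 ∧ h • y = y')
    (hbig : ∃ i, 2 ≤ s i)
    (harith1 : ∀ I : Finset (Fin k), I ≠ ∅ → I ≠ Finset.univ →
      ¬ (1 + ∑ i ∈ I, s i) ∣ Nat.card G)
    (hx0 : x0 ∈ Ω)
    (M : Subgroup G) (hMn : M.Normal) (hM : M ≠ ⊥) :
    ∀ x ∈ Ω, ∃ n ∈ M, n • x0 = x := by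
  classical
  let T : Set X := {y | ∃ n ∈ M, n • x0 = y}
  have hTsub : T ⊆ Ω := by
    rintro y ⟨n, _, rfl⟩
    exact hΩinv n x0 hx0
  have hx0T : x0 ∈ T := ⟨1, M.one_mem, one_smul _ _⟩
  have hTinv : ∀ h : G, h • x0 = x0 → ∀ y ∈ T, h • y ∈ T := by
    rintro h hh y ⟨n, hn, rfl⟩
    refine ⟨h * n * h⁻¹, hMn.conj_mem n hn h, ?_⟩
    rw [mul_smul, mul_smul, inv_smul_eq_iff.mpr hh.symm]
  have hTorb : T = MulAction.orbit ↥M x0 := by
    ext y
    constructor
    · rintro ⟨n, hn, rfl⟩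
      exact ⟨⟨n, hn⟩, rfl⟩
    · rintro ⟨⟨n, hn⟩, rfl⟩
      exact ⟨n, hn, rfl⟩
  have hTdvd : T.ncard ∣ Nat.card G := by
    rw [hTorb, ← MulAction.index_stabilizer]
    exact (Subgroup.index_dvd_card _).trans (Subgroup.card_subgroup_dvd_card M)
  obtain ⟨I, hIcard, hIe, hIu⟩ := suborbit_union (G := G) Ω x0 O s hΩfin hcover hOsub hOx0 hdisj
    hcard hOtrans T hTsub hx0T hTinv
  by_cases hI0 : I = ∅
  · exfalso
    have hT1 := hIe hI0
    have hMH : M ≤ MulAction.stabilizer G x0 := by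
      intro n hn
      have : n • x0 ∈ T := ⟨n, hn, rfl⟩
      rw [hT1] at this
      exact this
    have hfixall : ∀ n ∈ M, ∀ x ∈ Ω, n • x = x := by
      intro n hn x hx
      obtain ⟨g, rfl⟩ := htrans x hx
      have h1 : g⁻¹ * n * g ∈ M := by
        have := hMn.conj_mem n hn g⁻¹
        rwa [inv_inv] at this
      have h2 : (g⁻¹ * n * g) • x0 = x0 := hMH h1
      rw [mul_smul, mul_smul, inv_smul_eq_iff] at h2
      exact h2
    haveI : (M.subgroupOf (MulAction.stabilizer G x0)).Normal := hMn.subgroupOf _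
    rcases hH.eq_bot_or_eq_top_of_normal (M.subgroupOf (MulAction.stabilizer G x0)) inferInstance
      with hb | ht
    · rw [Subgroup.subgroupOf_eq_bot] at hb
      exact hM (le_bot_iff.mp (hb (le_refl M) hMH))
    · rw [Subgroup.subgroupOf_eq_top] at ht
      obtain ⟨i, hi⟩ := hbig
      have h2 : 1 < (O i).ncard := by rw [hcard]; omega
      have hfinO : (O i).Finite := hΩfin.subset (hOsub i)
      obtain ⟨y, hy, y', hy', hne⟩ := (Set.one_lt_ncard hfinO).mp h2
      obtain ⟨h, hh, hhy⟩ := hOtrans i y hy y' hy'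
      have := hfixall h (ht hh) y (hOsub i hy)
      exact hne (this.symm.trans hhy)
  · have hIuniv : I = Finset.univ := by
      by_contra hIu'
      exact harith1 I hI0 hIu' (hIcard ▸ hTdvd)
    have hTΩ := hIu hIuniv
    intro x hx
    have : x ∈ T := by rw [hTΩ]; exact hx
    exact this

/-- **Simplicity criterion.** -/
theorem simple_of_suborbits [Finite G] {k : ℕ} (Ω : Set X) (x0 : X) (hx0 : x0 ∈ Ω)
    (hΩfin : Ω.Finite)
    (hΩinv : ∀ g : G, ∀ x ∈ Ω, g • x ∈ Ω)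
    (htrans : ∀ x ∈ Ω, ∃ g : G, g • x0 = x)
    (hH : IsSimpleGroup (MulAction.stabilizer G x0))
    (O : Fin k → Set X) (s : Fin k → ℕ)
    (hcover : ∀ x ∈ Ω, x ≠ x0 → ∃ i, x ∈ O i)
    (hOsub : ∀ i, O i ⊆ Ω) (hOx0 : ∀ i, x0 ∉ O i)
    (hdisj : ∀ i j, i ≠ j → Disjoint (O i) (O j))
    (hcard : ∀ i, (O i).ncard = s i)
    (hOtrans : ∀ i, ∀ y ∈ O i, ∀ y' ∈ O i, ∃ h : G, h • x0 = x0 ∧ h • y = y')
    (hbig : ∃ i, 2 ≤ s i)
    (harith1 : ∀ I : Finset (Fin k), I ≠ ∅ → I ≠ Finset.univ →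
      ¬ (1 + ∑ i ∈ I, s i) ∣ Nat.card G)
    (m q : ℕ) (hm1 : 1 < m) (hm : m ∣ Ω.ncard) (hq : q.Prime) (hqΩ : q ∣ Ω.ncard)
    (hqm : ¬ q ∣ m)
    (harith2 : ∀ I : Finset (Fin k), I ≠ ∅ → I ≠ Finset.univ →
      ¬ m ∣ (1 + ∑ i ∈ I, s i)) :
    IsSimpleGroup G := by
  classical
  haveI : Nontrivial (MulAction.stabilizer G x0) := hH.toNontrivial
  haveI : Nontrivial G := (Subtype.val_injective (p := fun g => g ∈ MulAction.stabilizer G x0)).nontrivial
  refine ⟨fun N hN => ?_⟩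
  by_contra hcon
  rw [not_or] at hcon
  obtain ⟨hNbot, hNtop⟩ := hcon
  have key := normal_trans (G := G) Ω x0 hΩfin hΩinv htrans hH O s hcover hOsub hOx0 hdisj hcard
    hOtrans hbig harith1 hx0
  have hNtr := key N hN hNbot
  haveI : (N.subgroupOf (MulAction.stabilizer G x0)).Normal := hN.subgroupOf _
  rcases hH.eq_bot_or_eq_top_of_normal (N.subgroupOf (MulAction.stabilizer G x0)) inferInstance
    with hb | ht
  · -- the regular case
    rw [Subgroup.subgroupOf_eq_bot] at hb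
    have hinj : ∀ n ∈ N, ∀ n' ∈ N, n • x0 = n' • x0 → n = n' := by
      intro n hn n' hn' h
      have h1 : n'⁻¹ * n ∈ N := N.mul_mem (N.inv_mem hn') hn
      have h2 : n'⁻¹ * n ∈ MulAction.stabilizer G x0 := by
        rw [MulAction.mem_stabilizer_iff, mul_smul, h, inv_smul_smul]
      have h3 : n'⁻¹ * n = 1 := by
        have := hb.le_bot ⟨h1, h2⟩
        exact this
      exact (inv_mul_eq_one.mp h3).symm
    let f : ↥N → X := fun n => (n : G) • x0
    have hf : Function.Injective f := by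
      intro a b hab
      exact Subtype.ext (hinj a.1 a.2 b.1 b.2 hab)
    have hΩeq : Ω = f '' Set.univ := by
      ext x
      constructor
      · intro hx
        obtain ⟨n, hn, rfl⟩ := hNtr x hx
        exact ⟨⟨n, hn⟩, Set.mem_univ _, rfl⟩
      · rintro ⟨n, -, rfl⟩
        exact hΩinv n.1 x0 hx0
    have hcardN : Nat.card ↥N = Ω.ncard := by
      rw [hΩeq, Set.ncard_image_of_injective _ hf, Set.ncard_univ]
    have hfrob := Cfsg.Agent.Helper20.frobenius ↥N m (hcardN ▸ hm)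
    let T : Set X := f '' {n : ↥N | n ^ m = 1}
    have hTcard : T.ncard = Nat.card {n : ↥N // n ^ m = 1} := by
      rw [Set.ncard_image_of_injective _ hf]
      rfl
    have hTsub : T ⊆ Ω := by
      rintro y ⟨n, _, rfl⟩
      exact hΩinv n.1 x0 hx0
    have hx0T : x0 ∈ T := ⟨1, by simp, one_smul _ _⟩
    have hTinv : ∀ h : G, h • x0 = x0 → ∀ y ∈ T, h • y ∈ T := by
      rintro h hh y ⟨n, hn, rfl⟩
      refine ⟨⟨h * n.1 * h⁻¹, hN.conj_mem n.1 n.2 h⟩, ?_, ?_⟩
      · have hn' : (n : G) ^ m = 1 := by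
          have := congrArg Subtype.val (show n ^ m = 1 from hn)
          simpa using this
        apply Subtype.ext
        show (h * n.1 * h⁻¹) ^ m = 1
        rw [conj_pow, hn', mul_one, mul_inv_cancel]
      · show (h * n.1 * h⁻¹) • x0 = h • (n.1 • x0)
        rw [mul_smul, mul_smul, inv_smul_eq_iff.mpr hh.symm]
    obtain ⟨I, hIcard, hIe, hIu⟩ := suborbit_union (G := G) Ω x0 O s hΩfin hcover hOsub hOx0 hdisj
      hcard hOtrans T hTsub hx0T hTinv
    have hmT : m ∣ T.ncard := hTcard ▸ hfrob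
    by_cases hI0 : I = ∅
    · rw [hIcard, hI0, Finset.sum_empty, add_zero] at hmT
      have := Nat.le_of_dvd Nat.one_pos hmT
      omega
    · by_cases hIuniv : I = Finset.univ
      · have hTΩ := hIu hIuniv
        haveI : Fact q.Prime := ⟨hq⟩
        obtain ⟨n, hn⟩ := exists_prime_orderOf_dvd_card' (G := ↥N) q (hcardN ▸ hqΩ)
        have hfn : f n ∈ T := by
          rw [hTΩ]
          exact hΩinv n.1 x0 hx0
        obtain ⟨n', hn', hfn'⟩ := hfn
        have hnn : n' = n := hf hfn'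
        rw [hnn] at hn'
        have : orderOf n ∣ m := orderOf_dvd_of_pow_eq_one hn'
        rw [hn] at this
        exact hqm this
      · exact harith2 I hI0 hIuniv (hIcard ▸ hmT)
  · rw [Subgroup.subgroupOf_eq_top] at ht
    apply hNtop
    rw [eq_top_iff]
    intro g _
    obtain ⟨n, hn, hng⟩ := hNtr (g • x0) (hΩinv g x0 hx0)
    have h2 : n⁻¹ * g ∈ MulAction.stabilizer G x0 := by
      rw [MulAction.mem_stabilizer_iff, mul_smul, ← hng, inv_smul_smul]
    have h3 : n * (n⁻¹ * g) ∈ N := N.mul_mem hn (ht h2)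
    rwa [mul_inv_cancel_left] at h3

end SimpleCrit

end Cfsg.Agent.Helper27
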