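import Mathlib
import Cfsg.Agent.Helper20.Frob
import Cfsg.Agent.Helper27.SimpleCrit

set_option autoImplicit false

/-! A refined simplicity criterion: the orbit of a normal subgroup is a block, so its length
divides the degree; a regular normal subgroup is excluded by Frobenius' theorem applied to two
coprime exponents. -/

namespace Cfsg.Agent.Helper27

section SimpleCrit2

variable {G X : Type*} [Group G] [MulAction G X]

/-- a set invariant under the point stabiliser is the base point plus a union of suborbits -/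
lemma suborbit_union' {k : ℕ} (Ω : Set X) (x0 : X)
    (O : Fin k → Set X) (s : Fin k → ℕ)
    (hΩfin : Ω.Finite)
    (hcover : ∀ x ∈ Ω, x ≠ x0 → ∃ i, x ∈ O i)
    (hOsub : ∀ i, O i ⊆ Ω) (hOx0 : ∀ i, x0 ∉ O i)
    (hdisj : ∀ i j, i ≠ j → Disjoint (O i) (O j))
    (hcard : ∀ i, (O i).ncard = s i)
    (hOtrans : ∀ i, ∀ y ∈ O i, ∀ y' ∈ O i, ∃ h : G, h • x0 = x0 ∧ h • y = y')
    (T : Set X) (hT : T ⊆ Ω) (hx0T : x0 ∈ T)
    (hTinv : ∀ h : G, h • x0 = x0 → ∀ y ∈ T, h • y ∈ T) :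
    ∃ I : Finset (Fin k), T.ncard = 1 + ∑ i ∈ I, s i ∧ (I = ∅ → T = {x0}) ∧
      (I = Finset.univ → T = Ω) ∧ (∀ i ∈ I, O i ⊆ T) ∧ (∀ i ∈ I, ∃ y ∈ O i, y ∈ T) := by
  classical
  let I : Finset (Fin k) := Finset.univ.filter (fun i => ∃ y ∈ O i, y ∈ T)
  have hI1 : ∀ i ∈ I, O i ⊆ T := by
    intro i hi y' hy'
    obtain ⟨y, hy, hyT⟩ := (Finset.mem_filter.mp hi).2
    obtain ⟨h, hh, hhy⟩ := hOtrans i y hy y' hy'
    rw [← hhy]
    exact hTinv h hh y hyT
  have hTeq : T = insert x0 (⋃ i ∈ I, O i) := by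
    ext y
    constructor
    · intro hy
      by_cases hyx : y = x0
      · left; exact hyx
      · right
        obtain ⟨i, hi⟩ := hcover y (hT hy) hyx
        exact Set.mem_biUnion (Finset.mem_filter.mpr ⟨Finset.mem_univ _, y, hi, hy⟩) hi
    · rintro (rfl | hy)
      · exact hx0T
      · obtain ⟨i, hi, hy⟩ := Set.mem_iUnion₂.mp hy
        exact hI1 i hi hy
  have hfinO : ∀ i, (O i).Finite := fun i => hΩfin.subset (hOsub i)
  obtain ⟨hUfin, hUcard⟩ := ncard_biUnion_fin O s hfinO hdisj hcard I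
  have hx0U : x0 ∉ ⋃ i ∈ I, O i := by
    intro h
    obtain ⟨i, _, hy⟩ := Set.mem_iUnion₂.mp h
    exact hOx0 i hy
  refine ⟨I, ?_, ?_, ?_, hI1, fun i hi => (Finset.mem_filter.mp hi).2⟩
  · rw [hTeq, Set.ncard_insert_of_notMem hx0U hUfin, hUcard, add_comm]
  · intro hI
    rw [hTeq, hI]
    simp
  · intro hI
    apply Set.Subset.antisymm hT
    intro y hy
    by_cases hyx : y = x0
    · rw [hyx]; exact hx0T
    · obtain ⟨i, hi⟩ := hcover y hy hyx
      exact hI1 i (by rw [hI]; exact Finset.mem_univ _) hi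

/-- the orbit of a normal subgroup through the base point has length dividing the degree -/
lemma normal_orbit_dvd [Finite G] (Ω : Set X) (x0 : X)
    (hΩinv : ∀ g : G, ∀ x ∈ Ω, g • x ∈ Ω)
    (htrans : ∀ x ∈ Ω, ∃ g : G, g • x0 = x) (hx0 : x0 ∈ Ω)
    (M : Subgroup G) (hMn : M.Normal) :
    ({y | ∃ n ∈ M, n • x0 = y} : Set X).ncard ∣ Ω.ncard := by
  have hΩorb : Ω = MulAction.orbit G x0 := by
    ext y
    constructor
    · intro hy
      obtain ⟨g, rfl⟩ := htrans y hy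
      exact ⟨g, rfl⟩
    · rintro ⟨g, rfl⟩
      exact hΩinv g x0 hx0
  have hTorb : ({y | ∃ n ∈ M, n • x0 = y} : Set X) =
      MulAction.orbit ↥(M ⊔ MulAction.stabilizer G x0) x0 := by
    ext y
    constructor
    · rintro ⟨n, hn, rfl⟩
      exact ⟨⟨n, Subgroup.mem_sup_left hn⟩, rfl⟩
    · rintro ⟨⟨k, hk⟩, rfl⟩
      have hk' : k ∈ ((M ⊔ MulAction.stabilizer G x0 : Subgroup G) : Set G) := hk
      rw [Subgroup.normal_mul] at hk'
      obtain ⟨n, hn, h, hh, rfl⟩ := Set.mem_mul.mp hk'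
      refine ⟨n, hn, ?_⟩
      show n • x0 = (n * h) • x0
      rw [mul_smul, MulAction.mem_stabilizer_iff.mp hh]
  have hstab : MulAction.stabilizer ↥(M ⊔ MulAction.stabilizer G x0) x0 =
      (MulAction.stabilizer G x0).subgroupOf (M ⊔ MulAction.stabilizer G x0) := by
    ext k
    rw [Subgroup.mem_subgroupOf, MulAction.mem_stabilizer_iff, MulAction.mem_stabilizer_iff]
    rfl
  rw [hTorb, ← MulAction.index_stabilizer, hstab, hΩorb, ← MulAction.index_stabilizer]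
  exact Subgroup.relIndex_dvd_index_of_le le_sup_right

/-- the key step: a nontrivial normal subgroup is transitive -/
lemma normal_trans' [Finite G] {k : ℕ} (Ω : Set X) (x0 : X)
    (hΩfin : Ω.Finite)
    (hΩinv : ∀ g : G, ∀ x ∈ Ω, g • x ∈ Ω)
    (htrans : ∀ x ∈ Ω, ∃ g : G, g • x0 = x)
    (hH : IsSimpleGroup (MulAction.stabilizer G x0))
    (O : Fin k → Set X) (s : Fin k → ℕ)
    (hcover : ∀ x ∈ Ω, x ≠ x0 → ∃ i, x ∈ O i)
    (hOsub : ∀ i, O i ⊆ Ω) (hOx0 : ∀ i, x0 ∉ O i)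
    (hdisj : ∀ i j, i ≠ j → Disjoint (O i) (O j))
    (hcard : ∀ i, (O i).ncard = s i)
    (hOtrans : ∀ i, ∀ y ∈ O i, ∀ y' ∈ O i, ∃ h : G, h • x0 = x0 ∧ h • y = y')
    (hbig : ∃ i, 2 ≤ s i)
    (harith1 : ∀ I : Finset (Fin k), I ≠ ∅ → I ≠ Finset.univ →
      ¬ (1 + ∑ i ∈ I, s i) ∣ Ω.ncard)
    (hx0 : x0 ∈ Ω)
    (M : Subgroup G) (hMn : M.Normal) (hM : M ≠ ⊥) :
    ∀ x ∈ Ω, ∃ n ∈ M, n • x0 = x := by
  classical
  let T : Set X := {y | ∃ n ∈ M, n • x0 = y}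
  have hTsub : T ⊆ Ω := by
    rintro y ⟨n, _, rfl⟩
    exact hΩinv n x0 hx0
  have hx0T : x0 ∈ T := ⟨1, M.one_mem, one_smul _ _⟩
  have hTinv : ∀ h : G, h • x0 = x0 → ∀ y ∈ T, h • y ∈ T := by
    rintro h hh y ⟨n, hn, rfl⟩
    refine ⟨h * n * h⁻¹, hMn.conj_mem n hn h, ?_⟩
    rw [mul_smul, mul_smul, inv_smul_eq_iff.mpr hh.symm]
  have hTdvd : T.ncard ∣ Ω.ncard := normal_orbit_dvd Ω x0 hΩinv htrans hx0 M hMn
  obtain ⟨I, hIcard, hIe, hIu, -, -⟩ := suborbit_union' (G := G) Ω x0 O s hΩfin hcover hOsub hOx0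
    hdisj hcard hOtrans T hTsub hx0T hTinv
  by_cases hI0 : I = ∅
  · exfalso
    have hT1 := hIe hI0
    have hMH : M ≤ MulAction.stabilizer G x0 := by
      intro n hn
      have : n • x0 ∈ T := ⟨n, hn, rfl⟩
      rw [hT1] at this
      exact this
    have hfixall : ∀ n ∈ M, ∀ x ∈ Ω, n • x = x := by
      intro n hn x hx
      obtain ⟨g, rfl⟩ := htrans x hx
      have h1 : g⁻¹ * n * g ∈ M := by
        have := hMn.conj_mem n hn g⁻¹
        rwa [inv_inv] at this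
      have h2 : (g⁻¹ * n * g) • x0 = x0 := hMH h1
      rw [mul_smul, mul_smul, inv_smul_eq_iff] at h2
      exact h2
    haveI : (M.subgroupOf (MulAction.stabilizer G x0)).Normal := hMn.subgroupOf _
    rcases hH.eq_bot_or_eq_top_of_normal (M.subgroupOf (MulAction.stabilizer G x0)) inferInstance
      with hb | ht
    · rw [Subgroup.subgroupOf_eq_bot] at hb
      exact hM (le_bot_iff.mp (hb (le_refl M) hMH))
    · rw [Subgroup.subgroupOf_eq_top] at ht
      obtain ⟨i, hi⟩ := hbig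
      have h2 : 1 < (O i).ncard := by rw [hcard]; omega
      have hfinO : (O i).Finite := hΩfin.subset (hOsub i)
      obtain ⟨y, hy, y', hy', hne⟩ := (Set.one_lt_ncard hfinO).mp h2
      obtain ⟨h, hh, hhy⟩ := hOtrans i y hy y' hy'
      have := hfixall h (ht hh) y (hOsub i hy)
      exact hne (this.symm.trans hhy)
  · have hIuniv : I = Finset.univ := by
      by_contra hIu'
      exact harith1 I hI0 hIu' (hIcard ▸ hTdvd)
    have hTΩ := hIu hIuniv
    intro x hx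
    have : x ∈ T := by rw [hTΩ]; exact hx
    exact this

/-- **Simplicity criterion**, refined form. -/
theorem simple_of_suborbits' [Finite G] {k : ℕ} (Ω : Set X) (x0 : X) (hx0 : x0 ∈ Ω)
    (hΩfin : Ω.Finite)
    (hΩinv : ∀ g : G, ∀ x ∈ Ω, g • x ∈ Ω)
    (htrans : ∀ x ∈ Ω, ∃ g : G, g • x0 = x)
    (hH : IsSimpleGroup (MulAction.stabilizer G x0))
    (O : Fin k → Set X) (s : Fin k → ℕ)
    (hcover : ∀ x ∈ Ω, x ≠ x0 → ∃ i, x ∈ O i)
    (hOsub : ∀ i, O i ⊆ Ω) (hOx0 : ∀ i, x0 ∉ O i)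
    (hdisj : ∀ i j, i ≠ j → Disjoint (O i) (O j))
    (hcard : ∀ i, (O i).ncard = s i)
    (hOtrans : ∀ i, ∀ y ∈ O i, ∀ y' ∈ O i, ∃ h : G, h • x0 = x0 ∧ h • y = y')
    (hbig : ∃ i, 2 ≤ s i)
    (harith1 : ∀ I : Finset (Fin k), I ≠ ∅ → I ≠ Finset.univ →
      ¬ (1 + ∑ i ∈ I, s i) ∣ Ω.ncard)
    (m₁ m₂ : ℕ) (hm₁ : m₁ ∣ Ω.ncard) (hm₂ : m₂ ∣ Ω.ncard) (hcop : Nat.Coprime m₁ m₂)
    (harith2 : ∀ I₁ I₂ : Finset (Fin k), Disjoint I₁ I₂ → m₁ ∣ (1 + ∑ i ∈ I₁, s i) →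
      m₂ ∣ (1 + ∑ i ∈ I₂, s i) → False) :
    IsSimpleGroup G := by
  classical
  haveI : Nontrivial (MulAction.stabilizer G x0) := hH.toNontrivial
  haveI : Nontrivial G :=
    (Subtype.val_injective (p := fun g => g ∈ MulAction.stabilizer G x0)).nontrivial
  refine ⟨fun N hN => ?_⟩
  by_contra hcon
  rw [not_or] at hcon
  obtain ⟨hNbot, hNtop⟩ := hcon
  have key := normal_trans' (G := G) Ω x0 hΩfin hΩinv htrans hH O s hcover hOsub hOx0 hdisj hcard
    hOtrans hbig harith1 hx0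
  have hNtr := key N hN hNbot
  haveI : (N.subgroupOf (MulAction.stabilizer G x0)).Normal := hN.subgroupOf _
  rcases hH.eq_bot_or_eq_top_of_normal (N.subgroupOf (MulAction.stabilizer G x0)) inferInstance
    with hb | ht
  · -- the regular case
    rw [Subgroup.subgroupOf_eq_bot] at hb
    have hinj : ∀ n ∈ N, ∀ n' ∈ N, n • x0 = n' • x0 → n = n' := by
      intro n hn n' hn' h
      have h1 : n'⁻¹ * n ∈ N := N.mul_mem (N.inv_mem hn') hn
      have h2 : n'⁻¹ * n ∈ MulAction.stabilizer G x0 := by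
        rw [MulAction.mem_stabilizer_iff, mul_smul, h, inv_smul_smul]
      have h3 : n'⁻¹ * n = 1 := by
        have := hb.le_bot ⟨h1, h2⟩
        exact this
      exact (inv_mul_eq_one.mp h3).symm
    let f : ↥N → X := fun n => (n : G) • x0
    have hf : Function.Injective f := by
      intro a b hab
      exact Subtype.ext (hinj a.1 a.2 b.1 b.2 hab)
    have hΩeq : Ω = f '' Set.univ := by
      ext x
      constructor
      · intro hx
        obtain ⟨n, hn, rfl⟩ := hNtr x hx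
        exact ⟨⟨n, hn⟩, Set.mem_univ _, rfl⟩
      · rintro ⟨n, -, rfl⟩
        exact hΩinv n.1 x0 hx0
    have hcardN : Nat.card ↥N = Ω.ncard := by
      rw [hΩeq, Set.ncard_image_of_injective _ hf, Set.ncard_univ]
    -- the set of solutions of `n ^ m = 1`, transported to `Ω`
    have main : ∀ m : ℕ, m ∣ Ω.ncard → ∃ I : Finset (Fin k),
        m ∣ (1 + ∑ i ∈ I, s i) ∧ (∀ i ∈ I, O i ⊆ f '' {n : ↥N | n ^ m = 1}) ∧
        (∀ i ∈ I, ∃ y ∈ O i, y ∈ f '' {n : ↥N | n ^ m = 1}) := by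
      intro m hm
      have hfrob := Cfsg.Agent.Helper20.frobenius ↥N m (hcardN ▸ hm)
      let T : Set X := f '' {n : ↥N | n ^ m = 1}
      have hTcard : T.ncard = Nat.card {n : ↥N // n ^ m = 1} := by
        rw [Set.ncard_image_of_injective _ hf]
        rfl
      have hTsub : T ⊆ Ω := by
        rintro y ⟨n, _, rfl⟩
        exact hΩinv n.1 x0 hx0
      have hx0T : x0 ∈ T := ⟨1, by simp, one_smul _ _⟩
      have hTinv : ∀ h : G, h • x0 = x0 → ∀ y ∈ T, h • y ∈ T := by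
        rintro h hh y ⟨n, hn, rfl⟩
        refine ⟨⟨h * n.1 * h⁻¹, hN.conj_mem n.1 n.2 h⟩, ?_, ?_⟩
        · have hn' : (n : G) ^ m = 1 := by
            have := congrArg Subtype.val (show n ^ m = 1 from hn)
            simpa using this
          apply Subtype.ext
          show (h * n.1 * h⁻¹) ^ m = 1
          rw [conj_pow, hn', mul_one, mul_inv_cancel]
        · show (h * n.1 * h⁻¹) • x0 = h • (n.1 • x0)
          rw [mul_smul, mul_smul, inv_smul_eq_iff.mpr hh.symm]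
      obtain ⟨I, hIcard, -, -, hIsub, hIex⟩ := suborbit_union' (G := G) Ω x0 O s hΩfin hcover hOsub
        hOx0 hdisj hcard hOtrans T hTsub hx0T hTinv
      exact ⟨I, hIcard ▸ hTcard ▸ hfrob, hIsub, hIex⟩
    obtain ⟨I₁, hd₁, hs₁, he₁⟩ := main m₁ hm₁
    obtain ⟨I₂, hd₂, hs₂, he₂⟩ := main m₂ hm₂
    apply harith2 I₁ I₂ ?_ hd₁ hd₂
    rw [Finset.disjoint_left]
    intro i hi₁ hi₂
    obtain ⟨y, hy, n₁, hn₁, hfn₁⟩ := he₁ i hi₁
    obtain ⟨n₂, hn₂, hfn₂⟩ := hs₂ i hi₂ hy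
    have hnn : n₁ = n₂ := hf (hfn₁.trans hfn₂.symm)
    rw [← hnn] at hn₂
    have h1 : orderOf n₁ ∣ m₁ := orderOf_dvd_of_pow_eq_one hn₁
    have h2 : orderOf n₁ ∣ m₂ := orderOf_dvd_of_pow_eq_one hn₂
    have h3 : orderOf n₁ = 1 := Nat.eq_one_of_dvd_coprimes hcop h1 h2
    rw [orderOf_eq_one_iff] at h3
    rw [h3] at hfn₁
    have : y = x0 := by
      rw [← hfn₁]
      exact one_smul _ _
    rw [this] at hy
    exact hOx0 i hy
  · rw [Subgroup.subgroupOf_eq_top] at ht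
    apply hNtop
    rw [eq_top_iff]
    intro g _
    obtain ⟨n, hn, hng⟩ := hNtr (g • x0) (hΩinv g x0 hx0)
    have h2 : n⁻¹ * g ∈ MulAction.stabilizer G x0 := by
      rw [MulAction.mem_stabilizer_iff, mul_smul, ← hng, inv_smul_smul]
    have h3 : n * (n⁻¹ * g) ∈ N := N.mul_mem hn (ht h2)
    rwa [mul_inv_cancel_left] at h3

end SimpleCrit2

/-- the suborbits cover the set when the lengths add up -/
lemma cover_of_count {X : Type*} {k : ℕ} (Ω : Set X) (x0 : X) (hx0 : x0 ∈ Ω)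
    (O : Fin k → Set X) (s : Fin k → ℕ)
    (hΩfin : Ω.Finite)
    (hOsub : ∀ i, O i ⊆ Ω) (hOx0 : ∀ i, x0 ∉ O i)
    (hdisj : ∀ i j, i ≠ j → Disjoint (O i) (O j))
    (hcard : ∀ i, (O i).ncard = s i)
    (hcount : Ω.ncard = 1 + ∑ i, s i) :
    ∀ x ∈ Ω, x ≠ x0 → ∃ i, x ∈ O i := by
  classical
  have hfinO : ∀ i, (O i).Finite := fun i => hΩfin.subset (hOsub i)
  obtain ⟨hUfin, hUcard⟩ := ncard_biUnion_fin O s hfinO hdisj hcard Finset.univ
  have hx0U : x0 ∉ ⋃ i ∈ (Finset.univ : Finset (Fin k)), O i := by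
    intro h
    obtain ⟨i, _, hy⟩ := Set.mem_iUnion₂.mp h
    exact hOx0 i hy
  have hsub : insert x0 (⋃ i ∈ (Finset.univ : Finset (Fin k)), O i) ⊆ Ω := by
    rintro y (rfl | hy)
    · exact hx0
    · obtain ⟨i, _, hy⟩ := Set.mem_iUnion₂.mp hy
      exact hOsub i hy
  have heq : insert x0 (⋃ i ∈ (Finset.univ : Finset (Fin k)), O i) = Ω := by
    apply Set.eq_of_subset_of_ncard_le hsub ?_ hΩfin
    rw [Set.ncard_insert_of_notMem hx0U hUfin, hUcard, hcount, add_comm]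
  intro x hx hne
  rw [← heq] at hx
  rcases hx with rfl | hx
  · exact absurd rfl hne
  · obtain ⟨i, _, hy⟩ := Set.mem_iUnion₂.mp hx
    exact ⟨i, hy⟩

end Cfsg.Agent.Helper27
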