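import Mathlib
import Cfsg.Agent.Helper20.Frob
import Cfsg.Agent.Helper27.SimpleCrit2

set_option autoImplicit false

/-! A variant of the simplicity criterion for groups with a centre of order two: every normal
subgroup is the whole group or has at most two elements. -/

namespace Cfsg.Agent.Helper27

section SimpleCrit3

variable {G X : Type*} [Group G] [MulAction G X]

/-- no regular normal subgroup -/
lemma regular_false [Finite G] {k : ℕ} (Ω : Set X) (x0 : X) (hx0 : x0 ∈ Ω)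
    (hΩfin : Ω.Finite)
    (hΩinv : ∀ g : G, ∀ x ∈ Ω, g • x ∈ Ω)
    (O : Fin k → Set X) (s : Fin k → ℕ)
    (hcover : ∀ x ∈ Ω, x ≠ x0 → ∃ i, x ∈ O i)
    (hOsub : ∀ i, O i ⊆ Ω) (hOx0 : ∀ i, x0 ∉ O i)
    (hdisj : ∀ i j, i ≠ j → Disjoint (O i) (O j))
    (hcard : ∀ i, (O i).ncard = s i)
    (hOtrans : ∀ i, ∀ y ∈ O i, ∀ y' ∈ O i, ∃ h : G, h • x0 = x0 ∧ h • y = y')
    (m₁ m₂ : ℕ) (hm₁ : m₁ ∣ Ω.ncard) (hm₂ : m₂ ∣ Ω.ncard) (hcop : Nat.Coprime m₁ m₂)
    (harith2 : ∀ I₁ I₂ : Finset (Fin k), Disjoint I₁ I₂ → m₁ ∣ (1 + ∑ i ∈ I₁, s i) →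
      m₂ ∣ (1 + ∑ i ∈ I₂, s i) → False)
    (N : Subgroup G) (hN : N.Normal) (hNtr : ∀ x ∈ Ω, ∃ n ∈ N, n • x0 = x)
    (hb : Disjoint N (MulAction.stabilizer G x0)) : False := by
  classical
  have hinj : ∀ n ∈ N, ∀ n' ∈ N, n • x0 = n' • x0 → n = n' := by
    intro n hn n' hn' h
    have h1 : n'⁻¹ * n ∈ N := N.mul_mem (N.inv_mem hn') hn
    have h2 : n'⁻¹ * n ∈ MulAction.stabilizer G x0 := by
      rw [MulAction.mem_stabilizer_iff, mul_smul, h, inv_smul_smul]
    have h3 : n'⁻¹ * n = 1 := by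
      have := hb.le_bot ⟨h1, h2⟩
      exact this
    exact (inv_mul_eq_one.mp h3).symm
  let f : ↥N → X := fun n => (n : G) • x0
  have hf : Function.Injective f := by
    intro a b hab
    exact Subtype.ext (hinj a.1 a.2 b.1 b.2 hab)
  have hΩeq : Ω = f '' Set.univ := by
    ext x
    constructor
    · intro hx
      obtain ⟨n, hn, rfl⟩ := hNtr x hx
      exact ⟨⟨n, hn⟩, Set.mem_univ _, rfl⟩
    · rintro ⟨n, -, rfl⟩
      exact hΩinv n.1 x0 hx0
  have hcardN : Nat.card ↥N = Ω.ncard := by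
    rw [hΩeq, Set.ncard_image_of_injective _ hf, Set.ncard_univ]
  have main : ∀ m : ℕ, m ∣ Ω.ncard → ∃ I : Finset (Fin k),
      m ∣ (1 + ∑ i ∈ I, s i) ∧ (∀ i ∈ I, O i ⊆ f '' {n : ↥N | n ^ m = 1}) ∧
      (∀ i ∈ I, ∃ y ∈ O i, y ∈ f '' {n : ↥N | n ^ m = 1}) := by
    intro m hm
    have hfrob := Cfsg.Agent.Helper20.frobenius ↥N m (hcardN ▸ hm)
    let T : Set X := f '' {n : ↥N | n ^ m = 1}
    have hTcard : T.ncard = Nat.card {n : ↥N // n ^ m = 1} := by
      rw [Set.ncard_image_of_injective _ hf]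
      rfl
    have hTsub : T ⊆ Ω := by
      rintro y ⟨n, _, rfl⟩
      exact hΩinv n.1 x0 hx0
    have hx0T : x0 ∈ T := ⟨1, by simp, one_smul _ _⟩
    have hTinv : ∀ h : G, h • x0 = x0 → ∀ y ∈ T, h • y ∈ T := by
      rintro h hh y ⟨n, hn, rfl⟩
      refine ⟨⟨h * n.1 * h⁻¹, hN.conj_mem n.1 n.2 h⟩, ?_, ?_⟩
      · have hn' : (n : G) ^ m = 1 := by
          have := congrArg Subtype.val (show n ^ m = 1 from hn)
          simpa using this
        apply Subtype.ext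
        show (h * n.1 * h⁻¹) ^ m = 1
        rw [conj_pow, hn', mul_one, mul_inv_cancel]
      · show (h * n.1 * h⁻¹) • x0 = h • (n.1 • x0)
        rw [mul_smul, mul_smul, inv_smul_eq_iff.mpr hh.symm]
    obtain ⟨I, hIcard, -, -, hIsub, hIex⟩ := suborbit_union' (G := G) Ω x0 O s hΩfin hcover hOsub
      hOx0 hdisj hcard hOtrans T hTsub hx0T hTinv
    exact ⟨I, hIcard ▸ hTcard ▸ hfrob, hIsub, hIex⟩
  obtain ⟨I₁, hd₁, hs₁, he₁⟩ := main m₁ hm₁
  obtain ⟨I₂, hd₂, hs₂, he₂⟩ := main m₂ hm₂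
  apply harith2 I₁ I₂ ?_ hd₁ hd₂
  rw [Finset.disjoint_left]
  intro i hi₁ hi₂
  obtain ⟨y, hy, n₁, hn₁, hfn₁⟩ := he₁ i hi₁
  obtain ⟨n₂, hn₂, hfn₂⟩ := hs₂ i hi₂ hy
  have hnn : n₁ = n₂ := hf (hfn₁.trans hfn₂.symm)
  rw [← hnn] at hn₂
  have h1 : orderOf n₁ ∣ m₁ := orderOf_dvd_of_pow_eq_one hn₁
  have h2 : orderOf n₁ ∣ m₂ := orderOf_dvd_of_pow_eq_one hn₂
  have h3 : orderOf n₁ = 1 := Nat.eq_one_of_dvd_coprimes hcop h1 h2
  rw [orderOf_eq_one_iff] at h3
  rw [h3] at hfn₁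
  have : y = x0 := by
    rw [← hfn₁]
    exact one_smul _ _
  rw [this] at hy
  exact hOx0 i hy

/-- every normal subgroup is the whole group or has at most two elements -/
theorem normal_top_or_small [Finite G] {k : ℕ} (Ω : Set X) (x0 : X) (hx0 : x0 ∈ Ω)
    (hΩfin : Ω.Finite)
    (hΩinv : ∀ g : G, ∀ x ∈ Ω, g • x ∈ Ω)
    (htrans : ∀ x ∈ Ω, ∃ g : G, g • x0 = x)
    (hH : IsSimpleGroup (MulAction.stabilizer G x0))
    (O : Fin k → Set X) (s : Fin k → ℕ)
    (hcover : ∀ x ∈ Ω, x ≠ x0 → ∃ i, x ∈ O i)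
    (hOsub : ∀ i, O i ⊆ Ω) (hOx0 : ∀ i, x0 ∉ O i)
    (hdisj : ∀ i j, i ≠ j → Disjoint (O i) (O j))
    (hcard : ∀ i, (O i).ncard = s i)
    (hOtrans : ∀ i, ∀ y ∈ O i, ∀ y' ∈ O i, ∃ h : G, h • x0 = x0 ∧ h • y = y')
    (hbig : ∃ i, 3 ≤ s i)
    (harith1 : ∀ I : Finset (Fin k), I ≠ Finset.univ →
      (1 + ∑ i ∈ I, s i) ∣ Ω.ncard → 1 + ∑ i ∈ I, s i ≤ 2)
    (m₁ m₂ : ℕ) (hm₁ : m₁ ∣ Ω.ncard) (hm₂ : m₂ ∣ Ω.ncard) (hcop : Nat.Coprime m₁ m₂)
    (harith2 : ∀ I₁ I₂ : Finset (Fin k), Disjoint I₁ I₂ → m₁ ∣ (1 + ∑ i ∈ I₁, s i) →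
      m₂ ∣ (1 + ∑ i ∈ I₂, s i) → False)
    (N : Subgroup G) (hN : N.Normal) : N = ⊤ ∨ Nat.card ↥N ≤ 2 := by
  classical
  let T : Set X := {y | ∃ n ∈ N, n • x0 = y}
  have hTsub : T ⊆ Ω := by
    rintro y ⟨n, _, rfl⟩
    exact hΩinv n x0 hx0
  have hTfin : T.Finite := hΩfin.subset hTsub
  have hx0T : x0 ∈ T := ⟨1, N.one_mem, one_smul _ _⟩
  have hTinv : ∀ h : G, h • x0 = x0 → ∀ y ∈ T, h • y ∈ T := by
    rintro h hh y ⟨n, hn, rfl⟩
    refine ⟨h * n * h⁻¹, hN.conj_mem n hn h, ?_⟩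
    rw [mul_smul, mul_smul, inv_smul_eq_iff.mpr hh.symm]
  have hTdvd : T.ncard ∣ Ω.ncard := normal_orbit_dvd Ω x0 hΩinv htrans hx0 N hN
  obtain ⟨I, hIcard, -, hIu, -, -⟩ := suborbit_union' (G := G) Ω x0 O s hΩfin hcover hOsub hOx0
    hdisj hcard hOtrans T hTsub hx0T hTinv
  haveI : (N.subgroupOf (MulAction.stabilizer G x0)).Normal := hN.subgroupOf _
  by_cases hIuniv : I = Finset.univ
  · have hTΩ := hIu hIuniv
    have hNtr : ∀ x ∈ Ω, ∃ n ∈ N, n • x0 = x := by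
      intro x hx
      have : x ∈ T := by rw [hTΩ]; exact hx
      exact this
    rcases hH.eq_bot_or_eq_top_of_normal (N.subgroupOf (MulAction.stabilizer G x0)) inferInstance
      with hb | ht
    · exfalso
      rw [Subgroup.subgroupOf_eq_bot] at hb
      exact regular_false Ω x0 hx0 hΩfin hΩinv O s hcover hOsub hOx0 hdisj hcard hOtrans m₁ m₂
        hm₁ hm₂ hcop harith2 N hN hNtr hb
    · left
      rw [Subgroup.subgroupOf_eq_top] at ht
      rw [eq_top_iff]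
      intro g _
      obtain ⟨n, hn, hng⟩ := hNtr (g • x0) (hΩinv g x0 hx0)
      have h2 : n⁻¹ * g ∈ MulAction.stabilizer G x0 := by
        rw [MulAction.mem_stabilizer_iff, mul_smul, ← hng, inv_smul_smul]
      have h3 : n * (n⁻¹ * g) ∈ N := N.mul_mem hn (ht h2)
      rwa [mul_inv_cancel_left] at h3
  · have hT2 : T.ncard ≤ 2 := by
      rw [hIcard]
      exact harith1 I hIuniv (hIcard ▸ hTdvd)
    rcases hH.eq_bot_or_eq_top_of_normal (N.subgroupOf (MulAction.stabilizer G x0)) inferInstance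
      with hb | ht
    · right
      rw [Subgroup.subgroupOf_eq_bot] at hb
      let f : ↥N → X := fun n => (n : G) • x0
      have hf : Function.Injective f := by
        intro a b hab
        have h1 : b.1⁻¹ * a.1 ∈ N := N.mul_mem (N.inv_mem b.2) a.2
        have h2 : b.1⁻¹ * a.1 ∈ MulAction.stabilizer G x0 := by
          have hab' : a.1 • x0 = b.1 • x0 := hab
          rw [MulAction.mem_stabilizer_iff, mul_smul, hab', inv_smul_smul]
        have h3 : b.1⁻¹ * a.1 = 1 := by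
          have := hb.le_bot ⟨h1, h2⟩
          exact this
        exact Subtype.ext (inv_mul_eq_one.mp h3).symm
      have himg : f '' Set.univ ⊆ T := by
        rintro y ⟨n, -, rfl⟩
        exact ⟨n.1, n.2, rfl⟩
      have := Set.ncard_le_ncard himg hTfin
      rw [Set.ncard_image_of_injective _ hf, Set.ncard_univ] at this
      omega
    · exfalso
      rw [Subgroup.subgroupOf_eq_top] at ht
      obtain ⟨i, hi⟩ := hbig
      have hfinO : (O i).Finite := hΩfin.subset (hOsub i)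
      have hne : (O i).Nonempty := by
        rw [← Set.ncard_pos hfinO, hcard]
        omega
      obtain ⟨y, hy⟩ := hne
      obtain ⟨g, rfl⟩ := htrans y (hOsub i hy)
      have hsub : O i ⊆ (fun z => g • z) '' T := by
        intro y' hy'
        obtain ⟨h, hh, hhy⟩ := hOtrans i _ hy y' hy'
        have hhN : h ∈ N := ht hh
        refine ⟨(g⁻¹ * h * g) • x0, ⟨g⁻¹ * h * g, ?_, rfl⟩, ?_⟩
        · have := hN.conj_mem h hhN g⁻¹
          rwa [inv_inv] at this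
        · show g • ((g⁻¹ * h * g) • x0) = y'
          rw [mul_smul, mul_smul, smul_inv_smul]
          exact hhy
      have h1 := Set.ncard_le_ncard hsub (hTfin.image _)
      rw [Set.ncard_image_of_injective _ (MulAction.injective g), hcard] at h1
      omega

/-- a normal subgroup with at most two elements is central -/
lemma central_of_card_le_two {G : Type*} [Group G] (N : Subgroup G) (hN : N.Normal)
    (h2 : Nat.card ↥N ≤ 2) (hfin : Finite ↥N) : N ≤ Subgroup.center G := by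
  intro n hn
  rw [Subgroup.mem_center_iff]
  intro g
  by_cases hn1 : n = 1
  · rw [hn1, mul_one, one_mul]
  · have hc : g * n * g⁻¹ ∈ N := hN.conj_mem n hn g
    have hc1 : g * n * g⁻¹ ≠ 1 := by
      intro h
      apply hn1
      have : n = g⁻¹ * (g * n * g⁻¹) * g := by
        simp only [mul_assoc, inv_mul_cancel_left, inv_mul_cancel, mul_one]
      rw [this, h, mul_one, inv_mul_cancel]
    by_contra hcomm
    have hne : g * n * g⁻¹ ≠ n := by
      intro h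
      apply hcomm
      have e : g * n = (g * n * g⁻¹) * g := by
        simp only [mul_assoc, inv_mul_cancel, mul_one]
      rw [e, h]
    -- three distinct elements of `N`
    have h3 : 2 < Nat.card ↥N := by
      rw [← Set.ncard_univ, Set.two_lt_ncard (Set.toFinite _)]
      refine ⟨1, Set.mem_univ _, ⟨n, hn⟩, Set.mem_univ _, ⟨g * n * g⁻¹, hc⟩, Set.mem_univ _, ?_, ?_, ?_⟩
      · intro h
        exact hn1 (congrArg Subtype.val h).symm
      · intro h
        exact hc1 (congrArg Subtype.val h).symm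
      · intro h
        exact hne (congrArg Subtype.val h).symm
    omega

end SimpleCrit3

end Cfsg.Agent.Helper27
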