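import Cfsg.Agent.Helper27.Co1Count
import Cfsg.Agent.Helper27.SimpleCrit3

set_option autoImplicit false
open Cfsg

/-! The automorphism group of the lattice modulo its centre is simple, given the simplicity of
the stabiliser of a minimal vector. -/

namespace Cfsg.Agent.Helper27

/-- the dot products labelling the suborbits -/
def co1D : Fin 6 → ℤ := ![-32, 16, -16, 8, -8, 0]

lemma co1D_inj : ∀ i j, i ≠ j → co1D i ≠ co1D j := by decide

lemma co1D_ne : ∀ i, co1D i ≠ 32 := by decide

set_option maxRecDepth 100000 in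
lemma co1_arith1 : ∀ I : Finset (Fin 6), I ≠ Finset.univ →
    (1 + ∑ i ∈ I, (![1, 4600, 4600, 47104, 47104, 93150] : Fin 6 → ℕ) i) ∣ 196560 →
    1 + ∑ i ∈ I, (![1, 4600, 4600, 47104, 47104, 93150] : Fin 6 → ℕ) i ≤ 2 := by
  decide +kernel

set_option maxRecDepth 100000 in
lemma co1_arith2 : ∀ I₁ I₂ : Finset (Fin 6), Disjoint I₁ I₂ →
    7 ∣ (1 + ∑ i ∈ I₁, (![1, 4600, 4600, 47104, 47104, 93150] : Fin 6 → ℕ) i) →
    13 ∣ (1 + ∑ i ∈ I₂, (![1, 4600, 4600, 47104, 47104, 93150] : Fin 6 → ℕ) i) → False := by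
  decide +kernel

/-- every normal subgroup of the automorphism group is everything or has at most two elements -/
theorem co1_normal (v : leechLattice) (hv : sqNorm v.1 = 32)
    (hH : IsSimpleGroup ↥(MulAction.stabilizer Co0 v)) (N : Subgroup Co0) (hN : N.Normal) :
    N = ⊤ ∨ Nat.card ↥N ≤ 2 := by
  haveI : Finite ↥Co0 := Nat.finite_of_card_ne_zero (by rw [card_Co0]; norm_num)
  have hcnt := ncard_shell32
  have hfin : ({x : leechLattice | sqNorm x.1 = 32} : Set leechLattice).Finite :=
    Set.finite_of_ncard_ne_zero (by rw [hcnt]; norm_num)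
  have hvv : dotInt v.1 v.1 = 32 := by rw [dotInt_self]; exact hv
  have hOsub : ∀ i, dotSet v (co1D i) ⊆ {x : leechLattice | sqNorm x.1 = 32} :=
    fun i x hx => hx.1
  have hOx0 : ∀ i, v ∉ dotSet v (co1D i) := by
    intro i hvi
    have h1 : dotInt v.1 v.1 = co1D i := hvi.2
    rw [hvv] at h1
    exact co1D_ne i h1.symm
  have hdisj : ∀ i j, i ≠ j → Disjoint (dotSet v (co1D i)) (dotSet v (co1D j)) := by
    intro i j hij
    rw [Set.disjoint_left]
    rintro x ⟨_, h1⟩ ⟨_, h2⟩
    exact co1D_inj i j hij (h1.symm.trans h2)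
  have hcard : ∀ i, (dotSet v (co1D i)).ncard =
      (![1, 4600, 4600, 47104, 47104, 93150] : Fin 6 → ℕ) i := by
    intro i
    fin_cases i
    · show (dotSet v (-32)).ncard = 1
      rw [dotSet_m32 v hv, Set.ncard_singleton]
    · exact dot_count_16 v hv
    · exact dot_count_m16 v hv
    · exact dot_count_8 v hv
    · exact dot_count_m8 v hv
    · exact dot_count_0 v hv
  have hOtrans : ∀ i, ∀ y ∈ dotSet v (co1D i), ∀ y' ∈ dotSet v (co1D i),
      ∃ h : ↥Co0, h • v = v ∧ h • y = y' := by
    intro i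
    fin_cases i
    · intro y hy y' hy'
      have hy1 : y ∈ dotSet v (-32) := hy
      have hy2 : y' ∈ dotSet v (-32) := hy'
      rw [dotSet_m32 v hv] at hy1 hy2
      have e1 : y = -v := hy1
      have e2 : y' = -v := hy2
      exact ⟨1, one_smul _ _, by rw [one_smul, e1, e2]⟩
    · exact dot_trans_16 v hv
    · exact dot_trans_m16 v hv
    · exact dot_trans_8 v hv
    · exact dot_trans_m8 v hv
    · exact dot_trans_0 v hv
  exact normal_top_or_small (G := ↥Co0) {x : leechLattice | sqNorm x.1 = 32} v hv hfin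
    (fun g x hx => by
      show sqNorm (g • x : leechLattice).1 = 32
      rw [co0_norm]
      exact hx)
    (fun x hx => Cfsg.Agent.S0400.result v x hv hx)
    hH (fun i => dotSet v (co1D i)) ![1, 4600, 4600, 47104, 47104, 93150]
    (cover_of_count _ v hv _ _ hfin hOsub hOx0 hdisj hcard (by rw [hcnt]; decide))
    hOsub hOx0 hdisj hcard hOtrans ⟨1, by norm_num⟩
    (by rw [hcnt]; exact co1_arith1)
    7 13 (by rw [hcnt]; norm_num) (by rw [hcnt]; norm_num) (by norm_num)
    co1_arith2 N hN

/-- the order of the quotient by the centre -/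
theorem co1_card : Nat.card (Co0 ⧸ Subgroup.center Co0) = 4157776806543360000 := by
  have h := Subgroup.card_eq_card_quotient_mul_card_subgroup (Subgroup.center Co0)
  rw [card_Co0, card_center] at h
  omega

/-- the quotient by the centre is simple -/
theorem co1_simple_of (v : leechLattice) (hv : sqNorm v.1 = 32)
    (hH : IsSimpleGroup ↥(MulAction.stabilizer Co0 v)) :
    IsSimpleGroup (Co0 ⧸ Subgroup.center Co0) := by
  haveI : Finite ↥Co0 := Nat.finite_of_card_ne_zero (by rw [card_Co0]; norm_num)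
  haveI : Nontrivial (Co0 ⧸ Subgroup.center Co0) :=
    Finite.one_lt_card_iff_nontrivial.mp (by rw [co1_card]; norm_num)
  refine ⟨fun N' hN' => ?_⟩
  have hNn : (N'.comap (QuotientGroup.mk' (Subgroup.center Co0))).Normal := hN'.comap _
  rcases co1_normal v hv hH _ hNn with h | h
  · right
    rw [eq_top_iff]
    intro q _
    obtain ⟨g, rfl⟩ := QuotientGroup.mk'_surjective (Subgroup.center Co0) q
    have hg : g ∈ N'.comap (QuotientGroup.mk' (Subgroup.center Co0)) := by
      rw [h]
      exact Subgroup.mem_top g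
    exact hg
  · left
    rw [eq_bot_iff]
    intro q hq
    obtain ⟨g, rfl⟩ := QuotientGroup.mk'_surjective (Subgroup.center Co0) q
    have hg : g ∈ N'.comap (QuotientGroup.mk' (Subgroup.center Co0)) := hq
    have hc := central_of_card_le_two _ hNn h inferInstance hg
    rw [Subgroup.mem_bot]
    exact (QuotientGroup.eq_one_iff g).mpr hc

end Cfsg.Agent.Helper27
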