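import Cfsg.Agent.Helper27.Co2DataD1
import Cfsg.Agent.Helper27.Co2DataD2

set_option autoImplicit false
open Cfsg

namespace Cfsg.Agent.Helper27

set_option maxRecDepth 1000000 in
lemma co2_len_d : co2_Yd.flatten.length = 15400 := by decide +kernel

set_option maxRecDepth 1000000 in
lemma co2_clen_d : co2_Yd.length ≤ 8 * 32 := by decide +kernel

lemma co2_chk_d : chkAll co2_gens co2_Yd co2_root_d = true := by
  apply chkAll_of_ranges co2_gens co2_Yd co2_root_d 32 8 (by norm_num)
  · intro j hj
    interval_cases j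
    · exact co2_chk_d_0
    · exact co2_chk_d_1
    · exact co2_chk_d_2
    · exact co2_chk_d_3
    · exact co2_chk_d_4
    · exact co2_chk_d_5
    · exact co2_chk_d_6
    · exact co2_chk_d_7
  · exact co2_clen_d

set_option maxRecDepth 1000000 in
lemma co2_sorted_d : incB (2 ^ 96) (co2_Yd.flatten.map eVec) = true := by decide +kernel

/-- base point of a suborbit -/
def co2Yd : leechLattice := ⟨vecN co2_root_d, mem_of_chk _ (by decide +kernel)⟩

lemma co2Yd_mem : sqNorm co2Yd.1 = 32 ∧ dotInt co2V.1 co2Yd.1 = -8 ∧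
    dotInt co2X0.1 co2Yd.1 = 8 := by decide +kernel

end Cfsg.Agent.Helper27
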