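import Cfsg.Agent.Helper27.Co2DataE0

set_option autoImplicit false
open Cfsg

namespace Cfsg.Agent.Helper27

set_option maxRecDepth 1000000 in
lemma co2_chk_e_8 : chkRange co2_gens co2_Ye co2_root_e (8 * 32) 32 = true := by
  decide +kernel

set_option maxRecDepth 1000000 in
lemma co2_chk_e_9 : chkRange co2_gens co2_Ye co2_root_e (9 * 32) 32 = true := by
  decide +kernel

set_option maxRecDepth 1000000 in
lemma co2_chk_e_10 : chkRange co2_gens co2_Ye co2_root_e (10 * 32) 32 = true := by
  decide +kernel

end Cfsg.Agent.Helper27
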