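import Cfsg.Agent.Helper27.Co2DataE1
import Cfsg.Agent.Helper27.Co2DataE2
import Cfsg.Agent.Helper27.Co2DataE3

set_option autoImplicit false
open Cfsg

namespace Cfsg.Agent.Helper27

set_option maxRecDepth 1000000 in
lemma co2_len_e : co2_Ye.flatten.length = 22275 := by decide +kernel

set_option maxRecDepth 1000000 in
lemma co2_clen_e : co2_Ye.length ≤ 11 * 32 := by decide +kernel

lemma co2_chk_e : chkAll co2_gens co2_Ye co2_root_e = true := by
  apply chkAll_of_ranges co2_gens co2_Ye co2_root_e 32 11 (by norm_num)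
  · intro j hj
    interval_cases j
    · exact co2_chk_e_0
    · exact co2_chk_e_1
    · exact co2_chk_e_2
    · exact co2_chk_e_3
    · exact co2_chk_e_4
    · exact co2_chk_e_5
    · exact co2_chk_e_6
    · exact co2_chk_e_7
    · exact co2_chk_e_8
    · exact co2_chk_e_9
    · exact co2_chk_e_10
  · exact co2_clen_e

set_option maxRecDepth 1000000 in
lemma co2_sorted_e : incB (2 ^ 96) (co2_Ye.flatten.map eVec) = true := by decide +kernel

/-- base point of a suborbit -/
def co2Ye : leechLattice := ⟨vecN co2_root_e, mem_of_chk _ (by decide +kernel)⟩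

lemma co2Ye_mem : sqNorm co2Ye.1 = 32 ∧ dotInt co2V.1 co2Ye.1 = -8 ∧
    dotInt co2X0.1 co2Ye.1 = 0 := by decide +kernel

end Cfsg.Agent.Helper27
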