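import Cfsg.Agent.Helper27.OrbitPart

set_option autoImplicit false
open Cfsg

namespace Cfsg.Agent.Helper27

def co2_rv : List ℤ := [1, -1, 1, 1, 1, 1, -1, -3, -1, 1, -1, -1, 1, -1, -1, -1, 1, -1, 1, -1, 1, 1, -1, -1]

def co2_x0 : List ℤ := [1, -1, 1, 1, -1, 1, 1, 1, 1, -3, 1, -1, 1, -1, -1, 1, -1, 1, 1, 1, -1, -1, 1, 1]

def co2_gens : List (List ℕ × List ℕ × ℕ) :=
  [([23, 4, 20, 15, 11, 18, 0, 8, 3, 6, 16, 13, 2, 17, 19, 7, 9, 5, 14, 12, 1, 22, 21, 10], [6, 20, 12, 8, 1, 17, 9, 15, 7, 16, 23, 4, 19, 11, 18, 3, 10, 13, 5, 14, 2, 22, 21, 0], 9347075),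
   ([0, 3, 13, 11, 20, 2, 8, 6, 16, 18, 5, 19, 14, 22, 7, 12, 17, 15, 21, 1, 4, 10, 9, 23], [0, 19, 5, 1, 20, 10, 7, 14, 6, 22, 21, 3, 15, 2, 12, 17, 8, 16, 9, 11, 4, 18, 13, 23], 14716939),
   ([18, 13, 14, 2, 7, 6, 15, 8, 16, 5, 11, 3, 20, 1, 23, 10, 21, 0, 12, 22, 4, 17, 19, 9], [17, 13, 3, 11, 20, 9, 5, 4, 7, 23, 15, 10, 18, 1, 2, 6, 8, 21, 0, 22, 12, 16, 19, 14], 7397512)]

lemma co2_val : ∀ d ∈ co2_gens, gdValid d = true := by decide +kernel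

/-- the fixed minimal vector -/
def co2V : leechLattice := ⟨vecL co2_rv, mem_of_chk _ (by decide +kernel)⟩

/-- the base point -/
def co2X0 : leechLattice := ⟨vecL co2_x0, mem_of_chk _ (by decide +kernel)⟩

lemma co2V_norm : sqNorm co2V.1 = 32 := by decide +kernel

lemma co2X0_mem : sqNorm co2X0.1 = 32 ∧ dotInt co2V.1 co2X0.1 = -8 := by decide +kernel

set_option maxRecDepth 100000 in
lemma co2_fix : ∀ d ∈ co2_gens, ∀ r ∈ [co2X0, co2V], gdFun d r.1 = r.1 := by decide +kernel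

end Cfsg.Agent.Helper27
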