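import Cfsg.Agent.Helper27.M25Data
import Cfsg.Agent.S0400

set_option autoImplicit false
open Cfsg

namespace Cfsg.Agent.Helper27

/-- the set of 2025 points attached to two minimal vectors -/
def m25Set (v w : leechLattice) : Set leechLattice :=
  {x : leechLattice | sqNorm x.1 = 32 ∧ dotInt v.1 x.1 = 0 ∧ dotInt w.1 x.1 = 16}

lemma m25Set_smul (g : Co0) (v w x : leechLattice) :
    x ∈ m25Set v w ↔ g • x ∈ m25Set (g • v) (g • w) := by
  show (sqNorm x.1 = 32 ∧ dotInt v.1 x.1 = 0 ∧ dotInt w.1 x.1 = 16) ↔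
    (sqNorm (g • x : leechLattice).1 = 32 ∧ dotInt (g • v : leechLattice).1 (g • x : leechLattice).1 = 0
      ∧ dotInt (g • w : leechLattice).1 (g • x : leechLattice).1 = 16)
  rw [co0_norm, co0_dot, co0_dot]

/-- pairs of minimal vectors with dot product `-8` form one orbit -/
theorem m25_pairs (v w v' w' : leechLattice) (hv : sqNorm v.1 = 32) (hw : sqNorm w.1 = 32)
    (hvw : dotInt v.1 w.1 = -8) (hv' : sqNorm v'.1 = 32) (hw' : sqNorm w'.1 = 32)
    (hvw' : dotInt v'.1 w'.1 = -8) : ∃ g : Co0, g • v = v' ∧ g • w = w' := by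
  obtain ⟨g1, hg1⟩ := Cfsg.Agent.S0400.result v v' hv hv'
  have n1 : sqNorm (g1 • w : leechLattice).1 = 32 := by rw [co0_norm]; exact hw
  have d1 : dotInt v'.1 (g1 • w : leechLattice).1 = -8 := by rw [← hg1, co0_dot]; exact hvw
  obtain ⟨h, hh1, hh2⟩ := m2_trans_gen v' (g1 • w) w' hv' n1 hw' d1 hvw'
  exact ⟨h * g1, by rw [mul_smul, hg1, hh1], by rw [mul_smul, hh2]⟩

theorem m25_count (v w : leechLattice) (hv : sqNorm v.1 = 32) (hw : sqNorm w.1 = 32)
    (hvw : dotInt v.1 w.1 = -8) : (m25Set v w).ncard = 2025 := by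
  have n2 : sqNorm (-m25A2 : leechLattice).1 = 32 := by
    show sqNorm (-m25A2.1) = 32
    rw [sqNorm_neg', m25A2_norm]
  have d2 : dotInt m25A1.1 (-m25A2 : leechLattice).1 = -8 := by
    show dotInt m25A1.1 (-m25A2.1) = -8
    rw [dotInt_neg_right, m25A_dot]
  obtain ⟨g, hg1, hg2⟩ := m25_pairs v w m25A1 (-m25A2) hv hw hvw m25A1_norm n2 d2
  have h := census_sub m25L m25L_len 0 0 0 16
  rw [m25_c1, m25_c2, m25_c3] at h
  have h' : {w : leechLattice | sqNorm w.1 = 32 ∧ CP m25L 0 0 0 16 w.1}.ncard = 2025 := h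
  rw [← h']
  apply ncard_smul g
  intro x
  rw [m25Set_smul g v w x, hg1, hg2]
  show (sqNorm (g • x : leechLattice).1 = 32 ∧ dotInt m25A1.1 (g • x : leechLattice).1 = 0
      ∧ dotInt (-m25A2.1) (g • x : leechLattice).1 = 16) ↔
    (sqNorm (g • x : leechLattice).1 = 32 ∧ dotInt m25A1.1 (g • x : leechLattice).1 = ((0 : ℕ) : ℤ) - ((0 : ℕ) : ℤ)
      ∧ dotInt m25A2.1 (g • x : leechLattice).1 = ((0 : ℕ) : ℤ) - ((16 : ℕ) : ℤ))
  rw [dotInt_neg_left]
  have e1 : ((0 : ℕ) : ℤ) - ((0 : ℕ) : ℤ) = 0 := by norm_num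
  have e2 : ((0 : ℕ) : ℤ) - ((16 : ℕ) : ℤ) = -16 := by norm_num
  rw [e1, e2]
  constructor
  · rintro ⟨h1, h2, h3⟩
    exact ⟨h1, h2, by omega⟩
  · rintro ⟨h1, h2, h3⟩
    exact ⟨h1, h2, by omega⟩

theorem m25_transB : ∀ x ∈ m25Set m25V m25W, ∀ x' ∈ m25Set m25V m25W,
    ∃ g : Co0, (∀ r ∈ [m25V, m25W], g • r = r) ∧ g • x = x' := by
  have hQS : ∀ g : Co0, (∀ r ∈ [m25V, m25W], g • r = r) → ∀ x ∈ m25Set m25V m25W,
      g • x ∈ m25Set m25V m25W := by
    intro g hg x hx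
    have := (m25Set_smul g m25V m25W x).mp hx
    rwa [hg m25V (by simp), hg m25W (by simp)] at this
  have h := orbit_full (m25Set m25V m25W) (fun g => ∀ r ∈ [m25V, m25W], g • r = r)
    (fun r _ => one_smul _ r) (fixes_mul _) (fixes_inv _) hQS m25_gens m25_val
    (gens_fix _ _ m25_val m25_fix) m25_Y m25_root m25X0 m25X0_mem rfl m25_chk m25_sorted
    (by rw [m25_len]; exact m25_count m25V m25W m25V_norm m25W_norm m25B_dot)
    (by rw [m25_len]; norm_num)
  exact h.2.1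

theorem m25_trans (v w : leechLattice) (hv : sqNorm v.1 = 32) (hw : sqNorm w.1 = 32)
    (hvw : dotInt v.1 w.1 = -8) : ∀ x ∈ m25Set v w, ∀ x' ∈ m25Set v w,
    ∃ g : Co0, g • v = v ∧ g • w = w ∧ g • x = x' := by
  obtain ⟨g, hg1, hg2⟩ := m25_pairs v w m25V m25W hv hw hvw m25V_norm m25W_norm m25B_dot
  intro x hx x' hx'
  have hx2 : g • x ∈ m25Set m25V m25W := by
    have := (m25Set_smul g v w x).mp hx
    rwa [hg1, hg2] at this
  have hx2' : g • x' ∈ m25Set m25V m25W := by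
    have := (m25Set_smul g v w x').mp hx'
    rwa [hg1, hg2] at this
  obtain ⟨h, hh, hhx⟩ := m25_transB _ hx2 _ hx2'
  have h1 : h • m25V = m25V := hh m25V (by simp)
  have h2 : h • m25W = m25W := hh m25W (by simp)
  refine ⟨g⁻¹ * h * g, ?_, ?_, ?_⟩
  · rw [mul_smul, mul_smul, hg1, h1, ← hg1, inv_smul_smul]
  · rw [mul_smul, mul_smul, hg2, h2, ← hg2, inv_smul_smul]
  · rw [mul_smul, mul_smul, hhx, inv_smul_smul]

lemma m25X0_self : dotInt m25X0.1 m25X0.1 = 32 := by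
  rw [dotInt_self]
  exact m25X0_mem.1

/-- the suborbits of the point stabiliser in the orbit model -/
theorem m25_subB (t : List (List ℕ) × ℕ × leechLattice × ℤ)
    (ht : t ∈ [(m25_Ya, m25_root_a, m25Ya, (0 : ℤ)), (m25_Yb, m25_root_b, m25Yb, 16),
      (m25_Yc, m25_root_c, m25Yc, 8)]) :
    {y : leechLattice | y ∈ m25Set m25V m25W ∧ dotInt m25X0.1 y.1 = t.2.2.2}.ncard
        = t.1.flatten.length ∧
      ∀ y : leechLattice, y ∈ {y : leechLattice | y ∈ m25Set m25V m25W ∧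
          dotInt m25X0.1 y.1 = t.2.2.2} ↔
        ∃ g : Co0, (∀ r ∈ [m25X0, m25V, m25W], g • r = r) ∧ g • t.2.2.1 = y := by
  have hinv : ∀ g : Co0, (∀ r ∈ [m25X0, m25V, m25W], g • r = r) → ∀ y ∈ m25Set m25V m25W,
      g • y ∈ m25Set m25V m25W := by
    intro g hg y hy
    have h1 := (m25Set_smul g m25V m25W y).mp hy
    rwa [hg m25V (by simp), hg m25W (by simp)] at h1
  have hcnt := m25_count m25V m25W m25V_norm m25W_norm m25B_dot
  have hfin : (m25Set m25V m25W).Finite := Set.finite_of_ncard_pos (by rw [hcnt]; norm_num)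
  have h := suborbits' (m25Set m25V m25W) hfin [m25X0, m25V, m25W] m25X0 m25X0_mem (by simp)
    hinv m25s_gens m25s_val m25s_fix
    [(m25_Ya, m25_root_a, m25Ya, 0), (m25_Yb, m25_root_b, m25Yb, 16),
      (m25_Yc, m25_root_c, m25Yc, 8)]
    (by
      intro t ht
      simp only [List.mem_cons, List.not_mem_nil, or_false] at ht
      rcases ht with rfl | rfl | rfl
      · exact ⟨⟨m25Ya_mem.1, m25Ya_mem.2.1, m25Ya_mem.2.2.1⟩, rfl, m25Ya_mem.2.2.2, m25_chka,
          m25_sorteda⟩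
      · exact ⟨⟨m25Yb_mem.1, m25Yb_mem.2.1, m25Yb_mem.2.2.1⟩, rfl, m25Yb_mem.2.2.2, m25_chkb,
          m25_sortedb⟩
      · exact ⟨⟨m25Yc_mem.1, m25Yc_mem.2.1, m25Yc_mem.2.2.1⟩, rfl, m25Yc_mem.2.2.2, m25_chkc,
          m25_sortedc⟩)
    (by decide) (by rw [m25X0_self]; decide)
    (by
      rw [hcnt]
      simp only [List.map_cons, List.map_nil, List.sum_cons, List.sum_nil, m25_lena, m25_lenb,
        m25_lenc]
      norm_num)
  exact h.1 t ht

/-- the statement on the 2025 points for an arbitrary configuration -/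
theorem m25_main (v w : leechLattice) (hv : sqNorm v.1 = 32) (hw : sqNorm w.1 = 32)
    (hvw : dotInt v.1 w.1 = -8) (x : leechLattice) (hx : x ∈ m25Set v w) :
    ∃ y₁ ∈ m25Set v w, ∃ y₂ ∈ m25Set v w, ∃ y₃ ∈ m25Set v w,
      (MulAction.orbit ↥(MulAction.stabilizer ↥Co0 v ⊓ MulAction.stabilizer ↥Co0 w ⊓
        MulAction.stabilizer ↥Co0 x) y₁).ncard = 330 ∧
      (MulAction.orbit ↥(MulAction.stabilizer ↥Co0 v ⊓ MulAction.stabilizer ↥Co0 w ⊓
        MulAction.stabilizer ↥Co0 x) y₂).ncard = 462 ∧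
      (MulAction.orbit ↥(MulAction.stabilizer ↥Co0 v ⊓ MulAction.stabilizer ↥Co0 w ⊓
        MulAction.stabilizer ↥Co0 x) y₃).ncard = 1232 := by
  obtain ⟨g, hg1, hg2⟩ := m25_pairs v w m25V m25W hv hw hvw m25V_norm m25W_norm m25B_dot
  have hx' : g • x ∈ m25Set m25V m25W := by
    have := (m25Set_smul g v w x).mp hx
    rwa [hg1, hg2] at this
  obtain ⟨h, hh, hhx⟩ := m25_transB _ hx' _ m25X0_mem
  have k1 : (h * g) • v = m25V := by rw [mul_smul, hg1, hh m25V (by simp)]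
  have k2 : (h * g) • w = m25W := by rw [mul_smul, hg2, hh m25W (by simp)]
  have k3 : (h * g) • x = m25X0 := by rw [mul_smul, hhx]
  generalize h * g = k at k1 k2 k3
  have hk : ∀ g0 : Co0, (∀ r ∈ [v, w, x], g0 • (k • r) = k • r) ↔
      (∀ r ∈ [m25X0, m25V, m25W], g0 • r = r) := by
    intro g0
    constructor
    · intro hq r hr
      simp only [List.mem_cons, List.not_mem_nil, or_false] at hr
      rcases hr with rfl | rfl | rfl
      · have := hq x (by simp); rwa [k3] at this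
      · have := hq v (by simp); rwa [k1] at this
      · have := hq w (by simp); rwa [k2] at this
    · intro hq r hr
      simp only [List.mem_cons, List.not_mem_nil, or_false] at hr
      rcases hr with rfl | rfl | rfl
      · rw [k1]; exact hq m25V (by simp)
      · rw [k2]; exact hq m25W (by simp)
      · rw [k3]; exact hq m25X0 (by simp)
  have hmem : ∀ y : leechLattice, y ∈ m25Set m25V m25W → k⁻¹ • y ∈ m25Set v w := by
    intro y hy
    have := m25Set_smul k v w (k⁻¹ • y)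
    rw [k1, k2, smul_inv_smul] at this
    exact this.mpr hy
  have ha := m25_subB (m25_Ya, m25_root_a, m25Ya, 0) (by simp)
  have hb := m25_subB (m25_Yb, m25_root_b, m25Yb, 16) (by simp)
  have hc := m25_subB (m25_Yc, m25_root_c, m25Yc, 8) (by simp)
  have ta := orbit_transport k [v, w, x] [m25X0, m25V, m25W] hk _ m25Ya ha.2
  have tb := orbit_transport k [v, w, x] [m25X0, m25V, m25W] hk _ m25Yb hb.2
  have tc := orbit_transport k [v, w, x] [m25X0, m25V, m25W] hk _ m25Yc hc.2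
  refine ⟨k⁻¹ • m25Ya, hmem _ ⟨m25Ya_mem.1, m25Ya_mem.2.1, m25Ya_mem.2.2.1⟩,
    k⁻¹ • m25Yb, hmem _ ⟨m25Yb_mem.1, m25Yb_mem.2.1, m25Yb_mem.2.2.1⟩,
    k⁻¹ • m25Yc, hmem _ ⟨m25Yc_mem.1, m25Yc_mem.2.1, m25Yc_mem.2.2.1⟩, ?_, ?_, ?_⟩
  · rw [orbit_stab3, ta.2, ha.1]
    exact m25_lena
  · rw [orbit_stab3, tb.2, hb.1]
    exact m25_lenb
  · rw [orbit_stab3, tc.2, hc.1]
    exact m25_lenc

end Cfsg.Agent.Helper27
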