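import Cfsg.Agent.Helper27.Co3Simple
import Cfsg.Agent.Helper27.M25Main

set_option autoImplicit false
open Cfsg

/-! The stabiliser of two minimal vectors with dot product `-8` is simple of order 898128000. -/

namespace Cfsg.Agent.Helper27

/-! ### generic facts on orbits of a point stabiliser inside a subgroup -/

lemma orb_not_mem (A : Subgroup Co0) (x y : leechLattice)
    (hne : (MulAction.orbit ↥(A ⊓ MulAction.stabilizer Co0 x) y).ncard ≠ 1) :
    x ∉ MulAction.orbit ↥(A ⊓ MulAction.stabilizer Co0 x) y := by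
  rintro ⟨k, hk⟩
  apply hne
  have hkx : k.1 • x = x := (Subgroup.mem_inf.1 k.2).2
  have hyx : y = x := by
    have h1 : k.1 • y = x := hk
    exact smul_left_cancel k.1 (h1.trans hkx.symm)
  rw [hyx]
  have : MulAction.orbit ↥(A ⊓ MulAction.stabilizer Co0 x) x = {x} := by
    ext z
    constructor
    · rintro ⟨k', rfl⟩
      exact (Subgroup.mem_inf.1 k'.2).2
    · rintro rfl
      exact MulAction.mem_orbit_self _
  rw [this, Set.ncard_singleton]

lemma orb_disj (B : Subgroup Co0) (y y' : leechLattice)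
    (hne : (MulAction.orbit ↥B y).ncard ≠ (MulAction.orbit ↥B y').ncard) :
    Disjoint (MulAction.orbit ↥B y) (MulAction.orbit ↥B y') := by
  rcases MulAction.orbit.eq_or_disjoint (G := ↥B) y y' with h | h
  · exact absurd (by rw [h]) hne
  · exact h

lemma orb_trans (A : Subgroup Co0) (x y₀ : leechLattice) :
    ∀ y ∈ MulAction.orbit ↥(A ⊓ MulAction.stabilizer Co0 x) y₀,
    ∀ y' ∈ MulAction.orbit ↥(A ⊓ MulAction.stabilizer Co0 x) y₀,
      ∃ h : ↥A, h • x = x ∧ h • y = y' := by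
  rintro y ⟨a, rfl⟩ y' ⟨b, rfl⟩
  refine ⟨⟨b.1 * a.1⁻¹, A.mul_mem (Subgroup.mem_inf.1 b.2).1
    (A.inv_mem (Subgroup.mem_inf.1 a.2).1)⟩, ?_, ?_⟩
  · show (b.1 * a.1⁻¹) • x = x
    have ha : a.1 • x = x := (Subgroup.mem_inf.1 a.2).2
    have hb : b.1 • x = x := (Subgroup.mem_inf.1 b.2).2
    rw [mul_smul, inv_smul_eq_iff.mpr ha.symm, hb]
  · show (b.1 * a.1⁻¹) • (a.1 • y₀) = b.1 • y₀
    rw [mul_smul, inv_smul_smul]

lemma orb_sub (A : Subgroup Co0) (Ω : Set leechLattice)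
    (hinv : ∀ g : ↥A, ∀ y ∈ Ω, g • y ∈ Ω) (x y : leechLattice) (hy : y ∈ Ω) :
    MulAction.orbit ↥(A ⊓ MulAction.stabilizer Co0 x) y ⊆ Ω := by
  rintro z ⟨k, rfl⟩
  exact hinv ⟨k.1, (Subgroup.mem_inf.1 k.2).1⟩ y hy

/-! ### the McLaughlin configuration -/

lemma mcl_triple (v w x : leechLattice) (hv : sqNorm v.1 = 32) (hw : sqNorm w.1 = 32)
    (hvw : dotInt v.1 w.1 = -8) (hx : x ∈ m25Set v w) :
    sqNorm (v + w : leechLattice).1 = 48 ∧ sqNorm (x - (v + w) : leechLattice).1 = 48 ∧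
    dotInt (v + w : leechLattice).1 (x - (v + w) : leechLattice).1 = -32 ∧
    v ∈ hsSet (v + w) (x - (v + w)) := by
  obtain ⟨hx1, hx2, hx3⟩ := hx
  have e1 : sqNorm (v.1 + w.1) = 48 := by
    rw [sqNorm_add, hv, hw, hvw]; norm_num
  have e2 : dotInt (v.1 + w.1) x.1 = 16 := by
    rw [dotInt_add_left, hx2, hx3]; norm_num
  have e3 : dotInt (v.1 + w.1) (v.1 + w.1) = 48 := by rw [dotInt_self]; exact e1
  have e4 : dotInt (v.1 + w.1) (x.1 + -(v.1 + w.1)) = -32 := by
    rw [dotInt_add_right, dotInt_neg_right, e2, e3]; norm_num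
  have e5 : dotInt x.1 (-(v.1 + w.1)) = -16 := by
    rw [dotInt_neg_right, dotInt_comm, e2]
  have e6 : dotInt (v.1 + w.1) v.1 = 24 := by
    rw [dotInt_add_left, dotInt_self, hv, dotInt_comm, hvw]; norm_num
  refine ⟨e1, ?_, ?_, hv, e6, ?_⟩
  · show sqNorm (x.1 - (v.1 + w.1)) = 48
    rw [sub_eq_add_neg, sqNorm_add, hx1, sqNorm_neg', e1, e5]
    norm_num
  · show dotInt (v.1 + w.1) (x.1 - (v.1 + w.1)) = -32
    rw [sub_eq_add_neg]
    exact e4
  · show dotInt (x.1 - (v.1 + w.1)) v.1 = -24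
    rw [sub_eq_add_neg, dotInt_add_left, dotInt_neg_left, e6, dotInt_comm, hx2]
    norm_num

lemma mcl_stab_eq (v w x : leechLattice) :
    MulAction.stabilizer Co0 (v + w) ⊓ MulAction.stabilizer Co0 (x - (v + w)) ⊓
      MulAction.stabilizer Co0 v =
    MulAction.stabilizer Co0 v ⊓ MulAction.stabilizer Co0 w ⊓ MulAction.stabilizer Co0 x := by
  ext g
  simp only [Subgroup.mem_inf, MulAction.mem_stabilizer_iff]
  constructor
  · rintro ⟨⟨h1, h2⟩, h3⟩
    have hw : g • w = w := by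
      rw [co0_add, h3] at h1
      exact add_left_cancel h1
    refine ⟨⟨h3, hw⟩, ?_⟩
    rw [co0_sub, co0_add, h3, hw] at h2
    exact sub_left_injective h2
  · rintro ⟨⟨h1, h2⟩, h3⟩
    refine ⟨⟨?_, ?_⟩, h1⟩
    · rw [co0_add, h1, h2]
    · rw [co0_sub, co0_add, h1, h2, h3]

/-- the point stabiliser of the action on the 2025 points -/
lemma mcl_stab_equiv (v w x : leechLattice) (hv : sqNorm v.1 = 32) (hw : sqNorm w.1 = 32)
    (hvw : dotInt v.1 w.1 = -8) (hx : x ∈ m25Set v w) :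
    Nonempty (↥K0sub ≃* ↥(MulAction.stabilizer Co0 v ⊓ MulAction.stabilizer Co0 w ⊓
      MulAction.stabilizer Co0 x)) := by
  obtain ⟨h1, h2, h3, h4⟩ := mcl_triple v w x hv hw hvw hx
  obtain ⟨e⟩ := triple_equiv (v + w) (x - (v + w)) v h1 h2 h3 h4
  rw [mcl_stab_eq] at e
  exact ⟨e⟩

lemma m25Set_inv (v w : leechLattice)
    (g : ↥(MulAction.stabilizer Co0 v ⊓ MulAction.stabilizer Co0 w)) (x : leechLattice)
    (hx : x ∈ m25Set v w) : g • x ∈ m25Set v w := by
  have h1 : g.1 • v = v := (Subgroup.mem_inf.1 g.2).1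
  have h2 : g.1 • w = w := (Subgroup.mem_inf.1 g.2).2
  have := (m25Set_smul g.1 v w x).mp hx
  rwa [h1, h2] at this

lemma m25_orbit (v w x : leechLattice) (hv : sqNorm v.1 = 32) (hw : sqNorm w.1 = 32)
    (hvw : dotInt v.1 w.1 = -8) (hx : x ∈ m25Set v w) :
    MulAction.orbit ↥(MulAction.stabilizer Co0 v ⊓ MulAction.stabilizer Co0 w) x
      = m25Set v w := by
  ext y
  constructor
  · rintro ⟨g, rfl⟩
    exact m25Set_inv v w g x hx
  · intro hy
    obtain ⟨g, h1, h2, h3⟩ := m25_trans v w hv hw hvw x hx y hy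
    exact ⟨⟨g, Subgroup.mem_inf.2 ⟨h1, h2⟩⟩, h3⟩

lemma m25_nonempty (v w : leechLattice) (hv : sqNorm v.1 = 32) (hw : sqNorm w.1 = 32)
    (hvw : dotInt v.1 w.1 = -8) : ∃ x, x ∈ m25Set v w := by
  have h := m25_count v w hv hw hvw
  by_contra hcon
  have : m25Set v w = ∅ := Set.eq_empty_iff_forall_notMem.mpr (fun x hx => hcon ⟨x, hx⟩)
  rw [this, Set.ncard_empty] at h
  omega

/-- the order of the stabiliser of a McLaughlin pair -/
theorem mcl_card (v w : leechLattice) (hv : sqNorm v.1 = 32) (hw : sqNorm w.1 = 32)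
    (hvw : dotInt v.1 w.1 = -8) :
    Nat.card ↥(MulAction.stabilizer Co0 v ⊓ MulAction.stabilizer Co0 w) = 898128000 := by
  obtain ⟨x, hx⟩ := m25_nonempty v w hv hw hvw
  obtain ⟨e⟩ := mcl_stab_equiv v w x hv hw hvw hx
  have h1 := Subgroup.index_mul_card (MulAction.stabilizer
    ↥(MulAction.stabilizer Co0 v ⊓ MulAction.stabilizer Co0 w) x)
  rw [MulAction.index_stabilizer, m25_orbit v w x hv hw hvw hx, m25_count v w hv hw hvw,
    Nat.card_congr (nestEquivA (MulAction.stabilizer Co0 v ⊓ MulAction.stabilizer Co0 w) x).toEquiv,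
    ← Nat.card_congr e.toEquiv, K0_card] at h1
  omega

/-- the stabiliser of a McLaughlin pair is simple -/
theorem mcl_simple (v w : leechLattice) (hv : sqNorm v.1 = 32) (hw : sqNorm w.1 = 32)
    (hvw : dotInt v.1 w.1 = -8) :
    IsSimpleGroup ↥(MulAction.stabilizer Co0 v ⊓ MulAction.stabilizer Co0 w) := by
  obtain ⟨x, hx⟩ := m25_nonempty v w hv hw hvw
  obtain ⟨y₁, m₁, y₂, m₂, y₃, m₃, c₁, c₂, c₃⟩ := m25_main v w hv hw hvw x hx
  have hcnt := m25_count v w hv hw hvw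
  have hfin : (m25Set v w).Finite := Set.finite_of_ncard_ne_zero (by rw [hcnt]; norm_num)
  haveI : Finite ↥Co0 := Nat.finite_of_card_ne_zero (by rw [card_Co0]; norm_num)
  obtain ⟨e⟩ := mcl_stab_equiv v w x hv hw hvw hx
  have hH : IsSimpleGroup ↥(MulAction.stabilizer
      ↥(MulAction.stabilizer Co0 v ⊓ MulAction.stabilizer Co0 w) x) :=
    (MulEquiv.isSimpleGroup_congr
      (e.trans (nestEquivA (MulAction.stabilizer Co0 v ⊓ MulAction.stabilizer Co0 w) x).symm)).1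
      inferInstance
  set A : Subgroup Co0 := MulAction.stabilizer Co0 v ⊓ MulAction.stabilizer Co0 w with hA
  have hinv : ∀ g : ↥A, ∀ y ∈ m25Set v w, g • y ∈ m25Set v w := fun g y hy => m25Set_inv v w g y hy
  have hOsub : ∀ i, (![MulAction.orbit ↥(A ⊓ MulAction.stabilizer Co0 x) y₁,
      MulAction.orbit ↥(A ⊓ MulAction.stabilizer Co0 x) y₂,
      MulAction.orbit ↥(A ⊓ MulAction.stabilizer Co0 x) y₃] : Fin 3 → Set leechLattice) i
        ⊆ m25Set v w := by
    intro i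
    fin_cases i
    · exact orb_sub A _ hinv x y₁ m₁
    · exact orb_sub A _ hinv x y₂ m₂
    · exact orb_sub A _ hinv x y₃ m₃
  have hOx0 : ∀ i, x ∉ (![MulAction.orbit ↥(A ⊓ MulAction.stabilizer Co0 x) y₁,
      MulAction.orbit ↥(A ⊓ MulAction.stabilizer Co0 x) y₂,
      MulAction.orbit ↥(A ⊓ MulAction.stabilizer Co0 x) y₃] : Fin 3 → Set leechLattice) i := by
    intro i
    fin_cases i
    · exact orb_not_mem A x y₁ (by rw [c₁]; norm_num)
    · exact orb_not_mem A x y₂ (by rw [c₂]; norm_num)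
    · exact orb_not_mem A x y₃ (by rw [c₃]; norm_num)
  have hdisj : ∀ i j, i ≠ j → Disjoint
      ((![MulAction.orbit ↥(A ⊓ MulAction.stabilizer Co0 x) y₁,
      MulAction.orbit ↥(A ⊓ MulAction.stabilizer Co0 x) y₂,
      MulAction.orbit ↥(A ⊓ MulAction.stabilizer Co0 x) y₃] : Fin 3 → Set leechLattice) i)
      ((![MulAction.orbit ↥(A ⊓ MulAction.stabilizer Co0 x) y₁,
      MulAction.orbit ↥(A ⊓ MulAction.stabilizer Co0 x) y₂,
      MulAction.orbit ↥(A ⊓ MulAction.stabilizer Co0 x) y₃] : Fin 3 → Set leechLattice) j) := by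
    intro i j hij
    fin_cases i <;> fin_cases j
    · exact absurd rfl hij
    · exact orb_disj _ y₁ y₂ (by rw [c₁, c₂]; norm_num)
    · exact orb_disj _ y₁ y₃ (by rw [c₁, c₃]; norm_num)
    · exact orb_disj _ y₂ y₁ (by rw [c₂, c₁]; norm_num)
    · exact absurd rfl hij
    · exact orb_disj _ y₂ y₃ (by rw [c₂, c₃]; norm_num)
    · exact orb_disj _ y₃ y₁ (by rw [c₃, c₁]; norm_num)
    · exact orb_disj _ y₃ y₂ (by rw [c₃, c₂]; norm_num)
    · exact absurd rfl hij
  have hcard : ∀ i, ((![MulAction.orbit ↥(A ⊓ MulAction.stabilizer Co0 x) y₁,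
      MulAction.orbit ↥(A ⊓ MulAction.stabilizer Co0 x) y₂,
      MulAction.orbit ↥(A ⊓ MulAction.stabilizer Co0 x) y₃] : Fin 3 → Set leechLattice) i).ncard
        = (![330, 462, 1232] : Fin 3 → ℕ) i := by
    intro i
    fin_cases i
    · exact c₁
    · exact c₂
    · exact c₃
  apply simple_of_suborbits' (k := 3) (m25Set v w) x hx hfin hinv
    (fun y hy => by
      obtain ⟨g, h1, h2, h3⟩ := m25_trans v w hv hw hvw x hx y hy
      exact ⟨⟨g, Subgroup.mem_inf.2 ⟨h1, h2⟩⟩, h3⟩)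
    hH
    ![MulAction.orbit ↥(A ⊓ MulAction.stabilizer Co0 x) y₁,
      MulAction.orbit ↥(A ⊓ MulAction.stabilizer Co0 x) y₂,
      MulAction.orbit ↥(A ⊓ MulAction.stabilizer Co0 x) y₃]
    ![330, 462, 1232]
    (cover_of_count (m25Set v w) x hx _ _ hfin hOsub hOx0 hdisj hcard (by rw [hcnt]; decide))
    hOsub hOx0 hdisj hcard
  · intro i
    fin_cases i
    · exact orb_trans A x y₁
    · exact orb_trans A x y₂
    · exact orb_trans A x y₃
  · exact ⟨0, by norm_num⟩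
  · rw [hcnt]
    decide
  · show 25 ∣ (m25Set v w).ncard
    rw [hcnt]; norm_num
  · show 81 ∣ (m25Set v w).ncard
    rw [hcnt]; norm_num
  · norm_num
  · decide

end Cfsg.Agent.Helper27
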