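import Cfsg.Agent.Helper27.OrbitPart
import Cfsg.Agent.Helper27.Census3

set_option autoImplicit false
open Cfsg

namespace Cfsg.Agent.Helper27

/-- orbits of the joint stabiliser of two vectors -/
lemma orbit_stab2 (u x y : leechLattice) :
    MulAction.orbit ↥(MulAction.stabilizer ↥Co0 u ⊓ MulAction.stabilizer ↥Co0 x) y
      = {z : leechLattice | ∃ g : Co0, (∀ r ∈ [u, x], g • r = r) ∧ g • y = z} := by
  ext z
  constructor
  · rintro ⟨⟨g, hg⟩, rfl⟩
    rw [Subgroup.mem_inf, MulAction.mem_stabilizer_iff, MulAction.mem_stabilizer_iff] at hg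
    refine ⟨g, ?_, rfl⟩
    intro r hr
    simp only [List.mem_cons, List.not_mem_nil, or_false] at hr
    rcases hr with rfl | rfl
    · exact hg.1
    · exact hg.2
  · rintro ⟨g, hg, rfl⟩
    have hg' : g ∈ MulAction.stabilizer ↥Co0 u ⊓ MulAction.stabilizer ↥Co0 x := by
      rw [Subgroup.mem_inf, MulAction.mem_stabilizer_iff, MulAction.mem_stabilizer_iff]
      exact ⟨hg u (by simp), hg x (by simp)⟩
    exact ⟨⟨g, hg'⟩, rfl⟩

/-- orbits of the joint stabiliser of three vectors -/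
lemma orbit_stab3 (v w x y : leechLattice) :
    MulAction.orbit ↥(MulAction.stabilizer ↥Co0 v ⊓ MulAction.stabilizer ↥Co0 w ⊓
      MulAction.stabilizer ↥Co0 x) y
      = {z : leechLattice | ∃ g : Co0, (∀ r ∈ [v, w, x], g • r = r) ∧ g • y = z} := by
  ext z
  constructor
  · rintro ⟨⟨g, hg⟩, rfl⟩
    rw [Subgroup.mem_inf, Subgroup.mem_inf, MulAction.mem_stabilizer_iff,
      MulAction.mem_stabilizer_iff, MulAction.mem_stabilizer_iff] at hg
    refine ⟨g, ?_, rfl⟩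
    intro r hr
    simp only [List.mem_cons, List.not_mem_nil, or_false] at hr
    rcases hr with rfl | rfl | rfl
    · exact hg.1.1
    · exact hg.1.2
    · exact hg.2
  · rintro ⟨g, hg, rfl⟩
    have hg' : g ∈ MulAction.stabilizer ↥Co0 v ⊓ MulAction.stabilizer ↥Co0 w ⊓
        MulAction.stabilizer ↥Co0 x := by
      rw [Subgroup.mem_inf, Subgroup.mem_inf, MulAction.mem_stabilizer_iff,
        MulAction.mem_stabilizer_iff, MulAction.mem_stabilizer_iff]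
      exact ⟨⟨hg v (by simp), hg w (by simp)⟩, hg x (by simp)⟩
    exact ⟨⟨g, hg'⟩, rfl⟩

/-- conjugating a stabiliser orbit -/
lemma conj_fix (k : Co0) (refs : List leechLattice) (yB z : leechLattice) :
    (∃ g : Co0, (∀ r ∈ refs, g • r = r) ∧ g • (k⁻¹ • yB) = z) ↔
      (∃ g0 : Co0, (∀ r ∈ refs, g0 • (k • r) = k • r) ∧ g0 • yB = k • z) := by
  constructor
  · rintro ⟨g, hg, rfl⟩
    refine ⟨k * g * k⁻¹, ?_, ?_⟩
    · intro r hr
      rw [mul_smul, mul_smul, inv_smul_smul, hg r hr]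
    · rw [mul_smul, mul_smul]
  · rintro ⟨g0, hg0, h⟩
    refine ⟨k⁻¹ * g0 * k, ?_, ?_⟩
    · intro r hr
      rw [mul_smul, mul_smul, hg0 r hr, inv_smul_smul]
    · rw [mul_smul, mul_smul, smul_inv_smul, h, inv_smul_smul]

/-- the suborbit theorem with a characterisation of each suborbit -/
theorem suborbits' (S : Set leechLattice) (hfin : S.Finite)
    (refs : List leechLattice) (x0 : leechLattice) (hx0 : x0 ∈ S) (hx0r : x0 ∈ refs)
    (hinv : ∀ g : Co0, (∀ r ∈ refs, g • r = r) → ∀ y ∈ S, g • y ∈ S)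
    (gens : List (List ℕ × List ℕ × ℕ)) (hval : ∀ d ∈ gens, gdValid d = true)
    (hfix : ∀ d ∈ gens, ∀ r ∈ refs, gdFun d r.1 = r.1)
    (certs : List (List (List ℕ) × ℕ × leechLattice × ℤ))
    (hcerts : ∀ t ∈ certs, t.2.2.1 ∈ S ∧ t.2.2.1.1 = vecN t.2.1 ∧
      dotInt x0.1 t.2.2.1.1 = t.2.2.2 ∧ chkAll gens t.1 t.2.1 = true ∧
      incB (2 ^ 96) (t.1.flatten.map eVec) = true)
    (hc : (certs.map fun t => t.2.2.2).Nodup)
    (hc0 : dotInt x0.1 x0.1 ∉ certs.map fun t => t.2.2.2)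
    (hcount : S.ncard ≤ (certs.map fun t => t.1.flatten.length).sum + 1) :
    (∀ t ∈ certs,
      {y : leechLattice | y ∈ S ∧ dotInt x0.1 y.1 = t.2.2.2}.ncard = t.1.flatten.length ∧
      ∀ y : leechLattice, y ∈ {y : leechLattice | y ∈ S ∧ dotInt x0.1 y.1 = t.2.2.2} ↔
        ∃ g : Co0, (∀ r ∈ refs, g • r = r) ∧ g • t.2.2.1 = y) ∧
    (∀ y ∈ S, y = x0 ∨ ∃ t ∈ certs, dotInt x0.1 y.1 = t.2.2.2) := by
  obtain ⟨h1, h2⟩ := suborbits S hfin refs x0 hx0 hx0r hinv gens hval hfix certs hcerts hc hc0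
    hcount
  refine ⟨?_, h2⟩
  intro t ht
  obtain ⟨a, b⟩ := h1 t ht
  refine ⟨a, fun y => ⟨fun ⟨p, q⟩ => b y p q, ?_⟩⟩
  rintro ⟨g, hg, rfl⟩
  obtain ⟨m1, m2, m3, -, -⟩ := hcerts t ht
  refine ⟨hinv g hg _ m1, ?_⟩
  have := co0_dot g x0 t.2.2.1
  rw [hg x0 hx0r] at this
  rw [this, m3]

/-- transport of a stabiliser orbit to the model -/
lemma orbit_transport (k : Co0) (refs refsB : List leechLattice)
    (hk : ∀ g0 : Co0, (∀ r ∈ refs, g0 • (k • r) = k • r) ↔ (∀ r ∈ refsB, g0 • r = r))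
    (T : Set leechLattice) (yB : leechLattice)
    (hT : ∀ y : leechLattice, y ∈ T ↔ ∃ g0 : Co0, (∀ r ∈ refsB, g0 • r = r) ∧ g0 • yB = y) :
    (∀ z : leechLattice, z ∈ {z : leechLattice | ∃ g : Co0, (∀ r ∈ refs, g • r = r) ∧
      g • (k⁻¹ • yB) = z} ↔ k • z ∈ T) ∧
    {z : leechLattice | ∃ g : Co0, (∀ r ∈ refs, g • r = r) ∧ g • (k⁻¹ • yB) = z}.ncard
      = T.ncard := by
  have key : ∀ z : leechLattice, z ∈ {z : leechLattice | ∃ g : Co0, (∀ r ∈ refs, g • r = r) ∧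
      g • (k⁻¹ • yB) = z} ↔ k • z ∈ T := by
    intro z
    show (∃ g : Co0, (∀ r ∈ refs, g • r = r) ∧ g • (k⁻¹ • yB) = z) ↔ k • z ∈ T
    rw [conj_fix, hT]
    constructor
    · rintro ⟨g0, h1, h2⟩
      exact ⟨g0, (hk g0).mp h1, h2⟩
    · rintro ⟨g0, h1, h2⟩
      exact ⟨g0, (hk g0).mpr h1, h2⟩
  exact ⟨key, ncard_smul k _ _ key⟩

end Cfsg.Agent.Helper27
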