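import Cfsg.Agent.Helper27.Co2DataA
import Cfsg.Agent.Helper27.Co2DataB
import Cfsg.Agent.Helper27.Co2DataC
import Cfsg.Agent.Helper27.Co2DataD
import Cfsg.Agent.Helper27.Co2DataE
import Cfsg.Agent.Helper27.Co2Count
import Cfsg.Agent.Helper27.OrbitSub
import Cfsg.Agent.Helper27.McLSimple

set_option autoImplicit false
open Cfsg

/-! The stabiliser of a minimal vector is simple of order 42305421312000. -/

namespace Cfsg.Agent.Helper27

lemma co2X0_self : dotInt co2X0.1 co2X0.1 = 32 := by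
  rw [dotInt_self]
  exact co2X0_mem.1

/-- the suborbits of the point stabiliser in the orbit model -/
theorem co2_subB :
    (∀ t ∈ [(co2_Ya, co2_root_a, co2Ya, (-16 : ℤ)), (co2_Yb, co2_root_b, co2Yb, 16),
        (co2_Yc, co2_root_c, co2Yc, -8), (co2_Yd, co2_root_d, co2Yd, 8),
        (co2_Ye, co2_root_e, co2Ye, 0)],
      {y : leechLattice | y ∈ co2Set co2V ∧ dotInt co2X0.1 y.1 = t.2.2.2}.ncard
        = t.1.flatten.length ∧
      ∀ y : leechLattice, y ∈ {y : leechLattice | y ∈ co2Set co2V ∧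
          dotInt co2X0.1 y.1 = t.2.2.2} ↔
        ∃ g : Co0, (∀ r ∈ [co2X0, co2V], g • r = r) ∧ g • t.2.2.1 = y) ∧
    (∀ y ∈ co2Set co2V, y = co2X0 ∨ ∃ t ∈ [(co2_Ya, co2_root_a, co2Ya, (-16 : ℤ)),
        (co2_Yb, co2_root_b, co2Yb, 16), (co2_Yc, co2_root_c, co2Yc, -8),
        (co2_Yd, co2_root_d, co2Yd, 8), (co2_Ye, co2_root_e, co2Ye, 0)],
        dotInt co2X0.1 y.1 = t.2.2.2) := by
  have hinv : ∀ g : Co0, (∀ r ∈ [co2X0, co2V], g • r = r) → ∀ y ∈ co2Set co2V,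
      g • y ∈ co2Set co2V := by
    intro g hg y hy
    have h1 := (co2Set_smul g co2V y).mp hy
    rwa [hg co2V (by simp)] at h1
  have hcnt : (co2Set co2V).ncard = 47104 := co2_count co2V co2V_norm
  have hfin : (co2Set co2V).Finite := Set.finite_of_ncard_pos (by rw [hcnt]; norm_num)
  exact suborbits' (co2Set co2V) hfin [co2X0, co2V] co2X0 co2X0_mem (by simp)
    hinv co2_gens co2_val co2_fix
    [(co2_Ya, co2_root_a, co2Ya, -16), (co2_Yb, co2_root_b, co2Yb, 16),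
      (co2_Yc, co2_root_c, co2Yc, -8), (co2_Yd, co2_root_d, co2Yd, 8),
      (co2_Ye, co2_root_e, co2Ye, 0)]
    (by
      intro t ht
      simp only [List.mem_cons, List.not_mem_nil, or_false] at ht
      rcases ht with rfl | rfl | rfl | rfl | rfl
      · exact ⟨⟨co2Ya_mem.1, co2Ya_mem.2.1⟩, rfl, co2Ya_mem.2.2, co2_chk_a, co2_sorted_a⟩
      · exact ⟨⟨co2Yb_mem.1, co2Yb_mem.2.1⟩, rfl, co2Yb_mem.2.2, co2_chk_b, co2_sorted_b⟩
      · exact ⟨⟨co2Yc_mem.1, co2Yc_mem.2.1⟩, rfl, co2Yc_mem.2.2, co2_chk_c, co2_sorted_c⟩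
      · exact ⟨⟨co2Yd_mem.1, co2Yd_mem.2.1⟩, rfl, co2Yd_mem.2.2, co2_chk_d, co2_sorted_d⟩
      · exact ⟨⟨co2Ye_mem.1, co2Ye_mem.2.1⟩, rfl, co2Ye_mem.2.2, co2_chk_e, co2_sorted_e⟩)
    (by decide) (by rw [co2X0_self]; decide)
    (by
      rw [hcnt]
      simp only [List.map_cons, List.map_nil, List.sum_cons, List.sum_nil, co2_len_a, co2_len_b,
        co2_len_c, co2_len_d, co2_len_e]
      norm_num)

/-- the suborbit lengths for an arbitrary configuration -/
theorem co2_main (v x : leechLattice) (hv : sqNorm v.1 = 32) (hx : x ∈ co2Set v) :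
    ∃ y₁ ∈ co2Set v, ∃ y₂ ∈ co2Set v, ∃ y₃ ∈ co2Set v, ∃ y₄ ∈ co2Set v, ∃ y₅ ∈ co2Set v,
      (MulAction.orbit ↥(MulAction.stabilizer ↥Co0 v ⊓ MulAction.stabilizer ↥Co0 x) y₁).ncard
        = 275 ∧
      (MulAction.orbit ↥(MulAction.stabilizer ↥Co0 v ⊓ MulAction.stabilizer ↥Co0 x) y₂).ncard
        = 2025 ∧
      (MulAction.orbit ↥(MulAction.stabilizer ↥Co0 v ⊓ MulAction.stabilizer ↥Co0 x) y₃).ncard
        = 7128 ∧
      (MulAction.orbit ↥(MulAction.stabilizer ↥Co0 v ⊓ MulAction.stabilizer ↥Co0 x) y₄).ncard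
        = 15400 ∧
      (MulAction.orbit ↥(MulAction.stabilizer ↥Co0 v ⊓ MulAction.stabilizer ↥Co0 x) y₅).ncard
        = 22275 := by
  obtain ⟨g, hg⟩ := Cfsg.Agent.S0400.result v co2V hv co2V_norm
  have hx' : g • x ∈ co2Set co2V := by
    have := (co2Set_smul g v x).mp hx
    rwa [hg] at this
  obtain ⟨h, hh, hhx⟩ := co2_trans co2V co2V_norm _ hx' _ co2X0_mem
  have k1 : (h * g) • v = co2V := by rw [mul_smul, hg, hh]
  have k3 : (h * g) • x = co2X0 := by rw [mul_smul, hhx]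
  generalize h * g = k at k1 k3
  have hk : ∀ g0 : Co0, (∀ r ∈ [v, x], g0 • (k • r) = k • r) ↔
      (∀ r ∈ [co2X0, co2V], g0 • r = r) := by
    intro g0
    constructor
    · intro hq r hr
      simp only [List.mem_cons, List.not_mem_nil, or_false] at hr
      rcases hr with rfl | rfl
      · have := hq x (by simp); rwa [k3] at this
      · have := hq v (by simp); rwa [k1] at this
    · intro hq r hr
      simp only [List.mem_cons, List.not_mem_nil, or_false] at hr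
      rcases hr with rfl | rfl
      · rw [k1]; exact hq co2V (by simp)
      · rw [k3]; exact hq co2X0 (by simp)
  have hmemk : ∀ z : leechLattice, z ∈ co2Set v ↔ k • z ∈ co2Set co2V := by
    intro z
    have := co2Set_smul k v z
    rwa [k1] at this
  have hmem : ∀ y : leechLattice, y ∈ co2Set co2V → k⁻¹ • y ∈ co2Set v := by
    intro y hy
    rw [hmemk, smul_inv_smul]
    exact hy
  obtain ⟨hsub, -⟩ := co2_subB
  have ha := hsub (co2_Ya, co2_root_a, co2Ya, -16) (by simp)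
  have hb := hsub (co2_Yb, co2_root_b, co2Yb, 16) (by simp)
  have hc := hsub (co2_Yc, co2_root_c, co2Yc, -8) (by simp)
  have hd := hsub (co2_Yd, co2_root_d, co2Yd, 8) (by simp)
  have he := hsub (co2_Ye, co2_root_e, co2Ye, 0) (by simp)
  have ta := orbit_transport k [v, x] [co2X0, co2V] hk _ co2Ya ha.2
  have tb := orbit_transport k [v, x] [co2X0, co2V] hk _ co2Yb hb.2
  have tc := orbit_transport k [v, x] [co2X0, co2V] hk _ co2Yc hc.2
  have td := orbit_transport k [v, x] [co2X0, co2V] hk _ co2Yd hd.2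
  have te := orbit_transport k [v, x] [co2X0, co2V] hk _ co2Ye he.2
  refine ⟨k⁻¹ • co2Ya, hmem _ ⟨co2Ya_mem.1, co2Ya_mem.2.1⟩,
    k⁻¹ • co2Yb, hmem _ ⟨co2Yb_mem.1, co2Yb_mem.2.1⟩,
    k⁻¹ • co2Yc, hmem _ ⟨co2Yc_mem.1, co2Yc_mem.2.1⟩,
    k⁻¹ • co2Yd, hmem _ ⟨co2Yd_mem.1, co2Yd_mem.2.1⟩,
    k⁻¹ • co2Ye, hmem _ ⟨co2Ye_mem.1, co2Ye_mem.2.1⟩, ?_, ?_, ?_, ?_, ?_⟩
  · rw [orbit_stab2, ta.2, ha.1]
    exact co2_len_a
  · rw [orbit_stab2, tb.2, hb.1]
    exact co2_len_b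
  · rw [orbit_stab2, tc.2, hc.1]
    exact co2_len_c
  · rw [orbit_stab2, td.2, hd.1]
    exact co2_len_d
  · rw [orbit_stab2, te.2, he.1]
    exact co2_len_e

lemma co2Set_inv (v : leechLattice) (g : ↥(MulAction.stabilizer Co0 v)) (x : leechLattice)
    (hx : x ∈ co2Set v) : g • x ∈ co2Set v := by
  have h1 : g.1 • v = v := g.2
  have := (co2Set_smul g.1 v x).mp hx
  rwa [h1] at this

lemma co2_orbit (v x : leechLattice) (hv : sqNorm v.1 = 32) (hx : x ∈ co2Set v) :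
    MulAction.orbit ↥(MulAction.stabilizer Co0 v) x = co2Set v := by
  ext y
  constructor
  · rintro ⟨g, rfl⟩
    exact co2Set_inv v g x hx
  · intro hy
    obtain ⟨g, h1, h3⟩ := co2_trans v hv x hx y hy
    exact ⟨⟨g, h1⟩, h3⟩

lemma co2_nonempty (v : leechLattice) (hv : sqNorm v.1 = 32) : ∃ x, x ∈ co2Set v := by
  have h : (co2Set v).ncard = 47104 := co2_count v hv
  by_contra hcon
  have : co2Set v = ∅ := Set.eq_empty_iff_forall_notMem.mpr (fun x hx => hcon ⟨x, hx⟩)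
  rw [this, Set.ncard_empty] at h
  omega

/-- the order of the stabiliser of a minimal vector -/
theorem co2_card (v : leechLattice) (hv : sqNorm v.1 = 32) :
    Nat.card ↥(MulAction.stabilizer Co0 v) = 42305421312000 := by
  obtain ⟨x, hx⟩ := co2_nonempty v hv
  have h1 := Subgroup.index_mul_card (MulAction.stabilizer ↥(MulAction.stabilizer Co0 v) x)
  rw [MulAction.index_stabilizer, co2_orbit v x hv hx, co2_count v hv,
    Nat.card_congr (nestEquivA (MulAction.stabilizer Co0 v) x).toEquiv,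
    mcl_card v x hv hx.1 hx.2] at h1
  omega

set_option maxRecDepth 100000 in
lemma co2_arith1 : ∀ I : Finset (Fin 5), I ≠ ∅ → I ≠ Finset.univ →
    ¬ (1 + ∑ i ∈ I, (![275, 2025, 7128, 15400, 22275] : Fin 5 → ℕ) i) ∣ 47104 := by
  decide +kernel

set_option maxRecDepth 100000 in
lemma co2_arith2 : ∀ I₁ I₂ : Finset (Fin 5), Disjoint I₁ I₂ →
    2048 ∣ (1 + ∑ i ∈ I₁, (![275, 2025, 7128, 15400, 22275] : Fin 5 → ℕ) i) →
    23 ∣ (1 + ∑ i ∈ I₂, (![275, 2025, 7128, 15400, 22275] : Fin 5 → ℕ) i) → False := by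
  decide +kernel

/-- the stabiliser of a minimal vector is simple -/
theorem co2_simple (v : leechLattice) (hv : sqNorm v.1 = 32) :
    IsSimpleGroup ↥(MulAction.stabilizer Co0 v) := by
  obtain ⟨x, hx⟩ := co2_nonempty v hv
  obtain ⟨y₁, m₁, y₂, m₂, y₃, m₃, y₄, m₄, y₅, m₅, c₁, c₂, c₃, c₄, c₅⟩ := co2_main v x hv hx
  have hcnt : (co2Set v).ncard = 47104 := co2_count v hv
  have hfin : (co2Set v).Finite := Set.finite_of_ncard_ne_zero (by rw [hcnt]; norm_num)
  haveI : Finite ↥Co0 := Nat.finite_of_card_ne_zero (by rw [card_Co0]; norm_num)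
  haveI := mcl_simple v x hv hx.1 hx.2
  have hH : IsSimpleGroup ↥(MulAction.stabilizer ↥(MulAction.stabilizer Co0 v) x) :=
    (MulEquiv.isSimpleGroup_congr (nestEquivA (MulAction.stabilizer Co0 v) x)).2 inferInstance
  set A : Subgroup Co0 := MulAction.stabilizer Co0 v with hA
  have hinv : ∀ g : ↥A, ∀ y ∈ co2Set v, g • y ∈ co2Set v := fun g y hy => co2Set_inv v g y hy
  have hOsub : ∀ i, (![MulAction.orbit ↥(A ⊓ MulAction.stabilizer Co0 x) y₁,
      MulAction.orbit ↥(A ⊓ MulAction.stabilizer Co0 x) y₂,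
      MulAction.orbit ↥(A ⊓ MulAction.stabilizer Co0 x) y₃,
      MulAction.orbit ↥(A ⊓ MulAction.stabilizer Co0 x) y₄,
      MulAction.orbit ↥(A ⊓ MulAction.stabilizer Co0 x) y₅] : Fin 5 → Set leechLattice) i
        ⊆ co2Set v := by
    intro i
    fin_cases i
    · exact orb_sub A _ hinv x y₁ m₁
    · exact orb_sub A _ hinv x y₂ m₂
    · exact orb_sub A _ hinv x y₃ m₃
    · exact orb_sub A _ hinv x y₄ m₄
    · exact orb_sub A _ hinv x y₅ m₅
  have hOx0 : ∀ i, x ∉ (![MulAction.orbit ↥(A ⊓ MulAction.stabilizer Co0 x) y₁,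
      MulAction.orbit ↥(A ⊓ MulAction.stabilizer Co0 x) y₂,
      MulAction.orbit ↥(A ⊓ MulAction.stabilizer Co0 x) y₃,
      MulAction.orbit ↥(A ⊓ MulAction.stabilizer Co0 x) y₄,
      MulAction.orbit ↥(A ⊓ MulAction.stabilizer Co0 x) y₅] : Fin 5 → Set leechLattice) i := by
    intro i
    fin_cases i
    · exact orb_not_mem A x y₁ (by rw [c₁]; norm_num)
    · exact orb_not_mem A x y₂ (by rw [c₂]; norm_num)
    · exact orb_not_mem A x y₃ (by rw [c₃]; norm_num)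
    · exact orb_not_mem A x y₄ (by rw [c₄]; norm_num)
    · exact orb_not_mem A x y₅ (by rw [c₅]; norm_num)
  have hdisj : ∀ i j, i ≠ j → Disjoint
      ((![MulAction.orbit ↥(A ⊓ MulAction.stabilizer Co0 x) y₁,
      MulAction.orbit ↥(A ⊓ MulAction.stabilizer Co0 x) y₂,
      MulAction.orbit ↥(A ⊓ MulAction.stabilizer Co0 x) y₃,
      MulAction.orbit ↥(A ⊓ MulAction.stabilizer Co0 x) y₄,
      MulAction.orbit ↥(A ⊓ MulAction.stabilizer Co0 x) y₅] : Fin 5 → Set leechLattice) i)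
      ((![MulAction.orbit ↥(A ⊓ MulAction.stabilizer Co0 x) y₁,
      MulAction.orbit ↥(A ⊓ MulAction.stabilizer Co0 x) y₂,
      MulAction.orbit ↥(A ⊓ MulAction.stabilizer Co0 x) y₃,
      MulAction.orbit ↥(A ⊓ MulAction.stabilizer Co0 x) y₄,
      MulAction.orbit ↥(A ⊓ MulAction.stabilizer Co0 x) y₅] : Fin 5 → Set leechLattice) j) := by
    intro i j hij
    fin_cases i <;> fin_cases j
    · exact absurd rfl hij
    · exact orb_disj _ y₁ y₂ (by rw [c₁, c₂]; norm_num)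
    · exact orb_disj _ y₁ y₃ (by rw [c₁, c₃]; norm_num)
    · exact orb_disj _ y₁ y₄ (by rw [c₁, c₄]; norm_num)
    · exact orb_disj _ y₁ y₅ (by rw [c₁, c₅]; norm_num)
    · exact orb_disj _ y₂ y₁ (by rw [c₂, c₁]; norm_num)
    · exact absurd rfl hij
    · exact orb_disj _ y₂ y₃ (by rw [c₂, c₃]; norm_num)
    · exact orb_disj _ y₂ y₄ (by rw [c₂, c₄]; norm_num)
    · exact orb_disj _ y₂ y₅ (by rw [c₂, c₅]; norm_num)
    · exact orb_disj _ y₃ y₁ (by rw [c₃, c₁]; norm_num)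
    · exact orb_disj _ y₃ y₂ (by rw [c₃, c₂]; norm_num)
    · exact absurd rfl hij
    · exact orb_disj _ y₃ y₄ (by rw [c₃, c₄]; norm_num)
    · exact orb_disj _ y₃ y₅ (by rw [c₃, c₅]; norm_num)
    · exact orb_disj _ y₄ y₁ (by rw [c₄, c₁]; norm_num)
    · exact orb_disj _ y₄ y₂ (by rw [c₄, c₂]; norm_num)
    · exact orb_disj _ y₄ y₃ (by rw [c₄, c₃]; norm_num)
    · exact absurd rfl hij
    · exact orb_disj _ y₄ y₅ (by rw [c₄, c₅]; norm_num)
    · exact orb_disj _ y₅ y₁ (by rw [c₅, c₁]; norm_num)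
    · exact orb_disj _ y₅ y₂ (by rw [c₅, c₂]; norm_num)
    · exact orb_disj _ y₅ y₃ (by rw [c₅, c₃]; norm_num)
    · exact orb_disj _ y₅ y₄ (by rw [c₅, c₄]; norm_num)
    · exact absurd rfl hij
  have hcard : ∀ i, ((![MulAction.orbit ↥(A ⊓ MulAction.stabilizer Co0 x) y₁,
      MulAction.orbit ↥(A ⊓ MulAction.stabilizer Co0 x) y₂,
      MulAction.orbit ↥(A ⊓ MulAction.stabilizer Co0 x) y₃,
      MulAction.orbit ↥(A ⊓ MulAction.stabilizer Co0 x) y₄,
      MulAction.orbit ↥(A ⊓ MulAction.stabilizer Co0 x) y₅] : Fin 5 → Set leechLattice) i).ncard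
        = (![275, 2025, 7128, 15400, 22275] : Fin 5 → ℕ) i := by
    intro i
    fin_cases i
    · exact c₁
    · exact c₂
    · exact c₃
    · exact c₄
    · exact c₅
  apply simple_of_suborbits' (k := 5) (co2Set v) x hx hfin hinv
    (fun y hy => by
      obtain ⟨g, h1, h3⟩ := co2_trans v hv x hx y hy
      exact ⟨⟨g, h1⟩, h3⟩)
    hH
    ![MulAction.orbit ↥(A ⊓ MulAction.stabilizer Co0 x) y₁,
      MulAction.orbit ↥(A ⊓ MulAction.stabilizer Co0 x) y₂,
      MulAction.orbit ↥(A ⊓ MulAction.stabilizer Co0 x) y₃,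
      MulAction.orbit ↥(A ⊓ MulAction.stabilizer Co0 x) y₄,
      MulAction.orbit ↥(A ⊓ MulAction.stabilizer Co0 x) y₅]
    ![275, 2025, 7128, 15400, 22275]
    (cover_of_count (co2Set v) x hx _ _ hfin hOsub hOx0 hdisj hcard (by rw [hcnt]; decide))
    hOsub hOx0 hdisj hcard
  · intro i
    fin_cases i
    · exact orb_trans A x y₁
    · exact orb_trans A x y₂
    · exact orb_trans A x y₃
    · exact orb_trans A x y₄
    · exact orb_trans A x y₅
  · exact ⟨0, by norm_num⟩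
  · rw [hcnt]
    exact co2_arith1
  · show 2048 ∣ (co2Set v).ncard
    rw [hcnt]; norm_num
  · show 23 ∣ (co2Set v).ncard
    rw [hcnt]; norm_num
  · norm_num
  · exact co2_arith2

end Cfsg.Agent.Helper27
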