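import Cfsg.Agent.Helper27.Co2Neg
import Cfsg.Agent.S0400

set_option autoImplicit false
open Cfsg

namespace Cfsg.Agent.Helper27

open scoped Pointwise
open Cfsg.Agent.Helper28.Golay (trans1 trans2 toSet mem_toSet toSet_mem_supports_iff isCW
  smul_mem_supports)

/-! ### odd vectors of sum of squares 48 -/

lemma signFun_tvec (c' c S : Finset GolayPt) :
    signFun c' (tvec c S) = tvec (symmDiff c c') S := by
  funext k
  unfold signFun tvec
  by_cases h1 : k ∈ c <;> by_cases h2 : k ∈ c' <;> by_cases h3 : k ∈ S <;>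
    simp [Finset.mem_symmDiff, h1, h2, h3]

lemma permFun_tvec (σ : Equiv.Perm GolayPt) (c S : Finset GolayPt) :
    permFun σ (tvec c S) = tvec (σ • c) (σ • S) := by
  funext k
  simp only [permFun, tvec, mem_smul_iff]

lemma neg_tvec (c S : Finset GolayPt) : -tvec c S = tvec cᶜ S := by
  funext k
  simp only [Pi.neg_apply]
  unfold tvec
  by_cases h1 : k ∈ c <;> by_cases h3 : k ∈ S <;> simp [h1, h3]

lemma signFun_fvec (c' c : Finset GolayPt) (i : GolayPt) :
    signFun c' (fvec c i) = fvec (symmDiff c c') i := by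
  funext k
  unfold signFun fvec
  by_cases hk : k = i
  · subst hk
    by_cases h1 : k ∈ c <;> by_cases h2 : k ∈ c' <;> simp [Finset.mem_symmDiff, h1, h2]
  · by_cases h1 : k ∈ c <;> by_cases h2 : k ∈ c' <;> simp [Finset.mem_symmDiff, h1, h2, hk]

lemma permFun_fvec (σ : Equiv.Perm GolayPt) (c : Finset GolayPt) (i : GolayPt) :
    permFun σ (fvec c i) = fvec (σ • c) (σ i) := by
  funext k
  have h1 : σ i ∈ σ • c ↔ i ∈ c := by rw [mem_smul_iff, Equiv.symm_apply_apply]
  simp only [permFun, fvec, mem_smul_iff, Equiv.symm_apply_eq, h1]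

lemma neg_fvec (c : Finset GolayPt) (i : GolayPt) : -fvec c i = fvec cᶜ i := by
  funext k
  simp only [Pi.neg_apply]
  unfold fvec
  by_cases hk : k = i
  · subst hk
    by_cases h1 : k ∈ c <;> simp [h1]
  · by_cases h1 : k ∈ c <;> simp [h1, hk]

lemma odd_form48 (w : leechLattice) (hn : sqNorm w.1 = 48) (ho : ∀ k, w.1 k % 2 = 1) :
    (∃ c S : Finset GolayPt, c ∈ supports (golayCode : Set (GolayPt → ZMod 2)) ∧ S.card = 3 ∧
      w.1 = tvec c S) ∨
    (∃ (c : Finset GolayPt) (i : GolayPt),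
      c ∈ supports (golayCode : Set (GolayPt → ZMod 2)) ∧ w.1 = fvec c i) := by
  rcases n48_cases w.1 ((mem_leechLattice_iff _).mp w.2) hn with
    ⟨d, ε, -, -, -, e⟩ | ⟨O, ε, i, s, -, -, -, -, hs, e⟩ | h | h
  · exfalso
    have := ho none
    rw [e] at this
    unfold sv at this
    split_ifs at this <;> omega
  · exfalso
    have := ho none
    rw [e] at this
    unfold cvec sv at this
    rcases hs with rfl | rfl <;> split_ifs at this <;> omega
  · exact Or.inl h
  · exact Or.inr h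

/-- move with one coordinate congruent to 2 and one congruent to 0 modulo 4, for vectors of
sum of squares at most 72 -/
lemma move_A' (w : leechLattice) (hn : sqNorm w.1 ≤ 72) (i : GolayPt) (hi : w.1 i % 4 = 2) :
    ∃ (g : Co0) (p q : GolayPt), g • v0 = v0 ∧
      2 * ((g • w : leechLattice) : GolayPt → ℤ) pa = w.1 pa - w.1 pb - w.1 p - w.1 q ∧
      w.1 p % 4 = 2 ∧ w.1 q % 4 = 0 := by
  obtain ⟨hDE, hMin⟩ := code_facts Cfsg.Agent.S0359.result
  have hev : ∀ k, w.1 k % 2 = 0 := fun k => by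
    have := parity_const w.1 w.2 k i
    omega
  have hA := res2_mem w i hi
  have hmem : ∀ k, k ∈ (Finset.univ.filter fun k => w.1 k % 4 = 2) ↔ w.1 k % 4 = 2 := fun k => by
    simp
  have hne : (Finset.univ.filter fun k => w.1 k % 4 = 2).Nonempty := ⟨i, (hmem i).mpr hi⟩
  have h8 := hMin _ hA hne
  have h4 := four_card_le w.1
  have hp : ∃ p ∈ (Finset.univ.filter fun k => w.1 k % 4 = 2), p ≠ pa ∧ p ≠ pb := by
    by_contra hcon
    have hsub : (Finset.univ.filter fun k => w.1 k % 4 = 2) ⊆ {pa, pb} := by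
      intro p hp
      rw [Finset.mem_insert, Finset.mem_singleton]
      by_cases h1 : p = pa
      · exact Or.inl h1
      · right
        by_contra h2
        exact hcon ⟨p, hp, h1, h2⟩
    have h1 := Finset.card_le_card hsub
    have h2 : ({pa, pb} : Finset GolayPt).card ≤ 2 := Finset.card_le_two
    omega
  obtain ⟨p, hpc, hpa, hpb⟩ := hp
  obtain ⟨q, hqc, hqa, hqb, hqp⟩ :=
    exists_not_pair (Finset.univ.filter fun k => w.1 k % 4 = 2) (by omega) p
  obtain ⟨g, hg, hgw⟩ := move_v0 w p q hpa hpb hqa hqb (Ne.symm hqp)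
  refine ⟨g, p, q, hg, hgw, (hmem p).mp hpc, ?_⟩
  have : ¬ w.1 q % 4 = 2 := fun h' => hqc ((hmem q).mpr h')
  have := hev q
  omega

/-! ### vectors of sum of squares 48 with dot product -16 with the reference vector -/

/-- vectors of sum of squares 48 with dot product `-16` with the reference vector -/
def Good48 (w : leechLattice) : Prop := sqNorm w.1 = 48 ∧ w.1 pa - w.1 pb = -4

lemma good48_stab (g : Co0) (hg : g • v0 = v0) (w : leechLattice) (h : Good48 w) :
    Good48 (g • w) := by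
  refine ⟨by rw [co0_norm]; exact h.1, ?_⟩
  have := stab_dot g hg w
  have := h.2
  omega

lemma m48_odd (w : leechLattice) (h : Good48 w) :
    ∃ g : Co0, g • v0 = v0 ∧ ∀ k, ((g • w : leechLattice) : GolayPt → ℤ) k % 2 = 1 := by
  rcases leechSet_cases w.1 ((mem_leechLattice_iff _).mp w.2) with ⟨hev, h8, hA⟩ | ⟨ho, -, -⟩
  · have hi : ∃ i, w.1 i % 4 = 2 := by
      by_contra hcon
      have h4 : ∀ k, w.1 k % 4 = 0 := fun k => by
        have := hev k
        have : ¬ w.1 k % 4 = 2 := fun h' => hcon ⟨k, h'⟩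
        omega
      exact n48_even_empty w.1 h4 h8 h.1
    obtain ⟨i, hi⟩ := hi
    obtain ⟨g, p, q, hg, hgw, hp, hq⟩ := move_A' w (by rw [h.1]; norm_num) i hi
    refine ⟨g, hg, fun k => ?_⟩
    have hpar := parity_const (g • w).1 (g • w).2 k pa
    have := h.2
    omega
  · exact ⟨1, one_smul _ _, fun k => by rw [one_smul]; exact ho k⟩

lemma m48_4a (c : Finset GolayPt) (hc : c ∈ supports (golayCode : Set (GolayPt → ZMod 2)))
    (ha : pa ∉ c) (hb : pb ∉ c) (w : leechLattice) (e : w.1 = fvec c pb) :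
    ∃ g : Co0, g • v0 = v0 ∧ ((g • w : leechLattice) : GolayPt → ℤ) = fvec ∅ pb := by
  refine ⟨signC c hc, signC_v0 c hc ha hb, ?_⟩
  rw [signC_apply, e, signFun_fvec, symmDiff_self]
  rfl

lemma m48_4b (c : Finset GolayPt) (hc : c ∈ supports (golayCode : Set (GolayPt → ZMod 2)))
    (ha : pa ∈ c) (hb : pb ∈ c) (w : leechLattice) (e : w.1 = fvec c pa) :
    ∃ g : Co0, g • v0 = v0 ∧ ((g • w : leechLattice) : GolayPt → ℤ) = fvec ∅ pb := by
  obtain ⟨τ, hτ, t1, t2⟩ := trans2 pa pb pb pa (by decide) (by decide)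
  have hτc : (τ • c)ᶜ ∈ supports (golayCode : Set (GolayPt → ZMod 2)) :=
    supports_compl _ (smul_mem_supports hτ hc)
  have ha' : pa ∉ (τ • c)ᶜ := by
    rw [Finset.mem_compl, not_not, mem_smul_iff, ← t2, Equiv.symm_apply_apply]
    exact hb
  have hb' : pb ∉ (τ • c)ᶜ := by
    rw [Finset.mem_compl, not_not, mem_smul_iff, ← t1, Equiv.symm_apply_apply]
    exact ha
  have e2 : (((negC * permC τ hτ) • w : leechLattice) : GolayPt → ℤ) = fvec (τ • c)ᶜ pb := by
    show -(permFun τ w.1) = _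
    rw [e, permFun_fvec, t1, neg_fvec]
  obtain ⟨g, hg, hgw⟩ := m48_4a _ hτc ha' hb' ((negC * permC τ hτ) • w) e2
  exact ⟨g * (negC * permC τ hτ), by rw [mul_smul, negperm_v0 τ hτ t1 t2, hg], hgw⟩

/-- the three big positions of the normal form of the second kind -/
def S3b : Finset GolayPt := {pa, some 10, some 12}

/-- sign set of the image of the normal form under the sextet involution -/
def c3b : Finset GolayPt := toSet 16771936

lemma c3b_mem : c3b ∈ supports (golayCode : Set (GolayPt → ZMod 2)) :=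
  (toSet_mem_supports_iff (by norm_num)).mpr (by decide +kernel)

lemma c3b_pa : pa ∉ c3b := by
  rw [c3b, mem_toSet]
  decide +kernel

lemma c3b_pb : pb ∉ c3b := by
  rw [c3b, mem_toSet]
  decide +kernel

lemma link_48 : ∀ k : GolayPt,
    sgnT k * (2 * tvec ∅ S3b k - tsum (tvec ∅ S3b) k) = 2 * fvec c3b pb k := by
  decide +kernel

lemma m48_3b (c S : Finset GolayPt) (hc : c ∈ supports (golayCode : Set (GolayPt → ZMod 2)))
    (hS : S.card = 3) (haS : pa ∈ S) (hac : pa ∉ c) (hbS : pb ∉ S) (hbc : pb ∉ c)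
    (w : leechLattice) (e : w.1 = tvec c S) :
    ∃ g : Co0, g • v0 = v0 ∧ ((g • w : leechLattice) : GolayPt → ℤ) = fvec ∅ pb := by
  have hE : (S.erase pa).card = 2 := by rw [Finset.card_erase_of_mem haS, hS]
  obtain ⟨s1, s2, hs12, hE'⟩ := Finset.card_eq_two.mp hE
  have hs1 : s1 ∈ S.erase pa := by rw [hE']; simp
  have hs2 : s2 ∈ S.erase pa := by rw [hE']; simp
  rw [Finset.mem_erase] at hs1 hs2
  have hs1b : s1 ≠ pb := fun h' => hbS (h' ▸ hs1.2)
  have hs2b : s2 ≠ pb := fun h' => hbS (h' ▸ hs2.2)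
  have hSe : ∀ k, k ∈ S ↔ k = pa ∨ k = s1 ∨ k = s2 := by
    intro k
    by_cases hk : k = pa
    · subst hk
      simp [haS]
    · have : k ∈ S ↔ k ∈ S.erase pa := by rw [Finset.mem_erase]; tauto
      rw [this, hE']
      simp [hk]
  obtain ⟨σ, hσ, ea, eb, e1, e2⟩ := four_trans pa pb s1 s2 pa pb (some 10) (some 12)
    (by decide) (Ne.symm hs1.1) (Ne.symm hs1b) (Ne.symm hs2.1) (Ne.symm hs2b) hs12
    (by decide) (by decide) (by decide) (by decide) (by decide) (by decide)
  have hσS : σ • S = S3b := by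
    ext k
    rw [mem_smul_iff, hSe, Equiv.symm_apply_eq, Equiv.symm_apply_eq, Equiv.symm_apply_eq, ea, e1,
      e2, S3b]
    simp
  have hσc : σ • c ∈ supports (golayCode : Set (GolayPt → ZMod 2)) := smul_mem_supports hσ hc
  have ha' : pa ∉ σ • c := by
    rw [mem_smul_iff, ← ea, Equiv.symm_apply_apply]
    exact hac
  have hb' : pb ∉ σ • c := by
    rw [mem_smul_iff, ← eb, Equiv.symm_apply_apply]
    exact hbc
  have e3 : ((signC _ hσc • (permC σ hσ • w) : leechLattice) : GolayPt → ℤ) = tvec ∅ S3b := by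
    rw [signC_apply, permC_apply, e, permFun_tvec, signFun_tvec, symmDiff_self, hσS]
    rfl
  have e4 : ((xiC • (signC _ hσc • (permC σ hσ • w)) : leechLattice) : GolayPt → ℤ)
      = fvec c3b pb := by
    funext k
    have h3 := xiC_apply (signC _ hσc • (permC σ hσ • w)) k
    rw [e3, link_48 k] at h3
    omega
  obtain ⟨g, hg, hgw⟩ := m48_4a c3b c3b_mem c3b_pa c3b_pb _ e4
  refine ⟨g * (xiC * (signC _ hσc * permC σ hσ)), ?_, ?_⟩
  · rw [mul_smul, mul_smul, mul_smul, permC_v0 σ hσ ea eb, signC_v0 _ hσc ha' hb', xiC_v0, hg]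
  · rw [mul_smul_coe, mul_smul_coe, mul_smul_coe]
    exact hgw

lemma m48_3a (c S : Finset GolayPt) (hc : c ∈ supports (golayCode : Set (GolayPt → ZMod 2)))
    (hS : S.card = 3) (haS : pa ∉ S) (hac : pa ∈ c) (hbS : pb ∈ S) (hbc : pb ∈ c)
    (w : leechLattice) (e : w.1 = tvec c S) :
    ∃ g : Co0, g • v0 = v0 ∧ ((g • w : leechLattice) : GolayPt → ℤ) = fvec ∅ pb := by
  obtain ⟨τ, hτ, t1, t2⟩ := trans2 pa pb pb pa (by decide) (by decide)
  have hτc : (τ • c)ᶜ ∈ supports (golayCode : Set (GolayPt → ZMod 2)) :=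
    supports_compl _ (smul_mem_supports hτ hc)
  have ha' : pa ∉ (τ • c)ᶜ := by
    rw [Finset.mem_compl, not_not, mem_smul_iff, ← t2, Equiv.symm_apply_apply]
    exact hbc
  have hb' : pb ∉ (τ • c)ᶜ := by
    rw [Finset.mem_compl, not_not, mem_smul_iff, ← t1, Equiv.symm_apply_apply]
    exact hac
  have haS' : pa ∈ τ • S := by
    rw [mem_smul_iff, ← t2, Equiv.symm_apply_apply]
    exact hbS
  have hbS' : pb ∉ τ • S := by
    rw [mem_smul_iff, ← t1, Equiv.symm_apply_apply]
    exact haS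
  have hS' : (τ • S).card = 3 := by rw [Finset.card_smul_finset, hS]
  have e2 : (((negC * permC τ hτ) • w : leechLattice) : GolayPt → ℤ)
      = tvec (τ • c)ᶜ (τ • S) := by
    show -(permFun τ w.1) = _
    rw [e, permFun_tvec, neg_tvec]
  obtain ⟨g, hg, hgw⟩ := m48_3b _ _ hτc hS' haS' ha' hbS' hb' ((negC * permC τ hτ) • w) e2
  exact ⟨g * (negC * permC τ hτ), by rw [mul_smul, negperm_v0 τ hτ t1 t2, hg], hgw⟩

lemma tvec_diff (c S : Finset GolayPt) :
    tvec c S pa - tvec c S pb =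
      (if pa ∈ c then -1 else 1) + (if pa ∈ S then (if pa ∈ c then 4 else -4) else 0)
      - ((if pb ∈ c then -1 else 1) + (if pb ∈ S then (if pb ∈ c then 4 else -4) else 0)) := rfl

lemma fvec_diff (c : Finset GolayPt) (i : GolayPt) :
    fvec c i pa - fvec c i pb =
      (if pa ∈ c then -1 else 1) + (if pa = i then (if i ∈ c then -4 else 4) else 0)
      - ((if pb ∈ c then -1 else 1) + (if pb = i then (if i ∈ c then -4 else 4) else 0)) := rfl

lemma m48_ref (w : leechLattice) (h : Good48 w) (ho : ∀ k, w.1 k % 2 = 1) :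
    ∃ g : Co0, g • v0 = v0 ∧ ((g • w : leechLattice) : GolayPt → ℤ) = fvec ∅ pb := by
  have hd := h.2
  rcases odd_form48 w h.1 ho with ⟨c, S, hc, hS, e⟩ | ⟨c, i, hc, e⟩
  · rw [e, tvec_diff] at hd
    by_cases h1 : pa ∈ c <;> by_cases h2 : pa ∈ S <;> by_cases h3 : pb ∈ c <;>
      by_cases h4 : pb ∈ S <;> simp [h1, h2, h3, h4] at hd
    · exact m48_3a c S hc hS h2 h1 h4 h3 w e
    · exact m48_3b c S hc hS h2 h1 h4 h3 w e
  · rw [e, fvec_diff] at hd
    by_cases h1 : pa = i
    · have h2 : ¬ pb = i := fun h2 => absurd (h1.trans h2.symm) (by decide)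
      rw [if_pos h1, if_neg h2, ← h1] at hd
      by_cases ha : pa ∈ c <;> by_cases hb : pb ∈ c <;> simp [ha, hb] at hd
      subst h1
      exact m48_4b c hc ha hb w e
    · by_cases h2 : pb = i
      · rw [if_neg h1, if_pos h2, ← h2] at hd
        by_cases ha : pa ∈ c <;> by_cases hb : pb ∈ c <;> simp [ha, hb] at hd
        subst h2
        exact m48_4a c hc ha hb w e
      · rw [if_neg h1, if_neg h2] at hd
        by_cases ha : pa ∈ c <;> by_cases hb : pb ∈ c <;> simp [ha, hb] at hd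

theorem m48_trans (w : leechLattice) (h : Good48 w) :
    ∃ g : Co0, g • v0 = v0 ∧ ((g • w : leechLattice) : GolayPt → ℤ) = fvec ∅ pb := by
  obtain ⟨g1, hg1, hodd⟩ := m48_odd w h
  obtain ⟨g2, hg2, hr⟩ := m48_ref (g1 • w) (good48_stab g1 hg1 w h) hodd
  exact ⟨g2 * g1, by rw [mul_smul, hg1, hg2], hr⟩

/-- the stabiliser of a minimal vector is transitive on the vectors of sum of squares 48 having
dot product `-16` with it -/
theorem m48_trans_gen (v w w' : leechLattice) (hv : sqNorm v.1 = 32) (hw : sqNorm w.1 = 48)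
    (hw' : sqNorm w'.1 = 48) (hd : dotInt v.1 w.1 = -16) (hd' : dotInt v.1 w'.1 = -16) :
    ∃ g : Co0, g • v = v ∧ g • w = w' := by
  apply stab_trans_of_ref Good48 (fvec ∅ pb) m48_trans v w w' hv
  intro g0 e0
  have good : ∀ u : leechLattice, sqNorm u.1 = 48 → dotInt v.1 u.1 = -16 → Good48 (g0 • u) := by
    intro u hu hdu
    refine ⟨by rw [co0_norm]; exact hu, ?_⟩
    have h := co0_dot g0 v u
    rw [e0, dot_v0, hdu] at h
    omega
  exact ⟨good w hw hd, good w' hw' hd'⟩

end Cfsg.Agent.Helper27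

namespace Cfsg.Agent.Helper27

lemma dotInt_add_left (a b x : GolayPt → ℤ) : dotInt (a + b) x = dotInt a x + dotInt b x := by
  unfold dotInt
  rw [← Finset.sum_add_distrib]
  apply Finset.sum_congr rfl
  intro i _
  simp only [Pi.add_apply]
  ring

lemma dotInt_self (x : GolayPt → ℤ) : dotInt x x = sqNorm x := by
  unfold dotInt sqNorm
  apply Finset.sum_congr rfl
  intro i _
  ring

lemma sqNorm_neg' (x : GolayPt → ℤ) : sqNorm (-x) = sqNorm x := by
  unfold sqNorm
  apply Finset.sum_congr rfl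
  intro i _
  simp only [Pi.neg_apply]
  ring

/-- two vectors of sum of squares 48 with dot product `-32` are exchanged by an automorphism -/
theorem swap48 (v w : leechLattice) (hv : sqNorm v.1 = 48) (hw : sqNorm w.1 = 48)
    (hvw : dotInt v.1 w.1 = -32) : ∃ g : Co0, g • v = w ∧ g • w = v := by
  have hm : sqNorm (v + w : leechLattice).1 = 32 := by
    show sqNorm (v.1 + w.1) = 32
    rw [sqNorm_add, hv, hw, hvw]
    norm_num
  have h1 : dotInt (v + w : leechLattice).1 (-v : leechLattice).1 = -16 := by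
    show dotInt (v.1 + w.1) (-v.1) = -16
    rw [dotInt_neg_right, dotInt_add_left, dotInt_self, hv, dotInt_comm w.1 v.1, hvw]
    norm_num
  have h2 : dotInt (v + w : leechLattice).1 (-w : leechLattice).1 = -16 := by
    show dotInt (v.1 + w.1) (-w.1) = -16
    rw [dotInt_neg_right, dotInt_add_left, dotInt_self, hw, hvw]
    norm_num
  have n1 : sqNorm (-v : leechLattice).1 = 48 := by
    show sqNorm (-v.1) = 48
    rw [sqNorm_neg', hv]
  have n2 : sqNorm (-w : leechLattice).1 = 48 := by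
    show sqNorm (-w.1) = 48
    rw [sqNorm_neg', hw]
  obtain ⟨g, hg, hgv⟩ := m48_trans_gen (v + w) (-v) (-w) hm n1 n2 h1 h2
  rw [co0_neg, neg_inj] at hgv
  refine ⟨g, hgv, ?_⟩
  have h3 := hg
  rw [co0_add, hgv] at h3
  have h4 : g • w = (w + g • w) - w := by abel
  rw [h4, h3]
  abel

/-- the stabiliser of a vector of sum of squares 48 is transitive on the minimal vectors having
dot product `-16` with it -/
theorem stab48_trans (u x x' : leechLattice) (hu : sqNorm u.1 = 48) (hx : sqNorm x.1 = 32)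
    (hx' : sqNorm x'.1 = 32) (hd : dotInt u.1 x.1 = -16) (hd' : dotInt u.1 x'.1 = -16) :
    ∃ g : Co0, g • u = u ∧ g • x = x' := by
  obtain ⟨g1, hg1⟩ := Cfsg.Agent.S0400.result x x' hx hx'
  have n1 : sqNorm (g1 • u : leechLattice).1 = 48 := by rw [co0_norm]; exact hu
  have d1 : dotInt x'.1 (g1 • u : leechLattice).1 = -16 := by
    rw [← hg1, co0_dot, dotInt_comm]
    exact hd
  have d2 : dotInt x'.1 u.1 = -16 := by rw [dotInt_comm]; exact hd'
  obtain ⟨h, hh, hu'⟩ := m48_trans_gen x' (g1 • u) u hx' n1 hu d1 d2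
  exact ⟨h * g1, by rw [mul_smul, hu'], by rw [mul_smul, hg1, hh]⟩

end Cfsg.Agent.Helper27
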