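import Cfsg.Agent.Helper27.Co2Orth

set_option autoImplicit false
open Cfsg

namespace Cfsg.Agent.Helper27

open scoped Pointwise
open Cfsg.Agent.Helper28.Golay (trans1 trans2 toSet mem_toSet toSet_mem_supports_iff isCW
  smul_mem_supports)

/-! ### the odd minimal vectors -/

lemma odd_form (w : leechLattice) (hn : sqNorm w.1 = 32) (ho : ∀ k, w.1 k % 2 = 1) :
    ∃ (c : Finset GolayPt) (i : GolayPt),
      c ∈ supports (golayCode : Set (GolayPt → ZMod 2)) ∧ w.1 = uvec c i := by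
  rcases min_cases w.1 ((mem_leechLattice_iff _).mp w.2) hn with
    ⟨T, ε, -, -, e⟩ | ⟨O, ε, -, -, -, e⟩ | ⟨c, i, hc, e⟩
  · exfalso
    have := ho none
    rw [e] at this
    unfold sv at this
    split_ifs at this <;> omega
  · exfalso
    have := ho none
    rw [e] at this
    unfold sv at this
    split_ifs at this <;> omega
  · exact ⟨c, i, hc, e⟩

lemma signFun_uvec (c' c : Finset GolayPt) (i : GolayPt) :
    signFun c' (uvec c i) = uvec (symmDiff c c') i := by
  funext k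
  unfold signFun uvec
  by_cases hk : k = i
  · subst hk
    by_cases h1 : k ∈ c <;> by_cases h2 : k ∈ c' <;> simp [Finset.mem_symmDiff, h1, h2]
  · by_cases h1 : k ∈ c <;> by_cases h2 : k ∈ c' <;> simp [Finset.mem_symmDiff, h1, h2, hk]

lemma permFun_uvec (σ : Equiv.Perm GolayPt) (c : Finset GolayPt) (i : GolayPt) :
    permFun σ (uvec c i) = uvec (σ • c) (σ i) := by
  funext k
  have h1 : σ i ∈ σ • c ↔ i ∈ c := by rw [mem_smul_iff, Equiv.symm_apply_apply]
  simp only [permFun, uvec, mem_smul_iff, Equiv.symm_apply_eq, h1]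

lemma neg_uvec (c : Finset GolayPt) (i : GolayPt) : -uvec c i = uvec cᶜ i := by
  funext k
  simp only [Pi.neg_apply]
  unfold uvec
  by_cases hk : k = i
  · subst hk
    by_cases h1 : k ∈ c <;> simp [h1]
  · by_cases h1 : k ∈ c <;> simp [h1, hk]

lemma uvec_diff (c : Finset GolayPt) (i : GolayPt) :
    uvec c i pa - uvec c i pb =
      (if pa ∈ c then -1 else 1) + (if pa = i then (if i ∈ c then 4 else -4) else 0)
      - ((if pb ∈ c then -1 else 1) + (if pb = i then (if i ∈ c then 4 else -4) else 0)) := rfl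

lemma negperm_v0 (τ : Equiv.Perm GolayPt) (hτ : τ ∈ M24) (ha : τ pa = pb) (hb : τ pb = pa) :
    (negC * permC τ hτ) • v0 = v0 := by
  apply Subtype.ext
  show -(permFun τ (Pi.single pa 4 - Pi.single pb 4)) = Pi.single pa 4 - Pi.single pb 4
  funext k
  simp only [permFun, Pi.sub_apply, Pi.single_apply, Pi.neg_apply, Equiv.symm_apply_eq, ha, hb]
  ring

/-! ### moves -/

lemma two_not_pair (F : Finset GolayPt) (hF : F.card ≤ 18) :
    ∃ p q : GolayPt, p ∉ F ∧ q ∉ F ∧ p ≠ pa ∧ p ≠ pb ∧ q ≠ pa ∧ q ≠ pb ∧ p ≠ q := by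
  obtain ⟨p, hpF, hpa, hpb, -⟩ := exists_not_pair F hF pa
  obtain ⟨q, hqF, hqa, hqb, hqp⟩ := exists_not_pair F hF p
  exact ⟨p, q, hpF, hqF, hpa, hpb, hqa, hqb, Ne.symm hqp⟩

lemma res2_mem (w : leechLattice) (i : GolayPt) (hi : w.1 i % 4 = 2) :
    (Finset.univ.filter fun k => w.1 k % 4 = 2) ∈
      supports (golayCode : Set (GolayPt → ZMod 2)) := by
  rcases leechSet_cases w.1 ((mem_leechLattice_iff _).mp w.2) with ⟨-, -, hA⟩ | ⟨ho, -, -⟩
  · exact hA
  · exfalso
    have := ho i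
    omega

/-- move with one coordinate congruent to 2 and one congruent to 0 modulo 4 -/
lemma move_A (w : leechLattice) (hn : sqNorm w.1 = 32) (i : GolayPt) (hi : w.1 i % 4 = 2) :
    ∃ (g : Co0) (p q : GolayPt), g • v0 = v0 ∧
      2 * ((g • w : leechLattice) : GolayPt → ℤ) pa = w.1 pa - w.1 pb - w.1 p - w.1 q ∧
      w.1 p % 4 = 2 ∧ w.1 q % 4 = 0 := by
  obtain ⟨hDE, hMin⟩ := code_facts Cfsg.Agent.S0359.result
  have hev : ∀ k, w.1 k % 2 = 0 := fun k => by
    have := parity_const w.1 w.2 k i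
    omega
  have hA := res2_mem w i hi
  have hmem : ∀ k, k ∈ (Finset.univ.filter fun k => w.1 k % 4 = 2) ↔ w.1 k % 4 = 2 := fun k => by
    simp
  have hne : (Finset.univ.filter fun k => w.1 k % 4 = 2).Nonempty := ⟨i, (hmem i).mpr hi⟩
  have h8 := hMin _ hA hne
  have h4 := four_card_le w.1
  rw [hn] at h4
  have hp : ∃ p ∈ (Finset.univ.filter fun k => w.1 k % 4 = 2), p ≠ pa ∧ p ≠ pb := by
    by_contra hcon
    have hsub : (Finset.univ.filter fun k => w.1 k % 4 = 2) ⊆ {pa, pb} := by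
      intro p hp
      rw [Finset.mem_insert, Finset.mem_singleton]
      by_cases h1 : p = pa
      · exact Or.inl h1
      · right
        by_contra h2
        exact hcon ⟨p, hp, h1, h2⟩
    have h1 := Finset.card_le_card hsub
    have h2 : ({pa, pb} : Finset GolayPt).card ≤ 2 := Finset.card_le_two
    omega
  obtain ⟨p, hpc, hpa, hpb⟩ := hp
  obtain ⟨q, hqc, hqa, hqb, hqp⟩ :=
    exists_not_pair (Finset.univ.filter fun k => w.1 k % 4 = 2) (by omega) p
  obtain ⟨g, hg, hgw⟩ := move_v0 w p q hpa hpb hqa hqb (Ne.symm hqp)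
  refine ⟨g, p, q, hg, hgw, (hmem p).mp hpc, ?_⟩
  have : ¬ w.1 q % 4 = 2 := fun h' => hqc ((hmem q).mpr h')
  have := hev q
  omega

/-- move with two coordinates congruent to 0 modulo 4, for a vector with a coordinate
congruent to 2 modulo 4 -/
lemma move_00 (w : leechLattice) (hn : sqNorm w.1 = 32) (i : GolayPt) (hi : w.1 i % 4 = 2) :
    ∃ (g : Co0) (p q : GolayPt), g • v0 = v0 ∧
      2 * ((g • w : leechLattice) : GolayPt → ℤ) pa = w.1 pa - w.1 pb - w.1 p - w.1 q ∧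
      w.1 p % 4 = 0 ∧ w.1 q % 4 = 0 := by
  have hev : ∀ k, w.1 k % 2 = 0 := fun k => by
    have := parity_const w.1 w.2 k i
    omega
  have hmem : ∀ k, k ∈ (Finset.univ.filter fun k => w.1 k % 4 = 2) ↔ w.1 k % 4 = 2 := fun k => by
    simp
  have h4 := four_card_le w.1
  rw [hn] at h4
  obtain ⟨p, q, hpF, hqF, hpa, hpb, hqa, hqb, hpq⟩ :=
    two_not_pair (Finset.univ.filter fun k => w.1 k % 4 = 2) (by omega)
  obtain ⟨g, hg, hgw⟩ := move_v0 w p q hpa hpb hqa hqb hpq
  refine ⟨g, p, q, hg, hgw, ?_, ?_⟩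
  · have : ¬ w.1 p % 4 = 2 := fun h' => hpF ((hmem p).mpr h')
    have := hev p
    omega
  · have : ¬ w.1 q % 4 = 2 := fun h' => hqF ((hmem q).mpr h')
    have := hev q
    omega

/-- move with two coordinates divisible by 8, for a vector with all coordinates divisible by 4 -/
lemma move_B (w : leechLattice) (hn : sqNorm w.1 = 32) (h4 : ∀ k, w.1 k % 4 = 0) :
    ∃ (g : Co0) (p q : GolayPt), g • v0 = v0 ∧
      2 * ((g • w : leechLattice) : GolayPt → ℤ) pa = w.1 pa - w.1 pb - w.1 p - w.1 q ∧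
      w.1 p % 8 = 0 ∧ w.1 q % 8 = 0 := by
  have hcard := card_le_of_sq w.1 (fun k => w.1 k % 8 = 4) 16 (by norm_num) (fun k hk => by
    have h' : w.1 k ≥ 4 ∨ w.1 k ≤ -4 := by omega
    rcases h' with h' | h' <;> nlinarith)
  rw [hn] at hcard
  obtain ⟨p, q, hpF, hqF, hpa, hpb, hqa, hqb, hpq⟩ :=
    two_not_pair (Finset.univ.filter fun k => w.1 k % 8 = 4) (by omega)
  obtain ⟨g, hg, hgw⟩ := move_v0 w p q hpa hpb hqa hqb hpq
  refine ⟨g, p, q, hg, hgw, ?_, ?_⟩
  · have : ¬ w.1 p % 8 = 4 := fun h' => hpF (by simp [h'])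
    have := h4 p
    omega
  · have : ¬ w.1 q % 8 = 4 := fun h' => hqF (by simp [h'])
    have := h4 q
    omega

/-- transitivity of the stabiliser from a common reference vector -/
lemma stab_trans_of_ref (P : leechLattice → Prop) (r : GolayPt → ℤ)
    (href : ∀ w, P w → ∃ g : Co0, g • v0 = v0 ∧ ((g • w : leechLattice) : GolayPt → ℤ) = r)
    (v w w' : leechLattice) (hv : sqNorm v.1 = 32)
    (hP : ∀ g0 : Co0, g0 • v = v0 → P (g0 • w) ∧ P (g0 • w')) :
    ∃ g : Co0, g • v = v ∧ g • w = w' := by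
  obtain ⟨g1, h1⟩ := trans32 v hv
  obtain ⟨g2, h2⟩ := trans32 v0 v0_norm
  have e0 : (g2⁻¹ * g1) • v = v0 := by
    have e : g1 • v = g2 • v0 := Subtype.ext (h1.trans h2.symm)
    rw [mul_smul, e, inv_smul_smul]
  set g0 := g2⁻¹ * g1 with hg0
  obtain ⟨hPw, hPw'⟩ := hP g0 e0
  obtain ⟨h, hh, hr⟩ := href _ hPw
  obtain ⟨h', hh', hr'⟩ := href _ hPw'
  have hh'i : h'⁻¹ • v0 = v0 := by rw [inv_smul_eq_iff, hh']
  refine ⟨g0⁻¹ * (h'⁻¹ * (h * g0)), ?_, ?_⟩
  · rw [mul_smul, mul_smul, mul_smul, e0, hh, hh'i, ← e0, inv_smul_smul]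
  · have hc : h • (g0 • w) = h' • (g0 • w') := Subtype.ext (hr.trans hr'.symm)
    rw [mul_smul, mul_smul, mul_smul, hc, inv_smul_smul, inv_smul_smul]

/-! ### dot product -16 -/

/-- minimal vectors with dot product `-16` with the reference vector -/
def GoodM4 (w : leechLattice) : Prop := sqNorm w.1 = 32 ∧ w.1 pa - w.1 pb = -4

lemma goodM4_stab (g : Co0) (hg : g • v0 = v0) (w : leechLattice) (h : GoodM4 w) :
    GoodM4 (g • w) := by
  refine ⟨by rw [co0_norm]; exact h.1, ?_⟩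
  have := stab_dot g hg w
  have := h.2
  omega

lemma m4_A (w : leechLattice) (h : GoodM4 w) (i : GolayPt) (hi : w.1 i % 4 = 2) :
    ∃ g : Co0, g • v0 = v0 ∧ ∀ k, ((g • w : leechLattice) : GolayPt → ℤ) k % 2 = 1 := by
  obtain ⟨g, p, q, hg, hgw, hp, hq⟩ := move_A w h.1 i hi
  refine ⟨g, hg, fun k => ?_⟩
  have hpar := parity_const (g • w).1 (g • w).2 k pa
  have := h.2
  omega

lemma m4_odd (w : leechLattice) (h : GoodM4 w) :
    ∃ g : Co0, g • v0 = v0 ∧ ∀ k, ((g • w : leechLattice) : GolayPt → ℤ) k % 2 = 1 := by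
  rcases Int.emod_two_eq_zero_or_one (w.1 none) with he | ho
  · have hev : ∀ k, w.1 k % 2 = 0 := fun k => by
      rw [parity_const w.1 w.2 k none]
      exact he
    by_cases h2 : ∃ i, w.1 i % 4 = 2
    · obtain ⟨i, hi⟩ := h2
      exact m4_A w h i hi
    · have h4 : ∀ k, w.1 k % 4 = 0 := fun k => by
        have := hev k
        have : ¬ w.1 k % 4 = 2 := fun h' => h2 ⟨k, h'⟩
        omega
      obtain ⟨g, p, q, hg, hgw, hp, hq⟩ := move_B w h.1 h4
      have h2' : ((g • w : leechLattice) : GolayPt → ℤ) pa % 4 = 2 := by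
        have := h.2
        omega
      obtain ⟨g', hg', hodd⟩ := m4_A (g • w) (goodM4_stab g hg w h) pa h2'
      exact ⟨g' * g, by rw [mul_smul, hg, hg'], hodd⟩
  · refine ⟨1, one_smul _ _, fun k => ?_⟩
    rw [one_smul, parity_const w.1 w.2 k none]
    exact ho

lemma m4_ref (w : leechLattice) (h : GoodM4 w) (ho : ∀ k, w.1 k % 2 = 1) :
    ∃ g : Co0, g • v0 = v0 ∧ ((g • w : leechLattice) : GolayPt → ℤ) = uvec ∅ pa := by
  obtain ⟨c, i, hc, e⟩ := odd_form w h.1 ho
  have hd := h.2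
  rw [e, uvec_diff] at hd
  have hcase : (i = pa ∧ pa ∉ c ∧ pb ∉ c) ∨ (i = pb ∧ pa ∈ c ∧ pb ∈ c) := by
    by_cases h1 : pa = i
    · have h2 : ¬ pb = i := fun h2 => absurd (h1.trans h2.symm) (by decide)
      rw [if_pos h1, if_neg h2, ← h1] at hd
      by_cases ha : pa ∈ c <;> by_cases hb : pb ∈ c <;> simp [ha, hb] at hd
      exact Or.inl ⟨h1.symm, ha, hb⟩
    · by_cases h2 : pb = i
      · rw [if_neg h1, if_pos h2, ← h2] at hd
        by_cases ha : pa ∈ c <;> by_cases hb : pb ∈ c <;> simp [ha, hb] at hd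
        exact Or.inr ⟨h2.symm, ha, hb⟩
      · rw [if_neg h1, if_neg h2] at hd
        by_cases ha : pa ∈ c <;> by_cases hb : pb ∈ c <;> simp [ha, hb] at hd
  rcases hcase with ⟨rfl, ha, hb⟩ | ⟨rfl, ha, hb⟩
  · refine ⟨signC c hc, signC_v0 c hc ha hb, ?_⟩
    rw [signC_apply, e, signFun_uvec, symmDiff_self]
    rfl
  · obtain ⟨τ, hτ, t1, t2⟩ := trans2 pa pb pb pa (by decide) (by decide)
    refine ⟨(negC * permC τ hτ) * (negC * signC c hc), ?_, ?_⟩
    · rw [mul_smul, negsignC_v0 c hc ha hb, negperm_v0 τ hτ t1 t2]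
    · show -(permFun τ (-(signFun c w.1))) = uvec ∅ pa
      rw [e, signFun_uvec, symmDiff_self, permFun_neg, neg_neg, permFun_uvec, t2]
      have : τ • (⊥ : Finset GolayPt) = ∅ := Finset.smul_finset_empty τ
      rw [this]

theorem m4_trans (w : leechLattice) (h : GoodM4 w) :
    ∃ g : Co0, g • v0 = v0 ∧ ((g • w : leechLattice) : GolayPt → ℤ) = uvec ∅ pa := by
  obtain ⟨g1, hg1, hodd⟩ := m4_odd w h
  obtain ⟨g2, hg2, hr⟩ := m4_ref (g1 • w) (goodM4_stab g1 hg1 w h) hodd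
  exact ⟨g2 * g1, by rw [mul_smul, hg1, hg2], hr⟩

theorem m4_trans_gen (v w w' : leechLattice) (hv : sqNorm v.1 = 32) (hw : sqNorm w.1 = 32)
    (hw' : sqNorm w'.1 = 32) (hd : dotInt v.1 w.1 = -16) (hd' : dotInt v.1 w'.1 = -16) :
    ∃ g : Co0, g • v = v ∧ g • w = w' := by
  apply stab_trans_of_ref GoodM4 (uvec ∅ pa) m4_trans v w w' hv
  intro g0 e0
  have good : ∀ u : leechLattice, sqNorm u.1 = 32 → dotInt v.1 u.1 = -16 → GoodM4 (g0 • u) := by
    intro u hu hdu
    refine ⟨by rw [co0_norm]; exact hu, ?_⟩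
    have h := co0_dot g0 v u
    rw [e0, dot_v0, hdu] at h
    omega
  exact ⟨good w hw hd, good w' hw' hd'⟩

/-! ### dot product -8 -/

/-- minimal vectors with dot product `-8` with the reference vector -/
def GoodM2 (w : leechLattice) : Prop := sqNorm w.1 = 32 ∧ w.1 pa - w.1 pb = -2

lemma goodM2_stab (g : Co0) (hg : g • v0 = v0) (w : leechLattice) (h : GoodM2 w) :
    GoodM2 (g • w) := by
  refine ⟨by rw [co0_norm]; exact h.1, ?_⟩
  have := stab_dot g hg w
  have := h.2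
  omega

lemma m2_odd (w : leechLattice) (h : GoodM2 w) :
    ∃ g : Co0, g • v0 = v0 ∧ ∀ k, ((g • w : leechLattice) : GolayPt → ℤ) k % 2 = 1 := by
  rcases Int.emod_two_eq_zero_or_one (w.1 none) with he | ho
  · have hev : ∀ k, w.1 k % 2 = 0 := fun k => by
      rw [parity_const w.1 w.2 k none]
      exact he
    have hi : ∃ i, w.1 i % 4 = 2 := by
      have := hev pa
      have := hev pb
      have := h.2
      by_cases h1 : w.1 pa % 4 = 2
      · exact ⟨pa, h1⟩
      · exact ⟨pb, by omega⟩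
    obtain ⟨i, hi⟩ := hi
    obtain ⟨g, p, q, hg, hgw, hp, hq⟩ := move_00 w h.1 i hi
    refine ⟨g, hg, fun k => ?_⟩
    have hpar := parity_const (g • w).1 (g • w).2 k pa
    have := h.2
    omega
  · refine ⟨1, one_smul _ _, fun k => ?_⟩
    rw [one_smul, parity_const w.1 w.2 k none]
    exact ho

/-- reference sign set for the odd vectors with big coordinate at the first point -/
def e0 : Finset GolayPt := toSet 18147

/-- sign set of the image of the reference under the sextet involution -/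
def cY : Finset GolayPt := toSet 4060028

lemma e0_mem : e0 ∈ supports (golayCode : Set (GolayPt → ZMod 2)) :=
  (toSet_mem_supports_iff (by norm_num)).mpr (by decide +kernel)

lemma cY_mem : cY ∈ supports (golayCode : Set (GolayPt → ZMod 2)) :=
  (toSet_mem_supports_iff (by norm_num)).mpr (by decide +kernel)

lemma e0_pa : pa ∉ e0 := by
  rw [e0, mem_toSet]
  decide +kernel

lemma e0_pb : pb ∈ e0 := by
  rw [e0, mem_toSet]
  decide +kernel

lemma cY_pa : pa ∈ cY := by
  rw [cY, mem_toSet]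
  decide +kernel

lemma cY_pb : pb ∉ cY := by
  rw [cY, mem_toSet]
  decide +kernel

lemma link_m2 : ∀ k : GolayPt,
    sgnT k * (2 * uvec cY (some 12) k - tsum (uvec cY (some 12)) k) = 2 * uvec e0 pa k := by
  decide +kernel

lemma m2_B (c : Finset GolayPt) (hc : c ∈ supports (golayCode : Set (GolayPt → ZMod 2)))
    (ha : pa ∉ c) (hb : pb ∈ c) (w : leechLattice) (e : w.1 = uvec c pa) :
    ∃ g : Co0, g • v0 = v0 ∧ ((g • w : leechLattice) : GolayPt → ℤ) = uvec e0 pa := by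
  have hs := supports_symmDiff c e0 hc e0_mem
  have h1 : pa ∉ symmDiff c e0 := by
    rw [Finset.mem_symmDiff]
    rintro (⟨h, -⟩ | ⟨h, -⟩)
    · exact ha h
    · exact e0_pa h
  have h2 : pb ∉ symmDiff c e0 := by
    rw [Finset.mem_symmDiff]
    rintro (⟨-, h⟩ | ⟨-, h⟩)
    · exact h e0_pb
    · exact h hb
  refine ⟨signC _ hs, signC_v0 _ hs h1 h2, ?_⟩
  rw [signC_apply, e, signFun_uvec, symmDiff_symmDiff_cancel_left]

lemma m2_ref (w : leechLattice) (h : GoodM2 w) (ho : ∀ k, w.1 k % 2 = 1) :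
    ∃ g : Co0, g • v0 = v0 ∧ ((g • w : leechLattice) : GolayPt → ℤ) = uvec e0 pa := by
  obtain ⟨c, i, hc, e⟩ := odd_form w h.1 ho
  have hd := h.2
  rw [e, uvec_diff] at hd
  have hcase : (i ≠ pa ∧ i ≠ pb ∧ pa ∈ c ∧ pb ∉ c) ∨ (i = pa ∧ pa ∉ c ∧ pb ∈ c) ∨
      (i = pb ∧ pa ∉ c ∧ pb ∈ c) := by
    by_cases h1 : pa = i
    · have h2 : ¬ pb = i := fun h2 => absurd (h1.trans h2.symm) (by decide)
      rw [if_pos h1, if_neg h2, ← h1] at hd
      by_cases ha : pa ∈ c <;> by_cases hb : pb ∈ c <;> simp [ha, hb] at hd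
      exact Or.inr (Or.inl ⟨h1.symm, ha, hb⟩)
    · by_cases h2 : pb = i
      · rw [if_neg h1, if_pos h2, ← h2] at hd
        by_cases ha : pa ∈ c <;> by_cases hb : pb ∈ c <;> simp [ha, hb] at hd
        exact Or.inr (Or.inr ⟨h2.symm, ha, hb⟩)
      · rw [if_neg h1, if_neg h2] at hd
        by_cases ha : pa ∈ c <;> by_cases hb : pb ∈ c <;> simp [ha, hb] at hd
        exact Or.inl ⟨fun h' => h1 h'.symm, fun h' => h2 h'.symm, ha, hb⟩
  rcases hcase with ⟨hia, hib, ha, hb⟩ | ⟨rfl, ha, hb⟩ | ⟨rfl, ha, hb⟩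
  · -- type A: move the big coordinate, normalise the signs, apply the sextet involution
    obtain ⟨σ, hσ, ea, eb, ei⟩ := three_trans pa pb i pa pb (some 12) (by decide) (Ne.symm hia)
      (Ne.symm hib) (by decide) (by decide) (by decide)
    have hσc : σ • c ∈ supports (golayCode : Set (GolayPt → ZMod 2)) := smul_mem_supports hσ hc
    have ha' : pa ∈ σ • c := by
      rw [mem_smul_iff, ← ea, Equiv.symm_apply_apply]
      exact ha
    have hb' : pb ∉ σ • c := by
      rw [mem_smul_iff, ← eb, Equiv.symm_apply_apply]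
      exact hb
    have hs := supports_symmDiff (σ • c) cY hσc cY_mem
    have h1 : pa ∉ symmDiff (σ • c) cY := by
      rw [Finset.mem_symmDiff]
      rintro (⟨-, h⟩ | ⟨-, h⟩)
      · exact h cY_pa
      · exact h ha'
    have h2 : pb ∉ symmDiff (σ • c) cY := by
      rw [Finset.mem_symmDiff]
      rintro (⟨h, -⟩ | ⟨h, -⟩)
      · exact hb' h
      · exact cY_pb h
    have e2 : ((signC _ hs • (permC σ hσ • w) : leechLattice) : GolayPt → ℤ)
        = uvec cY (some 12) := by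
      rw [signC_apply, permC_apply, e, permFun_uvec, ei, signFun_uvec,
        symmDiff_symmDiff_cancel_left]
    refine ⟨xiC * (signC _ hs * permC σ hσ), ?_, ?_⟩
    · rw [mul_smul, mul_smul, permC_v0 σ hσ ea eb, signC_v0 _ hs h1 h2, xiC_v0]
    · rw [mul_smul_coe, mul_smul_coe]
      funext k
      have h3 := xiC_apply (signC _ hs • (permC σ hσ • w)) k
      rw [e2, link_m2 k] at h3
      omega
  · exact m2_B c hc ha hb w e
  · obtain ⟨τ, hτ, t1, t2⟩ := trans2 pa pb pb pa (by decide) (by decide)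
    have hτc : (τ • c)ᶜ ∈ supports (golayCode : Set (GolayPt → ZMod 2)) :=
      supports_compl _ (smul_mem_supports hτ hc)
    have ha' : pa ∉ (τ • c)ᶜ := by
      rw [Finset.mem_compl, not_not, mem_smul_iff, ← t2, Equiv.symm_apply_apply]
      exact hb
    have hb' : pb ∈ (τ • c)ᶜ := by
      rw [Finset.mem_compl, mem_smul_iff, ← t1, Equiv.symm_apply_apply]
      exact ha
    have e2 : (((negC * permC τ hτ) • w : leechLattice) : GolayPt → ℤ) = uvec (τ • c)ᶜ pa := by
      show -(permFun τ w.1) = _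
      rw [e, permFun_uvec, t2, neg_uvec]
    obtain ⟨g, hg, hgw⟩ := m2_B _ hτc ha' hb' ((negC * permC τ hτ) • w) e2
    exact ⟨g * (negC * permC τ hτ), by rw [mul_smul, negperm_v0 τ hτ t1 t2, hg], hgw⟩

theorem m2_trans (w : leechLattice) (h : GoodM2 w) :
    ∃ g : Co0, g • v0 = v0 ∧ ((g • w : leechLattice) : GolayPt → ℤ) = uvec e0 pa := by
  obtain ⟨g1, hg1, hodd⟩ := m2_odd w h
  obtain ⟨g2, hg2, hr⟩ := m2_ref (g1 • w) (goodM2_stab g1 hg1 w h) hodd
  exact ⟨g2 * g1, by rw [mul_smul, hg1, hg2], hr⟩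

theorem m2_trans_gen (v w w' : leechLattice) (hv : sqNorm v.1 = 32) (hw : sqNorm w.1 = 32)
    (hw' : sqNorm w'.1 = 32) (hd : dotInt v.1 w.1 = -8) (hd' : dotInt v.1 w'.1 = -8) :
    ∃ g : Co0, g • v = v ∧ g • w = w' := by
  apply stab_trans_of_ref GoodM2 (uvec e0 pa) m2_trans v w w' hv
  intro g0 e0
  have good : ∀ u : leechLattice, sqNorm u.1 = 32 → dotInt v.1 u.1 = -8 → GoodM2 (g0 • u) := by
    intro u hu hdu
    refine ⟨by rw [co0_norm]; exact hu, ?_⟩
    have h := co0_dot g0 v u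
    rw [e0, dot_v0, hdu] at h
    omega
  exact ⟨good w hw hd, good w' hw' hd'⟩

end Cfsg.Agent.Helper27
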