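import Cfsg.Agent.Helper27.Co0Order

set_option autoImplicit false
open Cfsg

namespace Cfsg.Agent.Helper27

open scoped Pointwise
open Cfsg.Agent.Helper28.Golay (trans1 trans2)

/-- first reference point (in the second tetrad) -/
abbrev pa : GolayPt := some 4

/-- second reference point (in the second tetrad) -/
abbrev pb : GolayPt := some 7

/-- the reference minimal vector `4 e_a - 4 e_b` as a function -/
def v0f : GolayPt → ℤ := Pi.single pa 4 - Pi.single pb 4

lemma v0f_chk : Chk v0f := by decide +kernel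

/-- the reference minimal vector -/
def v0 : leechLattice := ⟨v0f, mem_of_chk _ v0f_chk⟩

lemma v0_norm : sqNorm (v0 : GolayPt → ℤ) = 32 := by decide +kernel

lemma dotInt_sub_left (a b x : GolayPt → ℤ) : dotInt (a - b) x = dotInt a x - dotInt b x := by
  unfold dotInt
  rw [← Finset.sum_sub_distrib]
  apply Finset.sum_congr rfl
  intro i _
  simp only [Pi.sub_apply]
  ring

lemma dot_v0 (x : GolayPt → ℤ) : dotInt (v0 : GolayPt → ℤ) x = 4 * x pa - 4 * x pb := by
  show dotInt (Pi.single pa 4 - Pi.single pb 4) x = _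
  rw [dotInt_sub_left, dot_single, dot_single]

lemma tsum_pa (x : GolayPt → ℤ) :
    tsum x pa = x (some 4) + x (some 7) + x (some 10) + x (some 12) := by
  unfold tsum
  rw [← Finset.sum_filter]
  have e : (Finset.univ.filter fun l : GolayPt => tau l = tau pa)
      = {some 4, some 7, some 10, some 12} := by decide +kernel
  rw [e, Finset.sum_insert (by decide), Finset.sum_insert (by decide),
    Finset.sum_insert (by decide), Finset.sum_singleton]
  ring

lemma xi_v0_aux : ∀ i : GolayPt, sgnT i * (2 * v0f i - tsum v0f i) = 2 * v0f i := by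
  decide +kernel

lemma xiC_v0 : xiC • v0 = v0 := by
  apply Subtype.ext
  funext i
  have h := xiC_apply v0 i
  have h2 := xi_v0_aux i
  show ((xiC • v0 : leechLattice) : GolayPt → ℤ) i = v0f i
  have e : (v0 : GolayPt → ℤ) = v0f := rfl
  rw [e] at h
  omega

lemma permC_v0 (σ : Equiv.Perm GolayPt) (hσ : σ ∈ M24) (ha : σ pa = pa) (hb : σ pb = pb) :
    permC σ hσ • v0 = v0 := by
  apply Subtype.ext
  show permFun σ (Pi.single pa 4 - Pi.single pb 4) = Pi.single pa 4 - Pi.single pb 4
  funext k
  simp only [permFun, Pi.sub_apply, Pi.single_apply, Equiv.symm_apply_eq, ha, hb]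

lemma signC_v0 (c : Finset GolayPt) (hc : c ∈ supports (golayCode : Set (GolayPt → ZMod 2)))
    (ha : pa ∉ c) (hb : pb ∉ c) : signC c hc • v0 = v0 := by
  apply Subtype.ext
  show signFun c (Pi.single pa 4 - Pi.single pb 4) = Pi.single pa 4 - Pi.single pb 4
  funext k
  simp only [signFun, Pi.sub_apply, Pi.single_apply]
  by_cases hk : k ∈ c
  · have h1 : k ≠ pa := fun h => ha (h ▸ hk)
    have h2 : k ≠ pb := fun h => hb (h ▸ hk)
    simp [hk, h1, h2]
  · simp [hk]

lemma negsignC_v0 (c : Finset GolayPt) (hc : c ∈ supports (golayCode : Set (GolayPt → ZMod 2)))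
    (ha : pa ∈ c) (hb : pb ∈ c) : (negC * signC c hc) • v0 = v0 := by
  apply Subtype.ext
  show -(signFun c (Pi.single pa 4 - Pi.single pb 4)) = Pi.single pa 4 - Pi.single pb 4
  funext k
  simp only [signFun, Pi.sub_apply, Pi.single_apply, Pi.neg_apply]
  by_cases hk : k ∈ c
  · simp [hk]
  · have h1 : k ≠ pa := fun h => hk (h ▸ ha)
    have h2 : k ≠ pb := fun h => hk (h ▸ hb)
    simp [hk, h1, h2]

/-- the basic move inside the stabiliser of the reference vector -/
lemma move_v0 (w : leechLattice) (p q : GolayPt) (hpa : p ≠ pa) (hpb : p ≠ pb) (hqa : q ≠ pa)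
    (hqb : q ≠ pb) (hpq : p ≠ q) :
    ∃ g : Co0, g • v0 = v0 ∧
      2 * ((g • w : leechLattice) : GolayPt → ℤ) pa = w.1 pa - w.1 pb - w.1 p - w.1 q := by
  obtain ⟨σ, hσ, e0, e1, e2, e3⟩ := four_trans pa pb (some 10) (some 12) pa pb p q
    (by decide) (by decide) (by decide) (by decide) (by decide) (by decide)
    (by decide) (Ne.symm hpa) (Ne.symm hpb) (Ne.symm hqa) (Ne.symm hqb) hpq
  have hσi : σ⁻¹ ∈ M24 := M24.inv_mem hσ
  have e0' : σ⁻¹ pa = pa := by rw [Equiv.Perm.inv_eq_iff_eq, e0]
  have e1' : σ⁻¹ pb = pb := by rw [Equiv.Perm.inv_eq_iff_eq, e1]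
  refine ⟨permC σ hσ * (xiC * permC σ⁻¹ hσi), ?_, ?_⟩
  · rw [mul_smul, mul_smul, permC_v0 σ⁻¹ hσi e0' e1', xiC_v0, permC_v0 σ hσ e0 e1]
  · rw [mul_smul_coe, mul_smul_coe, permC_apply']
    have e4 : σ.symm pa = pa := by rw [Equiv.symm_apply_eq, e0]
    rw [e4]
    have h := xiC_apply (permC σ⁻¹ hσi • w) pa
    rw [tsum_pa] at h
    have hs : sgnT pa = 1 := by decide
    have e : ∀ i, ((permC σ⁻¹ hσi • w : leechLattice) : GolayPt → ℤ) i = w.1 (σ i) := fun i => rfl
    rw [hs, e, e, e, e, e0, e1, e2, e3] at h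
    rw [h]
    ring

/-- elements of the stabiliser preserve the coordinate relation given by the dot product -/
lemma stab_dot (g : Co0) (hg : g • v0 = v0) (w : leechLattice) :
    4 * ((g • w : leechLattice) : GolayPt → ℤ) pa - 4 * ((g • w : leechLattice) : GolayPt → ℤ) pb
      = 4 * w.1 pa - 4 * w.1 pb := by
  have h := co0_dot g v0 w
  rw [hg, dot_v0, dot_v0] at h
  exact h

/-- odd minimal vectors with all coordinates congruent to 1 modulo 4 -/
lemma odd_normal (w : leechLattice) (hn : sqNorm w.1 = 32) (h1 : ∀ i, w.1 i % 4 = 1) :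
    ∃ i, w.1 = uvec ∅ i := by
  rcases min_cases w.1 ((mem_leechLattice_iff _).mp w.2) hn with
    ⟨T, ε, -, -, e⟩ | ⟨O, ε, -, -, -, e⟩ | ⟨c, i, -, e⟩
  · exfalso
    have := h1 none
    rw [e] at this
    unfold sv at this
    split_ifs at this <;> omega
  · exfalso
    have := h1 none
    rw [e] at this
    unfold sv at this
    split_ifs at this <;> omega
  · have hce : c = ∅ := by
      apply Finset.eq_empty_of_forall_notMem
      intro k hk
      have h3 := (uvec_mod c i k).mpr hk
      have h' := h1 k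
      rw [e] at h'
      omega
    subst hce
    exact ⟨i, e⟩

lemma uvec_empty (i k : GolayPt) : uvec ∅ i k = if k = i then -3 else 1 := by
  unfold uvec
  by_cases hk : k = i <;> simp [hk]

/-- two points outside the reference pair avoiding a small set, one prescribed -/
lemma exists_not_pair (F : Finset GolayPt) (hF : F.card ≤ 18) (p : GolayPt) :
    ∃ q : GolayPt, q ∉ F ∧ q ≠ pa ∧ q ≠ pb ∧ q ≠ p := by
  have hc : 0 < ((insert pa (insert pb (insert p F)))ᶜ).card := by
    rw [Finset.card_compl]
    have h1 : (insert pa (insert pb (insert p F))).card ≤ F.card + 3 := by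
      have a1 := Finset.card_insert_le pa (insert pb (insert p F))
      have a2 := Finset.card_insert_le pb (insert p F)
      have a3 := Finset.card_insert_le p F
      omega
    have h2 : Fintype.card GolayPt = 24 := by decide
    omega
  obtain ⟨q, hq⟩ := Finset.card_pos.mp hc
  rw [Finset.mem_compl, Finset.mem_insert, Finset.mem_insert, Finset.mem_insert] at hq
  push Not at hq
  exact ⟨q, hq.2.2.2, hq.1, hq.2.1, hq.2.2.1⟩

end Cfsg.Agent.Helper27
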