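import Cfsg.Agent.Helper27.Co3Data
import Cfsg.Agent.Helper27.OrbitSub
import Cfsg.Agent.S1640

set_option autoImplicit false
open Cfsg

namespace Cfsg.Agent.Helper27

/-- the 11178 minimal vectors attached to a vector of sum of squares 48 -/
def co3Set (u : leechLattice) : Set leechLattice :=
  {x : leechLattice | sqNorm x.1 = 32 ∧ dotInt u.1 x.1 = -16}

lemma co3Set_smul (g : Co0) (u x : leechLattice) :
    x ∈ co3Set u ↔ g • x ∈ co3Set (g • u) := by
  show (sqNorm x.1 = 32 ∧ dotInt u.1 x.1 = -16) ↔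
    (sqNorm (g • x : leechLattice).1 = 32 ∧
      dotInt (g • u : leechLattice).1 (g • x : leechLattice).1 = -16)
  rw [co0_norm, co0_dot]

lemma co3X0_self : dotInt co3X0.1 co3X0.1 = 32 := by
  rw [dotInt_self]
  exact co3X0_mem.1

/-- the suborbits of the point stabiliser in the orbit model -/
theorem co3_subB :
    (∀ t ∈ [(co3_Ya, co3_root_a, co3Ya, (-8 : ℤ)), (co3_Yb, co3_root_b, co3Yb, 16),
        (co3_Yc, co3_root_c, co3Yc, 0), (co3_Yd, co3_root_d, co3Yd, 8)],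
      {y : leechLattice | y ∈ co3Set co3U ∧ dotInt co3X0.1 y.1 = t.2.2.2}.ncard
        = t.1.flatten.length ∧
      ∀ y : leechLattice, y ∈ {y : leechLattice | y ∈ co3Set co3U ∧
          dotInt co3X0.1 y.1 = t.2.2.2} ↔
        ∃ g : Co0, (∀ r ∈ [co3X0, co3U], g • r = r) ∧ g • t.2.2.1 = y) ∧
    (∀ y ∈ co3Set co3U, y = co3X0 ∨ ∃ t ∈ [(co3_Ya, co3_root_a, co3Ya, (-8 : ℤ)),
        (co3_Yb, co3_root_b, co3Yb, 16), (co3_Yc, co3_root_c, co3Yc, 0),
        (co3_Yd, co3_root_d, co3Yd, 8)], dotInt co3X0.1 y.1 = t.2.2.2) := by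
  have hinv : ∀ g : Co0, (∀ r ∈ [co3X0, co3U], g • r = r) → ∀ y ∈ co3Set co3U,
      g • y ∈ co3Set co3U := by
    intro g hg y hy
    have h1 := (co3Set_smul g co3U y).mp hy
    rwa [hg co3U (by simp)] at h1
  have hcnt : (co3Set co3U).ncard = 11178 := (Cfsg.Agent.S1640.result co3U co3U_norm).1
  have hfin : (co3Set co3U).Finite := Set.finite_of_ncard_pos (by rw [hcnt]; norm_num)
  exact suborbits' (co3Set co3U) hfin [co3X0, co3U] co3X0 co3X0_mem (by simp)
    hinv co3_gens co3_val co3_fix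
    [(co3_Ya, co3_root_a, co3Ya, -8), (co3_Yb, co3_root_b, co3Yb, 16),
      (co3_Yc, co3_root_c, co3Yc, 0), (co3_Yd, co3_root_d, co3Yd, 8)]
    (by
      intro t ht
      simp only [List.mem_cons, List.not_mem_nil, or_false] at ht
      rcases ht with rfl | rfl | rfl | rfl
      · exact ⟨⟨co3Ya_mem.1, co3Ya_mem.2.1⟩, rfl, co3Ya_mem.2.2, co3_chk_a, co3_sorted_a⟩
      · exact ⟨⟨co3Yb_mem.1, co3Yb_mem.2.1⟩, rfl, co3Yb_mem.2.2, co3_chk_b, co3_sorted_b⟩
      · exact ⟨⟨co3Yc_mem.1, co3Yc_mem.2.1⟩, rfl, co3Yc_mem.2.2, co3_chk_c, co3_sorted_c⟩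
      · exact ⟨⟨co3Yd_mem.1, co3Yd_mem.2.1⟩, rfl, co3Yd_mem.2.2, co3_chk_d, co3_sorted_d⟩)
    (by decide) (by rw [co3X0_self]; decide)
    (by
      rw [hcnt]
      simp only [List.map_cons, List.map_nil, List.sum_cons, List.sum_nil, co3_len_a, co3_len_b,
        co3_len_c, co3_len_d]
      norm_num)

/-- the rank 5 statement for an arbitrary configuration -/
theorem co3_main (u x : leechLattice) (hu : sqNorm u.1 = 48) (hx : x ∈ co3Set u) :
    ∃ y₁ ∈ co3Set u, ∃ y₂ ∈ co3Set u, ∃ y₃ ∈ co3Set u, ∃ y₄ ∈ co3Set u,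
      (MulAction.orbit ↥(MulAction.stabilizer ↥Co0 u ⊓ MulAction.stabilizer ↥Co0 x) y₁).ncard
        = 352 ∧
      (MulAction.orbit ↥(MulAction.stabilizer ↥Co0 u ⊓ MulAction.stabilizer ↥Co0 x) y₂).ncard
        = 1100 ∧
      (MulAction.orbit ↥(MulAction.stabilizer ↥Co0 u ⊓ MulAction.stabilizer ↥Co0 x) y₃).ncard
        = 4125 ∧
      (MulAction.orbit ↥(MulAction.stabilizer ↥Co0 u ⊓ MulAction.stabilizer ↥Co0 x) y₄).ncard
        = 5600 ∧
      co3Set u = {x} ∪
        MulAction.orbit ↥(MulAction.stabilizer ↥Co0 u ⊓ MulAction.stabilizer ↥Co0 x) y₁ ∪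
        MulAction.orbit ↥(MulAction.stabilizer ↥Co0 u ⊓ MulAction.stabilizer ↥Co0 x) y₂ ∪
        MulAction.orbit ↥(MulAction.stabilizer ↥Co0 u ⊓ MulAction.stabilizer ↥Co0 x) y₃ ∪
        MulAction.orbit ↥(MulAction.stabilizer ↥Co0 u ⊓ MulAction.stabilizer ↥Co0 x) y₄ := by
  obtain ⟨g, hg⟩ := Cfsg.Agent.S0401.result u co3U hu co3U_norm
  have hx' : g • x ∈ co3Set co3U := by
    have := (co3Set_smul g u x).mp hx
    rwa [hg] at this
  obtain ⟨h, hh, hhx⟩ := (Cfsg.Agent.S1640.result co3U co3U_norm).2 _ hx' _ co3X0_mem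
  have k1 : (h * g) • u = co3U := by rw [mul_smul, hg, hh]
  have k3 : (h * g) • x = co3X0 := by rw [mul_smul, hhx]
  generalize h * g = k at k1 k3
  have hk : ∀ g0 : Co0, (∀ r ∈ [u, x], g0 • (k • r) = k • r) ↔
      (∀ r ∈ [co3X0, co3U], g0 • r = r) := by
    intro g0
    constructor
    · intro hq r hr
      simp only [List.mem_cons, List.not_mem_nil, or_false] at hr
      rcases hr with rfl | rfl
      · have := hq x (by simp); rwa [k3] at this
      · have := hq u (by simp); rwa [k1] at this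
    · intro hq r hr
      simp only [List.mem_cons, List.not_mem_nil, or_false] at hr
      rcases hr with rfl | rfl
      · rw [k1]; exact hq co3U (by simp)
      · rw [k3]; exact hq co3X0 (by simp)
  have hmemk : ∀ z : leechLattice, z ∈ co3Set u ↔ k • z ∈ co3Set co3U := by
    intro z
    have := co3Set_smul k u z
    rwa [k1] at this
  have hmem : ∀ y : leechLattice, y ∈ co3Set co3U → k⁻¹ • y ∈ co3Set u := by
    intro y hy
    rw [hmemk, smul_inv_smul]
    exact hy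
  obtain ⟨hsub, hall⟩ := co3_subB
  have ha := hsub (co3_Ya, co3_root_a, co3Ya, -8) (by simp)
  have hb := hsub (co3_Yb, co3_root_b, co3Yb, 16) (by simp)
  have hc := hsub (co3_Yc, co3_root_c, co3Yc, 0) (by simp)
  have hd := hsub (co3_Yd, co3_root_d, co3Yd, 8) (by simp)
  have ta := orbit_transport k [u, x] [co3X0, co3U] hk _ co3Ya ha.2
  have tb := orbit_transport k [u, x] [co3X0, co3U] hk _ co3Yb hb.2
  have tc := orbit_transport k [u, x] [co3X0, co3U] hk _ co3Yc hc.2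
  have td := orbit_transport k [u, x] [co3X0, co3U] hk _ co3Yd hd.2
  refine ⟨k⁻¹ • co3Ya, hmem _ ⟨co3Ya_mem.1, co3Ya_mem.2.1⟩,
    k⁻¹ • co3Yb, hmem _ ⟨co3Yb_mem.1, co3Yb_mem.2.1⟩,
    k⁻¹ • co3Yc, hmem _ ⟨co3Yc_mem.1, co3Yc_mem.2.1⟩,
    k⁻¹ • co3Yd, hmem _ ⟨co3Yd_mem.1, co3Yd_mem.2.1⟩, ?_, ?_, ?_, ?_, ?_⟩
  · rw [orbit_stab2, ta.2, ha.1]
    exact co3_len_a
  · rw [orbit_stab2, tb.2, hb.1]
    exact co3_len_b
  · rw [orbit_stab2, tc.2, hc.1]
    exact co3_len_c
  · rw [orbit_stab2, td.2, hd.1]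
    exact co3_len_d
  · rw [orbit_stab2, orbit_stab2, orbit_stab2, orbit_stab2]
    ext z
    simp only [Set.mem_union, Set.mem_singleton_iff]
    constructor
    · intro hz
      have hz' := (hmemk z).mp hz
      rcases hall _ hz' with h0 | ⟨t, ht, hφ⟩
      · left; left; left; left
        rw [← k3] at h0
        exact smul_left_cancel k h0
      · simp only [List.mem_cons, List.not_mem_nil, or_false] at ht
        rcases ht with rfl | rfl | rfl | rfl
        · left; left; left; right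
          exact (ta.1 z).mpr ⟨hz', hφ⟩
        · left; left; right
          exact (tb.1 z).mpr ⟨hz', hφ⟩
        · left; right
          exact (tc.1 z).mpr ⟨hz', hφ⟩
        · right
          exact (td.1 z).mpr ⟨hz', hφ⟩
    · rintro ((((rfl | hz) | hz) | hz) | hz)
      · exact hx
      · exact (hmemk z).mpr ((ta.1 z).mp hz).1
      · exact (hmemk z).mpr ((tb.1 z).mp hz).1
      · exact (hmemk z).mpr ((tc.1 z).mp hz).1
      · exact (hmemk z).mpr ((td.1 z).mp hz).1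

end Cfsg.Agent.Helper27
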