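import Cfsg.Agent.Helper27.HSSimple
import Cfsg.Agent.Helper27.SimpleCrit2
import Cfsg.Agent.Helper27.Co3Main

set_option autoImplicit false
open Cfsg

/-! The stabiliser of a vector of sum of squares 48 is simple of order 495766656000. -/

namespace Cfsg.Agent.Helper27

/-- the point stabiliser inside a subgroup -/
def nestEquivA (A : Subgroup Co0) (x : leechLattice) :
    ↥(MulAction.stabilizer ↥A x) ≃* ↥(A ⊓ MulAction.stabilizer Co0 x) where
  toFun h := ⟨h.1.1, Subgroup.mem_inf.2 ⟨h.1.2, h.2⟩⟩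
  invFun k := ⟨⟨k.1, (Subgroup.mem_inf.1 k.2).1⟩, (Subgroup.mem_inf.1 k.2).2⟩
  left_inv _ := rfl
  right_inv _ := rfl
  map_mul' _ _ := rfl

lemma co3_pair (u x : leechLattice) (hu : sqNorm u.1 = 48) (hx : x ∈ co3Set u) :
    sqNorm (-(u + x) : leechLattice).1 = 48 ∧ dotInt u.1 (-(u + x) : leechLattice).1 = -32 := by
  obtain ⟨hx1, hx2⟩ := hx
  constructor
  · show sqNorm (-(u.1 + x.1)) = 48
    rw [sqNorm_neg', sqNorm_add, hu, hx1, hx2]
    norm_num
  · show dotInt u.1 (-(u.1 + x.1)) = -32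
    rw [dotInt_neg_right, dotInt_add_right, dotInt_self, hu, hx2]
    norm_num

lemma co3_stab_eq (u x : leechLattice) :
    MulAction.stabilizer Co0 u ⊓ MulAction.stabilizer Co0 (-(u + x)) =
      MulAction.stabilizer Co0 u ⊓ MulAction.stabilizer Co0 x := by
  ext g
  simp only [Subgroup.mem_inf, MulAction.mem_stabilizer_iff]
  constructor
  · rintro ⟨h1, h2⟩
    refine ⟨h1, ?_⟩
    rw [co0_neg, neg_inj, co0_add, h1] at h2
    exact add_left_cancel h2
  · rintro ⟨h1, h2⟩
    refine ⟨h1, ?_⟩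
    rw [co0_neg, co0_add, h1, h2]

/-- the stabiliser of a vector of sum of squares 48 and a point of its 11178-set is simple -/
lemma co3_stab_simple (u x : leechLattice) (hu : sqNorm u.1 = 48) (hx : x ∈ co3Set u) :
    IsSimpleGroup ↥(MulAction.stabilizer Co0 u ⊓ MulAction.stabilizer Co0 x) := by
  obtain ⟨h1, h2⟩ := co3_pair u x hu hx
  have := hs_simple u (-(u + x)) hu h1 h2
  rwa [co3_stab_eq] at this

lemma co3_stab_card (u x : leechLattice) (hu : sqNorm u.1 = 48) (hx : x ∈ co3Set u) :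
    Nat.card ↥(MulAction.stabilizer Co0 u ⊓ MulAction.stabilizer Co0 x) = 44352000 := by
  obtain ⟨h1, h2⟩ := co3_pair u x hu hx
  have := hs_card u (-(u + x)) hu h1 h2
  rwa [co3_stab_eq] at this

lemma co3Set_inv (u : leechLattice) (g : ↥(MulAction.stabilizer Co0 u)) (x : leechLattice)
    (hx : x ∈ co3Set u) : g • x ∈ co3Set u := by
  have h1 : g.1 • u = u := g.2
  have := (co3Set_smul g.1 u x).mp hx
  rwa [h1] at this

lemma co3_orbit (u x : leechLattice) (hu : sqNorm u.1 = 48) (hx : x ∈ co3Set u) :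
    MulAction.orbit ↥(MulAction.stabilizer Co0 u) x = co3Set u := by
  ext y
  constructor
  · rintro ⟨g, rfl⟩
    exact co3Set_inv u g x hx
  · intro hy
    obtain ⟨g, h1, h3⟩ := (Cfsg.Agent.S1640.result u hu).2 x hx y hy
    exact ⟨⟨g, h1⟩, h3⟩

lemma co3_nonempty (u : leechLattice) (hu : sqNorm u.1 = 48) : ∃ x, x ∈ co3Set u := by
  have h : (co3Set u).ncard = 11178 := (Cfsg.Agent.S1640.result u hu).1
  by_contra hcon
  have : co3Set u = ∅ := Set.eq_empty_iff_forall_notMem.mpr (fun x hx => hcon ⟨x, hx⟩)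
  rw [this, Set.ncard_empty] at h
  omega

/-- the order of the stabiliser of a vector of sum of squares 48 -/
theorem co3_card (u : leechLattice) (hu : sqNorm u.1 = 48) :
    Nat.card ↥(MulAction.stabilizer Co0 u) = 495766656000 := by
  obtain ⟨x, hx⟩ := co3_nonempty u hu
  have h1 := Subgroup.index_mul_card (MulAction.stabilizer ↥(MulAction.stabilizer Co0 u) x)
  have hc : (co3Set u).ncard = 11178 := (Cfsg.Agent.S1640.result u hu).1
  rw [MulAction.index_stabilizer, co3_orbit u x hu hx, hc,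
    Nat.card_congr (nestEquivA (MulAction.stabilizer Co0 u) x).toEquiv,
    co3_stab_card u x hu hx] at h1
  omega

/-- the stabiliser of a vector of sum of squares 48 is simple -/
theorem co3_simple (u : leechLattice) (hu : sqNorm u.1 = 48) :
    IsSimpleGroup ↥(MulAction.stabilizer Co0 u) := by
  obtain ⟨x, hx⟩ := co3_nonempty u hu
  obtain ⟨y₁, m₁, y₂, m₂, y₃, m₃, y₄, m₄, c₁, c₂, c₃, c₄, hU⟩ := co3_main u x hu hx
  have hcnt : (co3Set u).ncard = 11178 := (Cfsg.Agent.S1640.result u hu).1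
  have hfin : (co3Set u).Finite := Set.finite_of_ncard_ne_zero (by rw [hcnt]; norm_num)
  haveI : Finite ↥Co0 := Nat.finite_of_card_ne_zero (by rw [card_Co0]; norm_num)
  haveI := co3_stab_simple u x hu hx
  have hH : IsSimpleGroup ↥(MulAction.stabilizer ↥(MulAction.stabilizer Co0 u) x) :=
    (MulEquiv.isSimpleGroup_congr (nestEquivA (MulAction.stabilizer Co0 u) x)).2 inferInstance
  -- abbreviations for the four orbits
  set K := ↥(MulAction.stabilizer ↥Co0 u ⊓ MulAction.stabilizer ↥Co0 x) with hK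
  have hx_not : ∀ y : leechLattice, (MulAction.orbit K y).ncard ≠ 1 → x ∉ MulAction.orbit K y := by
    rintro y hne ⟨k, hk⟩
    apply hne
    have hkx : k.1 • x = x := (Subgroup.mem_inf.1 k.2).2
    have hyx : y = x := by
      have h1 : k.1 • y = x := hk
      exact smul_left_cancel k.1 (h1.trans hkx.symm)
    rw [hyx]
    have : MulAction.orbit K x = {x} := by
      ext z
      constructor
      · rintro ⟨k', rfl⟩
        exact (Subgroup.mem_inf.1 k'.2).2
      · rintro rfl
        exact MulAction.mem_orbit_self _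
    rw [this, Set.ncard_singleton]
  have hdis : ∀ y y' : leechLattice, (MulAction.orbit K y).ncard ≠ (MulAction.orbit K y').ncard →
      Disjoint (MulAction.orbit K y) (MulAction.orbit K y') := by
    intro y y' hne
    rcases MulAction.orbit.eq_or_disjoint (G := K) y y' with h | h
    · exact absurd (by rw [h]) hne
    · exact h
  have htr : ∀ y₀ : leechLattice, ∀ y ∈ MulAction.orbit K y₀, ∀ y' ∈ MulAction.orbit K y₀,
      ∃ h : ↥(MulAction.stabilizer Co0 u), h • x = x ∧ h • y = y' := by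
    rintro y₀ y ⟨a, rfl⟩ y' ⟨b, rfl⟩
    refine ⟨⟨b.1 * a.1⁻¹, (MulAction.stabilizer Co0 u).mul_mem (Subgroup.mem_inf.1 b.2).1
      ((MulAction.stabilizer Co0 u).inv_mem (Subgroup.mem_inf.1 a.2).1)⟩, ?_, ?_⟩
    · show (b.1 * a.1⁻¹) • x = x
      have ha : a.1 • x = x := (Subgroup.mem_inf.1 a.2).2
      have hb : b.1 • x = x := (Subgroup.mem_inf.1 b.2).2
      rw [mul_smul, inv_smul_eq_iff.mpr ha.symm, hb]
    · show (b.1 * a.1⁻¹) • (a.1 • y₀) = b.1 • y₀
      rw [mul_smul, inv_smul_smul]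
  apply simple_of_suborbits' (k := 4) (co3Set u) x hx hfin
    (fun g y hy => co3Set_inv u g y hy)
    (fun y hy => by
      obtain ⟨g, h1, h3⟩ := (Cfsg.Agent.S1640.result u hu).2 x hx y hy
      exact ⟨⟨g, h1⟩, h3⟩)
    hH
    ![MulAction.orbit K y₁, MulAction.orbit K y₂, MulAction.orbit K y₃, MulAction.orbit K y₄]
    ![352, 1100, 4125, 5600]
  · intro y hy hyx
    rw [hU] at hy
    rcases hy with (((h | h) | h) | h) | h
    · exact absurd h hyx
    · exact ⟨0, h⟩
    · exact ⟨1, h⟩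
    · exact ⟨2, h⟩
    · exact ⟨3, h⟩
  · intro i y hy
    rw [hU]
    fin_cases i
    · left; left; left; right; exact hy
    · left; left; right; exact hy
    · left; right; exact hy
    · right; exact hy
  · intro i
    fin_cases i
    · exact hx_not y₁ (by rw [c₁]; norm_num)
    · exact hx_not y₂ (by rw [c₂]; norm_num)
    · exact hx_not y₃ (by rw [c₃]; norm_num)
    · exact hx_not y₄ (by rw [c₄]; norm_num)
  · intro i j hij
    fin_cases i <;> fin_cases j
    · exact absurd rfl hij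
    · exact hdis y₁ y₂ (by rw [c₁, c₂]; norm_num)
    · exact hdis y₁ y₃ (by rw [c₁, c₃]; norm_num)
    · exact hdis y₁ y₄ (by rw [c₁, c₄]; norm_num)
    · exact hdis y₂ y₁ (by rw [c₂, c₁]; norm_num)
    · exact absurd rfl hij
    · exact hdis y₂ y₃ (by rw [c₂, c₃]; norm_num)
    · exact hdis y₂ y₄ (by rw [c₂, c₄]; norm_num)
    · exact hdis y₃ y₁ (by rw [c₃, c₁]; norm_num)
    · exact hdis y₃ y₂ (by rw [c₃, c₂]; norm_num)
    · exact absurd rfl hij
    · exact hdis y₃ y₄ (by rw [c₃, c₄]; norm_num)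
    · exact hdis y₄ y₁ (by rw [c₄, c₁]; norm_num)
    · exact hdis y₄ y₂ (by rw [c₄, c₂]; norm_num)
    · exact hdis y₄ y₃ (by rw [c₄, c₃]; norm_num)
    · exact absurd rfl hij
  · intro i
    fin_cases i
    · exact c₁
    · exact c₂
    · exact c₃
    · exact c₄
  · intro i
    fin_cases i
    · exact htr y₁
    · exact htr y₂
    · exact htr y₃
    · exact htr y₄
  · exact ⟨0, by norm_num⟩
  · rw [hcnt]
    decide
  · show 23 ∣ (co3Set u).ncard
    rw [hcnt]; norm_num
  · show 2 ∣ (co3Set u).ncard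
    rw [hcnt]; norm_num
  · norm_num
  · decide

end Cfsg.Agent.Helper27
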