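import Mathlib
import Cfsg.Prelude.Def_FischerSpaces

set_option autoImplicit false

namespace Cfsg.Agent.Helper27.Fischer

open Cfsg Cfsg.LineSystem

section basic

variable {X : Type*} (L : Set (Set X))

/-- `r` is the third point of a line through `p ≠ q` -/
def Tri (p q r : X) : Prop := ({p, q, r} : Set X) ∈ L ∧ r ≠ p ∧ r ≠ q ∧ p ≠ q

/-- `q'` is the image of `q` under the map of the point `p` -/
def T (p q q' : X) : Prop :=
  Tri L p q q' ∨ (q' = q ∧ ¬ ∃ z : X, z ≠ p ∧ z ≠ q ∧ p ≠ q ∧ ({p, q, z} : Set X) ∈ L)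

/-- the map of every point sends lines into lines -/
def Good : Prop := ∀ p : X, ∀ ℓ ∈ L, ∃ ℓ' ∈ L, ∀ q ∈ ℓ, ∃ q' ∈ ℓ', T L p q q'

variable {L}

theorem third (h3 : ∀ l ∈ L, l.ncard = 3) (l : Set X) (hl : l ∈ L) (x y : X) (hx : x ∈ l)
    (hy : y ∈ l) (hxy : x ≠ y) : ∃ z, z ≠ x ∧ z ≠ y ∧ l = {x, y, z} := by
  have hfin : l.Finite := Set.finite_of_ncard_ne_zero (by rw [h3 l hl]; norm_num)
  have hsub : ({x, y} : Set X) ⊆ l := by
    intro w hw
    rcases hw with rfl | rfl
    · exact hx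
    · exact hy
  have hc : (l \ {x, y}).ncard = 1 := by
    rw [Set.ncard_sdiff hsub, h3 l hl, Set.ncard_pair hxy]
  obtain ⟨z, hz⟩ := Set.ncard_eq_one.mp hc
  have hzm : z ∈ l \ {x, y} := by rw [hz]; rfl
  refine ⟨z, fun h => hzm.2 (by rw [h]; simp), fun h => hzm.2 (by rw [h]; simp), ?_⟩
  ext w
  constructor
  · intro hw
    by_cases hwx : w = x
    · simp [hwx]
    by_cases hwy : w = y
    · simp [hwy]
    have h1 : w ∈ l \ {x, y} := ⟨hw, by simp [hwx, hwy]⟩
    rw [hz] at h1
    simp [Set.mem_singleton_iff.mp h1]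
  · rintro (rfl | rfl | rfl)
    · exact hx
    · exact hy
    · exact hzm.1

theorem tri_unique (hPL : IsPartialLinear L) {p q r r' : X} (h : Tri L p q r) (h' : Tri L p q r') :
    r = r' := by
  obtain ⟨h1, h2, h3, h4⟩ := h
  obtain ⟨h1', h2', h3', -⟩ := h'
  have e := hPL _ h1 _ h1' p q h4 (by simp) (by simp) (by simp) (by simp)
  have hr : r ∈ ({p, q, r'} : Set X) := by rw [← e]; simp
  rcases hr with h | h | h
  · exact absurd h h2
  · exact absurd h h3
  · exact h

theorem tri_swap {p q r : X} (h : Tri L p q r) : Tri L p r q := by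
  obtain ⟨h1, h2, h3, h4⟩ := h
  refine ⟨?_, Ne.symm h4, Ne.symm h3, Ne.symm h2⟩
  have e : ({p, r, q} : Set X) = {p, q, r} := by
    ext w
    simp only [Set.mem_insert_iff, Set.mem_singleton_iff]
    tauto
  rw [e]
  exact h1

theorem tri_symm {p q r : X} (h : Tri L p q r) : Tri L q p r := by
  obtain ⟨h1, h2, h3, h4⟩ := h
  refine ⟨?_, h3, h2, Ne.symm h4⟩
  have e : ({q, p, r} : Set X) = {p, q, r} := by
    ext w
    simp only [Set.mem_insert_iff, Set.mem_singleton_iff]
    tauto
  rw [e]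
  exact h1

theorem lineMap_tri (hPL : IsPartialLinear L) {p q r : X} (h : Tri L p q r) :
    lineMap L p q = r := by
  have hex : ∃ z : X, z ≠ p ∧ z ≠ q ∧ p ≠ q ∧ ({p, q, z} : Set X) ∈ L :=
    ⟨r, h.2.1, h.2.2.1, h.2.2.2, h.1⟩
  unfold lineMap
  rw [dif_pos hex]
  have hs := hex.choose_spec
  exact tri_unique hPL ⟨hs.2.2.2, hs.1, hs.2.1, hs.2.2.1⟩ h

theorem lineMap_neg {p q : X}
    (h : ¬ ∃ z : X, z ≠ p ∧ z ≠ q ∧ p ≠ q ∧ ({p, q, z} : Set X) ∈ L) : lineMap L p q = q := by
  unfold lineMap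
  rw [dif_neg h]

theorem lineMap_T (hPL : IsPartialLinear L) {p q q' : X} (h : T L p q q') :
    lineMap L p q = q' := by
  rcases h with h | ⟨h1, h2⟩
  · exact lineMap_tri hPL h
  · rw [h1]
    exact lineMap_neg h2

theorem lineMap_cases (hPL : IsPartialLinear L) (p q : X) :
    Tri L p q (lineMap L p q) ∨
      (lineMap L p q = q ∧ ¬ ∃ z : X, z ≠ p ∧ z ≠ q ∧ p ≠ q ∧ ({p, q, z} : Set X) ∈ L) := by
  by_cases hex : ∃ z : X, z ≠ p ∧ z ≠ q ∧ p ≠ q ∧ ({p, q, z} : Set X) ∈ L
  · left
    obtain ⟨r, h1, h2, h3, h4⟩ := hex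
    have ht : Tri L p q r := ⟨h4, h1, h2, h3⟩
    rw [lineMap_tri hPL ht]
    exact ht
  · right
    exact ⟨lineMap_neg hex, hex⟩

theorem lineMap_invol (hPL : IsPartialLinear L) (p : X) :
    Function.Involutive (lineMap L p) := by
  intro q
  rcases lineMap_cases hPL p q with h | ⟨h1, -⟩
  · exact lineMap_tri hPL (tri_swap h)
  · rw [h1, h1]

end basic

section transport

variable {Y Z : Type*}

theorem good_of_iso (M : Set (Set Y)) (N : Set (Set Z)) (e : Y ≃ Z) (h : IsIso M N e)
    (hN : Good N) : Good M := by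
  intro p ℓ hℓ
  have h1 : e '' ℓ ∈ N := (h ℓ).mp hℓ
  obtain ⟨ℓ', hℓ', H⟩ := hN (e p) (e '' ℓ) h1
  have himg : ∀ a b c : Y, e '' ({a, b, c} : Set Y) = {e a, e b, e c} := by
    intro a b c
    rw [Set.image_insert_eq, Set.image_insert_eq, Set.image_singleton]
  refine ⟨e.symm '' ℓ', ?_, ?_⟩
  · rw [h]
    have e1 : e '' (e.symm '' ℓ') = ℓ' := by
      rw [Set.image_image]
      simp
    rw [e1]
    exact hℓ'
  · intro q hq
    obtain ⟨r', hr', hT⟩ := H (e q) (Set.mem_image_of_mem e hq)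
    refine ⟨e.symm r', Set.mem_image_of_mem _ hr', ?_⟩
    rcases hT with ⟨hmem, h1, h2, h3⟩ | ⟨h1, h2⟩
    · left
      refine ⟨?_, ?_, ?_, ?_⟩
      · rw [h, himg, Equiv.apply_symm_apply]
        exact hmem
      · intro heq
        apply h1
        rw [← heq, Equiv.apply_symm_apply]
      · intro heq
        apply h2
        rw [← heq, Equiv.apply_symm_apply]
      · intro heq
        exact h3 (congrArg e heq)
    · right
      refine ⟨by rw [h1, Equiv.symm_apply_apply], ?_⟩
      rintro ⟨z, hz1, hz2, hz3, hz⟩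
      apply h2
      refine ⟨e z, fun heq => hz1 (e.injective heq), fun heq => hz2 (e.injective heq),
        fun heq => hz3 (e.injective heq), ?_⟩
      have h5 := (h _).mp hz
      rw [himg] at h5
      exact h5

end transport

section models

theorem z3_a : ∀ a b : ZMod 3, -a - b = a + 2 * (b - a) := by decide

theorem z3_b : ∀ a : ZMod 3, -a - a = a := by decide

theorem z3_c : ∀ a b : ZMod 3, -a - b = a → a = b := by decide

theorem z3_d : ∀ a b : ZMod 3, -a - b = b → a = b := by decide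

theorem good_affine : Good affinePlaneThree := by
  intro p ℓ hℓ
  obtain ⟨v, w, hw, rfl⟩ := hℓ
  refine ⟨{x | ∃ c : ZMod 3, x = (-p - v) + c • (-w)}, ⟨-p - v, -w, neg_ne_zero.mpr hw, rfl⟩, ?_⟩
  rintro q ⟨c, rfl⟩
  refine ⟨-p - (v + c • w), ⟨c, ?_⟩, ?_⟩
  · ext i
    simp only [Pi.sub_apply, Pi.neg_apply, Pi.add_apply, Pi.smul_apply, smul_eq_mul]
    ring
  · by_cases hpq : p = v + c • w
    · right
      refine ⟨?_, ?_⟩
      · rw [← hpq]
        ext i
        simp only [Pi.sub_apply, Pi.neg_apply]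
        exact z3_b (p i)
      · rintro ⟨z, -, -, h3, -⟩
        exact h3 hpq
    · left
      refine ⟨?_, ?_, ?_, hpq⟩
      · refine ⟨p, (v + c • w) - p, sub_ne_zero.mpr (Ne.symm hpq), ?_⟩
        ext x
        simp only [Set.mem_insert_iff, Set.mem_singleton_iff, Set.mem_setOf_eq]
        constructor
        · rintro (rfl | rfl | rfl)
          · exact ⟨0, by simp⟩
          · exact ⟨1, by simp⟩
          · refine ⟨2, ?_⟩
            ext i
            simp only [Pi.sub_apply, Pi.neg_apply, Pi.add_apply, Pi.smul_apply, smul_eq_mul]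
            exact z3_a _ _
        · rintro ⟨d, rfl⟩
          have hd : d = 0 ∨ d = 1 ∨ d = 2 := by revert d; decide
          rcases hd with rfl | rfl | rfl
          · left
            simp
          · right; left
            simp
          · right; right
            ext i
            simp only [Pi.sub_apply, Pi.neg_apply, Pi.add_apply, Pi.smul_apply, smul_eq_mul]
            exact (z3_a _ _).symm
      · intro heq
        apply hpq
        ext i
        have h5 := congrFun heq i
        simp only [Pi.sub_apply, Pi.neg_apply] at h5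
        exact z3_c _ _ h5
      · intro heq
        apply hpq
        ext i
        have h5 := congrFun heq i
        simp only [Pi.sub_apply, Pi.neg_apply] at h5
        exact z3_d _ _ h5

/-- three points forming a line of the dual affine plane -/
def dLine (p q r : DualAffinePoint) : Prop :=
  ∃ k : Fin 4, ∀ s : DualAffinePoint, (s = p ∨ s = q ∨ s = r) ↔ k ∉ s.val

instance (p q r : DualAffinePoint) : Decidable (dLine p q r) := by
  unfold dLine
  infer_instance

/-- decidable form of the relation `T` in the dual affine plane -/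
def dT (p q q' : DualAffinePoint) : Prop :=
  (dLine p q q' ∧ q' ≠ p ∧ q' ≠ q ∧ p ≠ q) ∨
    (q' = q ∧ ¬ ∃ z : DualAffinePoint, z ≠ p ∧ z ≠ q ∧ p ≠ q ∧ dLine p q z)

instance (p q r : DualAffinePoint) : Decidable (dT p q r) := by
  unfold dT
  infer_instance

theorem dual_D : ∀ p : DualAffinePoint, ∀ i : Fin 4, ∃ j : Fin 4, ∀ q : DualAffinePoint,
    i ∉ q.val → ∃ q' : DualAffinePoint, j ∉ q'.val ∧ dT p q q' := by
  decide +kernel

theorem dLine_iff (p q r : DualAffinePoint) :
    dLine p q r ↔ ({p, q, r} : Set DualAffinePoint) ∈ dualAffinePlaneTwo := by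
  unfold dLine dualAffinePlaneTwo
  simp only [Set.mem_setOf_eq]
  constructor
  · rintro ⟨k, hk⟩
    refine ⟨k, ?_⟩
    ext s
    simp only [Set.mem_insert_iff, Set.mem_singleton_iff, Set.mem_setOf_eq]
    exact hk s
  · rintro ⟨k, hk⟩
    refine ⟨k, fun s => ?_⟩
    have h5 := Set.ext_iff.mp hk s
    simp only [Set.mem_insert_iff, Set.mem_singleton_iff, Set.mem_setOf_eq] at h5
    exact h5

theorem good_dual : Good dualAffinePlaneTwo := by
  intro p ℓ hℓ
  obtain ⟨i, rfl⟩ := hℓ
  obtain ⟨j, hj⟩ := dual_D p i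
  refine ⟨{s | j ∉ s.val}, ⟨j, rfl⟩, ?_⟩
  intro q hq
  obtain ⟨q', hq', hT⟩ := hj q hq
  refine ⟨q', hq', ?_⟩
  rcases hT with ⟨h1, h2, h3, h4⟩ | ⟨h1, h2⟩
  · left
    exact ⟨(dLine_iff p q q').mp h1, h2, h3, h4⟩
  · right
    refine ⟨h1, ?_⟩
    rintro ⟨z, hz1, hz2, hz3, hz⟩
    exact h2 ⟨z, hz1, hz2, hz3, (dLine_iff p q z).mpr hz⟩

end models

section plane

variable {X : Type*} {L : Set (Set X)}

theorem span_subspace (S : Set X) : IsSubspace L (span L S) := by
  intro l hl x hx y hy hxy hxl hyl z hz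
  simp only [span, Set.mem_sInter, Set.mem_setOf_eq] at hx hy ⊢
  intro U hU
  exact hU.2 l hl x (hx U hU) y (hy U hU) hxy hxl hyl hz

theorem subset_span (S : Set X) : S ⊆ span L S := by
  intro x hx
  simp only [span, Set.mem_sInter, Set.mem_setOf_eq]
  intro U hU
  exact hU.1 hx

theorem plane_lineMap (hPL : IsPartialLinear L) (h3 : ∀ l ∈ L, l.ncard = 3) (S : Set X)
    (hS : IsSubspace L S) (hG : Good (restrict L S)) (x : X) (hx : x ∈ S) (l : Set X)
    (hl : l ∈ L) (hlS : l ⊆ S) : ∃ l' ∈ L, ∀ q ∈ l, lineMap L x q ∈ l' := by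
  have hℓ : {y : S | (y : X) ∈ l} ∈ restrict L S := ⟨l, hl, hlS, rfl⟩
  obtain ⟨ℓ', ⟨l', hl', hl'S, rfl⟩, H⟩ := hG ⟨x, hx⟩ _ hℓ
  refine ⟨l', hl', fun q hq => ?_⟩
  obtain ⟨q', hq', hT⟩ := H ⟨q, hlS hq⟩ hq
  have hq'l : (q' : X) ∈ l' := hq'
  have key : lineMap L x q = (q' : X) := by
    rcases hT with ⟨⟨l₀, hl₀, hl₀S, heq⟩, h1, h2, h4⟩ | ⟨h1, h2⟩
    · have hmem : ∀ y : S, y ∈ ({⟨x, hx⟩, ⟨q, hlS hq⟩, q'} : Set S) → (y : X) ∈ l₀ := by
        intro y hy
        rw [heq] at hy
        exact hy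
      have hxl : x ∈ l₀ := hmem ⟨x, hx⟩ (by simp)
      have hql : q ∈ l₀ := hmem ⟨q, hlS hq⟩ (by simp)
      have hq'l₀ : (q' : X) ∈ l₀ := hmem q' (by simp)
      have hxq : x ≠ q := fun e => h4 (Subtype.ext e)
      obtain ⟨z, hz1, hz2, hz⟩ := third h3 l₀ hl₀ x q hxl hql hxq
      have hq'z : (q' : X) = z := by
        rw [hz] at hq'l₀
        rcases hq'l₀ with h | h | h
        · exact absurd (Subtype.ext h) h1
        · exact absurd (Subtype.ext h) h2
        · exact h
      rw [hq'z]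
      apply lineMap_tri hPL
      refine ⟨?_, hz1, hz2, hxq⟩
      rw [← hz]
      exact hl₀
    · rw [h1]
      apply lineMap_neg
      rintro ⟨z, hz1, hz2, hz3, hz⟩
      apply h2
      have hzS : z ∈ S := hS _ hz x hx q (hlS hq) hz3 (by simp) (by simp) (by simp)
      refine ⟨⟨z, hzS⟩, fun e => hz1 (congrArg Subtype.val e),
        fun e => hz2 (congrArg Subtype.val e), fun e => hz3 (congrArg Subtype.val e), ?_⟩
      refine ⟨{x, q, z}, hz, ?_, ?_⟩
      · intro w hw
        rcases hw with rfl | rfl | rfl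
        · exact hx
        · exact hlS hq
        · exact hzS
      · ext y
        simp only [Set.mem_insert_iff, Set.mem_singleton_iff, Set.mem_setOf_eq, Subtype.ext_iff]
  rw [key]
  exact hq'l

theorem line_into (hF : IsFischerSpace L) (x : X) (l : Set X) (hl : l ∈ L) :
    ∃ l' ∈ L, ∀ q ∈ l, lineMap L x q ∈ l' := by
  obtain ⟨hPL, h3, hpl⟩ := hF
  by_cases hxl : x ∈ l
  · refine ⟨l, hl, fun q hq => ?_⟩
    by_cases hxq : x = q
    · have h5 : lineMap L x q = q := by
        apply lineMap_neg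
        rintro ⟨z, -, -, h, -⟩
        exact h hxq
      rw [h5]
      exact hq
    · obtain ⟨z, hz1, hz2, hz⟩ := third h3 l hl x q hxl hq hxq
      have ht : Tri L x q z := ⟨by rw [← hz]; exact hl, hz1, hz2, hxq⟩
      rw [lineMap_tri hPL ht, hz]
      simp
  · by_cases hex : ∃ a ∈ l, ∃ r, Tri L x a r
    · obtain ⟨a, ha, r, hr⟩ := hex
      have hm : ({x, a, r} : Set X) ∈ L := hr.1
      have hne : l ≠ ({x, a, r} : Set X) := by
        intro e
        apply hxl
        rw [e]
        simp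
      have hint : (l ∩ ({x, a, r} : Set X)).Nonempty := ⟨a, ha, by simp⟩
      have hG : Good (restrict L (span L (l ∪ ({x, a, r} : Set X)))) := by
        rcases hpl l hl _ hm hne hint with ⟨e, he⟩ | ⟨e, he⟩
        · exact good_of_iso _ _ e he good_dual
        · exact good_of_iso _ _ e he good_affine
      apply plane_lineMap hPL h3 _ (span_subspace _) hG x _ l hl
      · exact fun w hw => subset_span _ (Or.inl hw)
      · exact subset_span _ (Or.inr (by simp))
    · refine ⟨l, hl, fun q hq => ?_⟩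
      have h5 : lineMap L x q = q := by
        apply lineMap_neg
        rintro ⟨z, hz1, hz2, hz3, hz⟩
        exact hex ⟨q, hq, z, hz, hz1, hz2, hz3⟩
      rw [h5]
      exact hq

theorem image_line (hF : IsFischerSpace L) (x : X) (l : Set X) (hl : l ∈ L) :
    lineMap L x '' l ∈ L := by
  obtain ⟨l', hl', H⟩ := line_into hF x l hl
  have hsub : lineMap L x '' l ⊆ l' := by
    rintro w ⟨q, hq, rfl⟩
    exact H q hq
  have hc : (lineMap L x '' l).ncard = 3 := by
    rw [Set.ncard_image_of_injective _ (lineMap_invol hF.1 x).injective, hF.2.1 l hl]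
  have hfin : l'.Finite := Set.finite_of_ncard_ne_zero (by rw [hF.2.1 l' hl']; norm_num)
  have e : lineMap L x '' l = l' :=
    Set.eq_of_subset_of_ncard_le hsub (by rw [hc, hF.2.1 l' hl']) hfin
  rw [e]
  exact hl'

theorem isIso_lineMap (hF : IsFischerSpace L) (x : X) (σ : Equiv.Perm X)
    (hσ : ⇑σ = lineMap L x) : IsIso L L σ := by
  intro l
  have hinv := lineMap_invol hF.1 x
  constructor
  · intro hl
    have h5 := image_line hF x l hl
    rw [← hσ] at h5
    exact h5
  · intro hl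
    have h5 := image_line hF x _ hl
    have e : lineMap L x '' (σ '' l) = l := by
      rw [hσ, Set.image_image]
      have e2 : (fun q => lineMap L x (lineMap L x q)) = id := funext hinv
      rw [e2, Set.image_id]
    rw [e] at h5
    exact h5

theorem conj_fun (hF : IsFischerSpace L) (σ : Equiv.Perm X) (hσ : IsIso L L σ) (y q : X) :
    lineMap L (σ y) (σ q) = σ (lineMap L y q) := by
  have hPL := hF.1
  have himg : ∀ a b c : X, σ '' ({a, b, c} : Set X) = {σ a, σ b, σ c} := by
    intro a b c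
    rw [Set.image_insert_eq, Set.image_insert_eq, Set.image_singleton]
  rcases lineMap_cases hPL y q with h | ⟨h1, h2⟩
  · obtain ⟨h1, h2, h3, h4⟩ := h
    apply lineMap_tri hPL
    refine ⟨?_, fun e => h2 (σ.injective e), fun e => h3 (σ.injective e),
      fun e => h4 (σ.injective e)⟩
    rw [← himg]
    exact (hσ _).mp h1
  · rw [h1]
    apply lineMap_neg
    rintro ⟨z, hz1, hz2, hz3, hz⟩
    apply h2
    refine ⟨σ.symm z, ?_, ?_, fun e => hz3 (congrArg σ e), ?_⟩
    · intro e
      apply hz1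
      rw [← e, Equiv.apply_symm_apply]
    · intro e
      apply hz2
      rw [← e, Equiv.apply_symm_apply]
    · rw [hσ, himg, Equiv.apply_symm_apply]
      exact hz

theorem conj_perm (hF : IsFischerSpace L) (σ τ τ' : Equiv.Perm X) (hσ : IsIso L L σ) (y : X)
    (hτ : ⇑τ = lineMap L y) (hτ' : ⇑τ' = lineMap L (σ y)) : σ * τ * σ⁻¹ = τ' := by
  ext q
  simp only [Equiv.Perm.coe_mul, Function.comp_apply]
  rw [hτ, hτ']
  have h5 := conj_fun hF σ hσ y (σ⁻¹ q)
  have e1 : σ (σ⁻¹ q) = q := by simp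
  rw [e1] at h5
  exact h5.symm

theorem perm_sq (hF : IsFischerSpace L) (x : X) (σ : Equiv.Perm X) (hσ : ⇑σ = lineMap L x) :
    σ * σ = 1 := by
  ext q
  simp only [Equiv.Perm.coe_mul, Function.comp_apply, Equiv.Perm.coe_one, id_eq]
  rw [hσ]
  exact lineMap_invol hF.1 x q

theorem main (hF : IsFischerSpace L) (hnd : IsNondegenerate L) :
    (∀ x : X, ∃ σ : Equiv.Perm X, ⇑σ = lineMap L x ∧ orderOf σ = 2 ∧ IsIso L L σ) ∧
      IsThreeTranspositionSet {σ : Equiv.Perm X | ∃ x : X, ⇑σ = lineMap L x} := by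
  have hPL := hF.1
  have h3 := hF.2.1
  have hord : ∀ x : X, ∀ σ : Equiv.Perm X, ⇑σ = lineMap L x → orderOf σ = 2 := by
    intro x σ hσ
    apply orderOf_eq_prime
    · rw [pow_two]
      exact perm_sq hF x σ hσ
    · intro h1
      obtain ⟨l, hl, hxl⟩ := hnd x
      obtain ⟨a, b, c, hab, hac, hbc, rfl⟩ := Set.ncard_eq_three.mp (h3 l hl)
      have hy : ∃ y ∈ ({a, b, c} : Set X), x ≠ y := by
        by_cases hxa : x = a
        · exact ⟨b, by simp, by rw [hxa]; exact hab⟩
        · exact ⟨a, by simp, hxa⟩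
      obtain ⟨y, hy, hxy⟩ := hy
      obtain ⟨z, hz1, hz2, hz⟩ := third h3 _ hl x y hxl hy hxy
      have ht : Tri L x y z := ⟨by rw [← hz]; exact hl, hz1, hz2, hxy⟩
      have h5 := lineMap_tri hPL ht
      rw [← hσ, h1] at h5
      exact hz2 h5.symm
  refine ⟨fun x => ?_, fun d hd => ?_, ?_⟩
  · refine ⟨(lineMap_invol hPL x).toPerm, rfl, hord x _ rfl, isIso_lineMap hF x _ rfl⟩
  · obtain ⟨x, hx⟩ := hd
    exact hord x d hx
  · rintro d ⟨x, hx⟩ e ⟨y, hy⟩
    have hdd := perm_sq hF x d hx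
    have hee := perm_sq hF y e hy
    have hdinv : d⁻¹ = d := inv_eq_of_mul_eq_one_right hdd
    have heinv : e⁻¹ = e := inv_eq_of_mul_eq_one_right hee
    have hdI := isIso_lineMap hF x d hx
    have heI := isIso_lineMap hF y e hy
    rcases lineMap_cases hPL x y with h | ⟨h1, -⟩
    · right
      -- the third point
      have hc := lineMap_invol hPL (lineMap L x y)
      have h5 : d * e * d⁻¹ = hc.toPerm := by
        apply conj_perm hF d e _ hdI y hy
        show lineMap L (lineMap L x y) = lineMap L (d y)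
        rw [hx]
      have h6 : e * d * e⁻¹ = hc.toPerm := by
        apply conj_perm hF e d _ heI x hx
        show lineMap L (lineMap L x y) = lineMap L (e x)
        rw [hy, lineMap_tri hPL (tri_symm h)]
      rw [hdinv] at h5
      rw [heinv] at h6
      have hcc : hc.toPerm * hc.toPerm = 1 := perm_sq hF _ _ rfl
      calc (d * e) ^ 3 = (d * e * d) * (e * d * e) := by
            rw [pow_succ, pow_two]
            simp only [mul_assoc]
        _ = 1 := by rw [h5, h6, hcc]
    · left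
      have h5 : d * e * d⁻¹ = e := by
        apply conj_perm hF d e e hdI y hy
        rw [hy]
        have : d y = y := by rw [hx]; exact h1
        rw [this]
      rw [hdinv] at h5
      calc (d * e) ^ 2 = (d * e * d) * e := by
            rw [pow_two]
            simp only [mul_assoc]
        _ = 1 := by rw [h5, hee]

end plane

end Cfsg.Agent.Helper27.Fischer
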