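import Mathlib

set_option autoImplicit false

namespace Cfsg.Agent.Helper27.H1

open Matrix

/-- packed vectors over `ZMod 2` -/
def vec {ι : Type} (ix : ι → ℕ) (c : ℕ) : ι → ZMod 2 := fun i => if c.testBit (ix i) then 1 else 0

theorem vec_xor {ι : Type} (ix : ι → ℕ) (a b : ℕ) :
    vec ix (a ^^^ b) = vec ix a + vec ix b := by
  funext i
  simp only [vec, Nat.testBit_xor, Pi.add_apply]
  cases a.testBit (ix i) <;> cases b.testBit (ix i) <;> decide

theorem vec_zero {ι : Type} (ix : ι → ℕ) : vec ix 0 = 0 := by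
  funext i
  simp [vec]

theorem vec_pow {ι : Type} [DecidableEq ι] (ix : ι → ℕ) (hinj : Function.Injective ix) (i : ι) :
    vec ix (2 ^ ix i) = Pi.single i 1 := by
  funext j
  simp only [vec, Nat.testBit_two_pow, Pi.single_apply]
  by_cases h : j = i
  · subst h; simp
  · have : ix i ≠ ix j := fun e => h (hinj e).symm
    simp [h, this]

theorem vec_surj {ι : Type} [Fintype ι] [DecidableEq ι] (ix : ι → ℕ) (n : ℕ)
    (hinj : Function.Injective ix) (hlt : ∀ i, ix i < n) (u : ι → ZMod 2) :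
    ∃ c, c < 2 ^ n ∧ vec ix c = u := by
  have hsingle : ∀ i : ι, ∀ x : ZMod 2, ∃ c, c < 2 ^ n ∧ vec ix c = Pi.single i x := by
    intro i x
    have hx : x = 0 ∨ x = 1 := by revert x; decide
    rcases hx with rfl | rfl
    · exact ⟨0, Nat.two_pow_pos n, by rw [vec_zero, Pi.single_zero]⟩
    · exact ⟨2 ^ ix i, Nat.pow_lt_pow_right (by norm_num) (hlt i), vec_pow ix hinj i⟩
  rw [← Finset.univ_sum_single u]
  apply Finset.sum_induction _ (fun u => ∃ c, c < 2 ^ n ∧ vec ix c = u)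
  · rintro a b ⟨c, hc, rfl⟩ ⟨d, hd, rfl⟩
    exact ⟨c ^^^ d, Nat.xor_lt_two_pow hc hd, vec_xor ix c d⟩
  · exact ⟨0, Nat.two_pow_pos n, vec_zero ix⟩
  · intro i _
    exact hsingle i (u i)

theorem vsub_eq {ι : Type} (a b : ι → ZMod 2) : a - b = a + b := by
  funext i
  exact CharTwo.sub_eq_add _ _

/-- packed polar form of a packed quadratic form -/
def bc (qc : ℕ → Bool) (a c : ℕ) : Bool := xor (qc (a ^^^ c)) (xor (qc a) (qc c))

/-- packed reflection -/
def rc (qc : ℕ → Bool) (a c : ℕ) : ℕ := if bc qc a c then c ^^^ a else c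

/-- packed data: a quadratic form, a tree of simple roots, relators, orbit certificate -/
structure Dat where
  n : ℕ
  m : ℕ
  qc : ℕ → Bool
  A : Fin m → ℕ
  par : Fin m → Fin m
  root : Fin m
  rel : Fin m → List (Fin m)
  fix : Fin m → List ℕ
  dep : ℕ → ℕ
  stp : ℕ → Fin m

namespace Dat

variable (D : Dat)

/-- packed action of the edge generator `ρ_{par v} ρ_v` -/
def tc (v : Fin D.m) (d : ℕ) : ℕ := rc D.qc (D.A (D.par v)) (rc D.qc (D.A v) d)

/-- packed action of a word in the edge generators -/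
def actw : List (Fin D.m) → ℕ → ℕ
  | [], d => d
  | w :: l, d => D.tc w (actw l d)

/-- packed Fox derivative of a word -/
def fox (cs : Fin D.m → ℕ) : List (Fin D.m) → ℕ
  | [] => 0
  | w :: l => cs w ^^^ D.tc w (fox cs l)

/-- the four candidate values of a cocycle on an edge generator -/
def opts (v : Fin D.m) : List ℕ := [0, D.A (D.par v), D.A v, D.A (D.par v) ^^^ D.A v]

/-- the decidable certificate -/
def check : Prop :=
  (∀ v : Fin D.m, D.qc (D.A v) = true) ∧
  (∀ c < 2 ^ D.n, D.qc c = true → c = D.A (D.stp c) ∨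
    (D.dep (rc D.qc (D.A (D.stp c)) c) < D.dep c ∧ D.qc (rc D.qc (D.A (D.stp c)) c) = true ∧
      rc D.qc (D.A (D.stp c)) c < 2 ^ D.n ∧
      ∀ j < D.n, rc D.qc c (2 ^ j) = rc D.qc (D.A (D.stp c))
        (rc D.qc (rc D.qc (D.A (D.stp c)) c) (rc D.qc (D.A (D.stp c)) (2 ^ j))))) ∧
  (∀ v : Fin D.m, v = D.root ∨ (D.par v).val < v.val) ∧
  (∀ v : Fin D.m, ∀ j < D.n, rc D.qc (D.A v) (rc D.qc (D.A v) (2 ^ j)) = 2 ^ j) ∧
  (∀ v : Fin D.m, ∀ j < D.n, D.actw (D.rel v) (2 ^ j) = 2 ^ j ∧ D.actw [v, v, v] (2 ^ j) = 2 ^ j) ∧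
  (∀ v : Fin D.m, ∀ c < 2 ^ D.n,
    (∀ j < D.n, (D.fox (fun _ => c) [v, v, v]).testBit j = false) → c ∈ D.opts v) ∧
  (∀ v : Fin D.m, ∀ c ∈ D.opts v,
    (∀ j < D.n, (D.fox (fun w => if w = v then c else 0) (D.rel v)).testBit j = false) →
      ∃ y ∈ D.fix v, c = y ^^^ D.tc v y) ∧
  (∀ v : Fin D.m, ∀ y ∈ D.fix v, ∀ u : Fin D.m, u.val < v.val → y ^^^ D.tc u y = 0) ∧
  (∀ v : Fin D.m, ∀ w ∈ D.rel v, w = v ∨ w.val < v.val)


end Dat

section main

variable {ι : Type} [Fintype ι] [DecidableEq ι] (ix : ι → ℕ) (D : Dat)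
  {O : Type} [Group O] (mat : O → Matrix ι ι (ZMod 2)) (Ω : Subgroup O) (rho : ℕ → O)

/-- the hypotheses linking the packed data to a group of matrices -/
structure Hyp : Prop where
  hinj : Function.Injective ix
  hlt : ∀ i, ix i < D.n
  hsurj : ∀ j < D.n, ∃ i, ix i = j
  mat_mul : ∀ g h, mat (g * h) = mat g * mat h
  mat_one : mat 1 = 1
  mat_inj : Function.Injective mat
  act : ∀ a, D.qc a = true → ∀ c, mat (rho a) *ᵥ vec ix c = vec ix (rc D.qc a c)
  gen : ∀ g : O, g ∈ Subgroup.closure {x | ∃ a, a < 2 ^ D.n ∧ D.qc a = true ∧ x = rho a}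
  p1 : ∀ a, D.qc a = true → rho a ∉ Ω
  p2 : ∀ a b, D.qc a = true → D.qc b = true → rho a * rho b ∈ Ω
  chk : D.check

/-- the edge generators -/
def tO (v : Fin D.m) : O := rho (D.A (D.par v)) * rho (D.A v)

variable {ix D mat Ω rho}

theorem eq_of_act (H : Hyp ix D mat Ω rho) (g h : O)
    (e : ∀ j < D.n, mat g *ᵥ vec ix (2 ^ j) = mat h *ᵥ vec ix (2 ^ j)) : g = h := by
  apply H.mat_inj
  ext i k
  have h1 := congrFun (e (ix k) (H.hlt k)) i
  rw [vec_pow ix H.hinj k] at h1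
  simpa [Matrix.mulVec_single_one] using h1

theorem act_t (H : Hyp ix D mat Ω rho) (v : Fin D.m) (d : ℕ) :
    mat (tO D rho v) *ᵥ vec ix d = vec ix (D.tc v d) := by
  unfold tO Dat.tc
  rw [H.mat_mul, ← Matrix.mulVec_mulVec, H.act _ (H.chk.1 v), H.act _ (H.chk.1 (D.par v))]

theorem rho_sq (H : Hyp ix D mat Ω rho) (v : Fin D.m) : rho (D.A v) * rho (D.A v) = 1 := by
  obtain ⟨c1, -, -, c4, -⟩ := H.chk
  apply eq_of_act H
  intro j hj
  rw [H.mat_mul, ← Matrix.mulVec_mulVec, H.act _ (c1 v), H.act _ (c1 v), c4 v j hj, H.mat_one,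
    Matrix.one_mulVec]

theorem rho_inv (H : Hyp ix D mat Ω rho) (v : Fin D.m) : (rho (D.A v))⁻¹ = rho (D.A v) :=
  inv_eq_of_mul_eq_one_right (rho_sq H v)

theorem rho_cancel (H : Hyp ix D mat Ω rho) (v : Fin D.m) (z : O) :
    rho (D.A v) * (rho (D.A v) * z) = z := by
  rw [← mul_assoc, rho_sq H, one_mul]

theorem rho_mem_W (H : Hyp ix D mat Ω rho) : ∀ k c, D.dep c = k → c < 2 ^ D.n → D.qc c = true →
    rho c ∈ Subgroup.closure (Set.range fun v => rho (D.A v)) := by
  obtain ⟨c1, c2, -⟩ := H.chk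
  intro k
  induction k using Nat.strong_induction_on with
  | _ k ih =>
    intro c hk hc hq
    rcases c2 c hc hq with h | ⟨hdep, hq', hlt', hconj⟩
    · have e : rho c = rho (D.A (D.stp c)) := congrArg rho h
      rw [e]
      exact Subgroup.subset_closure ⟨D.stp c, rfl⟩
    · have e : rho c = rho (D.A (D.stp c)) * rho (rc D.qc (D.A (D.stp c)) c)
          * rho (D.A (D.stp c)) := by
        apply eq_of_act H
        intro j hj
        rw [H.act _ hq, H.mat_mul, H.mat_mul, ← Matrix.mulVec_mulVec, ← Matrix.mulVec_mulVec,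
          H.act _ (c1 _), H.act _ hq', H.act _ (c1 _), hconj j hj]
      rw [e]
      have hW : rho (D.A (D.stp c)) ∈ Subgroup.closure (Set.range fun v => rho (D.A v)) :=
        Subgroup.subset_closure ⟨D.stp c, rfl⟩
      exact mul_mem (mul_mem hW (ih _ (hk ▸ hdep) _ rfl hlt' hq')) hW

theorem mem_W (H : Hyp ix D mat Ω rho) (g : O) :
    g ∈ Subgroup.closure (Set.range fun v => rho (D.A v)) := by
  have h1 := H.gen g
  refine (Subgroup.closure_le _).mpr ?_ h1
  rintro x ⟨a, ha, hq, rfl⟩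
  exact rho_mem_W H _ a rfl ha hq

theorem alpha (H : Hyp ix D mat Ω rho) : ∀ k (v : Fin D.m), v.val = k →
    rho (D.A v) * rho (D.A D.root) ∈ Subgroup.closure (Set.range (tO D rho)) := by
  obtain ⟨-, -, c3, -⟩ := H.chk
  intro k
  induction k using Nat.strong_induction_on with
  | _ k ih =>
    intro v hv
    rcases c3 v with h | h
    · rw [h, rho_sq H]
      exact one_mem _
    · have h1 := ih _ (hv ▸ h) (D.par v) rfl
      have h2 : rho (D.A v) * rho (D.A (D.par v)) ∈ Subgroup.closure (Set.range (tO D rho)) := by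
        have e : rho (D.A v) * rho (D.A (D.par v)) = (tO D rho v)⁻¹ := by
          unfold tO
          rw [_root_.mul_inv_rev, rho_inv H, rho_inv H]
        rw [e]
        exact inv_mem (Subgroup.subset_closure ⟨v, rfl⟩)
      have e : rho (D.A v) * rho (D.A D.root)
          = (rho (D.A v) * rho (D.A (D.par v))) * (rho (D.A (D.par v)) * rho (D.A D.root)) := by
        rw [mul_assoc, rho_cancel H]
      rw [e]
      exact mul_mem h2 h1

theorem conjE (H : Hyp ix D mat Ω rho) (g : O)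
    (hg : g ∈ Subgroup.closure (Set.range (tO D rho))) :
    rho (D.A D.root) * g * rho (D.A D.root) ∈ Subgroup.closure (Set.range (tO D rho)) := by
  induction hg using Subgroup.closure_induction with
  | mem x hx =>
    obtain ⟨v, rfl⟩ := hx
    have h1 := alpha H _ (D.par v) rfl
    have h2 := alpha H _ v rfl
    have e : rho (D.A D.root) * tO D rho v * rho (D.A D.root)
        = (rho (D.A (D.par v)) * rho (D.A D.root))⁻¹ * (rho (D.A v) * rho (D.A D.root)) := by
      unfold tO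
      rw [_root_.mul_inv_rev, rho_inv H, rho_inv H]
      simp only [mul_assoc]
    rw [e]
    exact mul_mem (inv_mem h1) h2
  | one =>
    rw [mul_one, rho_sq H]
    exact one_mem _
  | mul x y _ _ hx hy =>
    have e : rho (D.A D.root) * (x * y) * rho (D.A D.root)
        = (rho (D.A D.root) * x * rho (D.A D.root)) * (rho (D.A D.root) * y * rho (D.A D.root)) := by
      simp only [mul_assoc, rho_cancel H]
    rw [e]
    exact mul_mem hx hy
  | inv x _ hx =>
    have e : rho (D.A D.root) * x⁻¹ * rho (D.A D.root)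
        = (rho (D.A D.root) * x * rho (D.A D.root))⁻¹ := by
      rw [_root_.mul_inv_rev, _root_.mul_inv_rev, rho_inv H, mul_assoc]
    rw [e]
    exact inv_mem hx

theorem mem_E_or (H : Hyp ix D mat Ω rho) (g : O) :
    g ∈ Subgroup.closure (Set.range (tO D rho)) ∨
      g * rho (D.A D.root) ∈ Subgroup.closure (Set.range (tO D rho)) := by
  have hg := mem_W H g
  induction hg using Subgroup.closure_induction with
  | mem x hx =>
    obtain ⟨v, rfl⟩ := hx
    exact Or.inr (alpha H _ v rfl)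
  | one => exact Or.inl (one_mem _)
  | mul x y _ _ hx hy =>
    rcases hx with hx | hx <;> rcases hy with hy | hy
    · exact Or.inl (mul_mem hx hy)
    · right
      rw [mul_assoc]
      exact mul_mem hx hy
    · right
      have e : x * y * rho (D.A D.root)
          = (x * rho (D.A D.root)) * (rho (D.A D.root) * y * rho (D.A D.root)) := by
        simp only [mul_assoc, rho_cancel H]
      rw [e]
      exact mul_mem hx (conjE H y hy)
    · left
      have e : x * y = (x * rho (D.A D.root))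
          * (rho (D.A D.root) * (y * rho (D.A D.root)) * rho (D.A D.root)) := by
        simp only [mul_assoc, rho_cancel H, rho_sq H, mul_one]
      rw [e]
      exact mul_mem hx (conjE H _ hy)
  | inv x _ hx =>
    rcases hx with hx | hx
    · exact Or.inl (inv_mem hx)
    · right
      have e : x⁻¹ * rho (D.A D.root)
          = rho (D.A D.root) * (x * rho (D.A D.root))⁻¹ * rho (D.A D.root) := by
        rw [_root_.mul_inv_rev, rho_inv H]
        simp only [mul_assoc, rho_cancel H]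
      rw [e]
      exact conjE H _ (inv_mem hx)

theorem E_le (H : Hyp ix D mat Ω rho) : Subgroup.closure (Set.range (tO D rho)) ≤ Ω := by
  rw [Subgroup.closure_le]
  rintro x ⟨v, rfl⟩
  exact H.p2 _ _ (H.chk.1 _) (H.chk.1 _)

theorem mem_E (H : Hyp ix D mat Ω rho) (g : O) (hg : g ∈ Ω) :
    g ∈ Subgroup.closure (Set.range (tO D rho)) := by
  rcases mem_E_or H g with h | h
  · exact h
  · exfalso
    have h1 : g * rho (D.A D.root) ∈ Ω := E_le H h
    have h2 : rho (D.A D.root) ∈ Ω := by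
      have h3 := Ω.mul_mem (Ω.inv_mem hg) h1
      rwa [inv_mul_cancel_left] at h3
    exact H.p1 _ (H.chk.1 _) h2

/-- crossed homomorphisms -/
def IsCoc (mat : O → Matrix ι ι (ZMod 2)) (Ω : Subgroup O) (φ : Ω → ι → ZMod 2) : Prop :=
  ∀ g h : Ω, φ (g * h) = φ g + mat (g : O) *ᵥ φ h

theorem coc_one (H : Hyp ix D mat Ω rho) (φ : Ω → ι → ZMod 2) (hφ : IsCoc mat Ω φ) : φ 1 = 0 := by
  have h1 := hφ 1 1
  rw [mul_one, Subgroup.coe_one, H.mat_one, Matrix.one_mulVec] at h1
  have h2 : φ 1 + 0 = φ 1 + φ 1 := by rw [add_zero]; exact h1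
  exact (add_left_cancel h2).symm

/-- the edge generators as elements of `Ω` -/
def tΩ (H : Hyp ix D mat Ω rho) (v : Fin D.m) : Ω :=
  ⟨tO D rho v, E_le H (Subgroup.subset_closure ⟨v, rfl⟩)⟩

/-- words in the edge generators -/
def prodΩ (H : Hyp ix D mat Ω rho) (l : List (Fin D.m)) : Ω := (l.map (tΩ H)).prod

theorem prodΩ_cons (H : Hyp ix D mat Ω rho) (w : Fin D.m) (l : List (Fin D.m)) :
    prodΩ H (w :: l) = tΩ H w * prodΩ H l := by
  simp [prodΩ]

theorem act_prod (H : Hyp ix D mat Ω rho) (l : List (Fin D.m)) (d : ℕ) :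
    mat ((prodΩ H l : Ω) : O) *ᵥ vec ix d = vec ix (D.actw l d) := by
  induction l with
  | nil =>
    have e : prodΩ H [] = 1 := by simp [prodΩ]
    rw [e, Subgroup.coe_one, H.mat_one, Matrix.one_mulVec]
    rfl
  | cons w l ih =>
    rw [prodΩ_cons, Subgroup.coe_mul, H.mat_mul, ← Matrix.mulVec_mulVec, ih]
    exact act_t H w _

theorem prod_one (H : Hyp ix D mat Ω rho) (l : List (Fin D.m))
    (hl : ∀ j < D.n, D.actw l (2 ^ j) = 2 ^ j) : prodΩ H l = 1 := by
  apply Subtype.ext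
  apply eq_of_act H
  intro j hj
  rw [act_prod, hl j hj, Subgroup.coe_one, H.mat_one, Matrix.one_mulVec]

theorem fox_eq (H : Hyp ix D mat Ω rho) (φ : Ω → ι → ZMod 2) (hφ : IsCoc mat Ω φ)
    (cs : Fin D.m → ℕ) (l : List (Fin D.m))
    (hl : ∀ w ∈ l, φ (tΩ H w) = vec ix (cs w)) : φ (prodΩ H l) = vec ix (D.fox cs l) := by
  induction l with
  | nil =>
    have e : prodΩ H [] = 1 := by simp [prodΩ]
    rw [e, coc_one H φ hφ]
    exact (vec_zero ix).symm
  | cons w l ih =>
    rw [prodΩ_cons, hφ, hl w (List.mem_cons_self ..),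
      ih (fun u hu => hl u (List.mem_cons_of_mem _ hu))]
    have e : mat ((tΩ H w : Ω) : O) *ᵥ vec ix (D.fox cs l) = vec ix (D.tc w (D.fox cs l)) :=
      act_t H w _
    rw [e, ← vec_xor]
    rfl

theorem zero_bits (H : Hyp ix D mat Ω rho) (C : ℕ) (h : vec ix C = 0) :
    ∀ j < D.n, C.testBit j = false := by
  intro j hj
  obtain ⟨i, rfl⟩ := H.hsurj j hj
  have h1 := congrFun h i
  simp only [vec, Pi.zero_apply] at h1
  by_contra hb
  rw [Bool.not_eq_false] at hb
  rw [hb] at h1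
  simp at h1

theorem step (H : Hyp ix D mat Ω rho) (φ : Ω → ι → ZMod 2) (hφ : IsCoc mat Ω φ) (v : Fin D.m)
    (h0 : ∀ u : Fin D.m, u.val < v.val → φ (tΩ H u) = 0) :
    ∃ y ∈ D.fix v, φ (tΩ H v) = vec ix (y ^^^ D.tc v y) := by
  obtain ⟨-, -, -, -, c5, c6, c7, -, c9⟩ := H.chk
  obtain ⟨c, hc, hcv⟩ := vec_surj ix D.n H.hinj H.hlt (φ (tΩ H v))
  have h1 : c ∈ D.opts v := by
    apply c6 v c hc
    apply zero_bits H
    rw [← fox_eq H φ hφ (fun _ => c) [v, v, v] (by
      intro w hw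
      have hwv : w = v := by simpa using hw
      rw [hwv]
      exact hcv.symm)]
    rw [prod_one H _ (fun j hj => (c5 v j hj).2), coc_one H φ hφ]
  have h2 := c7 v c h1 (by
    apply zero_bits H
    rw [← fox_eq H φ hφ (fun w => if w = v then c else 0) (D.rel v) (by
      intro w hw
      rcases c9 v w hw with h | h
      · rw [h, if_pos rfl]
        exact hcv.symm
      · have hne : w ≠ v := by
          intro e
          rw [e] at h
          exact lt_irrefl _ h
        rw [if_neg hne, vec_zero]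
        exact h0 w h)]
    rw [prod_one H _ (fun j hj => (c5 v j hj).1), coc_one H φ hφ])
  obtain ⟨y, hy, e⟩ := h2
  exact ⟨y, hy, by rw [← hcv, e]⟩

theorem exists_x (H : Hyp ix D mat Ω rho) (f : Ω → ι → ZMod 2) (hf : IsCoc mat Ω f) :
    ∀ j ≤ D.m, ∃ x : ι → ZMod 2, ∀ u : Fin D.m, u.val < j →
      f (tΩ H u) = mat (tO D rho u) *ᵥ x - x := by
  obtain ⟨-, -, -, -, -, -, -, c8, -⟩ := H.chk
  intro j
  induction j with
  | zero =>
    intro _
    exact ⟨0, fun u hu => absurd hu (Nat.not_lt_zero _)⟩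
  | succ j ih =>
    intro hj
    obtain ⟨x, hx⟩ := ih (by omega)
    have hjm : j < D.m := by omega
    have hφ : IsCoc mat Ω (fun g => f g - (mat (g : O) *ᵥ x - x)) := by
      intro g h
      show f (g * h) - (mat ((g * h : Ω) : O) *ᵥ x - x)
        = f g - (mat (g : O) *ᵥ x - x) + mat (g : O) *ᵥ (f h - (mat (h : O) *ᵥ x - x))
      rw [hf g h, Subgroup.coe_mul, H.mat_mul, Matrix.mulVec_sub, Matrix.mulVec_sub,
        Matrix.mulVec_mulVec]
      abel
    have h0 : ∀ u : Fin D.m, u.val < (⟨j, hjm⟩ : Fin D.m).val →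
        (fun g : Ω => f g - (mat (g : O) *ᵥ x - x)) (tΩ H u) = 0 := by
      intro u hu
      show f (tΩ H u) - (mat (tO D rho u) *ᵥ x - x) = 0
      rw [hx u hu, sub_self]
    obtain ⟨y, hy, e⟩ := step H _ hφ ⟨j, hjm⟩ h0
    refine ⟨x + vec ix y, fun u hu => ?_⟩
    rcases Nat.lt_succ_iff_lt_or_eq.mp hu with h | h
    · rw [hx u h, Matrix.mulVec_add, act_t H]
      have h3 := c8 ⟨j, hjm⟩ y hy u h
      have h4 : vec ix y + vec ix (D.tc u y) = 0 := by rw [← vec_xor, h3, vec_zero]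
      rw [vsub_eq, vsub_eq]
      have e5 : mat (tO D rho u) *ᵥ x + vec ix (D.tc u y) + (x + vec ix y)
          = mat (tO D rho u) *ᵥ x + x + (vec ix y + vec ix (D.tc u y)) := by abel
      rw [e5, h4, add_zero]
    · have huv : u = ⟨j, hjm⟩ := Fin.ext h
      rw [huv]
      have e' : f (tΩ H ⟨j, hjm⟩) - (mat (tO D rho ⟨j, hjm⟩) *ᵥ x - x)
          = vec ix (y ^^^ D.tc ⟨j, hjm⟩ y) := e
      rw [vec_xor, ← act_t H, vsub_eq, vsub_eq] at e'
      rw [Matrix.mulVec_add, vsub_eq]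
      have e6 : f (tΩ H ⟨j, hjm⟩) = (f (tΩ H ⟨j, hjm⟩) + (mat (tO D rho ⟨j, hjm⟩) *ᵥ x + x))
          + (mat (tO D rho ⟨j, hjm⟩) *ᵥ x + x) := by
        rw [add_assoc, ← vsub_eq (mat (tO D rho ⟨j, hjm⟩) *ᵥ x + x), sub_self, add_zero]
      rw [e6, e']
      abel

/-- the abstract vanishing theorem -/
theorem main (H : Hyp ix D mat Ω rho) (f : Ω → ι → ZMod 2)
    (hf : ∀ g h : Ω, f (g * h) = f g + mat (g : O) *ᵥ f h) :
    ∃ v : ι → ZMod 2, ∀ g : Ω, f g = mat (g : O) *ᵥ v - v := by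
  obtain ⟨x, hx⟩ := exists_x H f hf D.m le_rfl
  refine ⟨x, fun g => ?_⟩
  have key : ∀ y (_ : y ∈ Subgroup.closure (Set.range (tO D rho))), ∀ hyΩ : y ∈ Ω,
      f ⟨y, hyΩ⟩ = mat y *ᵥ x - x := by
    intro y hy
    induction hy using Subgroup.closure_induction with
    | mem z hz =>
      obtain ⟨u, rfl⟩ := hz
      intro _
      exact hx u u.isLt
    | one =>
      intro h1
      have e : (⟨1, h1⟩ : Ω) = 1 := rfl
      rw [e, coc_one H f hf, H.mat_one, Matrix.one_mulVec, sub_self]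
    | mul a b ha hb iha ihb =>
      intro hab
      have haΩ := E_le H ha
      have hbΩ := E_le H hb
      have e : (⟨a * b, hab⟩ : Ω) = ⟨a, haΩ⟩ * ⟨b, hbΩ⟩ := rfl
      rw [e, hf, iha haΩ, ihb hbΩ, H.mat_mul, Matrix.mulVec_sub, Matrix.mulVec_mulVec]
      abel
    | inv a ha iha =>
      intro hai
      have haΩ := E_le H ha
      have h1 := hf ⟨a⁻¹, hai⟩ ⟨a, haΩ⟩
      have h2 : (⟨a⁻¹, hai⟩ : Ω) * ⟨a, haΩ⟩ = 1 := Subtype.ext (inv_mul_cancel a)
      rw [h2, coc_one H f hf, iha haΩ] at h1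
      have h3 : mat a⁻¹ *ᵥ (mat a *ᵥ x) = x := by
        rw [Matrix.mulVec_mulVec, ← H.mat_mul, inv_mul_cancel, H.mat_one, Matrix.one_mulVec]
      rw [Matrix.mulVec_sub, h3] at h1
      have h4 := eq_neg_of_add_eq_zero_left h1.symm
      rw [h4]
      abel
  exact key g.1 (mem_E H g.1 g.2) g.2

end main

end Cfsg.Agent.Helper27.H1
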