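import Cfsg.Agent.Helper27.OrbitCert3

set_option autoImplicit false
open Cfsg

namespace Cfsg.Agent.Helper27

/-- a finite set is exhausted by a base point and subsets on which an invariant takes distinct
prescribed values, as soon as the sizes add up -/
theorem parts_inv {α ι : Type*} [Fintype ι] (S : Set α) (hfin : S.Finite) (x0 : α) (hx0 : x0 ∈ S)
    (φ : α → ℤ) (c : ι → ℤ) (hc : Function.Injective c) (hc0 : ∀ i, c i ≠ φ x0)
    (R : ι → Finset α) (hR : ∀ i, ∀ y ∈ R i, y ∈ S ∧ φ y = c i)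
    (hcard : S.ncard ≤ ∑ i, (R i).card + 1) :
    (∀ y ∈ S, y = x0 ∨ ∃ i, y ∈ R i) ∧ (∀ i, ∀ y ∈ S, φ y = c i → y ∈ R i) := by
  classical
  have hdis : ∀ i ∈ (Finset.univ : Finset ι), ∀ j ∈ (Finset.univ : Finset ι), i ≠ j →
      Disjoint (R i) (R j) := by
    intro i _ j _ hij
    rw [Finset.disjoint_left]
    intro y hy hy'
    exact hij (hc (((hR i y hy).2).symm.trans (hR j y hy').2))
  have hU : (Finset.univ.biUnion R).card = ∑ i, (R i).card := Finset.card_biUnion hdis
  have hx : x0 ∉ Finset.univ.biUnion R := by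
    intro h
    obtain ⟨i, -, hi⟩ := Finset.mem_biUnion.mp h
    exact hc0 i (hR i x0 hi).2.symm
  have hsub : insert x0 (Finset.univ.biUnion R) ⊆ hfin.toFinset := by
    intro y hy
    rw [Set.Finite.mem_toFinset]
    rcases Finset.mem_insert.mp hy with rfl | hy
    · exact hx0
    · obtain ⟨i, -, hi⟩ := Finset.mem_biUnion.mp hy
      exact (hR i y hi).1
  have heq : insert x0 (Finset.univ.biUnion R) = hfin.toFinset := by
    apply Finset.eq_of_subset_of_card_le hsub
    rw [Finset.card_insert_of_notMem hx, hU, ← Set.ncard_eq_toFinset_card S hfin]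
    exact hcard
  have key : ∀ y ∈ S, y = x0 ∨ ∃ i, y ∈ R i := by
    intro y hy
    have : y ∈ insert x0 (Finset.univ.biUnion R) := by
      rw [heq, Set.Finite.mem_toFinset]
      exact hy
    rcases Finset.mem_insert.mp this with h | h
    · exact Or.inl h
    · obtain ⟨i, -, hi⟩ := Finset.mem_biUnion.mp h
      exact Or.inr ⟨i, hi⟩
  refine ⟨key, ?_⟩
  intro i y hy hφ
  rcases key y hy with rfl | ⟨j, hj⟩
  · exact absurd hφ.symm (hc0 i)
  · have : j = i := hc ((hR j y hj).2.symm.trans hφ)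
    exact this ▸ hj

/-- suborbits of a point stabiliser, distinguished by the inner product with the fixed point,
from one orbit certificate per suborbit and a count -/
theorem suborbits (S : Set leechLattice) (hfin : S.Finite)
    (refs : List leechLattice) (x0 : leechLattice) (hx0 : x0 ∈ S) (hx0r : x0 ∈ refs)
    (hinv : ∀ g : Co0, (∀ r ∈ refs, g • r = r) → ∀ y ∈ S, g • y ∈ S)
    (gens : List (List ℕ × List ℕ × ℕ)) (hval : ∀ d ∈ gens, gdValid d = true)
    (hfix : ∀ d ∈ gens, ∀ r ∈ refs, gdFun d r.1 = r.1)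
    (certs : List (List (List ℕ) × ℕ × leechLattice × ℤ))
    (hcerts : ∀ t ∈ certs, t.2.2.1 ∈ S ∧ t.2.2.1.1 = vecN t.2.1 ∧
      dotInt x0.1 t.2.2.1.1 = t.2.2.2 ∧ chkAll gens t.1 t.2.1 = true ∧
      incB (2 ^ 96) (t.1.flatten.map eVec) = true)
    (hc : (certs.map fun t => t.2.2.2).Nodup)
    (hc0 : dotInt x0.1 x0.1 ∉ certs.map fun t => t.2.2.2)
    (hcount : S.ncard ≤ (certs.map fun t => t.1.flatten.length).sum + 1) :
    (∀ t ∈ certs,
      {y : leechLattice | y ∈ S ∧ dotInt x0.1 y.1 = t.2.2.2}.ncard = t.1.flatten.length ∧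
      ∀ y ∈ S, dotInt x0.1 y.1 = t.2.2.2 →
        ∃ g : Co0, (∀ r ∈ refs, g • r = r) ∧ g • t.2.2.1 = y) ∧
    (∀ y ∈ S, y = x0 ∨ ∃ t ∈ certs, dotInt x0.1 y.1 = t.2.2.2) := by
  classical
  have hφ : ∀ g : Co0, (∀ r ∈ refs, g • r = r) → ∀ y : leechLattice,
      dotInt x0.1 (g • y : leechLattice).1 = dotInt x0.1 y.1 := by
    intro g hg y
    have := co0_dot g x0 y
    rwa [hg x0 hx0r] at this
  have ex : ∀ i : Fin certs.length, ∃ R : Finset leechLattice,
      R.card = (certs[(i : ℕ)]).1.flatten.length ∧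
      ∀ y ∈ R, ∃ g : Co0, (∀ r ∈ refs, g • r = r) ∧ g • (certs[(i : ℕ)]).2.2.1 = y := by
    intro i
    obtain ⟨h1, h2, h3, h4, h5⟩ := hcerts _ (List.getElem_mem i.2)
    obtain ⟨R, hR, hR1, -⟩ := orbit_lower (fun g => ∀ r ∈ refs, g • r = r)
      (fun r _ => one_smul _ r) (fixes_mul _) gens hval (gens_fix refs gens hval hfix)
      _ _ _ h2 h4 h5
    exact ⟨R, hR, fun y hy => (hR1 y hy).1⟩
  choose R hRc hRo using ex
  have hR : ∀ i : Fin certs.length, ∀ y ∈ R i,
      y ∈ S ∧ dotInt x0.1 y.1 = (certs[(i : ℕ)]).2.2.2 := by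
    intro i y hy
    obtain ⟨g, hg, rfl⟩ := hRo i y hy
    obtain ⟨h1, h2, h3, h4, h5⟩ := hcerts _ (List.getElem_mem i.2)
    exact ⟨hinv g hg _ h1, (hφ g hg _).trans h3⟩
  have hinj : Function.Injective (fun i : Fin certs.length => (certs[(i : ℕ)]).2.2.2) := by
    intro i j hij
    have hi : (i : ℕ) < (certs.map fun t => t.2.2.2).length := by rw [List.length_map]; exact i.2
    have hj : (j : ℕ) < (certs.map fun t => t.2.2.2).length := by rw [List.length_map]; exact j.2
    have e : (certs.map fun t => t.2.2.2)[(i : ℕ)] = (certs.map fun t => t.2.2.2)[(j : ℕ)] := by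
      rw [List.getElem_map, List.getElem_map]
      exact hij
    exact Fin.ext ((List.Nodup.getElem_inj_iff hc).mp e)
  have hc0' : ∀ i : Fin certs.length, (certs[(i : ℕ)]).2.2.2 ≠ dotInt x0.1 x0.1 := by
    intro i h
    apply hc0
    rw [← h]
    exact List.mem_map_of_mem (List.getElem_mem i.2)
  have hsum : ∑ i : Fin certs.length, (R i).card = (certs.map fun t => t.1.flatten.length).sum := by
    rw [← Fin.sum_univ_fun_getElem]
    apply Finset.sum_congr rfl
    intro i _
    exact hRc i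
  obtain ⟨hp1, hp2⟩ := parts_inv S hfin x0 hx0 (fun y => dotInt x0.1 y.1)
    (fun i : Fin certs.length => (certs[(i : ℕ)]).2.2.2) hinj hc0' R hR (by rw [hsum]; exact hcount)
  refine ⟨?_, ?_⟩
  · intro t ht
    obtain ⟨i, hi, rfl⟩ := List.getElem_of_mem ht
    have hset : {y : leechLattice | y ∈ S ∧ dotInt x0.1 y.1 = (certs[i]).2.2.2}
        = (R ⟨i, hi⟩ : Set leechLattice) := by
      ext y
      constructor
      · rintro ⟨h1, h2⟩
        exact hp2 ⟨i, hi⟩ y h1 h2
      · intro hy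
        exact hR ⟨i, hi⟩ y hy
    refine ⟨?_, ?_⟩
    · rw [hset, Set.ncard_coe_finset]
      exact hRc ⟨i, hi⟩
    · intro y h1 h2
      exact hRo ⟨i, hi⟩ y (hp2 ⟨i, hi⟩ y h1 h2)
  · intro y hy
    rcases hp1 y hy with h | ⟨i, hi⟩
    · exact Or.inl h
    · exact Or.inr ⟨_, List.getElem_mem i.2, (hR i y hi).2⟩

end Cfsg.Agent.Helper27
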