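import Cfsg.Agent.Helper27.HSMain
import Cfsg.Agent.Helper27.OrbitPart

set_option autoImplicit false
open Cfsg

namespace Cfsg.Agent.Helper27

def hs3_gens : List (List ℕ × List ℕ × ℕ) :=
  [([10, 17, 22, 21, 5, 20, 19, 13, 1, 2, 9, 11, 7, 3, 18, 4, 12, 15, 23, 16, 14, 8, 6, 0], [23, 8, 9, 13, 15, 4, 22, 12, 21, 10, 0, 11, 16, 7, 20, 17, 19, 1, 14, 6, 5, 3, 2, 18], 10825794),
   ([22, 19, 15, 16, 0, 3, 9, 23, 2, 11, 7, 8, 20, 1, 21, 18, 4, 5, 14, 17, 13, 12, 6, 10], [4, 13, 8, 5, 16, 17, 22, 10, 11, 6, 23, 9, 21, 20, 18, 2, 3, 19, 15, 1, 12, 14, 0, 7], 13169508),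
   ([20, 4, 21, 22, 13, 10, 15, 17, 0, 12, 2, 11, 8, 3, 6, 1, 9, 14, 18, 7, 23, 16, 19, 5], [8, 15, 10, 13, 1, 23, 14, 19, 12, 16, 5, 11, 9, 4, 17, 6, 21, 7, 18, 22, 0, 2, 3, 20], 13099110)]

def hs3_root1 : ℕ := 52158540321737566399035385992

def hs3_Y1 : List (List ℕ) :=
  [[11166210006103612769413995234315996675, 11342704989269859389968373274007049219, 11342745563373616990255414186992470531, 11342745563992747568043638698008379652, 11342745563992747568061723465295596804, 11342748099293796320793501938359471364, 11342748257750263647506524542049714949, 11342786138715314625216153461381398788, 11343394601138750050039758391005417729, 11519286192483981048154068984686182404, 12593745658096858594068425125845272578, 12593786053934832720353241772769414916, 12593786054556220001204768387599698181, 12594394536706746978172994209219351555, 12749514404777608411655437052475872002, 12749514405394159989498791496993737219, 12750203997380896647572856849779656198, 14001201555560010348655341798898532352, 14001201555562569278830956017344318213,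 14001201714018753263555006700036559105, 14001204090244809750676405713100605442, 14001853128009621689539915073330350853]]

def hs3_root2 : ℕ := 36973143133846552341657532793

def hs3_Y2 : List (List ℕ) :=
  [[8684289413966439714882428084739383046, 9924902536887368311860707611123908608, 9925553951460939019793318002630332164, 9925594505755247582302768175186456068, 9935289498126077474179874024350289668, 9935289507449313985344232197959192073, 9935289665869370646691259528593276935, 9935938544556630209446244554578606342, 9935938703631774180954944168234330628, 9935941069956728832621268133641988102, 9935979109375837551851282640150733574, 9935979258550030135064019991158342149, 9935979267793486989172091569148266501, 10091707450273989451138714341220551686, 10091707608771418545515810157894832648, 10101483571744204149868399075111473923, 10102092044648715342552939100312175365, 11176591906063308055266351727970880775, 11176592064519473150524470949211811591, 11176592064519623676100260447102452738, 11176594609763039517802706664152895494,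 11342099062186480092079873932056854535, 11342704999173540303767046948093168646, 11342707533853201771054753103529120775, 11342707534474740758054554033274761736, 11342707534513425756958378629925964295, 11342745405574947605147176319594806279, 11342745553470257270876321567467391497, 11342745563992595861876294162453638153, 11342745574515237938727786240718935304, 11342747940837613585837488149429750534, 11342747950740992194394281871400765445, 11342748098674817444254690894948598277, 11342748098713502517233722146500386822, 11342748099332482574057909149824469513, 11342748109197307815227069088688779525, 11343354036280706002293269533034551048, 11343394600481084994023516705845688582, 11343394601097486046291081378651971590, 11343397136401113798986936187411764488, 11343397136401264324562725977343394821, 11353089592929286138357084722047234309, 11353130157129381714023153045122069251, 11353130157707398818268190458662369031, 11353130157709656701903977379467899400, 11353132693010857156192606240313967109, 11353779194817124631886225122539868931,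 11508899063465700938158801996887362310, 12428241185206152224441696564684015618, 12583360895400973020648791526395102468, 12583401470082597199605080062972407559, 12584007407108191880296902613270545410, 12584009933124842081314159134991467269, 12584009942409241813620372172489902082, 12584009942409544045075275846963447556, 12584010101446001758689867832217309190, 12584050665687342522425658002156561417, 12593745499019135696131549791065751301, 12593745499019154585597481270753895433, 12593745499637964042464870645912060677, 12593786222294677470419751362575214854, 12594394526841921732392218620671826184, 12594394694582787610836726441115136771, 12594432566263438860833809819680917252],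
   [12594435091003312239114924566792636935, 12594435100948087737279083962188177671, 12594437636865839773751415531615831300, 12750204006701723568932962357158624772, 12759896463152374130271980436668285185, 12760547867239731135610297955561517059, 12760548036220964347407134103464580103, 12760548184152381192667718698515050499, 12760548203959421821233732728156848385, 12760588600418784408961767076083536392, 14001163526044411943267203356597174536, 14001201555601255532095363210572473863, 14011588684580849462324969197667362822]]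


set_option maxRecDepth 100000 in
lemma hs3_len1 : hs3_Y1.flatten.length = 22 := by decide +kernel

set_option maxRecDepth 100000 in
lemma hs3_chk1 : chkAll hs3_gens hs3_Y1 hs3_root1 = true := by decide +kernel

set_option maxRecDepth 100000 in
lemma hs3_sorted1 : incB (2 ^ 96) (hs3_Y1.flatten.map eVec) = true := by decide +kernel

set_option maxRecDepth 100000 in
lemma hs3_len2 : hs3_Y2.flatten.length = 77 := by decide +kernel

set_option maxRecDepth 100000 in
lemma hs3_chk2 : chkAll hs3_gens hs3_Y2 hs3_root2 = true := by decide +kernel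

set_option maxRecDepth 100000 in
lemma hs3_sorted2 : incB (2 ^ 96) (hs3_Y2.flatten.map eVec) = true := by decide +kernel

lemma hs3_val : ∀ d ∈ hs3_gens, gdValid d = true := by decide +kernel

set_option maxRecDepth 100000 in
lemma hs3_fix : ∀ d ∈ hs3_gens, ∀ r ∈ [hsB1, hsB2, hsX0], gdFun d r.1 = r.1 := by decide +kernel

/-- base point of the short suborbit -/
def hsY1 : leechLattice := ⟨vecN hs3_root1, mem_of_chk _ (by decide +kernel)⟩

/-- base point of the long suborbit -/
def hsY2 : leechLattice := ⟨vecN hs3_root2, mem_of_chk _ (by decide +kernel)⟩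

lemma hsY1_mem : sqNorm hsY1.1 = 32 ∧ dotInt hsB1.1 hsY1.1 = 24 ∧ dotInt hsB2.1 hsY1.1 = -24 ∧
    dotInt hsX0.1 hsY1.1 = 8 := by decide +kernel

lemma hsY2_mem : sqNorm hsY2.1 = 32 ∧ dotInt hsB1.1 hsY2.1 = 24 ∧ dotInt hsB2.1 hsY2.1 = -24 ∧
    dotInt hsX0.1 hsY2.1 = 16 := by decide +kernel

lemma hsX0_mem : hsX0 ∈ hsSet hsB1 hsB2 := (hs_mem 0 (by decide)).2

lemma hsX0_self : dotInt hsX0.1 hsX0.1 = 32 := by
  rw [dotInt_self]
  exact hsX0_mem.1

/-- the structure of the point stabiliser on the 100 points, in the orbit model -/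
theorem hs_rank3B :
    (∃ R1 : Finset leechLattice, R1.card = 22 ∧
      (R1 : Set leechLattice) = {y | y ∈ hsSet hsB1 hsB2 ∧ dotInt hsX0.1 y.1 = 8} ∧
      ∀ y ∈ R1, ∃ g : Co0, (∀ r ∈ [hsB1, hsB2, hsX0], g • r = r) ∧ g • hsY1 = y) ∧
    (∃ R2 : Finset leechLattice, R2.card = 77 ∧
      (R2 : Set leechLattice) = {y | y ∈ hsSet hsB1 hsB2 ∧ y ≠ hsX0 ∧ dotInt hsX0.1 y.1 ≠ 8} ∧
      ∀ y ∈ R2, ∃ g : Co0, (∀ r ∈ [hsB1, hsB2, hsX0], g • r = r) ∧ g • hsY2 = y) := by
  have hQ1 : ∀ r ∈ [hsB1, hsB2, hsX0], (1 : Co0) • r = r := fun r _ => one_smul _ r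
  have hg := gens_fix [hsB1, hsB2, hsX0] hs3_gens hs3_val hs3_fix
  obtain ⟨R1, hR1c, hR1, -⟩ := orbit_lower (fun g => ∀ r ∈ [hsB1, hsB2, hsX0], g • r = r) hQ1
    (fixes_mul _) hs3_gens hs3_val hg hs3_Y1 hs3_root1 hsY1 rfl hs3_chk1 hs3_sorted1
  obtain ⟨R2, hR2c, hR2, -⟩ := orbit_lower (fun g => ∀ r ∈ [hsB1, hsB2, hsX0], g • r = r) hQ1
    (fixes_mul _) hs3_gens hs3_val hg hs3_Y2 hs3_root2 hsY2 rfl hs3_chk2 hs3_sorted2
  rw [hs3_len1] at hR1c
  rw [hs3_len2] at hR2c
  -- invariance
  have hinv : ∀ g : Co0, (∀ r ∈ [hsB1, hsB2, hsX0], g • r = r) → ∀ y : leechLattice,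
      y ∈ hsSet hsB1 hsB2 → (g • y ∈ hsSet hsB1 hsB2 ∧
        dotInt hsX0.1 (g • y : leechLattice).1 = dotInt hsX0.1 y.1) := by
    intro g hg y hy
    have h1 := (hsSet_smul g hsB1 hsB2 y).mp hy
    rw [hg hsB1 (by simp), hg hsB2 (by simp)] at h1
    refine ⟨h1, ?_⟩
    have h2 := co0_dot g hsX0 y
    rw [hg hsX0 (by simp)] at h2
    exact h2
  have hY1 : hsY1 ∈ hsSet hsB1 hsB2 := ⟨hsY1_mem.1, hsY1_mem.2.1, hsY1_mem.2.2.1⟩
  have hY2 : hsY2 ∈ hsSet hsB1 hsB2 := ⟨hsY2_mem.1, hsY2_mem.2.1, hsY2_mem.2.2.1⟩
  have hfin : (hsSet hsB1 hsB2).Finite := Set.finite_of_ncard_pos (by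
    rw [hs_count hsB1 hsB2 hsB1_norm hsB2_norm hsB_dot]; norm_num)
  have hRR : ∀ i : Fin 2, ∀ y ∈ (![R1, R2] : Fin 2 → Finset leechLattice) i,
      y ∈ hsSet hsB1 hsB2 ∧ dotInt hsX0.1 y.1 = (![8, 16] : Fin 2 → ℤ) i := by
    intro i
    fin_cases i
    · intro y hy
      obtain ⟨⟨g, hg, rfl⟩, -⟩ := hR1 y hy
      obtain ⟨a, b⟩ := hinv g hg hsY1 hY1
      exact ⟨a, b.trans hsY1_mem.2.2.2⟩
    · intro y hy
      obtain ⟨⟨g, hg, rfl⟩, -⟩ := hR2 y hy
      obtain ⟨a, b⟩ := hinv g hg hsY2 hY2
      exact ⟨a, b.trans hsY2_mem.2.2.2⟩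
  have hpart := parts_inv (hsSet hsB1 hsB2) hfin hsX0 hsX0_mem (fun y => dotInt hsX0.1 y.1)
    (![8, 16] : Fin 2 → ℤ) (by decide) (by rw [hsX0_self]; decide) (![R1, R2]) hRR
    (by
      rw [hs_count hsB1 hsB2 hsB1_norm hsB2_norm hsB_dot, Fin.sum_univ_two]
      show 100 ≤ R1.card + R2.card + 1
      rw [hR1c, hR2c])
  obtain ⟨hp1, hp2⟩ := hpart
  refine ⟨⟨R1, hR1c, ?_, fun y hy => (hR1 y hy).1⟩, ⟨R2, hR2c, ?_, fun y hy => (hR2 y hy).1⟩⟩
  · ext y
    constructor
    · intro hy
      exact hRR 0 y hy
    · rintro ⟨hy, hφ⟩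
      exact hp2 0 y hy hφ
  · ext y
    constructor
    · intro hy
      obtain ⟨a, b⟩ := hRR 1 y hy
      have b' : dotInt hsX0.1 y.1 = 16 := b
      refine ⟨a, ?_, by rw [b']; norm_num⟩
      rintro rfl
      rw [hsX0_self] at b'
      norm_num at b'
    · rintro ⟨hy, hne, hφ⟩
      rcases hp1 y hy with h | ⟨i, hi⟩
      · exact absurd h hne
      · fin_cases i
        · exact absurd (hRR 0 y hi).2 hφ
        · exact hi

end Cfsg.Agent.Helper27

namespace Cfsg.Agent.Helper27

/-- the Higman–Sims rank 3 statement for an arbitrary configuration -/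
theorem hs_rank3 (v w x : leechLattice) (hv : sqNorm v.1 = 48) (hw : sqNorm w.1 = 48)
    (hvw : dotInt v.1 w.1 = -32) (hx : x ∈ hsSet v w) :
    {y : leechLattice | y ∈ hsSet v w ∧ dotInt x.1 y.1 = 8}.ncard = 22 ∧
    {y : leechLattice | y ∈ hsSet v w ∧ y ≠ x ∧ dotInt x.1 y.1 ≠ 8}.ncard = 77 ∧
    ∀ y ∈ hsSet v w, ∀ y' ∈ hsSet v w, y ≠ x → y' ≠ x →
      (dotInt x.1 y.1 = 8 ↔ dotInt x.1 y'.1 = 8) →
      ∃ g : Co0, g • v = v ∧ g • w = w ∧ g • x = x ∧ g • y = y' := by
  obtain ⟨g, hg1, hg2⟩ := pairs48 v w hsB1 hsB2 hv hw hsB1_norm hsB2_norm hvw hsB_dot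
  have hx' : g • x ∈ hsSet hsB1 hsB2 := by
    have := (hsSet_smul g v w x).mp hx
    rwa [hg1, hg2] at this
  obtain ⟨h, hh, hhx⟩ := hs_transB _ hx' _ hsX0_mem
  have k1 : (h * g) • v = hsB1 := by rw [mul_smul, hg1, hh hsB1 (by simp)]
  have k2 : (h * g) • w = hsB2 := by rw [mul_smul, hg2, hh hsB2 (by simp)]
  have k3 : (h * g) • x = hsX0 := by rw [mul_smul, hhx]
  generalize h * g = k at k1 k2 k3
  have hmem : ∀ y : leechLattice, y ∈ hsSet v w ↔ k • y ∈ hsSet hsB1 hsB2 := by
    intro y
    have := hsSet_smul k v w y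
    rwa [k1, k2] at this
  have hdot : ∀ y : leechLattice, dotInt hsX0.1 (k • y : leechLattice).1 = dotInt x.1 y.1 := by
    intro y
    rw [← k3, co0_dot]
  have hne : ∀ y : leechLattice, k • y ≠ hsX0 ↔ y ≠ x := by
    intro y
    rw [← k3, Ne, Ne, smul_left_cancel_iff]
  obtain ⟨⟨R1, c1, e1, t1⟩, ⟨R2, c2, e2, t2⟩⟩ := hs_rank3B
  refine ⟨?_, ?_, ?_⟩
  · rw [ncard_smul k _ (R1 : Set leechLattice), Set.ncard_coe_finset, c1]
    intro y
    rw [e1]
    show (y ∈ hsSet v w ∧ dotInt x.1 y.1 = 8) ↔
      (k • y ∈ hsSet hsB1 hsB2 ∧ dotInt hsX0.1 (k • y : leechLattice).1 = 8)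
    rw [hmem y, hdot y]
  · rw [ncard_smul k _ (R2 : Set leechLattice), Set.ncard_coe_finset, c2]
    intro y
    rw [e2]
    show (y ∈ hsSet v w ∧ y ≠ x ∧ dotInt x.1 y.1 ≠ 8) ↔
      (k • y ∈ hsSet hsB1 hsB2 ∧ k • y ≠ hsX0 ∧ dotInt hsX0.1 (k • y : leechLattice).1 ≠ 8)
    rw [hmem y, hdot y, hne y]
  · intro y hy y' hy' hyx hyx' hiff
    have key : ∃ m : Co0, (∀ r ∈ [hsB1, hsB2, hsX0], m • r = r) ∧ m • (k • y) = k • y' := by
      by_cases h8 : dotInt x.1 y.1 = 8
      · have m1 : k • y ∈ (R1 : Set leechLattice) := by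
          rw [e1]
          exact ⟨(hmem y).mp hy, by rw [hdot y]; exact h8⟩
        have m2 : k • y' ∈ (R1 : Set leechLattice) := by
          rw [e1]
          exact ⟨(hmem y').mp hy', by rw [hdot y']; exact hiff.mp h8⟩
        obtain ⟨a, ha, hay⟩ := t1 _ m1
        obtain ⟨b, hb, hby⟩ := t1 _ m2
        refine ⟨b * a⁻¹, fixes_mul _ _ _ hb (fixes_inv _ _ ha), ?_⟩
        rw [mul_smul, ← hay, inv_smul_smul, hby]
      · have m1 : k • y ∈ (R2 : Set leechLattice) := by
          rw [e2]
          exact ⟨(hmem y).mp hy, (hne y).mpr hyx, by rw [hdot y]; exact h8⟩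
        have m2 : k • y' ∈ (R2 : Set leechLattice) := by
          rw [e2]
          exact ⟨(hmem y').mp hy', (hne y').mpr hyx', by rw [hdot y']; exact fun h => h8 (hiff.mpr h)⟩
        obtain ⟨a, ha, hay⟩ := t2 _ m1
        obtain ⟨b, hb, hby⟩ := t2 _ m2
        refine ⟨b * a⁻¹, fixes_mul _ _ _ hb (fixes_inv _ _ ha), ?_⟩
        rw [mul_smul, ← hay, inv_smul_smul, hby]
    obtain ⟨m, hm, hmy⟩ := key
    have m1 : m • hsB1 = hsB1 := hm hsB1 (by simp)
    have m2 : m • hsB2 = hsB2 := hm hsB2 (by simp)
    have m3 : m • hsX0 = hsX0 := hm hsX0 (by simp)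
    refine ⟨k⁻¹ * m * k, ?_, ?_, ?_, ?_⟩
    · rw [mul_smul, mul_smul, k1, m1, ← k1, inv_smul_smul]
    · rw [mul_smul, mul_smul, k2, m2, ← k2, inv_smul_smul]
    · rw [mul_smul, mul_smul, k3, m3, ← k3, inv_smul_smul]
    · rw [mul_smul, mul_smul, hmy, inv_smul_smul]

end Cfsg.Agent.Helper27
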