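import Cfsg.Agent.Helper27.OrbitCert

set_option autoImplicit false
open Cfsg

namespace Cfsg.Agent.Helper27

open Cfsg.Agent.Helper28.Golay (tf inM24 isCW idx pt idx_pt pt_idx idx_lt tf_lt isPerm_of_inM24)

/-! ### vectors coded by natural numbers -/

/-- the `k`-th base-16 digit -/
def dg (n k : ℕ) : ℕ := (n >>> (4 * k)) % 16

lemma dg_lt (n k : ℕ) : dg n k < 16 := Nat.mod_lt _ (by norm_num)

/-- the vector coded by a number: base-16 digits offset by 8 -/
def vecN (n : ℕ) : GolayPt → ℤ := fun p => (dg n (idx p) : ℤ) - 8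

lemma vecN_pt (n k : ℕ) (hk : k < 24) : vecN n (pt k) = (dg n k : ℤ) - 8 := by
  unfold vecN
  rw [idx_pt k hk]

lemma vecN_inj (n m : ℕ) (hn : n < 2 ^ 96) (hm : m < 2 ^ 96) (h : vecN n = vecN m) : n = m := by
  have hd : ∀ k, k < 24 → dg n k = dg m k := by
    intro k hk
    have := congrFun h (pt k)
    rw [vecN_pt n k hk, vecN_pt m k hk] at this
    omega
  apply Nat.eq_of_testBit_eq
  intro i
  by_cases hi : i < 96
  · have key : ∀ x : ℕ, x.testBit i = (dg x (i / 4)).testBit (i % 4) := by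
      intro x
      unfold dg
      rw [show (16 : ℕ) = 2 ^ 4 from rfl, Nat.testBit_mod_two_pow, Nat.testBit_shiftRight]
      have h4 : i % 4 < 4 := Nat.mod_lt _ (by norm_num)
      have e : 4 * (i / 4) + i % 4 = i := Nat.div_add_mod i 4
      rw [e]
      simp [h4]
    rw [key n, key m, hd (i / 4) (by omega)]
  · have hp : (2 : ℕ) ^ 96 ≤ 2 ^ i := Nat.pow_le_pow_right (by norm_num) (not_lt.mp hi)
    rw [Nat.testBit_lt_two_pow (lt_of_lt_of_le hn hp), Nat.testBit_lt_two_pow (lt_of_lt_of_le hm hp)]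

/-! ### checking the action of a conjugate on coded vectors -/

/-- position and sign of a coordinate under the monomial part of a conjugate -/
def psg (d : List ℕ × List ℕ × ℕ) (k : ℕ) : ℕ × Bool := (tf d.1 k, d.2.2.testBit (tf d.1 k))

/-- a signed digit -/
def sdg (n : ℕ) (kb : ℕ × Bool) : ℕ := cond kb.2 (Nat.sub 16 (dg n kb.1)) (dg n kb.1)

lemma sdg_val (d : List ℕ × List ℕ × ℕ) (h1 : ∀ k, k < 24 → tf d.1 k < 24) (n k : ℕ)
    (hk : k < 24) :
    permT d.1 (signM d.2.2 (vecN n)) (pt k) = ((sdg n (psg d k) : ℕ) : ℤ) - 8 := by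
  unfold permT signM
  rw [idx_pt k hk, idx_pt _ (h1 k hk), vecN_pt n _ (h1 k hk)]
  unfold sdg psg
  have hlt := dg_lt n (tf d.1 k)
  cases hb : d.2.2.testBit (tf d.1 k) with
  | false => simp
  | true =>
    simp only [if_true, cond_true]
    show -((dg n (tf d.1 k) : ℤ) - 8) = ((16 - dg n (tf d.1 k) : ℕ) : ℤ) - 8
    omega

/-- the members of a tetrad of the sextet -/
def tetL (t : ℕ) : List ℕ := (List.range 24).filter fun k => tauL.getD k 0 == t

lemma tetL_lt (t k : ℕ) (h : k ∈ tetL t) : k < 24 := by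
  unfold tetL at h
  exact List.mem_range.mp (List.mem_filter.mp h).1

lemma tetL_len : ∀ t, t < 6 → (tetL t).length = 4 := by decide

lemma tauL_lt : ∀ k, k < 24 → tauL.getD k 0 < 6 := by decide

lemma sum_idx (F : ℕ → ℤ) : ∑ p : GolayPt, F (idx p) = ((List.range 24).map F).sum := by
  rw [← List.sum_toFinset _ (List.nodup_range), List.toFinset_range]
  exact Finset.sum_nbij' (fun p => idx p) (fun k => pt k)
    (fun p _ => Finset.mem_range.mpr (idx_lt p)) (fun k _ => Finset.mem_univ _)
    (fun p _ => pt_idx p) (fun k hk => idx_pt k (Finset.mem_range.mp hk)) (fun p _ => rfl)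

lemma list_sum_ite (L : List ℕ) (P : ℕ → Bool) (f : ℕ → ℤ) :
    (L.map fun k => if P k = true then f k else 0).sum = ((L.filter P).map f).sum := by
  induction L with
  | nil => rfl
  | cons a L ih =>
    by_cases h : P a = true
    · rw [List.map_cons, List.sum_cons, List.filter_cons_of_pos h, List.map_cons, List.sum_cons,
        ih, if_pos h]
    · rw [List.map_cons, List.sum_cons, List.filter_cons_of_neg h, ih, if_neg h, zero_add]

/-- the tetrad sum as a list sum -/
lemma tsum_eq (f : GolayPt → ℤ) (i : GolayPt) :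
    tsum f i = ((tetL (tauL.getD (idx i) 0)).map fun k => f (pt k)).sum := by
  unfold tsum tetL
  rw [← list_sum_ite, ← sum_idx]
  apply Finset.sum_congr rfl
  intro q _
  show (if tauL.getD (idx q) 0 = tauL.getD (idx i) 0 then f q else 0) = _
  rw [pt_idx]
  simp only [beq_iff_eq]

/-- the check of one tetrad -/
def tetChk (X Y : ℕ) (t0 : Bool) (row : List (ℕ × Bool)) : Bool :=
  row.all fun kb => cond t0
    (Nat.beq (2 * sdg Y kb + 2 * sdg X kb) ((row.map (sdg X)).sum))
    (Nat.beq (2 * sdg Y kb + (row.map (sdg X)).sum) (2 * sdg X kb + 32))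

/-- the check that a conjugate maps the vector coded by `X` to the one coded by `Y` -/
def nodeChk (d : List ℕ × List ℕ × ℕ) (X Y : ℕ) : Bool :=
  (List.range 6).all fun t => tetChk X Y (Nat.beq t 0) ((tetL t).map (psg d))

lemma sum_sdg (d : List ℕ × List ℕ × ℕ) (h1 : ∀ k, k < 24 → tf d.1 k < 24) (n : ℕ)
    (L : List ℕ) (hL : ∀ k ∈ L, k < 24) :
    (L.map fun k => permT d.1 (signM d.2.2 (vecN n)) (pt k)).sum
      = ((((L.map (psg d)).map (sdg n)).sum : ℕ) : ℤ) - 8 * L.length := by
  induction L with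
  | nil => simp
  | cons a L ih =>
    rw [List.map_cons, List.sum_cons, ih (fun k hk => hL k (List.mem_cons_of_mem _ hk)),
      sdg_val d h1 n a (hL a List.mem_cons_self), List.map_cons, List.map_cons, List.sum_cons,
      List.length_cons]
    push_cast
    ring

lemma permT_cancel (T Ti : List ℕ) (hTi : ∀ k, k < 24 → tf Ti k < 24)
    (h : ∀ i, i < 24 → tf T (tf Ti i) = i) (f : GolayPt → ℤ) : permT Ti (permT T f) = f := by
  funext p
  unfold permT
  rw [idx_pt _ (hTi _ (idx_lt p)), h _ (idx_lt p), pt_idx]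

lemma signM_signM (c : ℕ) (f : GolayPt → ℤ) : signM c (signM c f) = f := by
  funext p
  unfold signM
  by_cases h : c.testBit (idx p) = true
  · rw [if_pos h, if_pos h, neg_neg]
  · rw [if_neg h, if_neg h]

lemma nodeChk_sound (d : List ℕ × List ℕ × ℕ) (hval : gdValid d = true) (X Y : ℕ)
    (h : nodeChk d X Y = true) : gdFun d (vecN X) = vecN Y := by
  obtain ⟨h1, h2, -, h4, h5⟩ := (gdValid_iff d).mp hval
  have t1 : ∀ k, k < 24 → tf d.1 k < 24 := fun k hk => tf_lt (isPerm_of_inM24 h1) hk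
  have t2 : ∀ k, k < 24 → tf d.2.1 k < 24 := fun k hk => tf_lt (isPerm_of_inM24 h2) hk
  have hxi : xiFun (permT d.1 (signM d.2.2 (vecN X))) = permT d.1 (signM d.2.2 (vecN Y)) := by
    funext p
    have hk := idx_lt p
    have ht := tauL_lt _ hk
    have hmem : idx p ∈ tetL (tauL.getD (idx p) 0) := by
      unfold tetL
      rw [List.mem_filter]
      exact ⟨List.mem_range.mpr hk, beq_self_eq_true _⟩
    unfold nodeChk at h
    rw [List.all_eq_true] at h
    have h' := h _ (List.mem_range.mpr ht)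
    unfold tetChk at h'
    rw [List.all_eq_true] at h'
    have h'' := h' (psg d (idx p)) (List.mem_map_of_mem hmem)
    have hsum := sum_sdg d t1 X (tetL (tauL.getD (idx p) 0)) (fun k hk => tetL_lt _ k hk)
    rw [tetL_len _ ht] at hsum
    have hx := sdg_val d t1 X (idx p) hk
    have hy := sdg_val d t1 Y (idx p) hk
    rw [pt_idx] at hx hy
    unfold xiFun sgnT tau
    rw [tsum_eq, hsum, hx, hy]
    by_cases h0 : tauL.getD (idx p) 0 = 0
    · rw [if_pos h0]
      rw [h0] at h''
      have e := Nat.eq_of_beq_eq_true h''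
      rw [h0]
      have e' : (2 * (sdg Y (psg d (idx p)) : ℤ) + 2 * (sdg X (psg d (idx p)) : ℤ))
          = (((List.map (sdg X) (List.map (psg d) (tetL 0))).sum : ℕ) : ℤ) := by
        exact_mod_cast e
      omega
    · rw [if_neg h0]
      have hb : Nat.beq (tauL.getD (idx p) 0) 0 = false := by
        cases hq : Nat.beq (tauL.getD (idx p) 0) 0 with
        | false => rfl
        | true => exact absurd (Nat.eq_of_beq_eq_true hq) h0
      rw [hb] at h''
      have e := Nat.eq_of_beq_eq_true h''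
      have e' : (2 * (sdg Y (psg d (idx p)) : ℤ)
          + (((List.map (sdg X) (List.map (psg d) (tetL (tauL.getD (idx p) 0)))).sum : ℕ) : ℤ))
          = 2 * (sdg X (psg d (idx p)) : ℤ) + 32 := by
        exact_mod_cast e
      omega
  unfold gdFun
  rw [hxi, permT_cancel d.1 d.2.1 t2 h4, signM_signM]

/-! ### a strictly increasing bounded list -/

/-- strictly increasing and below the bound -/
def incB (B : ℕ) : List ℕ → Bool
  | [] => true
  | [a] => Nat.blt a B
  | a :: b :: t => Nat.blt a b && incB B (b :: t)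

lemma incB_spec (B : ℕ) : ∀ L : List ℕ, incB B L = true →
    L.Pairwise (· < ·) ∧ ∀ a ∈ L, a < B := by
  intro L
  induction L with
  | nil => intro _; exact ⟨List.Pairwise.nil, by simp⟩
  | cons a t ih =>
    intro h
    cases t with
    | nil =>
      simp only [incB, Nat.blt_eq] at h
      exact ⟨List.pairwise_singleton _ _, by simpa using h⟩
    | cons b t =>
      simp only [incB, Bool.and_eq_true, Nat.blt_eq] at h
      obtain ⟨hp, hB⟩ := ih h.2
      have hp' := hp
      rw [List.pairwise_cons] at hp'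
      refine ⟨?_, ?_⟩
      · rw [List.pairwise_cons]
        refine ⟨?_, hp⟩
        intro c hc
        rcases List.mem_cons.mp hc with rfl | hc
        · exact h.1
        · exact lt_trans h.1 (hp'.1 c hc)
      · intro c hc
        rcases List.mem_cons.mp hc with rfl | hc
        · exact lt_trans h.1 (hB b List.mem_cons_self)
        · exact hB c hc

/-! ### linear-time orbit certificates -/

/-- level of an entry -/
def eLvl (n : ℕ) : ℕ := n % 256

/-- parent of an entry -/
def ePar (n : ℕ) : ℕ := (n >>> 8) % 65536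

/-- generator of an entry -/
def eGi (n : ℕ) : ℕ := (n >>> 24) % 16

/-- vector code of an entry -/
def eVec (n : ℕ) : ℕ := n >>> 28

/-- random access into a chunked list -/
def look (Yc : List (List ℕ)) (k : ℕ) : Option ℕ := (Yc.getD (k / 64) [])[k % 64]?

lemma look_mem (Yc : List (List ℕ)) (k p : ℕ) (h : look Yc k = some p) : ∃ c ∈ Yc, p ∈ c := by
  unfold look at h
  have hp : p ∈ Yc.getD (k / 64) [] := List.mem_of_getElem? h
  by_cases hk : k / 64 < Yc.length
  · rw [List.getD_eq_getElem _ _ hk] at hp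
    exact ⟨_, List.getElem_mem hk, hp⟩
  · rw [List.getD_eq_default _ _ (not_lt.mp hk)] at hp
    simp at hp

/-- the check of one entry -/
def chkEnt (gens : List (List ℕ × List ℕ × ℕ)) (Yc : List (List ℕ)) (root : ℕ) (e : ℕ) : Bool :=
  match eLvl e with
  | 0 => Nat.beq (eVec e) root
  | n + 1 =>
    match look Yc (ePar e), gens[eGi e]? with
    | some p, some d => Nat.ble (eLvl p) n && nodeChk d (eVec p) (eVec e)
    | _, _ => false

/-- the check of a whole certificate -/
def chkAll (gens : List (List ℕ × List ℕ × ℕ)) (Yc : List (List ℕ)) (root : ℕ) : Bool :=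
  Yc.all fun c => c.all fun e => chkEnt gens Yc root e

lemma chkAll_iff (gens : List (List ℕ × List ℕ × ℕ)) (Yc : List (List ℕ)) (root : ℕ) :
    chkAll gens Yc root = true ↔ ∀ c ∈ Yc, ∀ e ∈ c, chkEnt gens Yc root e = true := by
  unfold chkAll
  rw [List.all_eq_true]
  constructor
  · intro h c hc
    exact List.all_eq_true.mp (h c hc)
  · intro h c hc
    exact List.all_eq_true.mpr (h c hc)

lemma chkEnt_cases (gens : List (List ℕ × List ℕ × ℕ)) (Yc : List (List ℕ)) (root : ℕ) (e : ℕ)
    (h : chkEnt gens Yc root e = true) :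
    eVec e = root ∨ ∃ p d, (∃ c ∈ Yc, p ∈ c) ∧ d ∈ gens ∧ eLvl p < eLvl e ∧
      nodeChk d (eVec p) (eVec e) = true := by
  unfold chkEnt at h
  cases hl : eLvl e with
  | zero =>
    left
    rw [hl] at h
    exact Nat.eq_of_beq_eq_true h
  | succ n =>
    right
    rw [hl] at h
    simp only at h
    cases hk : look Yc (ePar e) with
    | none => rw [hk] at h; simp at h
    | some p =>
      cases hg : gens[eGi e]? with
      | none => rw [hk, hg] at h; simp at h
      | some d =>
        rw [hk, hg] at h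
        simp only [Bool.and_eq_true] at h
        exact ⟨p, d, look_mem Yc _ p hk, List.mem_of_getElem? hg,
          Nat.lt_succ_of_le (Nat.le_of_ble_eq_true h.1), h.2⟩

/-- every entry of a checked certificate is reached from the root -/
lemma reach_of_chk (Q : Co0 → Prop) (hQ1 : Q 1) (hQmul : ∀ g h, Q g → Q h → Q (g * h))
    (gens : List (List ℕ × List ℕ × ℕ)) (hval : ∀ d ∈ gens, gdValid d = true)
    (hgens : ∀ d ∈ gens, Q (gdC d))
    (Yc : List (List ℕ)) (root : ℕ)
    (x0 : leechLattice) (hroot : x0.1 = vecN root)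
    (hchk : chkAll gens Yc root = true) :
    ∀ n, ∀ c ∈ Yc, ∀ e ∈ c, eLvl e = n → ∃ g : Co0, Q g ∧
      ((g • x0 : leechLattice) : GolayPt → ℤ) = vecN (eVec e) := by
  rw [chkAll_iff] at hchk
  intro n
  induction n using Nat.strong_induction_on with
  | _ n ih =>
    intro c hc e he hn
    rcases chkEnt_cases gens Yc root e (hchk c hc e he) with h2 | ⟨p, d, ⟨c', hc', hp⟩, hd, hlt, hgd⟩
    · rw [h2]
      exact ⟨1, hQ1, by rw [one_smul]; exact hroot⟩
    · obtain ⟨g, hg, hgx⟩ := ih (eLvl p) (hn ▸ hlt) c' hc' p hp rfl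
      refine ⟨gdC d * g, hQmul _ _ (hgens d hd) hg, ?_⟩
      rw [mul_smul_coe, gdC_apply _ (hval d hd), hgx]
      exact nodeChk_sound d (hval d hd) _ _ hgd

/-- a checked and sorted certificate produces that many distinct points of the orbit -/
theorem orbit_lower (Q : Co0 → Prop) (hQ1 : Q 1) (hQmul : ∀ g h, Q g → Q h → Q (g * h))
    (gens : List (List ℕ × List ℕ × ℕ)) (hval : ∀ d ∈ gens, gdValid d = true)
    (hgens : ∀ d ∈ gens, Q (gdC d))
    (Yc : List (List ℕ)) (root : ℕ)
    (x0 : leechLattice) (hroot : x0.1 = vecN root)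
    (hchk : chkAll gens Yc root = true)
    (hsorted : incB (2 ^ 96) (Yc.flatten.map eVec) = true) :
    ∃ R : Finset leechLattice, R.card = Yc.flatten.length ∧
      (∀ y ∈ R, (∃ g : Co0, Q g ∧ g • x0 = y) ∧ ∃ e ∈ Yc.flatten, y.1 = vecN (eVec e)) ∧
      (∀ e ∈ Yc.flatten, ∃ y ∈ R, y.1 = vecN (eVec e)) := by
  classical
  have key := reach_of_chk Q hQ1 hQmul gens hval hgens Yc root x0 hroot hchk
  have key' : ∀ e ∈ Yc.flatten, ∃ g : Co0, Q g ∧
      ((g • x0 : leechLattice) : GolayPt → ℤ) = vecN (eVec e) := by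
    intro e he
    obtain ⟨c, hc, hec⟩ := List.mem_flatten.mp he
    exact key _ c hc e hec rfl
  have hE : ∀ k : Fin Yc.flatten.length, Yc.flatten[(k : ℕ)] ∈ Yc.flatten :=
    fun k => List.getElem_mem k.2
  let f : Fin Yc.flatten.length → leechLattice :=
    fun k => Classical.choose (key' _ (hE k)) • x0
  have hf : ∀ k : Fin Yc.flatten.length, Q (Classical.choose (key' _ (hE k))) ∧
      (f k).1 = vecN (eVec (Yc.flatten[(k : ℕ)])) := fun k => Classical.choose_spec (key' _ (hE k))
  obtain ⟨hpw, hbd⟩ := incB_spec _ _ hsorted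
  rw [List.pairwise_map, List.pairwise_iff_getElem] at hpw
  have hbd' : ∀ e ∈ Yc.flatten, eVec e < 2 ^ 96 :=
    fun e he => hbd _ (List.mem_map_of_mem he)
  have hfinj : Function.Injective f := by
    intro a b hab
    have e : vecN (eVec (Yc.flatten[(a : ℕ)])) = vecN (eVec (Yc.flatten[(b : ℕ)])) := by
      rw [← (hf a).2, ← (hf b).2, hab]
    have e' := vecN_inj _ _ (hbd' _ (hE a)) (hbd' _ (hE b)) e
    by_contra hne
    rcases lt_or_gt_of_ne (fun h => hne (Fin.ext h) : (a : ℕ) ≠ b) with h | h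
    · have := hpw a b a.2 b.2 h
      omega
    · have := hpw b a b.2 a.2 h
      omega
  refine ⟨Finset.univ.image f, ?_, ?_, ?_⟩
  · rw [Finset.card_image_of_injective _ hfinj, Finset.card_univ, Fintype.card_fin]
  · intro y hy
    obtain ⟨k, -, rfl⟩ := Finset.mem_image.mp hy
    exact ⟨⟨_, (hf k).1, rfl⟩, _, hE k, (hf k).2⟩
  · intro e he
    obtain ⟨k, hk, rfl⟩ := List.getElem_of_mem he
    exact ⟨f ⟨k, hk⟩, Finset.mem_image_of_mem _ (Finset.mem_univ _), (hf ⟨k, hk⟩).2⟩

/-- transitivity (and an enumeration) from a certificate of full length -/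
theorem orbit_full (S : Set leechLattice) (Q : Co0 → Prop) (hQ1 : Q 1)
    (hQmul : ∀ g h, Q g → Q h → Q (g * h)) (hQinv : ∀ g, Q g → Q g⁻¹)
    (hQS : ∀ g, Q g → ∀ x ∈ S, g • x ∈ S)
    (gens : List (List ℕ × List ℕ × ℕ)) (hval : ∀ d ∈ gens, gdValid d = true)
    (hgens : ∀ d ∈ gens, Q (gdC d))
    (Yc : List (List ℕ)) (root : ℕ)
    (x0 : leechLattice) (hx0 : x0 ∈ S) (hroot : x0.1 = vecN root)
    (hchk : chkAll gens Yc root = true)
    (hsorted : incB (2 ^ 96) (Yc.flatten.map eVec) = true)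
    (hcard : S.ncard = Yc.flatten.length) (hpos : 0 < Yc.flatten.length) :
    (∀ x ∈ S, ∃ g : Co0, Q g ∧ g • x0 = x) ∧ (∀ x ∈ S, ∀ x' ∈ S, ∃ g : Co0, Q g ∧ g • x = x') ∧
      (∀ x ∈ S, ∃ e ∈ Yc.flatten, x.1 = vecN (eVec e)) := by
  obtain ⟨R, hR, hR1, -⟩ := orbit_lower Q hQ1 hQmul gens hval hgens Yc root x0 hroot hchk hsorted
  have hfin : S.Finite := Set.finite_of_ncard_pos (by rw [hcard]; exact hpos)
  have hsub : (R : Set leechLattice) ⊆ S := by
    intro y hy
    obtain ⟨⟨g, hg, rfl⟩, -⟩ := hR1 y hy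
    exact hQS g hg x0 hx0
  have heq : (R : Set leechLattice) = S := by
    apply Set.eq_of_subset_of_ncard_le hsub _ hfin
    rw [Set.ncard_coe_finset, hR, hcard]
  have key : ∀ x ∈ S, ∃ g : Co0, Q g ∧ g • x0 = x := by
    intro x hx
    rw [← heq] at hx
    exact (hR1 x hx).1
  refine ⟨key, ?_, ?_⟩
  · intro x hx x' hx'
    obtain ⟨g, hg, hgx⟩ := key x hx
    obtain ⟨g', hg', hgx'⟩ := key x' hx'
    refine ⟨g' * g⁻¹, hQmul _ _ hg' (hQinv _ hg), ?_⟩
    rw [mul_smul, ← hgx, inv_smul_smul, hgx']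
  · intro x hx
    rw [← heq] at hx
    exact (hR1 x hx).2

/-- generators fixing reference vectors -/
lemma gens_fix (refs : List leechLattice) (gens : List (List ℕ × List ℕ × ℕ))
    (hval : ∀ d ∈ gens, gdValid d = true)
    (hfix : ∀ d ∈ gens, ∀ r ∈ refs, gdFun d r.1 = r.1) :
    ∀ d ∈ gens, ∀ r ∈ refs, gdC d • r = r := by
  intro d hd r hr
  apply Subtype.ext
  rw [gdC_apply _ (hval d hd)]
  exact hfix d hd r hr

lemma fixes_mul (refs : List leechLattice) (g h : Co0) (hg : ∀ r ∈ refs, g • r = r)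
    (hh : ∀ r ∈ refs, h • r = r) : ∀ r ∈ refs, (g * h) • r = r := by
  intro r hr
  rw [mul_smul, hh r hr, hg r hr]

lemma fixes_inv (refs : List leechLattice) (g : Co0) (hg : ∀ r ∈ refs, g • r = r) :
    ∀ r ∈ refs, g⁻¹ • r = r := by
  intro r hr
  rw [inv_smul_eq_iff, hg r hr]

end Cfsg.Agent.Helper27
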