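import Cfsg.Agent.Helper27.HSMain
import Cfsg.Agent.Helper27.OrbitCert3

set_option autoImplicit false
open Cfsg

namespace Cfsg.Agent.Helper27

open Cfsg.Agent.Helper28.Golay (isCW toSet toSet_mem_supports_iff isCW_lt idx pt idx_pt pt_idx idx_lt)

def hsd_r0 : List ℤ := [2, 0, 2, 2, 0, 0, 0, 0, 0, 0, 0, 0, 2, 0, 2, 2, 2, 0, 2, 2, 2, 2, 2, 0]

def hsd_r1 : List ℤ := [2, 0, 2, -2, 0, 0, 0, 0, 0, 0, 0, 0, -2, 0, -2, -2, -2, 0, -2, -2, -2, -2, -2, 0]

def hsd_mask : ℕ := 8531954

def hsd_gens : List (List ℕ × List ℕ × ℕ) :=
  [([8, 1, 7, 9, 16, 13, 3, 14, 5, 19, 20, 4, 15, 12, 17, 18, 22, 2, 23, 11, 10, 21, 6, 0], [23, 1, 17, 6, 11, 8, 22, 2, 0, 3, 20, 19, 13, 5, 7, 12, 4, 14, 15, 9, 10, 21, 16, 18], 12394675),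
   ([23, 5, 1, 17, 2, 18, 6, 14, 8, 10, 3, 15, 0, 20, 16, 22, 12, 11, 7, 13, 9, 19, 21, 4], [12, 2, 4, 10, 23, 1, 6, 18, 8, 20, 9, 17, 16, 19, 7, 11, 14, 3, 5, 21, 13, 22, 15, 0], 9023707),
   ([10, 7, 1, 4, 23, 13, 0, 20, 17, 2, 6, 3, 16, 21, 22, 15, 9, 14, 5, 18, 11, 19, 12, 8], [6, 2, 9, 11, 3, 18, 10, 1, 23, 16, 0, 20, 22, 5, 17, 15, 12, 8, 19, 21, 7, 13, 14, 4], 15151284)]

def hsd_root : ℕ := 42874141182330805176569989288

def hsd_Y : List (List ℕ) :=
  [[8684332683104490134358077639969756675, 8695323213847163363933875371929243143, 8851132673899925752500155427407800582, 8860870766429697914669244961909638147, 8861479247963672133203621521523758082, 10102132609509034978197839639044163078, 10102132609509186684365179759355779845, 10102132609545293933089853412726558726, 10102132610125587736649632930815041544, 10102132619410138068030386073937904643, 10102132767962942189819046022342509831, 10102132767963093895698155509928439558, 10102132768004036778525997386407358465, 10102132768584330651261067454710816774, 10102132777868880909143074405292711942, 10102135144810235432503356998492888837, 10102135303264142648448018750279525381,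 10102173174328242316279417667080702467, 10102173332782149458437103415013150980, 10102781646613925162612622440016125446, 10102781805072668003437080686236808965, 10112517203226095813613832439567750662, 10112517361680002956059748546522398469, 10268286108982140054480343058234753544, 10268286267436047192314572890104153348, 11343397146379738593063636507715194117, 11343397146384574370129071319252226568, 11343435176518982232384594739789304838, 11343435176518982232402679507042980866, 11343437543460488461624057172072617991, 11343437860373138518969637922416907013, 11353132545154403158786411707225868548, 11353132862067053215843762098598321925, 11353170723225365796442210276820920327, 11353170723225365874840872590086514438, 11353173267811116586740096155288343815, 11353173267811116586741292423939363076, 11353781730775990215975824561616735750, 11353781730775990215994964860049841925, 11353819769578547357363676476998685189, 11353819769578547357651906870347048710, 11353822295014751975154992674842367749, 11353822295014772045212544870817733635, 11353822305496148863936758509270468617, 11353822305500984571826903044396682503,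 11508901599463403227319565879156422920, 11508901599463404407911256965311914759, 11508939638882513127141267056594262021, 11508939638887348830419725590439395328, 11508942173567010297419201352577320711, 11508942173567010302319117747122876680, 11509547952678029871831030610169712134, 11509548269590679933500067002772902661, 11509550646474080424891037216571151625, 11509550646474099314358094595058830855, 11509591201351091195561217510531414020, 11509591201351091269348193822583051779, 11509591210635792052517689799980618503, 11509591210635793233127324915901419271, 11519283667163813866312048544717996551, 11519283667163832755795994421774787589, 11519286203045308123890240945976786439, 11519286203045308197965447617000247302, 11519324232563163301786066244285235204],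
   [11519324232563164482378812861636940293, 11519326598883282250175057592934486277, 11519326915800768010510866483825877511, 11519932694984020902356439458455229191, 11519932694988856605923128351305765894, 11519935229668820304377503372657313283, 11519935229668820308989189408298130690, 11519973110633871286698818327613037063, 11519973259767102102247412371787110407, 11519973259767120991713414219078575622, 11519973427546521417543144996610247682, 12760588601078857869576707580817856261, 12760588601079008395152497078708487683, 12760588601115134533325087812150641924, 12760588601695409447420062025369270021, 12760588610979959778818758924402962182, 12760588759532765081197913690379145477, 12760588759532915606485473103051770884, 12760588759573877378761232059602044167, 12760588760154152362031496275427328772, 12760588769438702619931447529595482113, 12760591136380058323865336167859772936, 12760591294833965539809998193467350274, 12760629165898065207640341579122620420, 12760629324351972349798027053250924550, 12761237638183765762865801143009698567, 12761237796642508603690259115392638470, 12770973194795936413850122643975449092,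 12770973353249843556296038477092374791, 12926742100551981835307127806309183489, 12926742259005888973141357911982748423, 14001244666244172515439237359671970052, 14012235196986828036140724330461944327, 14168044657039589244116509568452788743, 14177782749569361406302487601557280007, 14178391231103335624818920131389296390]]


set_option maxRecDepth 100000 in
lemma hsd_len : hsd_Y.flatten.length = 100 := by decide +kernel

set_option maxRecDepth 100000 in
lemma hsd_chk : chkAll hsd_gens hsd_Y hsd_root = true := by decide +kernel

set_option maxRecDepth 100000 in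
lemma hsd_sorted : incB (2 ^ 96) (hsd_Y.flatten.map eVec) = true := by decide +kernel

lemma hsd_val : ∀ d ∈ hsd_gens, gdValid d = true := by decide +kernel

/-- dodecad model -/
def hsD1 : leechLattice := ⟨vecL hsd_r0, mem_of_chk _ (by decide +kernel)⟩

/-- dodecad model -/
def hsD2 : leechLattice := ⟨vecL hsd_r1, mem_of_chk _ (by decide +kernel)⟩

lemma hsD1_norm : sqNorm hsD1.1 = 48 := by decide +kernel

lemma hsD2_norm : sqNorm hsD2.1 = 48 := by decide +kernel

lemma hsD_dot : dotInt hsD1.1 hsD2.1 = -32 := by decide +kernel

set_option maxRecDepth 100000 in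
lemma hsd_fix : ∀ d ∈ hsd_gens, ∀ r ∈ [hsD1, hsD2], gdFun d r.1 = r.1 := by decide +kernel

/-- base point -/
def hsDX0 : leechLattice := ⟨vecN hsd_root, mem_of_chk _ (by decide +kernel)⟩

lemma hsDX0_mem : hsDX0 ∈ hsSet hsD1 hsD2 := by
  show sqNorm hsDX0.1 = 32 ∧ dotInt hsD1.1 hsDX0.1 = 24 ∧ dotInt hsD2.1 hsDX0.1 = -24
  decide +kernel

/-- some coordinate in the mask is nonzero -/
def movedB (mask V : ℕ) : Bool :=
  (List.range 24).any fun k => mask.testBit k && !(Nat.beq (dg V k) 8)

lemma movedB_spec (mask V : ℕ) (h : movedB mask V = true) : signM mask (vecN V) ≠ vecN V := by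
  unfold movedB at h
  rw [List.any_eq_true] at h
  obtain ⟨k, hk, hb⟩ := h
  rw [List.mem_range] at hk
  rw [Bool.and_eq_true] at hb
  obtain ⟨hb1, hb2⟩ := hb
  intro e
  have e1 := congrFun e (pt k)
  unfold signM at e1
  rw [idx_pt k hk, if_pos hb1, vecN_pt V k hk] at e1
  have hne : dg V k ≠ 8 := by
    intro h8
    rw [h8] at hb2
    simp at hb2
  omega

set_option maxRecDepth 100000 in
lemma hsd_moved : hsd_Y.flatten.all (fun e => movedB hsd_mask (eVec e)) = true := by decide +kernel

lemma hsd_cw : isCW hsd_mask = true := by decide +kernel

/-- the sign change on the complementary dodecad -/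
noncomputable def hsInv : Co0 :=
  signC (toSet hsd_mask) ((toSet_mem_supports_iff (isCW_lt hsd_cw)).mpr hsd_cw)

lemma hsInv_apply (y : leechLattice) : ((hsInv • y : leechLattice) : GolayPt → ℤ) = signM hsd_mask y.1 := by
  unfold hsInv
  rw [signC_apply, signFun_toSet]

lemma hsInv_sq : hsInv * hsInv = 1 := by
  apply co0_ext
  intro v
  rw [mul_smul_coe, hsInv_apply, hsInv_apply, signM_signM, one_smul]

lemma hsInv_D1 : hsInv • hsD1 = hsD1 := by
  apply Subtype.ext
  rw [hsInv_apply]
  decide +kernel

lemma hsInv_D2 : hsInv • hsD2 = hsD2 := by
  apply Subtype.ext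
  rw [hsInv_apply]
  decide +kernel

theorem hsd_enum : ∀ x ∈ hsSet hsD1 hsD2, ∃ e ∈ hsd_Y.flatten, x.1 = vecN (eVec e) := by
  have hQS : ∀ g : Co0, (∀ r ∈ [hsD1, hsD2], g • r = r) → ∀ x ∈ hsSet hsD1 hsD2,
      g • x ∈ hsSet hsD1 hsD2 := by
    intro g hg x hx
    have := (hsSet_smul g hsD1 hsD2 x).mp hx
    rwa [hg hsD1 (by simp), hg hsD2 (by simp)] at this
  have h := orbit_full (hsSet hsD1 hsD2) (fun g => ∀ r ∈ [hsD1, hsD2], g • r = r)
    (fun r _ => one_smul _ r) (fixes_mul _) (fixes_inv _) hQS hsd_gens hsd_val
    (gens_fix _ _ hsd_val hsd_fix) hsd_Y hsd_root hsDX0 hsDX0_mem rfl hsd_chk hsd_sorted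
    (by rw [hsd_len]; exact hs_count hsD1 hsD2 hsD1_norm hsD2_norm hsD_dot)
    (by rw [hsd_len]; norm_num)
  exact h.2.2

theorem hsInv_fpf : ∀ x ∈ hsSet hsD1 hsD2, hsInv • x ≠ x := by
  intro x hx hfix
  obtain ⟨e, he, hxe⟩ := hsd_enum x hx
  have hm := List.all_eq_true.mp hsd_moved e he
  have := movedB_spec _ _ hm
  apply this
  rw [← hxe, ← hsInv_apply, hfix]

/-- a fixed-point-free involution for an arbitrary configuration -/
theorem hs_fpf (v w : leechLattice) (hv : sqNorm v.1 = 48) (hw : sqNorm w.1 = 48)
    (hvw : dotInt v.1 w.1 = -32) : ∃ g : Co0, g • v = v ∧ g • w = w ∧ orderOf g = 2 ∧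
    ∀ x ∈ hsSet v w, g • x ≠ x := by
  obtain ⟨k, k1, k2⟩ := pairs48 v w hsD1 hsD2 hv hw hsD1_norm hsD2_norm hvw hsD_dot
  have hne : hsInv ≠ 1 := by
    intro h
    apply hsInv_fpf hsDX0 hsDX0_mem
    rw [h, one_smul]
  refine ⟨k⁻¹ * hsInv * k, ?_, ?_, ?_, ?_⟩
  · rw [mul_smul, mul_smul, k1, hsInv_D1, ← k1, inv_smul_smul]
  · rw [mul_smul, mul_smul, k2, hsInv_D2, ← k2, inv_smul_smul]
  · haveI : Fact (Nat.Prime 2) := ⟨Nat.prime_two⟩
    apply orderOf_eq_prime
    · rw [pow_two]
      have : k⁻¹ * hsInv * k * (k⁻¹ * hsInv * k) = k⁻¹ * (hsInv * hsInv) * k := by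
        simp only [mul_assoc, mul_inv_cancel_left]
      rw [this, hsInv_sq, mul_one, inv_mul_cancel]
    · intro h
      apply hne
      have h2 : hsInv = k * (k⁻¹ * hsInv * k) * k⁻¹ := by
        simp only [mul_assoc, mul_inv_cancel_left, mul_inv_cancel, mul_one]
      rw [h2, h, mul_one, mul_inv_cancel]
  · intro x hx hfix
    have hx' : k • x ∈ hsSet hsD1 hsD2 := by
      have := (hsSet_smul k v w x).mp hx
      rwa [k1, k2] at this
    apply hsInv_fpf _ hx'
    rw [mul_smul, mul_smul, inv_smul_eq_iff] at hfix
    exact hfix

end Cfsg.Agent.Helper27
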