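import Cfsg.Agent.Helper27.HSData

set_option autoImplicit false
open Cfsg

namespace Cfsg.Agent.Helper27

/-- the Higman–Sims set attached to a pair of vectors -/
def hsSet (v w : leechLattice) : Set leechLattice :=
  {x : leechLattice | sqNorm x.1 = 32 ∧ dotInt v.1 x.1 = 24 ∧ dotInt w.1 x.1 = -24}

lemma hsSet_smul (g : Co0) (v w x : leechLattice) :
    x ∈ hsSet v w ↔ g • x ∈ hsSet (g • v) (g • w) := by
  show (sqNorm x.1 = 32 ∧ dotInt v.1 x.1 = 24 ∧ dotInt w.1 x.1 = -24) ↔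
    (sqNorm (g • x : leechLattice).1 = 32 ∧ dotInt (g • v : leechLattice).1 (g • x : leechLattice).1 = 24
      ∧ dotInt (g • w : leechLattice).1 (g • x : leechLattice).1 = -24)
  rw [co0_norm, co0_dot, co0_dot]

theorem hs_count (v w : leechLattice) (hv : sqNorm v.1 = 48) (hw : sqNorm w.1 = 48)
    (hvw : dotInt v.1 w.1 = -32) : (hsSet v w).ncard = 100 := by
  have n2 : sqNorm (-hsA2 : leechLattice).1 = 48 := by
    show sqNorm (-hsA2.1) = 48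
    rw [sqNorm_neg', hsA2_norm]
  have d2 : dotInt hsA1.1 (-hsA2 : leechLattice).1 = -32 := by
    show dotInt hsA1.1 (-hsA2.1) = -32
    rw [dotInt_neg_right, hsA_dot]
  obtain ⟨g, hg1, hg2⟩ := pairs48 v w hsA1 (-hsA2) hv hw hsA1_norm n2 hvw d2
  have h := census_sub hsL hsL_len 24 0 24 0
  rw [hs_c1, hs_c2, hs_c3] at h
  have h' : {w : leechLattice | sqNorm w.1 = 32 ∧ CP hsL 24 0 24 0 w.1}.ncard = 100 := h
  rw [← h']
  apply ncard_smul g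
  intro x
  rw [hsSet_smul g v w x, hg1, hg2]
  show (sqNorm (g • x : leechLattice).1 = 32 ∧ dotInt hsA1.1 (g • x : leechLattice).1 = 24
      ∧ dotInt (-hsA2.1) (g • x : leechLattice).1 = -24) ↔
    (sqNorm (g • x : leechLattice).1 = 32 ∧ dotInt hsA1.1 (g • x : leechLattice).1 = ((24 : ℕ) : ℤ) - ((0 : ℕ) : ℤ)
      ∧ dotInt hsA2.1 (g • x : leechLattice).1 = ((24 : ℕ) : ℤ) - ((0 : ℕ) : ℤ))
  rw [dotInt_neg_left]
  have e : ((24 : ℕ) : ℤ) - ((0 : ℕ) : ℤ) = 24 := by norm_num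
  rw [e]
  constructor
  · rintro ⟨h1, h2, h3⟩
    exact ⟨h1, h2, by omega⟩
  · rintro ⟨h1, h2, h3⟩
    exact ⟨h1, h2, by omega⟩

/-- the base point of the orbit certificate -/
def hsX0 : leechLattice := ⟨vecL (hs_Y.getD 0 []), mem_of_chk _ (hs_mem 0 (by decide)).1⟩

theorem hs_transB : ∀ x ∈ hsSet hsB1 hsB2, ∀ x' ∈ hsSet hsB1 hsB2,
    ∃ g : Co0, (∀ r ∈ [hsB1, hsB2], g • r = r) ∧ g • x = x' := by
  have hlen : hs_Y.length = 100 := by decide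
  apply trans_of_cert (hsSet hsB1 hsB2) (fun g => ∀ r ∈ [hsB1, hsB2], g • r = r) ?_ ?_ hs_Y
    ?_ ?_ ?_ hs_inj hsX0
  · exact orbit_cert [hsB1, hsB2] hs_gens hs_val hs_fix hs_Y hs_par hs_gi hs_cert hsX0 rfl
  · intro g h hg hh r hr
    rw [mul_smul, hh r hr, hg r hr]
  · intro g hg r hr
    rw [inv_smul_eq_iff, hg r hr]
  · rw [hlen]
    exact hs_count hsB1 hsB2 hsB1_norm hsB2_norm hsB_dot
  · rw [hlen]; norm_num
  · intro k hk
    obtain ⟨h1, h2, h3, h4⟩ := hs_mem k hk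
    exact ⟨⟨vecL (hs_Y.getD k []), mem_of_chk _ h1⟩, ⟨h2, h3, h4⟩, rfl⟩

theorem hs_trans (v w : leechLattice) (hv : sqNorm v.1 = 48) (hw : sqNorm w.1 = 48)
    (hvw : dotInt v.1 w.1 = -32) : ∀ x ∈ hsSet v w, ∀ x' ∈ hsSet v w,
    ∃ g : Co0, g • v = v ∧ g • w = w ∧ g • x = x' := by
  obtain ⟨g, hg1, hg2⟩ := pairs48 v w hsB1 hsB2 hv hw hsB1_norm hsB2_norm hvw hsB_dot
  intro x hx x' hx'
  have hx2 : g • x ∈ hsSet hsB1 hsB2 := by
    have := (hsSet_smul g v w x).mp hx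
    rwa [hg1, hg2] at this
  have hx2' : g • x' ∈ hsSet hsB1 hsB2 := by
    have := (hsSet_smul g v w x').mp hx'
    rwa [hg1, hg2] at this
  obtain ⟨h, hh, hhx⟩ := hs_transB _ hx2 _ hx2'
  have h1 : h • hsB1 = hsB1 := hh hsB1 (by simp)
  have h2 : h • hsB2 = hsB2 := hh hsB2 (by simp)
  refine ⟨g⁻¹ * h * g, ?_, ?_, ?_⟩
  · rw [mul_smul, mul_smul, hg1, h1, ← hg1, inv_smul_smul]
  · rw [mul_smul, mul_smul, hg2, h2, ← hg2, inv_smul_smul]
  · rw [mul_smul, mul_smul, hhx, inv_smul_smul]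

end Cfsg.Agent.Helper27
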