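import Cfsg.Agent.Helper27.HSStab
import Cfsg.Agent.Helper27.SimpleCrit

set_option autoImplicit false
open Cfsg

/-! The stabiliser of a Higman–Sims pair is simple of order 44352000. -/

namespace Cfsg.Agent.Helper27

lemma hsSet_inv (v w : leechLattice)
    (g : ↥(MulAction.stabilizer Co0 v ⊓ MulAction.stabilizer Co0 w)) (x : leechLattice)
    (hx : x ∈ hsSet v w) : g • x ∈ hsSet v w := by
  have h1 : g.1 • v = v := (Subgroup.mem_inf.1 g.2).1
  have h2 : g.1 • w = w := (Subgroup.mem_inf.1 g.2).2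
  have := (hsSet_smul g.1 v w x).mp hx
  rwa [h1, h2] at this

lemma hs_orbit (v w x : leechLattice) (hv : sqNorm v.1 = 48) (hw : sqNorm w.1 = 48)
    (hvw : dotInt v.1 w.1 = -32) (hx : x ∈ hsSet v w) :
    MulAction.orbit ↥(MulAction.stabilizer Co0 v ⊓ MulAction.stabilizer Co0 w) x = hsSet v w := by
  ext y
  constructor
  · rintro ⟨g, rfl⟩
    exact hsSet_inv v w g x hx
  · intro hy
    obtain ⟨g, h1, h2, h3⟩ := hs_trans v w hv hw hvw x hx y hy
    exact ⟨⟨g, Subgroup.mem_inf.2 ⟨h1, h2⟩⟩, h3⟩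

lemma hs_nonempty (v w : leechLattice) (hv : sqNorm v.1 = 48) (hw : sqNorm w.1 = 48)
    (hvw : dotInt v.1 w.1 = -32) : ∃ x, x ∈ hsSet v w := by
  have h := hs_count v w hv hw hvw
  by_contra hcon
  have : hsSet v w = ∅ := Set.eq_empty_iff_forall_notMem.mpr (fun x hx => hcon ⟨x, hx⟩)
  rw [this, Set.ncard_empty] at h
  omega

/-- the order of the stabiliser of a Higman–Sims pair -/
theorem hs_card (v w : leechLattice) (hv : sqNorm v.1 = 48) (hw : sqNorm w.1 = 48)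
    (hvw : dotInt v.1 w.1 = -32) :
    Nat.card ↥(MulAction.stabilizer Co0 v ⊓ MulAction.stabilizer Co0 w) = 44352000 := by
  obtain ⟨x, hx⟩ := hs_nonempty v w hv hw hvw
  have h1 := Subgroup.index_mul_card (MulAction.stabilizer
    ↥(MulAction.stabilizer Co0 v ⊓ MulAction.stabilizer Co0 w) x)
  rw [MulAction.index_stabilizer, hs_orbit v w x hv hw hvw hx, hs_count v w hv hw hvw,
    hs_stab_card v w x hv hw hvw hx] at h1
  omega

/-- the stabiliser of a Higman–Sims pair is simple -/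
theorem hs_simple (v w : leechLattice) (hv : sqNorm v.1 = 48) (hw : sqNorm w.1 = 48)
    (hvw : dotInt v.1 w.1 = -32) :
    IsSimpleGroup ↥(MulAction.stabilizer Co0 v ⊓ MulAction.stabilizer Co0 w) := by
  obtain ⟨x, hx⟩ := hs_nonempty v w hv hw hvw
  obtain ⟨c1, c2, htr⟩ := hs_rank3 v w x hv hw hvw hx
  have hcnt := hs_count v w hv hw hvw
  have hfin : (hsSet v w).Finite := Set.finite_of_ncard_ne_zero (by rw [hcnt]; norm_num)
  haveI : Finite ↥Co0 := Nat.finite_of_card_ne_zero (by rw [card_Co0]; norm_num)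
  have hxx : dotInt x.1 x.1 = 32 := by rw [dotInt_self]; exact hx.1
  have hcardG := hs_card v w hv hw hvw
  apply simple_of_suborbits (k := 2) (hsSet v w) x hx hfin
    (fun g y hy => hsSet_inv v w g y hy)
    (fun y hy => by
      obtain ⟨g, h1, h2, h3⟩ := hs_trans v w hv hw hvw x hx y hy
      exact ⟨⟨g, Subgroup.mem_inf.2 ⟨h1, h2⟩⟩, h3⟩)
    (hs_stab_simple v w x hv hw hvw hx)
    ![{y : leechLattice | y ∈ hsSet v w ∧ dotInt x.1 y.1 = 8},
      {y : leechLattice | y ∈ hsSet v w ∧ y ≠ x ∧ dotInt x.1 y.1 ≠ 8}]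
    ![22, 77]
  · intro y hy hyx
    by_cases h8 : dotInt x.1 y.1 = 8
    · exact ⟨0, hy, h8⟩
    · exact ⟨1, hy, hyx, h8⟩
  · rw [Fin.forall_fin_two]
    exact ⟨fun y hy => hy.1, fun y hy => hy.1⟩
  · rw [Fin.forall_fin_two]
    refine ⟨fun h => ?_, fun h => h.2.1 rfl⟩
    have : dotInt x.1 x.1 = 8 := h.2
    omega
  · intro i j hij
    rw [Set.disjoint_left]
    fin_cases i <;> fin_cases j
    · exact absurd rfl hij
    · rintro y ⟨_, h8⟩ ⟨_, _, h8'⟩
      exact h8' h8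
    · rintro y ⟨_, _, h8'⟩ ⟨_, h8⟩
      exact h8' h8
    · exact absurd rfl hij
  · rw [Fin.forall_fin_two]
    exact ⟨c1, c2⟩
  · rw [Fin.forall_fin_two]
    constructor
    · rintro y ⟨hy, h8⟩ y' ⟨hy', h8'⟩
      have n1 : y ≠ x := by
        rintro rfl
        omega
      have n2 : y' ≠ x := by
        rintro rfl
        omega
      obtain ⟨g, g1, g2, g3, g4⟩ := htr y hy y' hy' n1 n2 ⟨fun _ => h8', fun _ => h8⟩
      exact ⟨⟨g, Subgroup.mem_inf.2 ⟨g1, g2⟩⟩, g3, g4⟩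
    · rintro y ⟨hy, n1, h8⟩ y' ⟨hy', n2, h8'⟩
      obtain ⟨g, g1, g2, g3, g4⟩ := htr y hy y' hy' n1 n2
        ⟨fun h => absurd h h8, fun h => absurd h h8'⟩
      exact ⟨⟨g, Subgroup.mem_inf.2 ⟨g1, g2⟩⟩, g3, g4⟩
  · exact ⟨0, by norm_num⟩
  · rw [hcardG]
    decide
  · exact (by norm_num : 1 < 25)
  · rw [hcnt]; norm_num
  · exact Nat.prime_two
  · rw [hcnt]; norm_num
  · norm_num
  · decide

end Cfsg.Agent.Helper27
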