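import Cfsg.Agent.Helper27.HS3
import Cfsg.Agent.Helper27.Co0Order
import Cfsg.Agent.S0379
import Cfsg.Agent.S0378

set_option autoImplicit false
open Cfsg

/-! The stabiliser of a Higman–Sims triple in the automorphism group of the lattice is the group
of coordinate permutations from the two-point stabiliser of the code's group; in particular it is
simple of order 443520. -/

namespace Cfsg.Agent.Helper27

/-- the standard first vector `(5, 1, …, 1)` -/
def sv0f : GolayPt → ℤ := fun i => if i = none then 5 else 1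

/-- the standard second vector `-(1, 5, 1, …, 1)` -/
def sw0f : GolayPt → ℤ := fun i => if i = some 0 then -5 else -1

/-- the standard point `(4, 4, 0, …, 0)` -/
def sx0f : GolayPt → ℤ := fun i => if i = none ∨ i = some 0 then 4 else 0

lemma sv0f_chk : Chk sv0f := by decide +kernel
lemma sw0f_chk : Chk sw0f := by decide +kernel
lemma sx0f_chk : Chk sx0f := by decide +kernel

/-- the standard first vector -/
def sv0 : leechLattice := ⟨sv0f, mem_of_chk _ sv0f_chk⟩
/-- the standard second vector -/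
def sw0 : leechLattice := ⟨sw0f, mem_of_chk _ sw0f_chk⟩
/-- the standard point -/
def sx0 : leechLattice := ⟨sx0f, mem_of_chk _ sx0f_chk⟩

lemma sv0_norm : sqNorm sv0.1 = 48 := by decide +kernel
lemma sw0_norm : sqNorm sw0.1 = 48 := by decide +kernel
lemma s0_dot : dotInt sv0.1 sw0.1 = -32 := by decide +kernel
lemma sx0_mem : sx0 ∈ hsSet sv0 sw0 := by
  refine ⟨?_, ?_, ?_⟩ <;> decide +kernel

lemma sE_eq : Cfsg.Agent.Helper27.x0 = sx0 + sv0 + sw0 := by
  apply Subtype.ext
  funext i
  show (leechE none : GolayPt → ℤ) i = sx0f i + sv0f i + sw0f i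
  rw [leechE_eq]
  revert i
  decide +kernel

lemma sv0f_pos (j : GolayPt) : 0 < sv0f j := by
  unfold sv0f; split_ifs <;> norm_num

lemma sv0f_five (j : GolayPt) (h : sv0f j = 5) : j = none := by
  unfold sv0f at h
  by_contra hj
  rw [if_neg hj] at h
  omega

lemma sw0f_five (j : GolayPt) (h : sw0f j = -5) : j = some 0 := by
  unfold sw0f at h
  by_contra hj
  rw [if_neg hj] at h
  omega

/-- an automorphism fixing the standard triple is a coordinate permutation -/
lemma fix_perm (g : Co0) (h1 : g • sv0 = sv0) (h2 : g • sw0 = sw0) (h3 : g • sx0 = sx0) :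
    ∃ (σ : Equiv.Perm GolayPt) (hσ : σ ∈ M24), σ none = none ∧ σ (some 0) = some 0 ∧
      g = permC σ hσ := by
  have hg : g • Cfsg.Agent.Helper27.x0 = Cfsg.Agent.Helper27.x0 := by
    rw [sE_eq, co0_add, co0_add, h1, h2, h3]
  obtain ⟨σ, c, hσ, hc, hact⟩ := mono_of_stab g (fix_stab g hg)
  have hv : ∀ i, signedPerm σ c sv0f i = sv0f i := by
    intro i
    have := hact sv0
    rw [h1] at this
    exact (congrFun this i).symm
  have hw : ∀ i, signedPerm σ c sw0f i = sw0f i := by
    intro i
    have := hact sw0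
    rw [h2] at this
    exact (congrFun this i).symm
  have hc0 : ∀ i, i ∉ c := by
    intro i hi
    have := hv i
    unfold signedPerm at this
    rw [if_pos hi] at this
    have p1 := sv0f_pos (σ.symm i)
    have p2 := sv0f_pos i
    omega
  have hs1 : σ.symm none = none := by
    apply sv0f_five
    have := hv none
    unfold signedPerm at this
    rw [if_neg (hc0 none)] at this
    rw [this]
    rfl
  have hs2 : σ.symm (some 0) = some 0 := by
    apply sw0f_five
    have := hw (some 0)
    unfold signedPerm at this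
    rw [if_neg (hc0 (some 0))] at this
    rw [this]
    rfl
  refine ⟨σ, hσ, ?_, ?_, ?_⟩
  · exact (Equiv.symm_apply_eq σ).mp hs1 |>.symm
  · exact (Equiv.symm_apply_eq σ).mp hs2 |>.symm
  · apply co0_ext
    intro v
    rw [hact v, permC_apply]
    funext i
    unfold signedPerm permFun
    rw [if_neg (hc0 i)]

lemma permFun_fix (σ : Equiv.Perm GolayPt) (f : GolayPt → ℤ)
    (h : ∀ i, f (σ.symm i) = f i) : permFun σ f = f := by
  funext i
  exact h i

/-- the two-point stabiliser of the code's group -/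
abbrev M22sub : Subgroup ↥M24 :=
  MulAction.stabilizer M24 (none : GolayPt) ⊓ MulAction.stabilizer M24 (some 0 : GolayPt)

/-- the stabiliser of the standard triple -/
abbrev K0sub : Subgroup Co0 :=
  MulAction.stabilizer Co0 sv0 ⊓ MulAction.stabilizer Co0 sw0 ⊓ MulAction.stabilizer Co0 sx0

/-- coordinate permutations as a homomorphism -/
def m22Hom : ↥M22sub →* Co0 where
  toFun τ := permC τ.1.1 τ.1.2
  map_one' := co0_ext _ _ (fun _ => rfl)
  map_mul' _ _ := co0_ext _ _ (fun _ => rfl)

lemma m22Hom_inj : Function.Injective m22Hom := by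
  intro a b hab
  apply Subtype.ext
  apply Subtype.ext
  have h : ∀ v : leechLattice, signedPerm a.1.1 ∅ v.1 = signedPerm b.1.1 ∅ v.1 := by
    intro v
    have h1 : ((m22Hom a • v : leechLattice) : GolayPt → ℤ) = ((m22Hom b • v : leechLattice) : GolayPt → ℤ) := by
      rw [hab]
    have e : ∀ τ : Equiv.Perm GolayPt, signedPerm τ ∅ v.1 = permFun τ v.1 := by
      intro τ
      funext i
      unfold signedPerm permFun
      rw [if_neg (Finset.notMem_empty i)]
    rw [e, e]
    exact h1
  exact (mono_inj _ _ _ _ h).1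

lemma m22Hom_range : m22Hom.range = K0sub := by
  ext g
  constructor
  · rintro ⟨τ, rfl⟩
    have t1 : τ.1.1 none = none := (Subgroup.mem_inf.1 τ.2).1
    have t2 : τ.1.1 (some 0) = some 0 := (Subgroup.mem_inf.1 τ.2).2
    have s1 : ∀ i, τ.1.1.symm i = none ↔ i = none := by
      intro i
      rw [Equiv.symm_apply_eq, t1]
    have s2 : ∀ i, τ.1.1.symm i = some 0 ↔ i = some 0 := by
      intro i
      rw [Equiv.symm_apply_eq, t2]
    refine Subgroup.mem_inf.2 ⟨Subgroup.mem_inf.2 ⟨?_, ?_⟩, ?_⟩
    · rw [MulAction.mem_stabilizer_iff]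
      apply Subtype.ext
      show permFun τ.1.1 sv0f = sv0f
      apply permFun_fix
      intro i
      unfold sv0f
      simp only [s1]
    · rw [MulAction.mem_stabilizer_iff]
      apply Subtype.ext
      show permFun τ.1.1 sw0f = sw0f
      apply permFun_fix
      intro i
      unfold sw0f
      simp only [s2]
    · rw [MulAction.mem_stabilizer_iff]
      apply Subtype.ext
      show permFun τ.1.1 sx0f = sx0f
      apply permFun_fix
      intro i
      unfold sx0f
      simp only [s1, s2]
  · intro hg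
    obtain ⟨⟨h1, h2⟩, h3⟩ := hg
    obtain ⟨σ, hσ, f1, f2, rfl⟩ := fix_perm g h1 h2 h3
    exact ⟨⟨⟨σ, hσ⟩, Subgroup.mem_inf.2 ⟨f1, f2⟩⟩, rfl⟩

/-- the stabiliser of the standard triple is the two-point stabiliser of the code's group -/
noncomputable def m22Equiv : ↥M22sub ≃* ↥K0sub :=
  (MonoidHom.ofInjective m22Hom_inj).trans (MulEquiv.subgroupCongr m22Hom_range)

instance K0_simple : IsSimpleGroup ↥K0sub := by
  haveI := Cfsg.Agent.S0379.result none (some 0) (by decide)
  exact (MulEquiv.isSimpleGroup_congr m22Equiv).1 inferInstance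

lemma K0_card : Nat.card ↥K0sub = 443520 := by
  rw [← Nat.card_congr m22Equiv.toEquiv]
  exact Cfsg.Agent.S0378.result none (some 0) (by decide)

/-- conjugate subgroups are isomorphic -/
def conjEquivSub (K K' : Subgroup Co0) (g : Co0) (h : ∀ k, k ∈ K' ↔ g⁻¹ * k * g ∈ K) :
    ↥K ≃* ↥K' where
  toFun k := ⟨g * k.1 * g⁻¹, (h _).2 (by
    have e : g⁻¹ * (g * k.1 * g⁻¹) * g = k.1 := by
      simp only [mul_assoc, inv_mul_cancel_left, inv_mul_cancel, mul_one]
    rw [e]; exact k.2)⟩
  invFun k := ⟨g⁻¹ * k.1 * g, (h _).1 k.2⟩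
  left_inv k := Subtype.ext (by
    show g⁻¹ * (g * k.1 * g⁻¹) * g = k.1
    simp only [mul_assoc, inv_mul_cancel_left, inv_mul_cancel, mul_one])
  right_inv k := Subtype.ext (by
    show g * (g⁻¹ * k.1 * g) * g⁻¹ = k.1
    simp only [mul_assoc, mul_inv_cancel_left, mul_inv_cancel, mul_one])
  map_mul' a b := Subtype.ext (by
    show g * (a.1 * b.1) * g⁻¹ = (g * a.1 * g⁻¹) * (g * b.1 * g⁻¹)
    simp only [mul_assoc, inv_mul_cancel_left])

/-- all Higman–Sims triples are conjugate to the standard one -/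
lemma triple_conj (v w x : leechLattice) (hv : sqNorm v.1 = 48) (hw : sqNorm w.1 = 48)
    (hvw : dotInt v.1 w.1 = -32) (hx : x ∈ hsSet v w) :
    ∃ g : Co0, g • sv0 = v ∧ g • sw0 = w ∧ g • sx0 = x := by
  obtain ⟨g1, e1, e2⟩ := pairs48 sv0 sw0 v w sv0_norm sw0_norm hv hw s0_dot hvw
  have hx1 : g1 • sx0 ∈ hsSet v w := by
    have := (hsSet_smul g1 sv0 sw0 sx0).mp sx0_mem
    rwa [e1, e2] at this
  obtain ⟨h, hh1, hh2, hh3⟩ := hs_trans v w hv hw hvw _ hx1 _ hx
  exact ⟨h * g1, by rw [mul_smul, e1, hh1], by rw [mul_smul, e2, hh2], by rw [mul_smul, hh3]⟩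

/-- the stabiliser of any Higman–Sims triple is isomorphic to the standard one -/
lemma triple_equiv (v w x : leechLattice) (hv : sqNorm v.1 = 48) (hw : sqNorm w.1 = 48)
    (hvw : dotInt v.1 w.1 = -32) (hx : x ∈ hsSet v w) :
    Nonempty (↥K0sub ≃* ↥(MulAction.stabilizer Co0 v ⊓ MulAction.stabilizer Co0 w ⊓
      MulAction.stabilizer Co0 x)) := by
  obtain ⟨g, e1, e2, e3⟩ := triple_conj v w x hv hw hvw hx
  refine ⟨conjEquivSub _ _ g ?_⟩
  intro k
  simp only [Subgroup.mem_inf, MulAction.mem_stabilizer_iff, mul_smul, e1, e2, e3,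
    inv_smul_eq_iff]

/-- the point stabiliser inside the stabiliser of the pair -/
def nestEquiv (v w x : leechLattice) :
    ↥(MulAction.stabilizer ↥(MulAction.stabilizer Co0 v ⊓ MulAction.stabilizer Co0 w) x) ≃*
      ↥(MulAction.stabilizer Co0 v ⊓ MulAction.stabilizer Co0 w ⊓ MulAction.stabilizer Co0 x) where
  toFun h := ⟨h.1.1, Subgroup.mem_inf.2 ⟨h.1.2, h.2⟩⟩
  invFun k := ⟨⟨k.1, (Subgroup.mem_inf.1 k.2).1⟩, (Subgroup.mem_inf.1 k.2).2⟩
  left_inv _ := rfl
  right_inv _ := rfl
  map_mul' _ _ := rfl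

/-- the point stabiliser of the Higman–Sims action is simple -/
lemma hs_stab_simple (v w x : leechLattice) (hv : sqNorm v.1 = 48) (hw : sqNorm w.1 = 48)
    (hvw : dotInt v.1 w.1 = -32) (hx : x ∈ hsSet v w) :
    IsSimpleGroup ↥(MulAction.stabilizer
      ↥(MulAction.stabilizer Co0 v ⊓ MulAction.stabilizer Co0 w) x) := by
  obtain ⟨e⟩ := triple_equiv v w x hv hw hvw hx
  exact (MulEquiv.isSimpleGroup_congr (e.trans (nestEquiv v w x).symm)).1 inferInstance

lemma hs_stab_card (v w x : leechLattice) (hv : sqNorm v.1 = 48) (hw : sqNorm w.1 = 48)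
    (hvw : dotInt v.1 w.1 = -32) (hx : x ∈ hsSet v w) :
    Nat.card ↥(MulAction.stabilizer
      ↥(MulAction.stabilizer Co0 v ⊓ MulAction.stabilizer Co0 w) x) = 443520 := by
  obtain ⟨e⟩ := triple_equiv v w x hv hw hvw hx
  rw [← Nat.card_congr (e.trans (nestEquiv v w x).symm).toEquiv]
  exact K0_card

end Cfsg.Agent.Helper27
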