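import Cfsg.Agent.Helper27.PermChain2
import Cfsg.Agent.Helper27.J2Chk
import Cfsg.Agent.Helper27.SimpleCrit2

namespace Cfsg.Agent.Helper27.J2

open Cfsg.Agent.Helper27.PC

lemma g1v : ∀ s ∈ g1, Valid 100 s := by
  intro s hs
  simp only [g1, g2, g3, g4, List.mem_cons, List.mem_nil_iff, or_false] at hs
  rcases hs with rfl | rfl | rfl | rfl
  exacts [valid_of_okPair ok1, valid_of_okPair ok2, valid_of_okPair ok3, valid_of_okPair ok4]

lemma g2v : ∀ s ∈ g2, Valid 100 s := fun s hs => g1v s (List.mem_cons_of_mem _ hs)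
lemma g3v : ∀ s ∈ g3, Valid 100 s := fun s hs => g2v s (List.mem_cons_of_mem _ hs)
lemma g4v : ∀ s ∈ g4, Valid 100 s := fun s hs => g3v s (List.mem_cons_of_mem _ hs)

lemma T4p : ∀ t ∈ T4, Valid 100 t ∧ pm 100 t ∈ gp 100 g4 := tree_sound g4v t4
lemma T3p : ∀ t ∈ T3, Valid 100 t ∧ pm 100 t ∈ gp 100 g3 := tree_sound g3v t3
lemma T2p : ∀ t ∈ T2, Valid 100 t ∧ pm 100 t ∈ gp 100 g2 := tree_sound g2v t2
lemma T1p : ∀ t ∈ T1, Valid 100 t ∧ pm 100 t ∈ gp 100 g1 := tree_sound g1v t1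
lemma E2p : ∀ t ∈ E2, Valid 100 t ∧ pm 100 t ∈ gp 100 g2 := tree_sound g2v te2

lemma le43 : gp 100 g4 ≤ gp 100 g3 := gp_mono (fun s hs => List.mem_cons_of_mem _ hs)
lemma le32 : gp 100 g3 ≤ gp 100 g2 := gp_mono (fun s hs => List.mem_cons_of_mem _ hs)
lemma le21 : gp 100 g2 ≤ gp 100 g1 := gp_mono (fun s hs => List.mem_cons_of_mem _ hs)

lemma lev4 : ∀ g ∈ gp 100 g4, ∃ u ∈ T4, ∃ k ∈ (⊥ : Subgroup (Equiv.Perm (Fin 100))),
    g = pm 100 u * k :=
  level g4 T4 [] C4 ⊥ g4v (fun t ht => (T4p t ht).1) (by simp) id4 (by simp) c4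

lemma lev3 : ∀ g ∈ gp 100 g3, ∃ u ∈ T3, ∃ k ∈ gp 100 g4, g = pm 100 u * k := by
  refine level g3 T3 [T4] C3 (gp 100 g4) g3v (fun t ht => (T3p t ht).1) ?_ id3 ?_ c3
  · intro T' hT' t ht
    simp only [List.mem_cons, List.mem_nil_iff, or_false] at hT'
    subst hT'
    exact (T4p t ht).1
  · intro T' hT' t ht
    simp only [List.mem_cons, List.mem_nil_iff, or_false] at hT'
    subst hT'
    exact (T4p t ht).2

lemma lev2 : ∀ g ∈ gp 100 g2, ∃ u ∈ T2, ∃ k ∈ gp 100 g3, g = pm 100 u * k := by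
  refine level g2 T2 [T3, T4] C2 (gp 100 g3) g2v (fun t ht => (T2p t ht).1) ?_ id2 ?_ c2
  · intro T' hT' t ht
    simp only [List.mem_cons, List.mem_nil_iff, or_false] at hT'
    rcases hT' with rfl | rfl
    · exact (T3p t ht).1
    · exact (T4p t ht).1
  · intro T' hT' t ht
    simp only [List.mem_cons, List.mem_nil_iff, or_false] at hT'
    rcases hT' with rfl | rfl
    · exact (T3p t ht).2
    · exact le43 (T4p t ht).2

lemma lev1 : ∀ g ∈ gp 100 g1, ∃ u ∈ T1, ∃ k ∈ gp 100 g2, g = pm 100 u * k := by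
  refine level g1 T1 [T2, T3, T4] C1 (gp 100 g2) g1v (fun t ht => (T1p t ht).1) ?_ id1 ?_ c1
  · intro T' hT' t ht
    simp only [List.mem_cons, List.mem_nil_iff, or_false] at hT'
    rcases hT' with rfl | rfl | rfl
    · exact (T2p t ht).1
    · exact (T3p t ht).1
    · exact (T4p t ht).1
  · intro T' hT' t ht
    simp only [List.mem_cons, List.mem_nil_iff, or_false] at hT'
    rcases hT' with rfl | rfl | rfl
    · exact (T2p t ht).2
    · exact le32 (T3p t ht).2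
    · exact le32 (le43 (T4p t ht).2)

lemma fixH2 : ∀ k ∈ gp 100 g2, k (0 : Fin 100) = 0 := gp_fix g2 0 g2v fix2
lemma fixH3 : ∀ k ∈ gp 100 g3, k (1 : Fin 100) = 1 := gp_fix g3 1 g3v fix3
lemma fixH4 : ∀ k ∈ gp 100 g4, k (42 : Fin 100) = 42 := gp_fix g4 42 g4v fix4

lemma card4 : Nat.card (gp 100 g4) = 4 := by
  have := level_card g4 T4 ⊥ (9 : Fin 100) (fun t ht => (T4p t ht).1) (fun t ht => (T4p t ht).2)
    bot_le (by intro k hk; rw [Subgroup.mem_bot] at hk; subst hk; simp) nd4 lev4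
  rw [this, len4]
  simp

lemma card3 : Nat.card (gp 100 g3) = 168 := by
  have := level_card g3 T3 (gp 100 g4) (42 : Fin 100) (fun t ht => (T3p t ht).1)
    (fun t ht => (T3p t ht).2) le43 fixH4 nd3 lev3
  rw [this, len3, card4]

lemma card2 : Nat.card (gp 100 g2) = 6048 := by
  have := level_card g2 T2 (gp 100 g3) (1 : Fin 100) (fun t ht => (T2p t ht).1)
    (fun t ht => (T2p t ht).2) le32 fixH3 nd2 lev2
  rw [this, len2, card3]

lemma card1 : Nat.card (gp 100 g1) = 604800 := by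
  have := level_card g1 T1 (gp 100 g2) (0 : Fin 100) (fun t ht => (T1p t ht).1)
    (fun t ht => (T1p t ht).2) le21 fixH2 nd1 lev1
  rw [this, len1, card2]

lemma stab2 : ∀ g ∈ gp 100 g2, g (1 : Fin 100) = 1 → g ∈ gp 100 g3 :=
  level_stab g2 T2 (gp 100 g3) 1 (fun t ht => (T2p t ht).1) id2 fixH3 nd2 lev2

lemma stab1 : ∀ g ∈ gp 100 g1, g (0 : Fin 100) = 0 → g ∈ gp 100 g2 :=
  level_stab g1 T1 (gp 100 g2) 0 (fun t ht => (T1p t ht).1) id1 fixH2 nd1 lev1

lemma els3p : ∀ e ∈ els3, Valid 100 e ∧ pm 100 e ∈ gp 100 g3 := by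
  intro e he
  rw [← els3_eq] at he
  obtain ⟨u, hu, hv⟩ := List.mem_flatMap.1 he
  obtain ⟨v, hv4, rfl⟩ := List.mem_map.1 hv
  obtain ⟨huv, hum⟩ := T3p u hu
  obtain ⟨hvv, hvm⟩ := T4p v hv4
  exact ⟨valid_comp huv hvv, by rw [pm_comp huv hvv]; exact Subgroup.mul_mem _ hum (le43 hvm)⟩

lemma els3cov : ∀ g ∈ gp 100 g3, ∃ e ∈ els3, g = pm 100 e := by
  intro g hg
  obtain ⟨u, hu, k, hk, rfl⟩ := lev3 g hg
  obtain ⟨v, hv, k', hk', rfl⟩ := lev4 k hk
  rw [Subgroup.mem_bot] at hk'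
  subst hk'
  refine ⟨comp 100 u v, ?_, ?_⟩
  · rw [← els3_eq]
    exact List.mem_flatMap.2 ⟨u, hu, List.mem_map.2 ⟨v, hv, rfl⟩⟩
  · rw [pm_comp (T3p u hu).1 (T4p v hv).1, mul_one]

theorem H3_simple : IsSimpleGroup (gp 100 g3) := by
  refine simple_of_nc els3 g3 NC els3p els3cov ⟨pm 100 s3, pm_mem_gp (by simp [g3]), ?_⟩ nc3
  intro h
  exact s3_ne (pm_eq_one (g3v s3 (by simp [g3])) h)

/-- the suborbits of `H3` on the 36 points -/
def Ms : Fin 3 → List ℕ := ![M1, M2, M3]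
def cs : Fin 3 → Fin 100 := ![2, 3, 4]

theorem H2_simple : IsSimpleGroup (gp 100 g2) := by
  have hstab : IsSimpleGroup (MulAction.stabilizer (gp 100 g2) (1 : Fin 100)) :=
    stab_simple (gp 100 g2) (gp 100 g3) 1 le32 fixH3 stab2 H3_simple
  have hΩ : {x : Fin 100 | x.val ∈ L0}.ncard = 36 := by
    rw [ncard_list L0 L0_nd.1 L0_nd.2, L_len.1]
  have hcovM : ∀ i : Fin 3, ∀ y ∈ Ms i, ∃ e ∈ els3, app e (cs i).val = y := by
    intro i
    fin_cases i
    · exact covM1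
    · exact covM2
    · exact covM3
  have hMnd : ∀ i : Fin 3, (Ms i).Nodup ∧ ∀ y ∈ Ms i, y < 100 := by
    intro i
    fin_cases i
    · exact M1_nd
    · exact M2_nd
    · exact M3_nd
  apply simple_of_suborbits' (G := gp 100 g2) (X := Fin 100) (k := 3) (m₁ := 4) (m₂ := 9)
    {x : Fin 100 | x.val ∈ L0} (1 : Fin 100) M_one.2.2.2 (Set.toFinite _)
    (fun g x hx => gp_inv g2 L0 g2v inv2 g.1 g.2 x hx)
    (fun x hx => orbit_of_cover (gp 100 g2) 1 T2 T2p L0 cov2 x hx)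
    hstab
    (fun i => {x : Fin 100 | x.val ∈ Ms i}) ![7, 21, 7]
  · intro x hx hx1
    have hx1' : x.val ≠ 1 := fun h => hx1 (Fin.ext h)
    rcases M_cover x.val hx hx1' with h | h | h
    · exact ⟨0, h⟩
    · exact ⟨1, h⟩
    · exact ⟨2, h⟩
  · intro i x hx
    fin_cases i
    · exact M_sub.1 _ hx
    · exact M_sub.2.1 _ hx
    · exact M_sub.2.2 _ hx
  · intro i
    fin_cases i
    · exact M_one.1
    · exact M_one.2.1
    · exact M_one.2.2.1
  · intro i j hij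
    rw [Set.disjoint_left]
    fin_cases i <;> fin_cases j
    · exact absurd rfl hij
    · exact fun x h1 h2 => M_disj.1 _ h1 h2
    · exact fun x h1 h2 => M_disj.2.1 _ h1 h2
    · exact fun x h1 h2 => M_disj.1 _ h2 h1
    · exact absurd rfl hij
    · exact fun x h1 h2 => M_disj.2.2 _ h1 h2
    · exact fun x h1 h2 => M_disj.2.1 _ h2 h1
    · exact fun x h1 h2 => M_disj.2.2 _ h2 h1
    · exact absurd rfl hij
  · intro i
    rw [ncard_list (Ms i) (hMnd i).1 (hMnd i).2]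
    fin_cases i
    · exact L_len.2.2.1
    · exact L_len.2.2.2.1
    · exact L_len.2.2.2.2
  · intro i y hy y' hy'
    exact trans_of_cover (gp 100 g2) (gp 100 g3) 1 le32 fixH3 els3 els3p (cs i) (Ms i)
      (hcovM i) y y' hy hy'
  · exact ⟨0, by norm_num⟩
  · rw [hΩ]
    exact arithA1
  · rw [hΩ]; norm_num
  · rw [hΩ]; norm_num
  · norm_num
  · exact arithA2

def Ls : Fin 2 → List ℕ := ![L0, L1]
def ds : Fin 2 → Fin 100 := ![1, 37]

theorem H1_simple : IsSimpleGroup (gp 100 g1) := by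
  have hstab : IsSimpleGroup (MulAction.stabilizer (gp 100 g1) (0 : Fin 100)) :=
    stab_simple (gp 100 g1) (gp 100 g2) 0 le21 fixH2 stab1 H2_simple
  have hΩ : (Set.univ : Set (Fin 100)).ncard = 100 := by
    rw [Set.ncard_univ]; simp
  have hLnd : ∀ i : Fin 2, (Ls i).Nodup ∧ ∀ y ∈ Ls i, y < 100 := by
    intro i
    fin_cases i
    · exact L0_nd
    · exact L1_nd
  have hall : ∀ y ∈ List.range 100, ∃ e ∈ T1, app e (0 : Fin 100).val = y := by
    intro y hy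
    exact cov1 y (List.mem_range.1 hy)
  apply simple_of_suborbits' (G := gp 100 g1) (X := Fin 100) (k := 2) (m₁ := 4) (m₂ := 25)
    (Set.univ : Set (Fin 100)) (0 : Fin 100) (Set.mem_univ _) (Set.toFinite _)
    (fun g x _ => Set.mem_univ _)
    (fun x _ => orbit_of_cover (gp 100 g1) 0 T1 T1p (List.range 100) hall x
      (List.mem_range.2 x.2))
    hstab
    (fun i => {x : Fin 100 | x.val ∈ Ls i}) ![36, 63]
  · intro x _ hx0
    have hx0' : x.val ≠ 0 := fun h => hx0 (Fin.ext h)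
    rcases L_cover x.val x.2 hx0' with h | h
    · exact ⟨0, h⟩
    · exact ⟨1, h⟩
  · intro i x _
    exact Set.mem_univ _
  · intro i
    fin_cases i
    · exact L_zero.1
    · exact L_zero.2
  · intro i j hij
    rw [Set.disjoint_left]
    fin_cases i <;> fin_cases j
    · exact absurd rfl hij
    · exact fun x h1 h2 => L_disj _ h1 h2
    · exact fun x h1 h2 => L_disj _ h2 h1
    · exact absurd rfl hij
  · intro i
    rw [ncard_list (Ls i) (hLnd i).1 (hLnd i).2]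
    fin_cases i
    · exact L_len.1
    · exact L_len.2.1
  · intro i y hy y' hy'
    fin_cases i
    · exact trans_of_cover (gp 100 g1) (gp 100 g2) 0 le21 fixH2 T2 T2p (1 : Fin 100) L0
        cov2 y y' hy hy'
    · exact trans_of_cover (gp 100 g1) (gp 100 g2) 0 le21 fixH2 E2 E2p (37 : Fin 100) L1
        covE2 y y' hy hy'
  · exact ⟨0, by norm_num⟩
  · rw [hΩ]
    exact arithB1
  · rw [hΩ]; norm_num
  · rw [hΩ]; norm_num
  · norm_num
  · exact arithB2

theorem j2_exists : ∃ G : Subgroup (Equiv.Perm (Fin 100)), IsSimpleGroup G ∧ Nat.card G = 604800 :=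
  ⟨gp 100 g1, H1_simple, card1⟩

end Cfsg.Agent.Helper27.J2
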