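import Mathlib
import Cfsg.Prelude.Def_Spor_Conway

set_option autoImplicit false

namespace Cfsg.Agent.Helper27

open Cfsg

/-- `8` times the `i`-th coordinate vector, a member of the lattice. -/
def leechE (i : GolayPt) : leechLattice :=
  ⟨fun j => if j = i then 8 else 0, AddSubgroup.subset_closure
    (Spor.mem_leechSet_of_const_mod_four _ 0 0 (by decide)
      (fun j => by
        by_cases h : j = i
        · simp only [h, if_true]; decide
        · simp only [h, if_false]; rfl)
      (by
        rw [Finset.sum_ite_eq' Finset.univ i (fun _ => (8 : ℤ))]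
        simp only [Finset.mem_univ, if_true]
        decide))⟩

lemma leechE_apply (i j : GolayPt) : (leechE i : GolayPt → ℤ) j = if j = i then 8 else 0 := rfl

/-- an indicator-weighted sum over the 24 points. -/
lemma sum_ite_mul {R : Type*} [CommRing R] (j : GolayPt) (a : R) (x : GolayPt → R) :
    ∑ i, (if i = j then a else 0) * x i = a * x j := by
  rw [Finset.sum_eq_single j]
  · simp
  · intro b _ hb; simp [hb]
  · intro h; exact absurd (Finset.mem_univ j) h

lemma sum_ite_mul' {R : Type*} [CommRing R] (j : GolayPt) (a : R) (x : GolayPt → R) :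
    ∑ i, (if j = i then a else 0) * x i = a * x j := by
  rw [Finset.sum_eq_single j]
  · simp
  · intro b _ hb; simp [Ne.symm hb]
  · intro h; exact absurd (Finset.mem_univ j) h

/-- sum against the indicator of the two points carrying the vector `u`. -/
lemma sum_two_mul {R : Type*} [CommRing R] (a : R) (x : GolayPt → R) :
    ∑ i, (if i = none ∨ i = some 0 then a else 0) * x i = a * x none + a * x (some 0) := by
  have h : ∀ i : GolayPt, (if i = none ∨ i = some 0 then a else 0) * x i
      = (if i = none then a else 0) * x i + (if i = some 0 then a else 0) * x i := by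
    intro i
    by_cases h1 : i = none
    · subst h1; simp
    · by_cases h2 : i = some 0
      · subst h2; simp
      · simp [h1, h2]
  simp only [h, Finset.sum_add_distrib, sum_ite_mul]

lemma eight_smul_eq_sum (v : leechLattice) :
    (8 : ℤ) • v = ∑ i, ((v : GolayPt → ℤ) i) • leechE i := by
  apply Subtype.ext
  have h1 : ((∑ i, ((v : GolayPt → ℤ) i) • leechE i : leechLattice) : GolayPt → ℤ)
      = ∑ i, ((v : GolayPt → ℤ) i) • (leechE i : GolayPt → ℤ) := by
    rw [← AddSubgroup.coe_subtype, map_sum]
    rfl
  rw [h1]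
  funext j
  rw [Finset.sum_apply]
  show 8 * (v : GolayPt → ℤ) j = ∑ i, (v : GolayPt → ℤ) i * (if j = i then 8 else 0)
  have h2 : ∀ i, (v : GolayPt → ℤ) i * (if j = i then (8 : ℤ) else 0)
      = (if j = i then (8 : ℤ) else 0) * (v : GolayPt → ℤ) i := fun i => mul_comm _ _
  simp only [h2, sum_ite_mul']

/-- the basic identity for additive functionals on the lattice. -/
lemma key_hom (φ : leechLattice →+ ℤ) (v : leechLattice) :
    8 * φ v = ∑ i, (v : GolayPt → ℤ) i * φ (leechE i) := by
  have h := congrArg φ (eight_smul_eq_sum v)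
  rw [map_zsmul, map_sum] at h
  simp only [map_zsmul, smul_eq_mul] at h
  exact h

/-- the coordinate matrix of a self-map of the lattice with respect to the vectors `8 e_i`. -/
def cmat (f : leechLattice → leechLattice) : Matrix GolayPt GolayPt ℤ :=
  fun j i => (f (leechE i) : GolayPt → ℤ) j

lemma cmat_key (f : leechLattice → leechLattice) (hf : ∀ v w, f (v + w) = f v + f w)
    (v : leechLattice) (j : GolayPt) :
    8 * (f v : GolayPt → ℤ) j = ∑ i, cmat f j i * (v : GolayPt → ℤ) i := by
  have h := key_hom (AddMonoidHom.mk' (fun v => (f v : GolayPt → ℤ) j)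
    (by intro a b; rw [hf]; rfl)) v
  rw [AddMonoidHom.mk'_apply] at h
  rw [h]
  apply Finset.sum_congr rfl
  intro i _
  rw [mul_comm]
  rfl

lemma cmat_comp (f g : leechLattice → leechLattice) (hf : ∀ v w, f (v + w) = f v + f w) :
    (8 : ℤ) • cmat (f ∘ g) = cmat f * cmat g := by
  ext j i
  rw [Matrix.smul_apply, Matrix.mul_apply, smul_eq_mul]
  exact cmat_key f hf (g (leechE i)) j

lemma cmat_id : cmat id = (8 : ℤ) • (1 : Matrix GolayPt GolayPt ℤ) := by
  ext j i
  rw [Matrix.smul_apply, Matrix.one_apply, smul_eq_mul]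
  show (if j = i then (8 : ℤ) else 0) = _
  by_cases h : j = i <;> simp [h]

lemma sqNorm_add (x y : GolayPt → ℤ) :
    sqNorm (x + y) = sqNorm x + 2 * dotInt x y + sqNorm y := by
  unfold sqNorm dotInt
  rw [Finset.mul_sum, ← Finset.sum_add_distrib, ← Finset.sum_add_distrib]
  apply Finset.sum_congr rfl
  intro i _
  simp only [Pi.add_apply]
  ring

/-- additive norm-preserving maps preserve the dot product. -/
lemma dot_pres (f : leechLattice → leechLattice) (hf : ∀ v w, f (v + w) = f v + f w)
    (hn : ∀ v : leechLattice, sqNorm ((f v : leechLattice) : GolayPt → ℤ) = sqNorm (v : GolayPt → ℤ))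
    (v w : leechLattice) :
    dotInt ((f v : leechLattice) : GolayPt → ℤ) (f w : leechLattice)
      = dotInt (v : GolayPt → ℤ) (w : GolayPt → ℤ) := by
  have h1 := hn (v + w)
  rw [hf] at h1
  have h2 : ((f v + f w : leechLattice) : GolayPt → ℤ) = (f v : GolayPt → ℤ) + (f w : GolayPt → ℤ) := rfl
  have h3 : ((v + w : leechLattice) : GolayPt → ℤ) = (v : GolayPt → ℤ) + (w : GolayPt → ℤ) := rfl
  rw [h2, h3, sqNorm_add, sqNorm_add, hn v, hn w] at h1
  linarith

lemma sqNorm_leechE (i : GolayPt) : sqNorm (leechE i : GolayPt → ℤ) = 64 := by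
  unfold sqNorm
  have h : ∀ j, ((leechE i : GolayPt → ℤ) j) ^ 2 = (if j = i then (64 : ℤ) else 0) * 1 := by
    intro j
    rw [leechE_apply]
    by_cases h : j = i <;> simp [h]
  simp only [h]
  rw [sum_ite_mul i (64 : ℤ) (fun _ => (1 : ℤ))]
  norm_num

/-- integrality: a norm-preserving map whose coordinate matrix is `8` modulo 13 has coordinate
matrix `8`. -/
lemma cmat_eq_of_mod13 (f : leechLattice → leechLattice)
    (hn : ∀ v : leechLattice, sqNorm ((f v : leechLattice) : GolayPt → ℤ) = sqNorm (v : GolayPt → ℤ))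
    (h13 : ∀ j i, ((cmat f j i : ℤ) : ZMod 13) = if j = i then 8 else 0) :
    ∀ j i, cmat f j i = if j = i then 8 else 0 := by
  intro j i
  have hsum : ∑ k, (cmat f k i) ^ 2 = 64 := by
    have h := hn (leechE i)
    rw [sqNorm_leechE] at h
    exact h
  have hoff : ∀ k, k ≠ i → cmat f k i = 0 := by
    intro k hk
    have h1 : (cmat f k i) ^ 2 ≤ 64 := by
      rw [← hsum]
      exact Finset.single_le_sum (f := fun k => (cmat f k i) ^ 2) (fun _ _ => sq_nonneg _)
        (Finset.mem_univ k)
    have h2 : ((cmat f k i : ℤ) : ZMod 13) = 0 := by rw [h13, if_neg hk]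
    rw [ZMod.intCast_zmod_eq_zero_iff_dvd] at h2
    obtain ⟨m, hm⟩ := h2
    rw [hm] at h1 ⊢
    have h3 : m = 0 := by
      by_contra hne
      have h4 : 1 ≤ m ^ 2 := by
        have : 0 < m ^ 2 := by positivity
        linarith
      push_cast at h1
      nlinarith
    rw [h3]; simp
  by_cases hji : j = i
  · subst hji
    rw [if_pos rfl]
    have h1 : (cmat f j j) ^ 2 = 64 := by
      rw [← hsum]
      symm
      apply Finset.sum_eq_single j
      · intro b _ hb; rw [hoff b hb]; simp
      · intro h; exact absurd (Finset.mem_univ j) h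
    have h2 : (cmat f j j - 8) * (cmat f j j + 8) = 0 := by ring_nf; ring_nf at h1; linarith
    rcases mul_eq_zero.mp h2 with h | h
    · linarith
    · exfalso
      have h3 : cmat f j j = -8 := by linarith
      have h4 := h13 j j
      rw [h3, if_pos rfl] at h4
      revert h4
      decide
  · rw [if_neg hji]
    exact hoff j hji

/-- a map with coordinate matrix `8` is the identity. -/
lemma eq_self_of_cmat (f : leechLattice → leechLattice) (hf : ∀ v w, f (v + w) = f v + f w)
    (h : ∀ j i, cmat f j i = if j = i then 8 else 0) (v : leechLattice) : f v = v := by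
  apply Subtype.ext
  funext j
  have h1 := cmat_key f hf v j
  simp only [h] at h1
  rw [sum_ite_mul' j (8 : ℤ)] at h1
  linarith

end Cfsg.Agent.Helper27
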