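import Cfsg.Agent.Helper27.LeechVec

set_option autoImplicit false
open Cfsg

namespace Cfsg.Agent.Helper27

/-- odd vector with residue-3 set `c` and exceptional positions `S` carrying `±3` -/
def tvec (c S : Finset GolayPt) : GolayPt → ℤ :=
  fun k => (if k ∈ c then -1 else 1) + (if k ∈ S then (if k ∈ c then 4 else -4) else 0)

/-- odd vector with residue-3 set `c` and one exceptional position carrying `±5` -/
def fvec (c : Finset GolayPt) (i : GolayPt) : GolayPt → ℤ :=
  fun k => (if k ∈ c then -1 else 1) + (if k = i then (if i ∈ c then -4 else 4) else 0)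

/-- vector `±2` on an octad plus `s` at position `i` -/
def cvec (O ε : Finset GolayPt) (i : GolayPt) (s : ℤ) : GolayPt → ℤ :=
  fun k => sv 2 O ε k + (if k = i then s else 0)

lemma sv2_mem' (c ε : Finset GolayPt) (hc : c ∈ supports (golayCode : Set (GolayPt → ZMod 2)))
    (h : ε ⊆ c) (hs : (2 * ((c.card : ℤ) - 2 * ε.card)) % 8 = 0) : sv 2 c ε ∈ leechSet := by
  apply mem_leechSet_of_even
  · intro k; unfold sv; split_ifs <;> rfl
  · rw [sum_sv 2 c ε h]; exact hs
  · have e : (Finset.univ.filter fun k => sv 2 c ε k % 4 = 2) = c := by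
      ext k
      simp only [Finset.mem_filter, Finset.mem_univ, true_and]
      unfold sv
      by_cases hk : k ∈ c
      · by_cases hε : k ∈ ε <;> simp [hk, hε]
      · simp [hk]
    rw [e]; exact hc

lemma sv2_vals (T ε : Finset GolayPt) (k : GolayPt) :
    sv 2 T ε k = 0 ∨ sv 2 T ε k = 2 ∨ sv 2 T ε k = -2 := by
  unfold sv
  split_ifs
  · right; right; rfl
  · right; left; rfl
  · left; rfl

lemma sv2_mod (T ε : Finset GolayPt) (k : GolayPt) : sv 2 T ε k % 4 = 2 ↔ k ∈ T := by
  unfold sv
  by_cases hk : k ∈ T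
  · by_cases hε : k ∈ ε <;> simp [hk, hε]
  · simp [hk]

lemma sv2_neg (T ε : Finset GolayPt) (h : ε ⊆ T) (k : GolayPt) : sv 2 T ε k = -2 ↔ k ∈ ε := by
  unfold sv
  by_cases hε : k ∈ ε
  · have hk := h hε
    simp [hk, hε]
  · by_cases hk : k ∈ T <;> simp [hk, hε]

lemma sv2_sq (T ε : Finset GolayPt) (k : GolayPt) :
    sv 2 T ε k ^ 2 = if k ∈ T then 4 else 0 := by
  unfold sv
  by_cases hk : k ∈ T
  · by_cases hε : k ∈ ε <;> simp [hk, hε]
  · simp [hk]

/-! ### the shape `(±4, ±2^8, 0^15)` -/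

lemma cvec_at (O ε : Finset GolayPt) (i : GolayPt) (s : ℤ) (hi : i ∉ O) : cvec O ε i s i = s := by
  unfold cvec sv
  simp [hi]

lemma cvec_ne (O ε : Finset GolayPt) (i : GolayPt) (s : ℤ) (k : GolayPt) (hk : k ≠ i) :
    cvec O ε i s k = sv 2 O ε k := by
  unfold cvec
  simp [hk]

lemma cvec_mem (O ε : Finset GolayPt) (i : GolayPt) (s : ℤ) (hO : O ∈ octads) (h : ε ⊆ O)
    (ho : Odd ε.card) (hi : i ∉ O) (hs : s = 4 ∨ s = -4) : cvec O ε i s ∈ leechSet := by
  apply mem_leechSet_of_even
  · intro k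
    unfold cvec
    have := sv2_vals O ε k
    split_ifs <;> rcases hs with rfl | rfl <;> omega
  · have e : ∑ k, cvec O ε i s k = 2 * ((O.card : ℤ) - 2 * ε.card) + s := by
      unfold cvec
      rw [Finset.sum_add_distrib, sum_sv 2 O ε h, Finset.sum_ite_eq']
      simp
    rw [e, hO.2]
    obtain ⟨r, hr⟩ := ho
    rw [hr]
    push_cast
    rcases hs with rfl | rfl <;> omega
  · have e : (Finset.univ.filter fun k => cvec O ε i s k % 4 = 2) = O := by
      ext k
      simp only [Finset.mem_filter, Finset.mem_univ, true_and]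
      rw [← sv2_mod O ε k]
      unfold cvec
      split_ifs <;> rcases hs with rfl | rfl <;> omega
    rw [e]; exact hO.1

lemma cvec_norm (O ε : Finset GolayPt) (i : GolayPt) (s : ℤ) (hO : O ∈ octads)
    (hi : i ∉ O) (hs : s = 4 ∨ s = -4) : sqNorm (cvec O ε i s) = 48 := by
  unfold sqNorm
  have e : ∀ k, cvec O ε i s k ^ 2 = (if k ∈ O then 4 else 0) + (if k = i then 16 else 0) := by
    intro k
    by_cases hk : k = i
    · subst hk
      rw [cvec_at O ε k s hi]
      rcases hs with rfl | rfl <;> simp [hi]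
    · rw [cvec_ne O ε i s k hk, sv2_sq]
      simp [hk]
  have e4 : ∀ k, (if k ∈ O then (4 : ℤ) else 0) = 4 * (if k ∈ O then 1 else 0) := by
    intro k; split_ifs <;> ring
  rw [Finset.sum_congr rfl (fun k _ => e k), Finset.sum_add_distrib, Finset.sum_ite_eq',
    Finset.sum_congr rfl (fun k _ => e4 k), ← Finset.mul_sum, sum_ind, hO.2]
  simp

/-! ### the odd shapes -/

lemma tvec_mod (c S : Finset GolayPt) (k : GolayPt) : tvec c S k % 4 = 3 ↔ k ∈ c := by
  unfold tvec
  by_cases hk : k ∈ S
  · by_cases h : k ∈ c <;> simp [h, hk]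
  · by_cases h : k ∈ c <;> simp [h, hk]

lemma tvec_odd (c S : Finset GolayPt) (k : GolayPt) : tvec c S k % 2 = 1 := by
  unfold tvec
  split_ifs <;> rfl

lemma tvec_sq (c S : Finset GolayPt) (k : GolayPt) :
    tvec c S k ^ 2 = 1 + (if k ∈ S then 8 else 0) := by
  unfold tvec
  by_cases hk : k ∈ S
  · by_cases h : k ∈ c <;> simp [h, hk]
  · by_cases h : k ∈ c <;> simp [h, hk]

lemma tvec_mem (c S : Finset GolayPt) (hc : c ∈ supports (golayCode : Set (GolayPt → ZMod 2)))
    (hS : Odd S.card) : tvec c S ∈ leechSet := by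
  obtain ⟨hDE, -⟩ := code_facts Cfsg.Agent.S0359.result
  apply mem_leechSet_of_odd
  · exact tvec_odd c S
  · have e : ∑ k, tvec c S k = 24 - 2 * (c.card : ℤ) +
        ∑ k ∈ S, (if k ∈ c then (4 : ℤ) else -4) := by
      unfold tvec
      rw [Finset.sum_add_distrib, sum_pm, Finset.sum_ite_mem, Finset.univ_inter]
    have d : (8 : ℤ) ∣ ∑ k ∈ S, ((if k ∈ c then (4 : ℤ) else -4) - 4) := by
      apply Finset.dvd_sum
      intro k _
      split_ifs <;> norm_num
    rw [Finset.sum_sub_distrib, Finset.sum_const] at d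
    rw [e]
    have h4 := hDE c hc
    obtain ⟨r, hr⟩ := hS
    rw [hr] at d
    simp only [nsmul_eq_mul] at d
    push_cast at d
    omega
  · have e : (Finset.univ.filter fun k => tvec c S k % 4 = 3) = c := by
      ext k
      simp only [Finset.mem_filter, Finset.mem_univ, true_and]
      exact tvec_mod c S k
    rw [e]; exact hc

lemma tvec_norm (c S : Finset GolayPt) : sqNorm (tvec c S) = 24 + 8 * (S.card : ℤ) := by
  unfold sqNorm
  have e8 : ∀ k, (if k ∈ S then (8 : ℤ) else 0) = 8 * (if k ∈ S then 1 else 0) := by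
    intro k; split_ifs <;> ring
  rw [Finset.sum_congr rfl (fun k _ => tvec_sq c S k), Finset.sum_add_distrib,
    Finset.sum_congr rfl (fun k _ => e8 k), ← Finset.mul_sum, sum_ind, Finset.sum_const,
    card_golayPt]
  simp

lemma fvec_mod (c : Finset GolayPt) (i k : GolayPt) : fvec c i k % 4 = 3 ↔ k ∈ c := by
  unfold fvec
  by_cases hk : k = i
  · subst hk
    by_cases h : k ∈ c <;> simp [h]
  · by_cases h : k ∈ c <;> simp [h, hk]

lemma fvec_odd (c : Finset GolayPt) (i k : GolayPt) : fvec c i k % 2 = 1 := by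
  unfold fvec
  split_ifs <;> rfl

lemma fvec_sq (c : Finset GolayPt) (i k : GolayPt) :
    fvec c i k ^ 2 = 1 + (if k = i then 24 else 0) := by
  unfold fvec
  by_cases hk : k = i
  · subst hk
    by_cases h : k ∈ c <;> simp [h]
  · by_cases h : k ∈ c <;> simp [h, hk]

lemma fvec_mem (c : Finset GolayPt) (i : GolayPt)
    (hc : c ∈ supports (golayCode : Set (GolayPt → ZMod 2))) : fvec c i ∈ leechSet := by
  obtain ⟨hDE, -⟩ := code_facts Cfsg.Agent.S0359.result
  apply mem_leechSet_of_odd
  · exact fvec_odd c i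
  · have e : ∑ k, fvec c i k = 24 - 2 * (c.card : ℤ) + (if i ∈ c then -4 else 4) := by
      unfold fvec
      rw [Finset.sum_add_distrib, sum_pm, Finset.sum_ite_eq']
      simp
    rw [e]
    have := hDE c hc
    split_ifs <;> omega
  · have e : (Finset.univ.filter fun k => fvec c i k % 4 = 3) = c := by
      ext k
      simp only [Finset.mem_filter, Finset.mem_univ, true_and]
      exact fvec_mod c i k
    rw [e]; exact hc

lemma fvec_norm (c : Finset GolayPt) (i : GolayPt) : sqNorm (fvec c i) = 48 := by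
  unfold sqNorm
  rw [Finset.sum_congr rfl (fun k _ => fvec_sq c i k), Finset.sum_add_distrib,
    Finset.sum_ite_eq', Finset.sum_const, card_golayPt]
  simp

/-! ### classification of the vectors of sum of squares 48 -/

lemma sum_four_ind (c : Finset GolayPt) :
    ∑ k, (if k ∈ c then (4 : ℤ) else 0) = 4 * (c.card : ℤ) := by
  have e : ∀ k, (if k ∈ c then (4 : ℤ) else 0) = 4 * (if k ∈ c then 1 else 0) := by
    intro k; split_ifs <;> ring
  rw [Finset.sum_congr rfl (fun k _ => e k), ← Finset.mul_sum, sum_ind]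

lemma four_card_le (x : GolayPt → ℤ) :
    4 * ((Finset.univ.filter fun i => x i % 4 = 2).card : ℤ) ≤ sqNorm x := by
  rw [← sum_four_ind]
  apply Finset.sum_le_sum
  intro k _
  by_cases hk : k ∈ (Finset.univ.filter fun i => x i % 4 = 2)
  · rw [if_pos hk]
    exact sq_ge_four _ (by simpa using hk)
  · rw [if_neg hk]; positivity

/-- an even lattice vector whose sum of squares is four times the size of its residue-2 set -/
lemma even_tight (x : GolayPt → ℤ) (h8 : (∑ i, x i) % 8 = 0)
    (hA : (Finset.univ.filter fun i => x i % 4 = 2) ∈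
      supports (golayCode : Set (GolayPt → ZMod 2)))
    (hn : sqNorm x = 4 * ((Finset.univ.filter fun i => x i % 4 = 2).card : ℤ)) :
    ∃ ε : Finset GolayPt, ε ⊆ (Finset.univ.filter fun i => x i % 4 = 2) ∧ Even ε.card ∧
      x = sv 2 (Finset.univ.filter fun i => x i % 4 = 2) ε := by
  obtain ⟨hDE, -⟩ := code_facts Cfsg.Agent.S0359.result
  set c := (Finset.univ.filter fun i => x i % 4 = 2) with hc
  have hmem : ∀ k, k ∈ c ↔ x k % 4 = 2 := by
    intro k; rw [hc]; simp
  have hle : ∀ k ∈ Finset.univ, (if k ∈ c then (4 : ℤ) else 0) ≤ x k ^ 2 := by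
    intro k _
    by_cases hk : k ∈ c
    · rw [if_pos hk]
      exact sq_ge_four _ ((hmem k).mp hk)
    · rw [if_neg hk]; positivity
  have hn' : ∑ k, x k ^ 2 = 4 * (c.card : ℤ) := hn
  have heq : ∀ k ∈ Finset.univ, (if k ∈ c then (4 : ℤ) else 0) = x k ^ 2 := by
    apply (Finset.sum_eq_sum_iff_of_le hle).mp
    rw [sum_four_ind, hn']
  have hval : ∀ k, k ∈ c → (x k = 2 ∨ x k = -2) := by
    intro k hk
    have h1 := heq k (Finset.mem_univ k)
    rw [if_pos hk] at h1
    exact sq_eq_sq_iff_eq_or_eq_neg.mp (by rw [← h1]; norm_num)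
  have hzero : ∀ k, k ∉ c → x k = 0 := by
    intro k hk
    have h1 := heq k (Finset.mem_univ k)
    rw [if_neg hk] at h1
    exact pow_eq_zero_iff (two_ne_zero) |>.mp h1.symm
  set ε := (Finset.univ.filter fun i => x i = -2) with hε
  have hεc : ε ⊆ c := by
    intro k hk
    rw [hε] at hk
    simp only [Finset.mem_filter, Finset.mem_univ, true_and] at hk
    rw [hmem, hk]; rfl
  have hx : x = sv 2 c ε := by
    funext k
    unfold sv
    by_cases hk : k ∈ c
    · rw [if_pos hk]
      rcases hval k hk with h | h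
      · have : k ∉ ε := by
          rw [hε]; simp only [Finset.mem_filter, Finset.mem_univ, true_and]; omega
        rw [if_neg this, h]
      · have : k ∈ ε := by
          rw [hε]; simp only [Finset.mem_filter, Finset.mem_univ, true_and]; exact h
        rw [if_pos this, h]
    · rw [if_neg hk]; exact hzero k hk
  refine ⟨ε, hεc, ?_, hx⟩
  have hs := sum_sv 2 c ε hεc
  rw [← hx] at hs
  rw [hs] at h8
  have h4 := hDE c hA
  exact Nat.even_iff.mpr (by omega)

lemma n48_even_empty (x : GolayPt → ℤ) (h4 : ∀ i, x i % 4 = 0) (h8 : (∑ i, x i) % 8 = 0)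
    (hn : sqNorm x = 48) : False := by
  have hn' : ∑ k, x k ^ 2 = 48 := hn
  have hy : ∀ k, x k = 4 * (x k / 4) := by
    intro k; have := h4 k; omega
  have hsq : ∀ k, x k ^ 2 = 16 * (x k / 4) ^ 2 := by
    intro k
    have h := hy k
    generalize x k / 4 = q at h ⊢
    rw [h]; ring
  have hsum2 : ∑ k, (x k / 4) ^ 2 = 3 := by
    rw [Finset.sum_congr rfl (fun k _ => hsq k), ← Finset.mul_sum] at hn'
    omega
  have hs : ∑ k, x k = 4 * ∑ k, (x k / 4) := by
    rw [Finset.mul_sum]; exact Finset.sum_congr rfl (fun k _ => hy k)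
  have hd : (2 : ℤ) ∣ ∑ k, ((x k / 4) ^ 2 - x k / 4) := by
    apply Finset.dvd_sum
    intro k _
    generalize x k / 4 = q
    have e : q ^ 2 - q = q * (q - 1) := by ring
    rw [e]
    rcases Int.emod_two_eq_zero_or_one q with h | h
    · exact Dvd.dvd.mul_right (Int.dvd_of_emod_eq_zero h) _
    · exact Dvd.dvd.mul_left (Int.dvd_of_emod_eq_zero (by omega)) _
  rw [Finset.sum_sub_distrib, hsum2] at hd
  rw [hs] at h8
  omega

lemma sum_cvec (O ε : Finset GolayPt) (i : GolayPt) (s : ℤ) (h : ε ⊆ O) :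
    ∑ k, cvec O ε i s k = 2 * ((O.card : ℤ) - 2 * ε.card) + s := by
  unfold cvec
  rw [Finset.sum_add_distrib, sum_sv 2 O ε h, Finset.sum_ite_eq']
  simp

lemma int_bound (a n : ℤ) (hn : 0 ≤ n) (h : a ^ 2 < (n + 1) ^ 2) : -n ≤ a ∧ a ≤ n := by
  constructor <;> by_contra hh <;> push Not at hh <;> nlinarith

lemma n48_even_8 (x : GolayPt → ℤ) (h2 : ∀ i, x i % 2 = 0) (h8 : (∑ i, x i) % 8 = 0)
    (hA : (Finset.univ.filter fun i => x i % 4 = 2) ∈
      supports (golayCode : Set (GolayPt → ZMod 2)))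
    (hcard : (Finset.univ.filter fun i => x i % 4 = 2).card = 8) (hn : sqNorm x = 48) :
    ∃ (O ε : Finset GolayPt) (i : GolayPt) (s : ℤ), O ∈ octads ∧ ε ⊆ O ∧ Odd ε.card ∧ i ∉ O ∧
      (s = 4 ∨ s = -4) ∧ x = cvec O ε i s := by
  set c := (Finset.univ.filter fun i => x i % 4 = 2) with hc
  have hmem : ∀ k, k ∈ c ↔ x k % 4 = 2 := by
    intro k; rw [hc]; simp
  have hn' : ∑ k, x k ^ 2 = 48 := hn
  have hz0 : ∀ k, 0 ≤ x k ^ 2 - (if k ∈ c then (4 : ℤ) else 0) := by
    intro k
    by_cases hk : k ∈ c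
    · rw [if_pos hk]
      have := sq_ge_four _ ((hmem k).mp hk)
      omega
    · rw [if_neg hk, sub_zero]; positivity
  have hzs : ∑ k, (x k ^ 2 - (if k ∈ c then (4 : ℤ) else 0)) = 16 := by
    rw [Finset.sum_sub_distrib, hn', sum_four_ind, hcard]
    norm_num
  have hz16 : ∀ k, x k ^ 2 - (if k ∈ c then (4 : ℤ) else 0) ≤ 16 := by
    intro k
    rw [← hzs]
    exact Finset.single_le_sum (f := fun k => x k ^ 2 - (if k ∈ c then (4 : ℤ) else 0))
      (fun i _ => hz0 i) (Finset.mem_univ k)
  have hon : ∀ k, k ∈ c → (x k = 2 ∨ x k = -2) := by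
    intro k hk
    have h1 := hz16 k
    rw [if_pos hk] at h1
    have h3 := (hmem k).mp hk
    have hb := int_bound (x k) 4 (by norm_num) (by nlinarith)
    omega
  have hoff : ∀ k, k ∉ c → (x k = 0 ∨ x k = 4 ∨ x k = -4) := by
    intro k hk
    have h1 := hz16 k
    rw [if_neg hk] at h1
    have h3 : ¬ x k % 4 = 2 := fun h => hk ((hmem k).mpr h)
    have h4 := h2 k
    have hb := int_bound (x k) 4 (by norm_num) (by nlinarith)
    omega
  have hex : ∃ i, x i ^ 2 - (if i ∈ c then (4 : ℤ) else 0) = 16 := by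
    by_contra hno
    push Not at hno
    have : ∑ k, (x k ^ 2 - (if k ∈ c then (4 : ℤ) else 0)) = 0 := by
      apply Finset.sum_eq_zero
      intro k _
      by_cases hk : k ∈ c
      · rw [if_pos hk]
        rcases hon k hk with h | h <;> rw [h] <;> norm_num
      · have hne := hno k
        rw [if_neg hk] at hne ⊢
        rcases hoff k hk with h | h | h
        · rw [h]; norm_num
        · rw [h] at hne; norm_num at hne
        · rw [h] at hne; norm_num at hne
    omega
  obtain ⟨i, hi⟩ := hex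
  have hic : i ∉ c := by
    intro hk
    rw [if_pos hk] at hi
    rcases hon i hk with h | h <;> rw [h] at hi <;> norm_num at hi
  have hxi : x i = 4 ∨ x i = -4 := by
    rw [if_neg hic] at hi
    rcases hoff i hic with h | h | h
    · rw [h] at hi; norm_num at hi
    · left; exact h
    · right; exact h
  have hrest : ∀ k, k ≠ i → x k ^ 2 - (if k ∈ c then (4 : ℤ) else 0) = 0 := by
    have h1 := Finset.add_sum_erase Finset.univ
      (fun k => x k ^ 2 - (if k ∈ c then (4 : ℤ) else 0)) (Finset.mem_univ i)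
    rw [hzs, hi] at h1
    have h3 : ∑ k ∈ Finset.univ.erase i, (x k ^ 2 - (if k ∈ c then (4 : ℤ) else 0)) = 0 := by
      omega
    have h4 := (Finset.sum_eq_zero_iff_of_nonneg (fun k _ => hz0 k)).mp h3
    intro k hk
    exact h4 k (Finset.mem_erase.mpr ⟨hk, Finset.mem_univ k⟩)
  set ε := (Finset.univ.filter fun i => x i = -2) with hε
  have hmemε : ∀ k, k ∈ ε ↔ x k = -2 := by
    intro k; rw [hε]; simp
  have hεc : ε ⊆ c := by
    intro k hk
    rw [hmem, (hmemε k).mp hk]; rfl
  have hx : x = cvec c ε i (x i) := by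
    funext k
    by_cases hk : k = i
    · subst hk
      rw [cvec_at c ε k (x k) hic]
    · rw [cvec_ne c ε i (x i) k hk]
      unfold sv
      by_cases hkc : k ∈ c
      · rw [if_pos hkc]
        rcases hon k hkc with h | h
        · have : k ∉ ε := by rw [hmemε]; omega
          rw [if_neg this, h]
        · have : k ∈ ε := by rw [hmemε]; exact h
          rw [if_pos this, h]
      · rw [if_neg hkc]
        have h0 := hrest k hk
        rw [if_neg hkc] at h0
        have h00 : x k ^ 2 = 0 := by omega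
        exact pow_eq_zero_iff (two_ne_zero) |>.mp h00
  refine ⟨c, ε, i, x i, ⟨hA, hcard⟩, hεc, ?_, hic, hxi, hx⟩
  have hs := sum_cvec c ε i (x i) hεc
  rw [← hx, hcard] at hs
  rw [hs] at h8
  push_cast at h8
  apply Nat.odd_iff.mpr
  rcases hxi with h | h <;> rw [h] at h8 <;> omega

lemma n48_odd (x : GolayPt → ℤ) (h2 : ∀ i, x i % 2 = 1)
    (hA : (Finset.univ.filter fun i => x i % 4 = 3) ∈
      supports (golayCode : Set (GolayPt → ZMod 2)))
    (hn : sqNorm x = 48) :
    (∃ c S : Finset GolayPt, c ∈ supports (golayCode : Set (GolayPt → ZMod 2)) ∧ S.card = 3 ∧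
      x = tvec c S) ∨
    (∃ (c : Finset GolayPt) (i : GolayPt),
      c ∈ supports (golayCode : Set (GolayPt → ZMod 2)) ∧ x = fvec c i) := by
  have hn' : ∑ k, x k ^ 2 = 48 := hn
  set c := (Finset.univ.filter fun i => x i % 4 = 3) with hc
  have hmem : ∀ k, k ∈ c ↔ x k % 4 = 3 := by
    intro k; rw [hc]; simp
  have hz0 : ∀ k, 0 ≤ x k ^ 2 - 1 := by
    intro k
    have := h2 k
    have h' : x k ≥ 1 ∨ x k ≤ -1 := by omega
    rcases h' with h' | h' <;> nlinarith
  have hzs : ∑ k, (x k ^ 2 - 1) = 24 := by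
    rw [Finset.sum_sub_distrib, hn', Finset.sum_const, card_golayPt]
    simp
  have hz24 : ∀ k, x k ^ 2 - 1 ≤ 24 := by
    intro k
    rw [← hzs]
    exact Finset.single_le_sum (f := fun k => x k ^ 2 - 1) (fun i _ => hz0 i) (Finset.mem_univ k)
  have hvals : ∀ k, x k = 1 ∨ x k = -1 ∨ x k = 3 ∨ x k = -3 ∨ x k = 5 ∨ x k = -5 := by
    intro k
    have h1 := hz24 k
    have h3 := h2 k
    have hb := int_bound (x k) 5 (by norm_num) (by nlinarith)
    omega
  by_cases h5 : ∃ i, x i = 5 ∨ x i = -5
  · right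
    obtain ⟨i, hi⟩ := h5
    have hi24 : x i ^ 2 - 1 = 24 := by
      rcases hi with h | h <;> rw [h] <;> norm_num
    have hrest : ∀ k, k ≠ i → x k ^ 2 - 1 = 0 := by
      have h1 := Finset.add_sum_erase Finset.univ (fun k => x k ^ 2 - 1) (Finset.mem_univ i)
      rw [hzs, hi24] at h1
      have h3 : ∑ k ∈ Finset.univ.erase i, (x k ^ 2 - 1) = 0 := by omega
      have h4 := (Finset.sum_eq_zero_iff_of_nonneg (fun k _ => hz0 k)).mp h3
      intro k hk
      exact h4 k (Finset.mem_erase.mpr ⟨hk, Finset.mem_univ k⟩)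
    refine ⟨c, i, hA, ?_⟩
    funext k
    by_cases hk : k = i
    · subst hk
      rcases hi with h | h
      · have hkc : k ∉ c := by rw [hmem, h]; decide
        unfold fvec
        simp [hkc, h]
      · have hkc : k ∈ c := by rw [hmem, h]; rfl
        unfold fvec
        simp [hkc, h]
    · have h1 : x k ^ 2 = 1 ^ 2 := by have := hrest k hk; omega
      rcases sq_eq_sq_iff_eq_or_eq_neg.mp h1 with h | h
      · have hkc : k ∉ c := by rw [hmem, h]; decide
        unfold fvec
        simp [hkc, h, hk]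
      · have hkc : k ∈ c := by rw [hmem, h]; rfl
        unfold fvec
        simp [hkc, h, hk]
  · left
    push Not at h5
    have hv : ∀ k, x k = 1 ∨ x k = -1 ∨ x k = 3 ∨ x k = -3 := by
      intro k
      have := hvals k
      have := h5 k
      omega
    set S := (Finset.univ.filter fun i => x i = 3 ∨ x i = -3) with hS
    have hmemS : ∀ k, k ∈ S ↔ (x k = 3 ∨ x k = -3) := by
      intro k; rw [hS]; simp
    have hzind : ∀ k, x k ^ 2 - 1 = 8 * (if k ∈ S then 1 else 0) := by
      intro k
      by_cases hk : k ∈ S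
      · rw [if_pos hk]
        rcases (hmemS k).mp hk with h | h <;> rw [h] <;> norm_num
      · rw [if_neg hk]
        have hk' : ¬ (x k = 3 ∨ x k = -3) := fun h => hk ((hmemS k).mpr h)
        rcases hv k with h | h | h | h
        · rw [h]; norm_num
        · rw [h]; norm_num
        · exact absurd (Or.inl h) hk'
        · exact absurd (Or.inr h) hk'
    have hcard : S.card = 3 := by
      rw [Finset.sum_congr rfl (fun k _ => hzind k), ← Finset.mul_sum, sum_ind] at hzs
      omega
    refine ⟨c, S, hA, hcard, ?_⟩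
    funext k
    by_cases hk : k ∈ S
    · rcases (hmemS k).mp hk with h | h
      · have hkc : k ∈ c := by rw [hmem, h]; rfl
        unfold tvec
        simp [hkc, h, hk]
      · have hkc : k ∉ c := by rw [hmem, h]; decide
        unfold tvec
        simp [hkc, h, hk]
    · have hk' : ¬ (x k = 3 ∨ x k = -3) := fun h => hk ((hmemS k).mpr h)
      rcases hv k with h | h | h | h
      · have hkc : k ∉ c := by rw [hmem, h]; decide
        unfold tvec
        simp [hkc, h, hk]
      · have hkc : k ∈ c := by rw [hmem, h]; rfl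
        unfold tvec
        simp [hkc, h, hk]
      · exact absurd (Or.inl h) hk'
      · exact absurd (Or.inr h) hk'

/-- the four shapes of lattice vectors of sum of squares 48 -/
theorem n48_cases (x : GolayPt → ℤ) (hx : x ∈ leechSet) (hn : sqNorm x = 48) :
    (∃ d ε : Finset GolayPt, d ∈ dodecads ∧ ε ⊆ d ∧ Even ε.card ∧ x = sv 2 d ε) ∨
    (∃ (O ε : Finset GolayPt) (i : GolayPt) (s : ℤ), O ∈ octads ∧ ε ⊆ O ∧ Odd ε.card ∧ i ∉ O ∧
      (s = 4 ∨ s = -4) ∧ x = cvec O ε i s) ∨
    (∃ c S : Finset GolayPt, c ∈ supports (golayCode : Set (GolayPt → ZMod 2)) ∧ S.card = 3 ∧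
      x = tvec c S) ∨
    (∃ (c : Finset GolayPt) (i : GolayPt),
      c ∈ supports (golayCode : Set (GolayPt → ZMod 2)) ∧ x = fvec c i) := by
  obtain ⟨hDE, hMin⟩ := code_facts Cfsg.Agent.S0359.result
  rcases leechSet_cases x hx with ⟨h2, h8, hA⟩ | ⟨h2, h8, hA⟩
  · by_cases hne : (Finset.univ.filter fun i => x i % 4 = 2).Nonempty
    · have h1 := hMin _ hA hne
      have h3 := hDE _ hA
      have h4 := four_card_le x
      rw [hn] at h4
      have hc : (Finset.univ.filter fun i => x i % 4 = 2).card = 8 ∨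
          (Finset.univ.filter fun i => x i % 4 = 2).card = 12 := by omega
      rcases hc with hc | hc
      · right; left
        exact n48_even_8 x h2 h8 hA hc hn
      · left
        obtain ⟨ε, h5, h6, h7⟩ := even_tight x h8 hA (by rw [hn, hc]; norm_num)
        exact ⟨_, ε, ⟨hA, hc⟩, h5, h6, h7⟩
    · exfalso
      apply n48_even_empty x _ h8 hn
      intro i
      have h := h2 i
      have h' : ¬ x i % 4 = 2 := by
        intro h'
        exact hne ⟨i, by simp [h']⟩
      omega
  · right; right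
    exact n48_odd x h2 hA hn

end Cfsg.Agent.Helper27
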