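import Cfsg.Agent.Helper27.Leech48
import Cfsg.Agent.S0394

set_option autoImplicit false
open Cfsg

namespace Cfsg.Agent.Helper27

open Cfsg.Agent.S0394 (allCW mem_allCW card_allCW even_subsets sv_inj mem_octFin)

lemma mem_dodFin' (d : Finset GolayPt) :
    d ∈ Cfsg.Agent.Helper28.Golay.dodFin ↔ d ∈ dodecads := by
  rw [← Cfsg.Agent.Helper28.Golay.coe_dodFin, Finset.mem_coe]

/-- parameters for the shape `(±2^12, 0^12)` -/
def PA : Finset (Σ _ : Finset GolayPt, Finset GolayPt) :=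
  Cfsg.Agent.Helper28.Golay.dodFin.sigma fun d => d.powerset.filter fun ε => Even ε.card

/-- parameters for the shape `(±4, ±2^8, 0^15)` -/
def PC : Finset (Σ _ : Finset GolayPt, Finset GolayPt × GolayPt × ℤ) :=
  Cfsg.Agent.Helper28.Golay.octFin.sigma fun O =>
    (O.powerset.filter fun ε => ¬ Even ε.card) ×ˢ Oᶜ ×ˢ ({4, -4} : Finset ℤ)

/-- parameters for the shape `(±3^3, ±1^21)` -/
def PB : Finset (Finset GolayPt × Finset GolayPt) :=
  allCW ×ˢ (Finset.powersetCard 3 Finset.univ)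

/-- parameters for the shape `(±5, ±1^23)` -/
def PD : Finset (Finset GolayPt × GolayPt) := allCW ×ˢ Finset.univ

/-- the vectors of shape `(±2^12, 0^12)` -/
def FA : Finset (GolayPt → ℤ) := PA.image fun p => sv 2 p.1 p.2

/-- the vectors of shape `(±4, ±2^8, 0^15)` -/
def FC : Finset (GolayPt → ℤ) := PC.image fun p => cvec p.1 p.2.1 p.2.2.1 p.2.2.2

/-- the vectors of shape `(±3^3, ±1^21)` -/
def FB : Finset (GolayPt → ℤ) := PB.image fun p => tvec p.1 p.2

/-- the vectors of shape `(±5, ±1^23)` -/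
def FD : Finset (GolayPt → ℤ) := PD.image fun p => fvec p.1 p.2

attribute [irreducible] PA PB PC PD FA FB FC FD

lemma mem_PA (d ε : Finset GolayPt) :
    (⟨d, ε⟩ : Σ _ : Finset GolayPt, Finset GolayPt) ∈ PA ↔
      d ∈ dodecads ∧ ε ⊆ d ∧ Even ε.card := by
  unfold PA
  rw [Finset.mem_sigma, Finset.mem_filter, Finset.mem_powerset, mem_dodFin']

lemma mem_PC (O ε : Finset GolayPt) (i : GolayPt) (s : ℤ) :
    (⟨O, (ε, i, s)⟩ : Σ _ : Finset GolayPt, Finset GolayPt × GolayPt × ℤ) ∈ PC ↔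
      O ∈ octads ∧ ε ⊆ O ∧ Odd ε.card ∧ i ∉ O ∧ (s = 4 ∨ s = -4) := by
  unfold PC
  rw [Finset.mem_sigma, Finset.mem_product, Finset.mem_product, Finset.mem_filter,
    Finset.mem_powerset, mem_octFin, Finset.mem_compl, Finset.mem_insert, Finset.mem_singleton,
    Nat.not_even_iff_odd]
  tauto

lemma mem_PB (c S : Finset GolayPt) :
    (c, S) ∈ PB ↔ c ∈ supports (golayCode : Set (GolayPt → ZMod 2)) ∧ S.card = 3 := by
  unfold PB
  rw [Finset.mem_product, mem_allCW, Finset.mem_powersetCard]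
  simp

lemma mem_PD (c : Finset GolayPt) (i : GolayPt) :
    (c, i) ∈ PD ↔ c ∈ supports (golayCode : Set (GolayPt → ZMod 2)) := by
  unfold PD
  rw [Finset.mem_product, mem_allCW]
  simp

lemma mem_FA (x : GolayPt → ℤ) :
    x ∈ FA ↔ ∃ d ε : Finset GolayPt, d ∈ dodecads ∧ ε ⊆ d ∧ Even ε.card ∧ x = sv 2 d ε := by
  unfold FA
  rw [Finset.mem_image]
  constructor
  · rintro ⟨⟨d, ε⟩, hp, rfl⟩
    obtain ⟨h1, h2, h3⟩ := (mem_PA d ε).mp hp
    exact ⟨d, ε, h1, h2, h3, rfl⟩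
  · rintro ⟨d, ε, h1, h2, h3, rfl⟩
    exact ⟨⟨d, ε⟩, (mem_PA d ε).mpr ⟨h1, h2, h3⟩, rfl⟩

lemma mem_FC (x : GolayPt → ℤ) :
    x ∈ FC ↔ ∃ (O ε : Finset GolayPt) (i : GolayPt) (s : ℤ), O ∈ octads ∧ ε ⊆ O ∧
      Odd ε.card ∧ i ∉ O ∧ (s = 4 ∨ s = -4) ∧ x = cvec O ε i s := by
  unfold FC
  rw [Finset.mem_image]
  constructor
  · rintro ⟨⟨O, ε, i, s⟩, hp, rfl⟩
    obtain ⟨h1, h2, h3, h4, h5⟩ := (mem_PC O ε i s).mp hp
    exact ⟨O, ε, i, s, h1, h2, h3, h4, h5, rfl⟩
  · rintro ⟨O, ε, i, s, h1, h2, h3, h4, h5, rfl⟩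
    exact ⟨⟨O, ε, i, s⟩, (mem_PC O ε i s).mpr ⟨h1, h2, h3, h4, h5⟩, rfl⟩

lemma mem_FB (x : GolayPt → ℤ) :
    x ∈ FB ↔ ∃ c S : Finset GolayPt, c ∈ supports (golayCode : Set (GolayPt → ZMod 2)) ∧
      S.card = 3 ∧ x = tvec c S := by
  unfold FB
  rw [Finset.mem_image]
  constructor
  · rintro ⟨⟨c, S⟩, hp, rfl⟩
    obtain ⟨h1, h2⟩ := (mem_PB c S).mp hp
    exact ⟨c, S, h1, h2, rfl⟩
  · rintro ⟨c, S, h1, h2, rfl⟩
    exact ⟨(c, S), (mem_PB c S).mpr ⟨h1, h2⟩, rfl⟩

lemma mem_FD (x : GolayPt → ℤ) :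
    x ∈ FD ↔ ∃ (c : Finset GolayPt) (i : GolayPt),
      c ∈ supports (golayCode : Set (GolayPt → ZMod 2)) ∧ x = fvec c i := by
  unfold FD
  rw [Finset.mem_image]
  constructor
  · rintro ⟨⟨c, i⟩, hp, rfl⟩
    exact ⟨c, i, (mem_PD c i).mp hp, rfl⟩
  · rintro ⟨c, i, h1, rfl⟩
    exact ⟨(c, i), (mem_PD c i).mpr h1, rfl⟩

/-! ### cardinalities of the parameter sets -/

lemma card_PA : PA.card = 5275648 := by
  unfold PA
  rw [Finset.card_sigma]
  have h : ∀ d ∈ Cfsg.Agent.Helper28.Golay.dodFin,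
      (d.powerset.filter fun ε => Even ε.card).card = 2048 := by
    intro d hd
    have hd' : d ∈ dodecads := (mem_dodFin' d).mp hd
    have hne : d.Nonempty := by
      rw [← Finset.card_pos, hd'.2]; norm_num
    have h2 := even_subsets d hne
    rw [hd'.2] at h2
    omega
  rw [Finset.sum_congr rfl h, Finset.sum_const, Cfsg.Agent.Helper28.Golay.card_dodFin]
  rfl

lemma card_PC : PC.card = 3108864 := by
  unfold PC
  rw [Finset.card_sigma]
  have h : ∀ O ∈ Cfsg.Agent.Helper28.Golay.octFin,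
      ((O.powerset.filter fun ε => ¬ Even ε.card) ×ˢ Oᶜ ×ˢ ({4, -4} : Finset ℤ)).card = 4096 := by
    intro O hO
    have hO' : O ∈ octads := (mem_octFin O).mp hO
    have hne : O.Nonempty := by
      rw [← Finset.card_pos, hO'.2]; norm_num
    have h2 := even_subsets O hne
    have h3 := Finset.card_filter_add_card_filter_not (s := O.powerset) (fun m => Even m.card)
    rw [Finset.card_powerset] at h3
    rw [hO'.2] at h2 h3
    have h4 : (O.powerset.filter fun ε => ¬ Even ε.card).card = 128 := by omega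
    have h5 : (Oᶜ).card = 16 := by
      rw [Finset.card_compl, hO'.2]
      rfl
    have h6 : ({4, -4} : Finset ℤ).card = 2 := by decide
    rw [Finset.card_product, Finset.card_product, h4, h5, h6]
  rw [Finset.sum_congr rfl h, Finset.sum_const, Cfsg.Agent.Helper28.Golay.card_octFin]
  rfl

lemma card_PB : PB.card = 8290304 := by
  unfold PB
  rw [Finset.card_product, card_allCW, Finset.card_powersetCard, card_golayPt]
  rfl

lemma card_PD : PD.card = 98304 := by
  unfold PD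
  rw [Finset.card_product, card_allCW, card_golayPt]

/-! ### injectivity of the parametrisations -/

lemma cvec_mod (O ε : Finset GolayPt) (i : GolayPt) (s : ℤ) (hs : s = 4 ∨ s = -4)
    (k : GolayPt) : cvec O ε i s k % 4 = 2 ↔ k ∈ O := by
  rw [← sv2_mod O ε k]
  unfold cvec
  split_ifs <;> rcases hs with rfl | rfl <;> omega

lemma cvec_inj (O ε O' ε' : Finset GolayPt) (i i' : GolayPt) (s s' : ℤ)
    (h : ε ⊆ O) (h' : ε' ⊆ O') (hi : i ∉ O) (hi' : i' ∉ O') (hs : s = 4 ∨ s = -4)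
    (hs' : s' = 4 ∨ s' = -4) (e : cvec O ε i s = cvec O' ε' i' s') :
    O = O' ∧ ε = ε' ∧ i = i' ∧ s = s' := by
  have hO : O = O' := by
    ext k
    rw [← cvec_mod O ε i s hs k, ← cvec_mod O' ε' i' s' hs' k, e]
  subst hO
  have hii : i = i' := by
    by_contra hne
    have h1 := cvec_at O ε i s hi
    rw [e, cvec_ne O ε' i' s' i hne] at h1
    have h2 : sv 2 O ε' i = 0 := by unfold sv; simp [hi]
    rcases hs with rfl | rfl <;> omega
  subst hii
  have hss : s = s' := by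
    have h1 := cvec_at O ε i s hi
    rw [e, cvec_at O ε' i s' hi] at h1
    exact h1.symm
  subst hss
  refine ⟨rfl, ?_, rfl, rfl⟩
  ext k
  by_cases hk : k = i
  · subst hk
    constructor
    · intro hk'; exact absurd (h hk') hi
    · intro hk'; exact absurd (h' hk') hi
  · have e1 := congrFun e k
    rw [cvec_ne O ε i s k hk, cvec_ne O ε' i s k hk] at e1
    rw [← sv2_neg O ε h k, ← sv2_neg O ε' h' k, e1]

lemma tvec_inj (c c' S S' : Finset GolayPt) (e : tvec c S = tvec c' S') : c = c' ∧ S = S' := by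
  constructor
  · ext k; rw [← tvec_mod c S k, ← tvec_mod c' S' k, e]
  · ext k
    have h1 := tvec_sq c S k
    have h2 := tvec_sq c' S' k
    rw [e] at h1
    rw [h1] at h2
    by_cases hk : k ∈ S <;> by_cases hk' : k ∈ S' <;> simp [hk, hk'] at h2 ⊢

lemma fvec_inj (c c' : Finset GolayPt) (i i' : GolayPt) (e : fvec c i = fvec c' i') :
    c = c' ∧ i = i' := by
  constructor
  · ext k; rw [← fvec_mod c i k, ← fvec_mod c' i' k, e]
  · by_contra hne
    have h1 := fvec_sq c i i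
    have h2 := fvec_sq c' i' i
    rw [e] at h1
    rw [if_pos rfl] at h1
    rw [if_neg hne] at h2
    rw [h1] at h2
    norm_num at h2

lemma card_FA : FA.card = 5275648 := by
  unfold FA
  rw [Finset.card_image_of_injOn, card_PA]
  rintro ⟨T, ε⟩ hp ⟨T', ε'⟩ hp' e
  rw [Finset.mem_coe, mem_PA] at hp hp'
  obtain ⟨rfl, rfl⟩ := sv_inj 2 (by norm_num) T ε T' ε' hp.2.1 hp'.2.1 e
  rfl

lemma card_FC : FC.card = 3108864 := by
  unfold FC
  rw [Finset.card_image_of_injOn, card_PC]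
  rintro ⟨O, ε, i, s⟩ hp ⟨O', ε', i', s'⟩ hp' e
  rw [Finset.mem_coe, mem_PC] at hp hp'
  obtain ⟨rfl, rfl, rfl, rfl⟩ := cvec_inj O ε O' ε' i i' s s' hp.2.1 hp'.2.1 hp.2.2.2.1
    hp'.2.2.2.1 hp.2.2.2.2 hp'.2.2.2.2 e
  rfl

lemma card_FB : FB.card = 8290304 := by
  unfold FB
  rw [Finset.card_image_of_injOn, card_PB]
  rintro ⟨c, S⟩ hp ⟨c', S'⟩ hp' e
  obtain ⟨rfl, rfl⟩ := tvec_inj c c' S S' e
  rfl

lemma card_FD : FD.card = 98304 := by
  unfold FD
  rw [Finset.card_image_of_injOn, card_PD]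
  rintro ⟨c, i⟩ hp ⟨c', i'⟩ hp' e
  obtain ⟨rfl, rfl⟩ := fvec_inj c c' i i' e
  rfl

/-! ### the four census sets -/

lemma tvec_vals (c S : Finset GolayPt) (k : GolayPt) :
    (k ∈ S → (tvec c S k = 3 ∨ tvec c S k = -3)) ∧
    (k ∉ S → (tvec c S k = 1 ∨ tvec c S k = -1)) := by
  unfold tvec
  by_cases hk : k ∈ S <;> by_cases h : k ∈ c <;> simp [hk, h]

lemma fvec_vals (c : Finset GolayPt) (i k : GolayPt) :
    (k = i → (fvec c i k = 5 ∨ fvec c i k = -5)) ∧
    (k ≠ i → (fvec c i k = 1 ∨ fvec c i k = -1)) := by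
  unfold fvec
  by_cases hk : k = i
  · subst hk
    by_cases h : k ∈ c <;> simp [h]
  · by_cases h : k ∈ c <;> simp [hk, h]

lemma cvec_even (O ε : Finset GolayPt) (i : GolayPt) (s : ℤ) (hs : s = 4 ∨ s = -4)
    (k : GolayPt) : cvec O ε i s k % 2 = 0 := by
  unfold cvec
  have := sv2_vals O ε k
  split_ifs <;> rcases hs with rfl | rfl <;> omega

theorem SA_eq : {x : GolayPt → ℤ | x ∈ leechLattice ∧ sqNorm x = 48 ∧
    ∀ i, x i = 0 ∨ x i = 2 ∨ x i = -2} = ↑FA := by
  ext x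
  rw [Finset.mem_coe, mem_FA]
  constructor
  · rintro ⟨hx, hn, hP⟩
    rcases n48_cases x ((mem_leechLattice_iff x).mp hx) hn with
      h | ⟨O, ε, i, s, hO, hε, ho, hi, hs, rfl⟩ | ⟨c, S, hc, hS, rfl⟩ | ⟨c, i, hc, rfl⟩
    · exact h
    · exfalso
      have h1 := hP i
      rw [cvec_at O ε i s hi] at h1
      rcases hs with rfl | rfl <;> omega
    · exfalso
      have h1 := hP none
      have h2 := tvec_odd c S none
      omega
    · exfalso
      have h1 := hP none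
      have h2 := fvec_odd c i none
      omega
  · rintro ⟨d, ε, hd, hε, he, rfl⟩
    refine ⟨(mem_leechLattice_iff _).mpr (sv2_mem' d ε hd.1 hε ?_), ?_, sv2_vals d ε⟩
    · rw [hd.2]
      obtain ⟨r, hr⟩ := he
      rw [hr]; push_cast; omega
    · rw [sqNorm_sv, hd.2]; norm_num

theorem SB_eq : {x : GolayPt → ℤ | x ∈ leechLattice ∧ sqNorm x = 48 ∧
    ∃ i j k, i ≠ j ∧ j ≠ k ∧ i ≠ k ∧ |x i| = 3 ∧ |x j| = 3 ∧ |x k| = 3} = ↑FB := by
  ext x
  rw [Finset.mem_coe, mem_FB]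
  constructor
  · rintro ⟨hx, hn, i, j, k, -, -, -, hi, -, -⟩
    have hi' : x i = 3 ∨ x i = -3 := (abs_eq (by norm_num)).mp hi
    rcases n48_cases x ((mem_leechLattice_iff x).mp hx) hn with
      ⟨d, ε, hd, hε, he, rfl⟩ | ⟨O, ε, i', s, hO, hε, ho, hi2, hs, rfl⟩ | h | ⟨c, i', hc, rfl⟩
    · exfalso
      have := sv2_vals d ε i
      omega
    · exfalso
      have := cvec_even O ε i' s hs i
      omega
    · exact h
    · exfalso
      by_cases hii : i = i'
      · have := (fvec_vals c i' i).1 hii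
        omega
      · have := (fvec_vals c i' i).2 hii
        omega
  · rintro ⟨c, S, hc, hS, rfl⟩
    obtain ⟨i, j, k, hij, hik, hjk, rfl⟩ := Finset.card_eq_three.mp hS
    refine ⟨(mem_leechLattice_iff _).mpr (tvec_mem c _ hc (by rw [hS]; exact ⟨1, rfl⟩)),
      by rw [tvec_norm, hS]; norm_num, i, j, k, hij, hjk, hik, ?_, ?_, ?_⟩
    · have h := (tvec_vals c {i, j, k} i).1 (by simp)
      rcases h with h | h <;> rw [h] <;> simp
    · have h := (tvec_vals c {i, j, k} j).1 (by simp)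
      rcases h with h | h <;> rw [h] <;> simp
    · have h := (tvec_vals c {i, j, k} k).1 (by simp)
      rcases h with h | h <;> rw [h] <;> simp

theorem SC_eq : {x : GolayPt → ℤ | x ∈ leechLattice ∧ sqNorm x = 48 ∧ ∃ i, |x i| = 4} = ↑FC := by
  ext x
  rw [Finset.mem_coe, mem_FC]
  constructor
  · rintro ⟨hx, hn, i, hi⟩
    have hi' : x i = 4 ∨ x i = -4 := (abs_eq (by norm_num)).mp hi
    rcases n48_cases x ((mem_leechLattice_iff x).mp hx) hn with
      ⟨d, ε, hd, hε, he, rfl⟩ | h | ⟨c, S, hc, hS, rfl⟩ | ⟨c, i', hc, rfl⟩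
    · exfalso
      have := sv2_vals d ε i
      omega
    · exact h
    · exfalso
      have := tvec_odd c S i
      omega
    · exfalso
      have := fvec_odd c i' i
      omega
  · rintro ⟨O, ε, i, s, hO, hε, ho, hi, hs, rfl⟩
    refine ⟨(mem_leechLattice_iff _).mpr (cvec_mem O ε i s hO hε ho hi hs),
      cvec_norm O ε i s hO hi hs, i, ?_⟩
    rw [cvec_at O ε i s hi]
    rcases hs with rfl | rfl <;> simp

theorem SD_eq : {x : GolayPt → ℤ | x ∈ leechLattice ∧ sqNorm x = 48 ∧ ∃ i, |x i| = 5} = ↑FD := by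
  ext x
  rw [Finset.mem_coe, mem_FD]
  constructor
  · rintro ⟨hx, hn, i, hi⟩
    have hi' : x i = 5 ∨ x i = -5 := (abs_eq (by norm_num)).mp hi
    rcases n48_cases x ((mem_leechLattice_iff x).mp hx) hn with
      ⟨d, ε, hd, hε, he, rfl⟩ | ⟨O, ε, i', s, hO, hε, ho, hi2, hs, rfl⟩ |
      ⟨c, S, hc, hS, rfl⟩ | h
    · exfalso
      have := sv2_vals d ε i
      omega
    · exfalso
      have := cvec_even O ε i' s hs i
      omega
    · exfalso
      by_cases hiS : i ∈ S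
      · have := (tvec_vals c S i).1 hiS
        omega
      · have := (tvec_vals c S i).2 hiS
        omega
    · exact h
  · rintro ⟨c, i, hc, rfl⟩
    refine ⟨(mem_leechLattice_iff _).mpr (fvec_mem c i hc), fvec_norm c i, i, ?_⟩
    have h := (fvec_vals c i i).1 rfl
    rcases h with h | h <;> rw [h] <;> simp

lemma disjAC : Disjoint FA FC := by
  rw [Finset.disjoint_left]
  intro x h1 h2
  obtain ⟨d, ε, -, -, -, rfl⟩ := (mem_FA x).mp h1
  obtain ⟨O, ε', i, s, -, -, -, hi, hs, e⟩ := (mem_FC _).mp h2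
  have e1 : sv 2 d ε i = cvec O ε' i s i := congrFun e i
  rw [cvec_at O ε' i s hi] at e1
  have := sv2_vals d ε i
  rcases hs with rfl | rfl <;> omega

lemma disjBD : Disjoint FB FD := by
  rw [Finset.disjoint_left]
  intro x h1 h2
  obtain ⟨c, S, -, -, rfl⟩ := (mem_FB x).mp h1
  obtain ⟨c', i, -, e⟩ := (mem_FD _).mp h2
  have e1 : tvec c S i = fvec c' i i := congrFun e i
  have h5 := (fvec_vals c' i i).1 rfl
  by_cases hiS : i ∈ S
  · have := (tvec_vals c S i).1 hiS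
    omega
  · have := (tvec_vals c S i).2 hiS
    omega

lemma disjEO : Disjoint (FA ∪ FC) (FB ∪ FD) := by
  rw [Finset.disjoint_left]
  intro x h1 h2
  have hev : x none % 2 = 0 := by
    rcases Finset.mem_union.mp h1 with h | h
    · obtain ⟨d, ε, -, -, -, rfl⟩ := (mem_FA x).mp h
      have := sv2_vals d ε none
      omega
    · obtain ⟨O, ε', i, s, -, -, -, -, hs, rfl⟩ := (mem_FC x).mp h
      exact cvec_even O ε' i s hs none
  have hodd : x none % 2 = 1 := by
    rcases Finset.mem_union.mp h2 with h | h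
    · obtain ⟨c, S, -, -, rfl⟩ := (mem_FB x).mp h
      exact tvec_odd c S none
    · obtain ⟨c, i, -, rfl⟩ := (mem_FD x).mp h
      exact fvec_odd c i none
  omega

theorem V48_eq : {x : GolayPt → ℤ | x ∈ leechLattice ∧ sqNorm x = 48} =
    ↑(FA ∪ FC ∪ (FB ∪ FD)) := by
  ext x
  constructor
  · rintro ⟨hx, hn⟩
    rw [Finset.mem_coe, Finset.mem_union, Finset.mem_union, Finset.mem_union, mem_FA, mem_FC,
      mem_FB, mem_FD]
    rcases n48_cases x ((mem_leechLattice_iff x).mp hx) hn with h | h | h | h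
    · exact Or.inl (Or.inl h)
    · exact Or.inl (Or.inr h)
    · exact Or.inr (Or.inl h)
    · exact Or.inr (Or.inr h)
  · intro hx
    rw [Finset.mem_coe, Finset.mem_union, Finset.mem_union, Finset.mem_union] at hx
    rcases hx with (h | h) | (h | h)
    · have h' : x ∈ (↑FA : Set (GolayPt → ℤ)) := Finset.mem_coe.mpr h
      rw [← SA_eq] at h'
      exact ⟨h'.1, h'.2.1⟩
    · have h' : x ∈ (↑FC : Set (GolayPt → ℤ)) := Finset.mem_coe.mpr h
      rw [← SC_eq] at h'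
      exact ⟨h'.1, h'.2.1⟩
    · have h' : x ∈ (↑FB : Set (GolayPt → ℤ)) := Finset.mem_coe.mpr h
      rw [← SB_eq] at h'
      exact ⟨h'.1, h'.2.1⟩
    · have h' : x ∈ (↑FD : Set (GolayPt → ℤ)) := Finset.mem_coe.mpr h
      rw [← SD_eq] at h'
      exact ⟨h'.1, h'.2.1⟩

theorem ncard_V48 : {x : GolayPt → ℤ | x ∈ leechLattice ∧ sqNorm x = 48}.ncard = 16773120 := by
  rw [V48_eq, Set.ncard_coe_finset, Finset.card_union_of_disjoint disjEO,
    Finset.card_union_of_disjoint disjAC, Finset.card_union_of_disjoint disjBD, card_FA, card_FC,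
    card_FB, card_FD]

end Cfsg.Agent.Helper27
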