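import Cfsg.Agent.Helper27.Leech48Count

set_option autoImplicit false
open Cfsg

namespace Cfsg.Agent.Helper27

/-- general even vector: `±2` on `c` (minus on `ε`) plus `±4` on `T` (minus on `η`) -/
def ev (c ε T η : Finset GolayPt) : GolayPt → ℤ := fun k => sv 2 c ε k + sv 4 T η k

/-- the vector `±2` on an octad with the entry at `j` tripled -/
def evec (O ε : Finset GolayPt) (j : GolayPt) : GolayPt → ℤ :=
  fun k => if k = j then 3 * sv 2 O ε k else sv 2 O ε k

/-- general odd vector: base `±1` by `c`, entries `±5` on `S5`, `±3` on `S3` -/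
def gv (c S5 S3 : Finset GolayPt) : GolayPt → ℤ :=
  fun k => (if k ∈ c then -1 else 1) + (if k ∈ S5 then (if k ∈ c then -4 else 4) else 0) +
    (if k ∈ S3 then (if k ∈ c then 4 else -4) else 0)

lemma sv4_vals (T η : Finset GolayPt) (k : GolayPt) :
    sv 4 T η k = 0 ∨ sv 4 T η k = 4 ∨ sv 4 T η k = -4 := by
  unfold sv
  split_ifs
  · right; right; rfl
  · right; left; rfl
  · left; rfl

lemma sv4_ne (T η : Finset GolayPt) (k : GolayPt) : sv 4 T η k ≠ 0 ↔ k ∈ T := by
  unfold sv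
  by_cases hk : k ∈ T
  · by_cases hε : k ∈ η <;> simp [hk, hε]
  · simp [hk]

lemma sv4_neg (T η : Finset GolayPt) (h : η ⊆ T) (k : GolayPt) : sv 4 T η k = -4 ↔ k ∈ η := by
  unfold sv
  by_cases hε : k ∈ η
  · have hk := h hε
    simp [hk, hε]
  · by_cases hk : k ∈ T <;> simp [hk, hε]

lemma sv4_sq (T η : Finset GolayPt) (k : GolayPt) :
    sv 4 T η k ^ 2 = if k ∈ T then 16 else 0 := by
  unfold sv
  by_cases hk : k ∈ T
  · by_cases hε : k ∈ η <;> simp [hk, hε]
  · simp [hk]

lemma sv2_zero (c ε : Finset GolayPt) (k : GolayPt) (hk : k ∉ c) : sv 2 c ε k = 0 := by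
  unfold sv; simp [hk]

lemma sv4_zero (T η : Finset GolayPt) (k : GolayPt) (hk : k ∉ T) : sv 4 T η k = 0 := by
  unfold sv; simp [hk]

/-! ### the family `ev` -/

lemma ev_mod (c ε T η : Finset GolayPt) (k : GolayPt) : ev c ε T η k % 4 = 2 ↔ k ∈ c := by
  rw [← sv2_mod c ε k]
  unfold ev
  have := sv4_vals T η k
  omega

lemma ev_vals (c ε T η : Finset GolayPt) (hd : Disjoint c T) (k : GolayPt) :
    ev c ε T η k = 0 ∨ ev c ε T η k = 2 ∨ ev c ε T η k = -2 ∨ ev c ε T η k = 4 ∨
      ev c ε T η k = -4 := by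
  unfold ev
  by_cases hk : k ∈ c
  · have hT : k ∉ T := Finset.disjoint_left.mp hd hk
    rw [sv4_zero T η k hT]
    have := sv2_vals c ε k
    omega
  · rw [sv2_zero c ε k hk]
    have := sv4_vals T η k
    omega

lemma ev_even (c ε T η : Finset GolayPt) (k : GolayPt) : ev c ε T η k % 2 = 0 := by
  unfold ev
  have := sv4_vals T η k
  have := sv2_vals c ε k
  omega

lemma sum_ev (c ε T η : Finset GolayPt) (h : ε ⊆ c) (h' : η ⊆ T) :
    ∑ k, ev c ε T η k = 2 * ((c.card : ℤ) - 2 * ε.card) + 4 * ((T.card : ℤ) - 2 * η.card) := by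
  unfold ev
  rw [Finset.sum_add_distrib, sum_sv 2 c ε h, sum_sv 4 T η h']

lemma ev_mem (c ε T η : Finset GolayPt)
    (hc : c ∈ supports (golayCode : Set (GolayPt → ZMod 2))) (h : ε ⊆ c) (h' : η ⊆ T)
    (hp : Even (ε.card + T.card)) : ev c ε T η ∈ leechSet := by
  obtain ⟨hDE, -⟩ := code_facts Cfsg.Agent.S0359.result
  apply mem_leechSet_of_even
  · exact ev_even c ε T η
  · rw [sum_ev c ε T η h h']
    have h4 := hDE c hc
    obtain ⟨r, hr⟩ := hp
    have hr' : ((ε.card : ℤ) + T.card) = r + r := by exact_mod_cast hr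
    omega
  · have e : (Finset.univ.filter fun k => ev c ε T η k % 4 = 2) = c := by
      ext k
      simp only [Finset.mem_filter, Finset.mem_univ, true_and]
      exact ev_mod c ε T η k
    rw [e]; exact hc

lemma ev_sq (c ε T η : Finset GolayPt) (hd : Disjoint c T) (k : GolayPt) :
    ev c ε T η k ^ 2 = (if k ∈ c then 4 else 0) + (if k ∈ T then 16 else 0) := by
  unfold ev
  by_cases hk : k ∈ c
  · have hT : k ∉ T := Finset.disjoint_left.mp hd hk
    rw [sv4_zero T η k hT, add_zero, sv2_sq]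
    simp [hT]
  · rw [sv2_zero c ε k hk, zero_add, sv4_sq]
    simp [hk]

lemma sum_sixteen_ind (c : Finset GolayPt) :
    ∑ k, (if k ∈ c then (16 : ℤ) else 0) = 16 * (c.card : ℤ) := by
  have e : ∀ k, (if k ∈ c then (16 : ℤ) else 0) = 16 * (if k ∈ c then 1 else 0) := by
    intro k; split_ifs <;> ring
  rw [Finset.sum_congr rfl (fun k _ => e k), ← Finset.mul_sum, sum_ind]

lemma ev_norm (c ε T η : Finset GolayPt) (hd : Disjoint c T) :
    sqNorm (ev c ε T η) = 4 * (c.card : ℤ) + 16 * (T.card : ℤ) := by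
  unfold sqNorm
  rw [Finset.sum_congr rfl (fun k _ => ev_sq c ε T η hd k), Finset.sum_add_distrib,
    sum_four_ind, sum_sixteen_ind]

lemma ev_inj (c ε T η c' ε' T' η' : Finset GolayPt) (h : ε ⊆ c) (h' : ε' ⊆ c')
    (hd : Disjoint c T) (hd' : Disjoint c' T') (hη : η ⊆ T) (hη' : η' ⊆ T')
    (e : ev c ε T η = ev c' ε' T' η') : c = c' ∧ ε = ε' ∧ T = T' ∧ η = η' := by
  have hc : c = c' := by
    ext k
    rw [← ev_mod c ε T η k, ← ev_mod c' ε' T' η' k, e]
  subst hc
  have key : ∀ (ε T η : Finset GolayPt), ε ⊆ c → Disjoint c T → η ⊆ T → ∀ k,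
      (k ∈ T ↔ (ev c ε T η k = 4 ∨ ev c ε T η k = -4)) ∧ (k ∈ ε ↔ ev c ε T η k = -2) ∧
      (k ∈ η ↔ ev c ε T η k = -4) := by
    intro ε T η h hd hη k
    unfold ev
    by_cases hk : k ∈ c
    · have hT : k ∉ T := Finset.disjoint_left.mp hd hk
      have hη' : k ∉ η := fun hh => hT (hη hh)
      rw [sv4_zero T η k hT, add_zero]
      have h1 := sv2_vals c ε k
      have h2 := sv2_neg c ε h k
      have h3 := sv2_mod c ε k
      refine ⟨⟨fun hh => absurd hh hT, fun hh => ?_⟩, h2.symm, ⟨fun hh => absurd hh hη', fun hh => ?_⟩⟩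
      · exfalso; have := h3.mpr hk; omega
      · exfalso; have := h3.mpr hk; omega
    · have hε : k ∉ ε := fun hh => hk (h hh)
      rw [sv2_zero c ε k hk, zero_add]
      have h1 := sv4_vals T η k
      have h2 := sv4_neg T η hη k
      have h3 := sv4_ne T η k
      refine ⟨⟨fun hh => ?_, fun hh => ?_⟩, ⟨fun hh => absurd hh hε, fun hh => ?_⟩, h2.symm⟩
      · have := h3.mpr hh; omega
      · apply h3.mp; omega
      · exfalso; omega
  refine ⟨rfl, ?_, ?_, ?_⟩
  · ext k; rw [(key ε T η h hd hη k).2.1, (key ε' T' η' h' hd' hη' k).2.1, e]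
  · ext k; rw [(key ε T η h hd hη k).1, (key ε' T' η' h' hd' hη' k).1, e]
  · ext k; rw [(key ε T η h hd hη k).2.2, (key ε' T' η' h' hd' hη' k).2.2, e]

/-! ### the family `evec` -/

lemma evec_at (O ε : Finset GolayPt) (j : GolayPt) : evec O ε j j = 3 * sv 2 O ε j := by
  unfold evec; simp

lemma evec_ne (O ε : Finset GolayPt) (j k : GolayPt) (hk : k ≠ j) :
    evec O ε j k = sv 2 O ε k := by
  unfold evec; simp [hk]

lemma evec_mod (O ε : Finset GolayPt) (j k : GolayPt) : evec O ε j k % 4 = 2 ↔ k ∈ O := by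
  rw [← sv2_mod O ε k]
  unfold evec
  have := sv2_vals O ε k
  split_ifs <;> omega

lemma evec_even (O ε : Finset GolayPt) (j k : GolayPt) : evec O ε j k % 2 = 0 := by
  unfold evec
  have := sv2_vals O ε k
  split_ifs <;> omega

lemma sum_evec (O ε : Finset GolayPt) (j : GolayPt) (h : ε ⊆ O) :
    ∑ k, evec O ε j k = 2 * ((O.card : ℤ) - 2 * ε.card) + 2 * sv 2 O ε j := by
  have e : ∀ k, evec O ε j k = sv 2 O ε k + (if k = j then 2 * sv 2 O ε j else 0) := by
    intro k
    unfold evec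
    by_cases hk : k = j
    · subst hk; simp; ring
    · simp [hk]
  rw [Finset.sum_congr rfl (fun k _ => e k), Finset.sum_add_distrib, sum_sv 2 O ε h,
    Finset.sum_ite_eq']
  simp

lemma evec_mem (O ε : Finset GolayPt) (j : GolayPt) (hO : O ∈ octads) (h : ε ⊆ O)
    (ho : Odd ε.card) (hj : j ∈ O) : evec O ε j ∈ leechSet := by
  apply mem_leechSet_of_even
  · exact evec_even O ε j
  · rw [sum_evec O ε j h, hO.2]
    have h1 := sv2_vals O ε j
    have h2 := (sv2_mod O ε j).mpr hj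
    obtain ⟨r, hr⟩ := ho
    rw [hr]; push_cast
    omega
  · have e : (Finset.univ.filter fun k => evec O ε j k % 4 = 2) = O := by
      ext k
      simp only [Finset.mem_filter, Finset.mem_univ, true_and]
      exact evec_mod O ε j k
    rw [e]; exact hO.1

lemma evec_sq (O ε : Finset GolayPt) (j : GolayPt) (hj : j ∈ O) (k : GolayPt) :
    evec O ε j k ^ 2 = (if k ∈ O then 4 else 0) + (if k = j then 32 else 0) := by
  by_cases hk : k = j
  · subst hk
    rw [evec_at, mul_pow, sv2_sq]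
    simp [hj]
  · rw [evec_ne O ε j k hk, sv2_sq]
    simp [hk]

lemma evec_norm (O ε : Finset GolayPt) (j : GolayPt) (hO : O ∈ octads) (hj : j ∈ O) :
    sqNorm (evec O ε j) = 64 := by
  unfold sqNorm
  rw [Finset.sum_congr rfl (fun k _ => evec_sq O ε j hj k), Finset.sum_add_distrib,
    sum_four_ind, Finset.sum_ite_eq', hO.2]
  simp

lemma evec_inj (O ε O' ε' : Finset GolayPt) (j j' : GolayPt) (h : ε ⊆ O) (h' : ε' ⊆ O')
    (hj : j ∈ O) (hj' : j' ∈ O') (e : evec O ε j = evec O' ε' j') :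
    O = O' ∧ ε = ε' ∧ j = j' := by
  have hO : O = O' := by
    ext k
    rw [← evec_mod O ε j k, ← evec_mod O' ε' j' k, e]
  subst hO
  have hjj : j = j' := by
    by_contra hne
    have h1 := evec_sq O ε j hj j
    have h2 := evec_sq O ε' j' hj' j
    rw [e] at h1
    rw [h1] at h2
    simp [hj, hne] at h2
  subst hjj
  refine ⟨rfl, ?_, rfl⟩
  have key : ∀ (ε : Finset GolayPt), ε ⊆ O → ∀ k, k ∈ ε ↔ evec O ε j k < 0 := by
    intro ε h k
    have h1 := sv2_vals O ε k
    have h2 := sv2_neg O ε h k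
    unfold evec
    split_ifs <;> constructor <;> intro hh
    · have := h2.mpr hh; omega
    · apply h2.mp; omega
    · have := h2.mpr hh; omega
    · apply h2.mp; omega
  ext k
  rw [key ε h k, key ε' h' k, e]

/-! ### the family `gv` -/

lemma gv_mod (c S5 S3 : Finset GolayPt) (k : GolayPt) : gv c S5 S3 k % 4 = 3 ↔ k ∈ c := by
  unfold gv
  by_cases h : k ∈ c <;> by_cases h5 : k ∈ S5 <;> by_cases h3 : k ∈ S3 <;> simp [h, h5, h3]

lemma gv_odd (c S5 S3 : Finset GolayPt) (k : GolayPt) : gv c S5 S3 k % 2 = 1 := by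
  unfold gv
  split_ifs <;> rfl

lemma gv_sq (c S5 S3 : Finset GolayPt) (hd : Disjoint S5 S3) (k : GolayPt) :
    gv c S5 S3 k ^ 2 = 1 + (if k ∈ S5 then 24 else 0) + (if k ∈ S3 then 8 else 0) := by
  unfold gv
  by_cases h5 : k ∈ S5
  · have h3 : k ∉ S3 := Finset.disjoint_left.mp hd h5
    by_cases h : k ∈ c <;> simp [h, h5, h3]
  · by_cases h3 : k ∈ S3 <;> by_cases h : k ∈ c <;> simp [h, h5, h3]

lemma sum_pm4 (c S : Finset GolayPt) (a : ℤ) (ha : a = 4 ∨ a = -4) :
    (8 : ℤ) ∣ ∑ k, (if k ∈ S then (if k ∈ c then a else -a) else 0) - 4 * (S.card : ℤ) := by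
  rw [Finset.sum_ite_mem, Finset.univ_inter]
  have d : (8 : ℤ) ∣ ∑ k ∈ S, ((if k ∈ c then a else -a) - 4) := by
    apply Finset.dvd_sum
    intro k _
    rcases ha with rfl | rfl <;> split_ifs <;> norm_num
  rw [Finset.sum_sub_distrib, Finset.sum_const] at d
  simp only [nsmul_eq_mul] at d
  have e : ((S.card : ℤ) * 4) = 4 * (S.card : ℤ) := by ring
  rw [e] at d
  exact d

lemma gv_mem (c S5 S3 : Finset GolayPt)
    (hc : c ∈ supports (golayCode : Set (GolayPt → ZMod 2)))
    (hp : Odd (S5.card + S3.card)) : gv c S5 S3 ∈ leechSet := by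
  obtain ⟨hDE, -⟩ := code_facts Cfsg.Agent.S0359.result
  apply mem_leechSet_of_odd
  · exact gv_odd c S5 S3
  · have e : ∑ k, gv c S5 S3 k = 24 - 2 * (c.card : ℤ) +
        ∑ k, (if k ∈ S5 then (if k ∈ c then (-4 : ℤ) else - -4) else 0) +
        ∑ k, (if k ∈ S3 then (if k ∈ c then (4 : ℤ) else -4) else 0) := by
      unfold gv
      rw [Finset.sum_add_distrib, Finset.sum_add_distrib, sum_pm]
      simp
    rw [e]
    have d5 := sum_pm4 c S5 (-4) (Or.inr rfl)
    have d3 := sum_pm4 c S3 4 (Or.inl rfl)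
    have h4 := hDE c hc
    obtain ⟨r, hr⟩ := hp
    have hr' : ((S5.card : ℤ) + S3.card) = 2 * r + 1 := by exact_mod_cast hr
    omega
  · have e : (Finset.univ.filter fun k => gv c S5 S3 k % 4 = 3) = c := by
      ext k
      simp only [Finset.mem_filter, Finset.mem_univ, true_and]
      exact gv_mod c S5 S3 k
    rw [e]; exact hc

lemma gv_norm (c S5 S3 : Finset GolayPt) (hd : Disjoint S5 S3) :
    sqNorm (gv c S5 S3) = 24 + 24 * (S5.card : ℤ) + 8 * (S3.card : ℤ) := by
  unfold sqNorm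
  have e24 : ∀ k, (if k ∈ S5 then (24 : ℤ) else 0) = 24 * (if k ∈ S5 then 1 else 0) := by
    intro k; split_ifs <;> ring
  have e8 : ∀ k, (if k ∈ S3 then (8 : ℤ) else 0) = 8 * (if k ∈ S3 then 1 else 0) := by
    intro k; split_ifs <;> ring
  rw [Finset.sum_congr rfl (fun k _ => gv_sq c S5 S3 hd k), Finset.sum_add_distrib,
    Finset.sum_add_distrib, Finset.sum_congr rfl (fun k _ => e24 k),
    Finset.sum_congr rfl (fun k _ => e8 k), ← Finset.mul_sum, ← Finset.mul_sum, sum_ind, sum_ind,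
    Finset.sum_const, card_golayPt]
  simp

lemma gv_inj (c S5 S3 c' S5' S3' : Finset GolayPt) (hd : Disjoint S5 S3)
    (hd' : Disjoint S5' S3') (e : gv c S5 S3 = gv c' S5' S3') :
    c = c' ∧ S5 = S5' ∧ S3 = S3' := by
  have key : ∀ (c S5 S3 : Finset GolayPt), Disjoint S5 S3 → ∀ k,
      (k ∈ S5 ↔ gv c S5 S3 k ^ 2 = 25) ∧ (k ∈ S3 ↔ gv c S5 S3 k ^ 2 = 9) := by
    intro c S5 S3 hd k
    rw [gv_sq c S5 S3 hd k]
    by_cases h5 : k ∈ S5
    · have h3 : k ∉ S3 := Finset.disjoint_left.mp hd h5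
      simp [h5, h3]
    · by_cases h3 : k ∈ S3 <;> simp [h5, h3]
  refine ⟨?_, ?_, ?_⟩
  · ext k; rw [← gv_mod c S5 S3 k, ← gv_mod c' S5' S3' k, e]
  · ext k; rw [(key c S5 S3 hd k).1, (key c' S5' S3' hd' k).1, e]
  · ext k; rw [(key c S5 S3 hd k).2, (key c' S5' S3' hd' k).2, e]

/-! ### classification of the vectors of sum of squares 64 -/

/-- pointwise decomposition of an even vector with entries `±2` on its residue-2 set and
`0, ±4` elsewhere -/
lemma ev_of_vals (x : GolayPt → ℤ) (c : Finset GolayPt) (hmem : ∀ k, k ∈ c ↔ x k % 4 = 2)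
    (hon : ∀ k, k ∈ c → (x k = 2 ∨ x k = -2))
    (hoff : ∀ k, k ∉ c → (x k = 0 ∨ x k = 4 ∨ x k = -4)) :
    ∃ ε T η : Finset GolayPt, ε ⊆ c ∧ Disjoint c T ∧ η ⊆ T ∧ x = ev c ε T η := by
  refine ⟨Finset.univ.filter fun k => x k = -2, Finset.univ.filter fun k => x k = 4 ∨ x k = -4,
    Finset.univ.filter fun k => x k = -4, ?_, ?_, ?_, ?_⟩
  · intro k hk
    simp only [Finset.mem_filter, Finset.mem_univ, true_and] at hk
    rw [hmem, hk]; rfl
  · rw [Finset.disjoint_left]
    intro k hk hT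
    simp only [Finset.mem_filter, Finset.mem_univ, true_and] at hT
    have := (hmem k).mp hk
    omega
  · intro k hk
    simp only [Finset.mem_filter, Finset.mem_univ, true_and] at hk ⊢
    right; exact hk
  · funext k
    unfold ev sv
    simp only [Finset.mem_filter, Finset.mem_univ, true_and]
    by_cases hk : k ∈ c
    · rcases hon k hk with h | h
      · simp [hk, h]
      · simp [hk, h]
    · rcases hoff k hk with h | h | h
      · simp [hk, h]
      · simp [hk, h]
      · simp [hk, h]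

lemma n64_even_empty (x : GolayPt → ℤ) (h4 : ∀ i, x i % 4 = 0) (hn : sqNorm x = 64) :
    (∃ (i : GolayPt) (η : Finset GolayPt), η ⊆ {i} ∧ x = sv 8 {i} η) ∨
    (∃ T η : Finset GolayPt, T.card = 4 ∧ η ⊆ T ∧ x = ev ∅ ∅ T η) := by
  have hn' : ∑ k, x k ^ 2 = 64 := hn
  have hy : ∀ k, x k = 4 * (x k / 4) := by
    intro k; have := h4 k; omega
  have hsq : ∀ k, x k ^ 2 = 16 * (x k / 4) ^ 2 := by
    intro k
    have h := hy k
    generalize x k / 4 = q at h ⊢
    rw [h]; ring
  have hsum2 : ∑ k, (x k / 4) ^ 2 = 4 := by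
    rw [Finset.sum_congr rfl (fun k _ => hsq k), ← Finset.mul_sum] at hn'
    omega
  have hbd : ∀ k, (x k / 4) ^ 2 ≤ 4 := by
    intro k
    have h1 := Finset.single_le_sum (f := fun k => (x k / 4) ^ 2) (fun i _ => by positivity)
      (Finset.mem_univ k)
    rw [hsum2] at h1
    exact h1
  have hrange : ∀ k, -2 ≤ x k / 4 ∧ x k / 4 ≤ 2 := by
    intro k
    have h := hbd k
    exact int_bound (x k / 4) 2 (by norm_num) (by nlinarith)
  by_cases h8 : ∃ i, x i = 8 ∨ x i = -8
  · left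
    obtain ⟨i, hi⟩ := h8
    have hi4 : (x i / 4) ^ 2 = 4 := by
      rcases hi with h | h <;> rw [h] <;> norm_num
    have hrest : ∀ k, k ≠ i → x k = 0 := by
      have h1 := Finset.add_sum_erase Finset.univ (fun k => (x k / 4) ^ 2) (Finset.mem_univ i)
      rw [hsum2, hi4] at h1
      have h3 : ∑ k ∈ Finset.univ.erase i, (x k / 4) ^ 2 = 0 := by omega
      have h4' := (Finset.sum_eq_zero_iff_of_nonneg (fun k _ => by positivity)).mp h3
      intro k hk
      have h5 := h4' k (Finset.mem_erase.mpr ⟨hk, Finset.mem_univ k⟩)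
      have h6 : x k / 4 = 0 := pow_eq_zero_iff (two_ne_zero) |>.mp h5
      have := hy k
      omega
    rcases hi with h | h
    · refine ⟨i, ∅, Finset.empty_subset _, ?_⟩
      funext k
      unfold sv
      by_cases hk : k = i
      · subst hk; simp [h]
      · simp [hk, hrest k hk]
    · refine ⟨i, {i}, subset_refl _, ?_⟩
      funext k
      unfold sv
      by_cases hk : k = i
      · subst hk; simp [h]
      · simp [hk, hrest k hk]
  · right
    push Not at h8
    have hr' : ∀ k, x k = 0 ∨ x k = 4 ∨ x k = -4 := by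
      intro k
      have h1 := hrange k
      have h3 := h8 k
      have h5 := hy k
      omega
    obtain ⟨ε, T, η, hε, hd, hη, hx⟩ := ev_of_vals x ∅
      (by intro k; simp only [Finset.notMem_empty, false_iff]; have := h4 k; omega)
      (by intro k hk; simp at hk) (fun k _ => hr' k)
    have hε0 : ε = ∅ := Finset.subset_empty.mp hε
    subst hε0
    refine ⟨T, η, ?_, hη, hx⟩
    have hnn := ev_norm ∅ ∅ T η hd
    rw [← hx, hn] at hnn
    simp only [Finset.card_empty, Nat.cast_zero, mul_zero, zero_add] at hnn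
    omega

lemma n64_even_ne (x : GolayPt → ℤ) (h2 : ∀ i, x i % 2 = 0) (h8 : (∑ i, x i) % 8 = 0)
    (hA : (Finset.univ.filter fun i => x i % 4 = 2) ∈
      supports (golayCode : Set (GolayPt → ZMod 2)))
    (hne : (Finset.univ.filter fun i => x i % 4 = 2).Nonempty) (hn : sqNorm x = 64) :
    (∃ (O ε : Finset GolayPt) (j : GolayPt), O ∈ octads ∧ ε ⊆ O ∧ Odd ε.card ∧ j ∈ O ∧
      x = evec O ε j) ∨
    (∃ c ε T η : Finset GolayPt, c ∈ supports (golayCode : Set (GolayPt → ZMod 2)) ∧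
      c.Nonempty ∧ ε ⊆ c ∧ Disjoint c T ∧ η ⊆ T ∧ Even (ε.card + T.card) ∧
      4 * (c.card : ℤ) + 16 * (T.card : ℤ) = 64 ∧ x = ev c ε T η) := by
  obtain ⟨hDE, hMin⟩ := code_facts Cfsg.Agent.S0359.result
  set c := (Finset.univ.filter fun i => x i % 4 = 2) with hc
  have hmem : ∀ k, k ∈ c ↔ x k % 4 = 2 := by
    intro k; rw [hc]; simp
  have hn' : ∑ k, x k ^ 2 = 64 := hn
  have hc8 := hMin c hA hne
  have hc4 := hDE c hA
  have hz0 : ∀ k, 0 ≤ x k ^ 2 - (if k ∈ c then (4 : ℤ) else 0) := by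
    intro k
    by_cases hk : k ∈ c
    · rw [if_pos hk]
      have := sq_ge_four _ ((hmem k).mp hk)
      omega
    · rw [if_neg hk, sub_zero]; positivity
  have hzs : ∑ k, (x k ^ 2 - (if k ∈ c then (4 : ℤ) else 0)) = 64 - 4 * (c.card : ℤ) := by
    rw [Finset.sum_sub_distrib, hn', sum_four_ind]
  have hz32 : ∀ k, x k ^ 2 - (if k ∈ c then (4 : ℤ) else 0) ≤ 32 := by
    intro k
    have h1 := Finset.single_le_sum (f := fun k => x k ^ 2 - (if k ∈ c then (4 : ℤ) else 0))
      (fun i _ => hz0 i) (Finset.mem_univ k)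
    rw [hzs] at h1
    omega
  have hon' : ∀ k, k ∈ c → (x k = 2 ∨ x k = -2 ∨ x k = 6 ∨ x k = -6) := by
    intro k hk
    have h1 := hz32 k
    rw [if_pos hk] at h1
    have h3 := (hmem k).mp hk
    have hb := int_bound (x k) 6 (by norm_num) (by nlinarith)
    omega
  have hoff : ∀ k, k ∉ c → (x k = 0 ∨ x k = 4 ∨ x k = -4) := by
    intro k hk
    have h1 := hz32 k
    rw [if_neg hk] at h1
    have h3 : ¬ x k % 4 = 2 := fun h => hk ((hmem k).mpr h)
    have h4 := h2 k
    have hb := int_bound (x k) 5 (by norm_num) (by nlinarith)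
    omega
  by_cases h6 : ∃ j, x j = 6 ∨ x j = -6
  · left
    obtain ⟨j, hj⟩ := h6
    have hjc : j ∈ c := by
      rw [hmem]
      rcases hj with h | h <;> rw [h] <;> rfl
    have hzj : x j ^ 2 - (if j ∈ c then (4 : ℤ) else 0) = 32 := by
      rw [if_pos hjc]
      rcases hj with h | h <;> rw [h] <;> norm_num
    have h1 := Finset.add_sum_erase Finset.univ
      (fun k => x k ^ 2 - (if k ∈ c then (4 : ℤ) else 0)) (Finset.mem_univ j)
    rw [hzs, hzj] at h1
    have hnn : 0 ≤ ∑ k ∈ Finset.univ.erase j, (x k ^ 2 - (if k ∈ c then (4 : ℤ) else 0)) :=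
      Finset.sum_nonneg (fun k _ => hz0 k)
    have hcard : c.card = 8 := by omega
    have h3 : ∑ k ∈ Finset.univ.erase j, (x k ^ 2 - (if k ∈ c then (4 : ℤ) else 0)) = 0 := by
      omega
    have h4 := (Finset.sum_eq_zero_iff_of_nonneg (fun k _ => hz0 k)).mp h3
    have hrest : ∀ k, k ≠ j → x k ^ 2 - (if k ∈ c then (4 : ℤ) else 0) = 0 := by
      intro k hk
      exact h4 k (Finset.mem_erase.mpr ⟨hk, Finset.mem_univ k⟩)
    have hon : ∀ k, k ∈ c → k ≠ j → (x k = 2 ∨ x k = -2) := by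
      intro k hk hkj
      have h5 := hrest k hkj
      rw [if_pos hk] at h5
      rcases hon' k hk with h | h | h | h
      · left; exact h
      · right; exact h
      · rw [h] at h5; norm_num at h5
      · rw [h] at h5; norm_num at h5
    have hoff0 : ∀ k, k ∉ c → x k = 0 := by
      intro k hk
      have hkj : k ≠ j := fun h => hk (h ▸ hjc)
      have h5 := hrest k hkj
      rw [if_neg hk, sub_zero] at h5
      exact pow_eq_zero_iff (two_ne_zero) |>.mp h5
    set ε := (Finset.univ.filter fun k => x k < 0) with hε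
    have hmemε : ∀ k, k ∈ ε ↔ x k < 0 := by
      intro k; rw [hε]; simp
    have hεc : ε ⊆ c := by
      intro k hk
      by_contra hkc
      have := hoff0 k hkc
      have := (hmemε k).mp hk
      omega
    have hx : x = evec c ε j := by
      funext k
      by_cases hk : k = j
      · subst hk
        rw [evec_at]
        unfold sv
        rw [if_pos hjc]
        rcases hj with h | h
        · have : k ∉ ε := by rw [hmemε]; omega
          rw [if_neg this, h]; norm_num
        · have : k ∈ ε := by rw [hmemε]; omega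
          rw [if_pos this, h]; norm_num
      · rw [evec_ne c ε j k hk]
        unfold sv
        by_cases hkc : k ∈ c
        · rw [if_pos hkc]
          rcases hon k hkc hk with h | h
          · have : k ∉ ε := by rw [hmemε]; omega
            rw [if_neg this, h]
          · have : k ∈ ε := by rw [hmemε]; omega
            rw [if_pos this, h]
        · rw [if_neg hkc]
          exact hoff0 k hkc
    refine ⟨c, ε, j, ⟨hA, hcard⟩, hεc, ?_, hjc, hx⟩
    have hs := sum_evec c ε j hεc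
    rw [← hx, hcard] at hs
    rw [hs] at h8
    have h7 := sv2_vals c ε j
    have h9 := (sv2_mod c ε j).mpr hjc
    push_cast at h8
    apply Nat.odd_iff.mpr
    omega
  · right
    push Not at h6
    have hon : ∀ k, k ∈ c → (x k = 2 ∨ x k = -2) := by
      intro k hk
      have := hon' k hk
      have := h6 k
      omega
    obtain ⟨ε, T, η, hε, hd, hη, hx⟩ := ev_of_vals x c hmem hon hoff
    have hnn := ev_norm c ε T η hd
    rw [← hx, hn] at hnn
    refine ⟨c, ε, T, η, hA, hne, hε, hd, hη, ?_, hnn.symm, hx⟩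
    have hs := sum_ev c ε T η hε hη
    rw [← hx] at hs
    rw [hs] at h8
    apply Nat.even_iff.mpr
    omega

lemma n64_odd (x : GolayPt → ℤ) (h2 : ∀ i, x i % 2 = 1)
    (hA : (Finset.univ.filter fun i => x i % 4 = 3) ∈
      supports (golayCode : Set (GolayPt → ZMod 2)))
    (hn : sqNorm x = 64) :
    ∃ c S5 S3 : Finset GolayPt, c ∈ supports (golayCode : Set (GolayPt → ZMod 2)) ∧
      Disjoint S5 S3 ∧ 24 * (S5.card : ℤ) + 8 * (S3.card : ℤ) = 40 ∧ x = gv c S5 S3 := by
  have hn' : ∑ k, x k ^ 2 = 64 := hn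
  set c := (Finset.univ.filter fun i => x i % 4 = 3) with hc
  have hmem : ∀ k, k ∈ c ↔ x k % 4 = 3 := by
    intro k; rw [hc]; simp
  have hz0 : ∀ k, 0 ≤ x k ^ 2 - 1 := by
    intro k
    have := h2 k
    have h' : x k ≥ 1 ∨ x k ≤ -1 := by omega
    rcases h' with h' | h' <;> nlinarith
  have hzs : ∑ k, (x k ^ 2 - 1) = 40 := by
    rw [Finset.sum_sub_distrib, hn', Finset.sum_const, card_golayPt]
    simp
  have hz40 : ∀ k, x k ^ 2 - 1 ≤ 40 := by
    intro k
    rw [← hzs]
    exact Finset.single_le_sum (f := fun k => x k ^ 2 - 1) (fun i _ => hz0 i) (Finset.mem_univ k)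
  have hvals : ∀ k, x k = 1 ∨ x k = -1 ∨ x k = 3 ∨ x k = -3 ∨ x k = 5 ∨ x k = -5 := by
    intro k
    have h1 := hz40 k
    have h3 := h2 k
    have hb := int_bound (x k) 6 (by norm_num) (by nlinarith)
    omega
  set S5 := (Finset.univ.filter fun k => x k = 5 ∨ x k = -5) with hS5
  set S3 := (Finset.univ.filter fun k => x k = 3 ∨ x k = -3) with hS3
  have hmem5 : ∀ k, k ∈ S5 ↔ (x k = 5 ∨ x k = -5) := by
    intro k; rw [hS5]; simp
  have hmem3 : ∀ k, k ∈ S3 ↔ (x k = 3 ∨ x k = -3) := by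
    intro k; rw [hS3]; simp
  have hd : Disjoint S5 S3 := by
    rw [Finset.disjoint_left]
    intro k h5 h3
    have := (hmem5 k).mp h5
    have := (hmem3 k).mp h3
    omega
  have hx : x = gv c S5 S3 := by
    funext k
    rcases hvals k with h | h | h | h | h | h <;>
      simp [gv, hmem k, hmem5 k, hmem3 k, h]
  refine ⟨c, S5, S3, hA, hd, ?_, hx⟩
  have hnn := gv_norm c S5 S3 hd
  rw [← hx, hn] at hnn
  omega

/-- the shapes of lattice vectors of sum of squares 64 -/
theorem n64_cases (x : GolayPt → ℤ) (hx : x ∈ leechSet) (hn : sqNorm x = 64) :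
    (∃ (i : GolayPt) (η : Finset GolayPt), η ⊆ {i} ∧ x = sv 8 {i} η) ∨
    (∃ (O ε : Finset GolayPt) (j : GolayPt), O ∈ octads ∧ ε ⊆ O ∧ Odd ε.card ∧ j ∈ O ∧
      x = evec O ε j) ∨
    (∃ c ε T η : Finset GolayPt, c ∈ supports (golayCode : Set (GolayPt → ZMod 2)) ∧
      ε ⊆ c ∧ Disjoint c T ∧ η ⊆ T ∧ Even (ε.card + T.card) ∧
      4 * (c.card : ℤ) + 16 * (T.card : ℤ) = 64 ∧ x = ev c ε T η) ∨
    (∃ c S5 S3 : Finset GolayPt, c ∈ supports (golayCode : Set (GolayPt → ZMod 2)) ∧
      Disjoint S5 S3 ∧ 24 * (S5.card : ℤ) + 8 * (S3.card : ℤ) = 40 ∧ x = gv c S5 S3) := by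
  rcases leechSet_cases x hx with ⟨h2, h8, hA⟩ | ⟨h2, h8, hA⟩
  · by_cases hne : (Finset.univ.filter fun i => x i % 4 = 2).Nonempty
    · rcases n64_even_ne x h2 h8 hA hne hn with h | ⟨c, ε, T, η, h1, -, h3, h4, h5, h6, h7, h9⟩
      · right; left; exact h
      · right; right; left
        exact ⟨c, ε, T, η, h1, h3, h4, h5, h6, h7, h9⟩
    · have h4 : ∀ i, x i % 4 = 0 := by
        intro i
        have h := h2 i
        have h' : ¬ x i % 4 = 2 := by
          intro h'
          exact hne ⟨i, by simp [h']⟩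
        omega
      rcases n64_even_empty x h4 hn with h | ⟨T, η, hT, hη, hx'⟩
      · left; exact h
      · right; right; left
        refine ⟨∅, ∅, T, η, Spor.empty_mem_supports_golayCode, subset_refl _,
          Finset.disjoint_empty_left _, hη, ?_, ?_, hx'⟩
        · rw [hT]; decide
        · rw [hT]; norm_num
  · right; right; right
    exact n64_odd x h2 hA hn

end Cfsg.Agent.Helper27
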