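import Cfsg.Agent.Helper27.Leech64

set_option autoImplicit false
open Cfsg

namespace Cfsg.Agent.Helper27

open Cfsg.Agent.S0394 (allCW mem_allCW card_allCW even_subsets sv_inj mem_octFin)

/-- supports of the codewords of weight 16 -/
def hexFin : Finset (Finset GolayPt) :=
  Cfsg.Agent.Helper28.Golay.cwFinset fun c => Nat.beq (Cfsg.Agent.Helper28.Golay.wt c) 16

lemma mem_hexFin (s : Finset GolayPt) :
    s ∈ hexFin ↔ s ∈ supports (golayCode : Set (GolayPt → ZMod 2)) ∧ s.card = 16 := by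
  rw [hexFin, Cfsg.Agent.Helper28.Golay.mem_cwFinset, Cfsg.Agent.Helper28.Golay.nbeq_iff,
    Cfsg.Agent.Helper28.Golay.card_maskOf]

set_option maxRecDepth 100000 in
lemma card_hexFin : hexFin.card = 759 := by
  rw [hexFin, Cfsg.Agent.Helper28.Golay.card_cwFinset]
  decide +kernel

/-- parameters of the `ev` family over the codeword supports in `W`, with `|T| = t` -/
def PE (W : Finset (Finset GolayPt)) (t : ℕ) :
    Finset (Σ _ : Finset GolayPt, Finset GolayPt × (Σ _ : Finset GolayPt, Finset GolayPt)) :=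
  W.sigma fun c => (c.powerset.filter fun ε => Even (ε.card + t)) ×ˢ
    ((Finset.powersetCard t cᶜ).sigma fun T => T.powerset)

/-- the `ev` family -/
def FE (W : Finset (Finset GolayPt)) (t : ℕ) : Finset (GolayPt → ℤ) :=
  (PE W t).image fun p => ev p.1 p.2.1 p.2.2.1 p.2.2.2

/-- parameters of the `gv` family with `|S5| = a`, `|S3| = b` -/
def PG (a b : ℕ) : Finset (Finset GolayPt × (Σ _ : Finset GolayPt, Finset GolayPt)) :=
  allCW ×ˢ ((Finset.powersetCard a Finset.univ).sigma fun S5 => Finset.powersetCard b S5ᶜ)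

/-- the `gv` family -/
def FG (a b : ℕ) : Finset (GolayPt → ℤ) := (PG a b).image fun p => gv p.1 p.2.1 p.2.2

/-- parameters of the vectors `±8 e_i` -/
def P2 : Finset (Σ _ : GolayPt, Finset GolayPt) :=
  (Finset.univ : Finset GolayPt).sigma fun i => ({i} : Finset GolayPt).powerset

/-- the vectors `±8 e_i` -/
def F2 : Finset (GolayPt → ℤ) := P2.image fun p => sv 8 {p.1} p.2

/-- parameters of the vectors `(±6, ±2^7, 0^16)` -/
def P3 : Finset (Σ _ : Finset GolayPt, Finset GolayPt × GolayPt) :=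
  Cfsg.Agent.Helper28.Golay.octFin.sigma fun O =>
    (O.powerset.filter fun ε => ¬ Even ε.card) ×ˢ O

/-- the vectors `(±6, ±2^7, 0^16)` -/
def F3 : Finset (GolayPt → ℤ) := P3.image fun p => evec p.1 p.2.1 p.2.2

attribute [irreducible] PE FE PG FG P2 F2 P3 F3

lemma mem_PE (W : Finset (Finset GolayPt)) (t : ℕ) (c ε T η : Finset GolayPt) :
    (⟨c, (ε, ⟨T, η⟩)⟩ : Σ _ : Finset GolayPt,
      Finset GolayPt × (Σ _ : Finset GolayPt, Finset GolayPt)) ∈ PE W t ↔
      c ∈ W ∧ ε ⊆ c ∧ Even (ε.card + t) ∧ Disjoint c T ∧ T.card = t ∧ η ⊆ T := by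
  unfold PE
  simp only [Finset.mem_sigma, Finset.mem_product, Finset.mem_filter, Finset.mem_powerset,
    Finset.mem_powersetCard, Finset.subset_compl_iff_disjoint_left]
  tauto

lemma mem_FE (W : Finset (Finset GolayPt)) (t : ℕ) (x : GolayPt → ℤ) :
    x ∈ FE W t ↔ ∃ c ε T η : Finset GolayPt, c ∈ W ∧ ε ⊆ c ∧ Even (ε.card + t) ∧
      Disjoint c T ∧ T.card = t ∧ η ⊆ T ∧ x = ev c ε T η := by
  unfold FE
  rw [Finset.mem_image]
  constructor
  · rintro ⟨⟨c, ε, T, η⟩, hp, rfl⟩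
    obtain ⟨h1, h2, h3, h4, h5, h6⟩ := (mem_PE W t c ε T η).mp hp
    exact ⟨c, ε, T, η, h1, h2, h3, h4, h5, h6, rfl⟩
  · rintro ⟨c, ε, T, η, h1, h2, h3, h4, h5, h6, rfl⟩
    exact ⟨⟨c, ε, T, η⟩, (mem_PE W t c ε T η).mpr ⟨h1, h2, h3, h4, h5, h6⟩, rfl⟩

lemma card_PE (W : Finset (Finset GolayPt)) (t w f : ℕ) (hw : ∀ c ∈ W, c.card = w)
    (hf : ∀ c ∈ W, (c.powerset.filter fun ε => Even (ε.card + t)).card = f) :
    (PE W t).card = W.card * (f * ((24 - w).choose t * 2 ^ t)) := by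
  unfold PE
  rw [Finset.card_sigma]
  have h : ∀ c ∈ W, ((c.powerset.filter fun ε => Even (ε.card + t)) ×ˢ
      ((Finset.powersetCard t cᶜ).sigma fun T => T.powerset)).card =
      f * ((24 - w).choose t * 2 ^ t) := by
    intro c hc
    rw [Finset.card_product, hf c hc, Finset.card_sigma]
    have h2 : ∀ T ∈ Finset.powersetCard t cᶜ, T.powerset.card = 2 ^ t := by
      intro T hT
      rw [Finset.card_powerset, (Finset.mem_powersetCard.mp hT).2]
    have h24 : Fintype.card GolayPt = 24 := by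
      rw [Fintype.card_option, ZMod.card]
    rw [Finset.sum_congr rfl h2, Finset.sum_const, Finset.card_powersetCard, Finset.card_compl,
      hw c hc, h24, smul_eq_mul]
  rw [Finset.sum_congr rfl h, Finset.sum_const, smul_eq_mul]

lemma card_FE (W : Finset (Finset GolayPt)) (t : ℕ) : (FE W t).card = (PE W t).card := by
  unfold FE
  apply Finset.card_image_of_injOn
  rintro ⟨c, ε, T, η⟩ hp ⟨c', ε', T', η'⟩ hp' e
  rw [Finset.mem_coe, mem_PE] at hp hp'
  obtain ⟨rfl, rfl, rfl, rfl⟩ := ev_inj c ε T η c' ε' T' η' hp.2.1 hp'.2.1 hp.2.2.2.1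
    hp'.2.2.2.1 hp.2.2.2.2.2 hp'.2.2.2.2.2 e
  rfl

lemma par_subsets {α : Type*} [DecidableEq α] (s : Finset α) (h : s.Nonempty) (t : ℕ) :
    2 * ((s.powerset).filter (fun m => Even (m.card + t))).card = 2 ^ s.card := by
  have h1 := even_subsets s h
  have h2 := Finset.card_filter_add_card_filter_not (s := s.powerset) (fun m => Even m.card)
  rw [Finset.card_powerset] at h2
  by_cases ht : Even t
  · have e : (s.powerset).filter (fun m => Even (m.card + t)) =
        (s.powerset).filter (fun m => Even m.card) := by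
      apply Finset.filter_congr
      intro m _
      rw [Nat.even_add]
      exact ⟨fun hh => hh.mpr ht, fun hh => ⟨fun _ => ht, fun _ => hh⟩⟩
    rw [e]; exact h1
  · have e : (s.powerset).filter (fun m => Even (m.card + t)) =
        (s.powerset).filter (fun m => ¬ Even m.card) := by
      apply Finset.filter_congr
      intro m _
      rw [Nat.even_add]
      exact ⟨fun hh h' => ht (hh.mp h'), fun hh => ⟨fun h' => absurd h' hh, fun h' => absurd h' ht⟩⟩
    rw [e]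
    generalize 2 ^ s.card = N at h1 h2 ⊢
    omega

/-! ### the `gv` family -/

lemma mem_PG (a b : ℕ) (c S5 S3 : Finset GolayPt) :
    ((c, ⟨S5, S3⟩) : Finset GolayPt × (Σ _ : Finset GolayPt, Finset GolayPt)) ∈ PG a b ↔
      c ∈ supports (golayCode : Set (GolayPt → ZMod 2)) ∧ S5.card = a ∧ Disjoint S5 S3 ∧
        S3.card = b := by
  unfold PG
  simp only [Finset.mem_sigma, Finset.mem_product, Finset.mem_powersetCard, mem_allCW,
    Finset.subset_compl_iff_disjoint_left, Finset.subset_univ, true_and]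

lemma mem_FG (a b : ℕ) (x : GolayPt → ℤ) :
    x ∈ FG a b ↔ ∃ c S5 S3 : Finset GolayPt,
      c ∈ supports (golayCode : Set (GolayPt → ZMod 2)) ∧ S5.card = a ∧ Disjoint S5 S3 ∧
        S3.card = b ∧ x = gv c S5 S3 := by
  unfold FG
  rw [Finset.mem_image]
  constructor
  · rintro ⟨⟨c, S5, S3⟩, hp, rfl⟩
    obtain ⟨h1, h2, h3, h4⟩ := (mem_PG a b c S5 S3).mp hp
    exact ⟨c, S5, S3, h1, h2, h3, h4, rfl⟩
  · rintro ⟨c, S5, S3, h1, h2, h3, h4, rfl⟩
    exact ⟨(c, ⟨S5, S3⟩), (mem_PG a b c S5 S3).mpr ⟨h1, h2, h3, h4⟩, rfl⟩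

lemma card_PG (a b : ℕ) : (PG a b).card = 4096 * ((24).choose a * (24 - a).choose b) := by
  unfold PG
  rw [Finset.card_product, card_allCW, Finset.card_sigma]
  have h24 : Fintype.card GolayPt = 24 := by
    rw [Fintype.card_option, ZMod.card]
  have h : ∀ S5 ∈ Finset.powersetCard a (Finset.univ : Finset GolayPt),
      (Finset.powersetCard b S5ᶜ).card = (24 - a).choose b := by
    intro S5 hS
    rw [Finset.card_powersetCard, Finset.card_compl, (Finset.mem_powersetCard.mp hS).2, h24]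
  rw [Finset.sum_congr rfl h, Finset.sum_const, Finset.card_powersetCard, card_golayPt,
    smul_eq_mul]

lemma card_FG (a b : ℕ) : (FG a b).card = (PG a b).card := by
  unfold FG
  apply Finset.card_image_of_injOn
  rintro ⟨c, S5, S3⟩ hp ⟨c', S5', S3'⟩ hp' e
  rw [Finset.mem_coe, mem_PG] at hp hp'
  obtain ⟨rfl, rfl, rfl⟩ := gv_inj c S5 S3 c' S5' S3' hp.2.2.1 hp'.2.2.1 e
  rfl

/-! ### the two special families -/

lemma mem_P2 (i : GolayPt) (η : Finset GolayPt) :
    (⟨i, η⟩ : Σ _ : GolayPt, Finset GolayPt) ∈ P2 ↔ η ⊆ {i} := by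
  unfold P2
  simp only [Finset.mem_sigma, Finset.mem_univ, true_and, Finset.mem_powerset]

lemma mem_F2 (x : GolayPt → ℤ) :
    x ∈ F2 ↔ ∃ (i : GolayPt) (η : Finset GolayPt), η ⊆ {i} ∧ x = sv 8 {i} η := by
  unfold F2
  rw [Finset.mem_image]
  constructor
  · rintro ⟨⟨i, η⟩, hp, rfl⟩
    exact ⟨i, η, (mem_P2 i η).mp hp, rfl⟩
  · rintro ⟨i, η, h1, rfl⟩
    exact ⟨⟨i, η⟩, (mem_P2 i η).mpr h1, rfl⟩

lemma card_P2 : P2.card = 48 := by
  unfold P2
  rw [Finset.card_sigma]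
  have h : ∀ i ∈ (Finset.univ : Finset GolayPt), ({i} : Finset GolayPt).powerset.card = 2 := by
    intro i _
    rw [Finset.card_powerset, Finset.card_singleton]
    rfl
  rw [Finset.sum_congr rfl h, Finset.sum_const, card_golayPt]
  rfl

lemma card_F2 : F2.card = 48 := by
  unfold F2
  rw [Finset.card_image_of_injOn, card_P2]
  rintro ⟨i, η⟩ hp ⟨i', η'⟩ hp' e
  rw [Finset.mem_coe, mem_P2] at hp hp'
  obtain ⟨h1, rfl⟩ := sv_inj 8 (by norm_num) {i} η {i'} η' hp hp' e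
  obtain rfl := Finset.singleton_inj.mp h1
  rfl

lemma mem_P3 (O ε : Finset GolayPt) (j : GolayPt) :
    (⟨O, (ε, j)⟩ : Σ _ : Finset GolayPt, Finset GolayPt × GolayPt) ∈ P3 ↔
      O ∈ octads ∧ ε ⊆ O ∧ Odd ε.card ∧ j ∈ O := by
  unfold P3
  simp only [Finset.mem_sigma, Finset.mem_product, Finset.mem_filter, Finset.mem_powerset,
    mem_octFin, Nat.not_even_iff_odd]
  tauto

lemma mem_F3 (x : GolayPt → ℤ) :
    x ∈ F3 ↔ ∃ (O ε : Finset GolayPt) (j : GolayPt), O ∈ octads ∧ ε ⊆ O ∧ Odd ε.card ∧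
      j ∈ O ∧ x = evec O ε j := by
  unfold F3
  rw [Finset.mem_image]
  constructor
  · rintro ⟨⟨O, ε, j⟩, hp, rfl⟩
    obtain ⟨h1, h2, h3, h4⟩ := (mem_P3 O ε j).mp hp
    exact ⟨O, ε, j, h1, h2, h3, h4, rfl⟩
  · rintro ⟨O, ε, j, h1, h2, h3, h4, rfl⟩
    exact ⟨⟨O, ε, j⟩, (mem_P3 O ε j).mpr ⟨h1, h2, h3, h4⟩, rfl⟩

lemma card_P3 : P3.card = 777216 := by
  unfold P3
  rw [Finset.card_sigma]
  have h : ∀ O ∈ Cfsg.Agent.Helper28.Golay.octFin,
      ((O.powerset.filter fun ε => ¬ Even ε.card) ×ˢ O).card = 1024 := by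
    intro O hO
    have hO' : O ∈ octads := (mem_octFin O).mp hO
    have hne : O.Nonempty := by
      rw [← Finset.card_pos, hO'.2]; norm_num
    have h2 := even_subsets O hne
    have h3 := Finset.card_filter_add_card_filter_not (s := O.powerset) (fun m => Even m.card)
    rw [Finset.card_powerset] at h3
    rw [hO'.2] at h2 h3
    have h4 : (O.powerset.filter fun ε => ¬ Even ε.card).card = 128 := by omega
    rw [Finset.card_product, h4, hO'.2]
  rw [Finset.sum_congr rfl h, Finset.sum_const, Cfsg.Agent.Helper28.Golay.card_octFin]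
  rfl

lemma card_F3 : F3.card = 777216 := by
  unfold F3
  rw [Finset.card_image_of_injOn, card_P3]
  rintro ⟨O, ε, j⟩ hp ⟨O', ε', j'⟩ hp' e
  rw [Finset.mem_coe, mem_P3] at hp hp'
  obtain ⟨rfl, rfl, rfl⟩ := evec_inj O ε O' ε' j j' hp.2.1 hp'.2.1 hp.2.2.2 hp'.2.2.2 e
  rfl

/-! ### assembling the count for sum of squares 64 -/

lemma evec_vals (O ε : Finset GolayPt) (j k : GolayPt) :
    evec O ε j k = 0 ∨ evec O ε j k = 2 ∨ evec O ε j k = -2 ∨ evec O ε j k = 6 ∨
      evec O ε j k = -6 := by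
  unfold evec
  have := sv2_vals O ε k
  split_ifs <;> omega

lemma sv8_vals (T η : Finset GolayPt) (k : GolayPt) :
    sv 8 T η k = 0 ∨ sv 8 T η k = 8 ∨ sv 8 T η k = -8 := by
  unfold sv
  split_ifs
  · right; right; rfl
  · right; left; rfl
  · left; rfl

lemma F2_sub (x : GolayPt → ℤ) (h : x ∈ F2) : x ∈ leechLattice ∧ sqNorm x = 64 := by
  obtain ⟨i, η, hη, rfl⟩ := (mem_F2 x).mp h
  refine ⟨(mem_leechLattice_iff _).mpr ?_, ?_⟩
  · apply mem_leechSet_of_even
    · intro k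
      have := sv8_vals {i} η k
      omega
    · rw [sum_sv 8 {i} η hη, Finset.card_singleton]
      push_cast
      omega
    · apply empty_filter_mem
      intro k
      have := sv8_vals {i} η k
      omega
  · rw [sqNorm_sv, Finset.card_singleton]; norm_num

lemma F3_sub (x : GolayPt → ℤ) (h : x ∈ F3) : x ∈ leechLattice ∧ sqNorm x = 64 := by
  obtain ⟨O, ε, j, hO, hε, ho, hj, rfl⟩ := (mem_F3 x).mp h
  exact ⟨(mem_leechLattice_iff _).mpr (evec_mem O ε j hO hε ho hj), evec_norm O ε j hO hj⟩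

lemma FE_sub (W : Finset (Finset GolayPt)) (t : ℕ)
    (hW : ∀ c ∈ W, c ∈ supports (golayCode : Set (GolayPt → ZMod 2)) ∧
      4 * (c.card : ℤ) + 16 * (t : ℤ) = 64)
    (x : GolayPt → ℤ) (h : x ∈ FE W t) : x ∈ leechLattice ∧ sqNorm x = 64 := by
  obtain ⟨c, ε, T, η, hc, hε, hp, hd, hT, hη, rfl⟩ := (mem_FE W t x).mp h
  refine ⟨(mem_leechLattice_iff _).mpr (ev_mem c ε T η (hW c hc).1 hε hη (by rw [hT]; exact hp)),
    ?_⟩
  rw [ev_norm c ε T η hd, hT]
  exact (hW c hc).2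

lemma FG_sub (a b : ℕ) (hab : Odd (a + b)) (hn : 24 * (a : ℤ) + 8 * (b : ℤ) = 40)
    (x : GolayPt → ℤ) (h : x ∈ FG a b) : x ∈ leechLattice ∧ sqNorm x = 64 := by
  obtain ⟨c, S5, S3, hc, h5, hd, h3, rfl⟩ := (mem_FG a b x).mp h
  refine ⟨(mem_leechLattice_iff _).mpr (gv_mem c S5 S3 hc (by rw [h5, h3]; exact hab)), ?_⟩
  rw [gv_norm c S5 S3 hd, h5, h3]
  omega

lemma hW0 : ∀ c ∈ ({∅} : Finset (Finset GolayPt)),
    c ∈ supports (golayCode : Set (GolayPt → ZMod 2)) ∧ 4 * (c.card : ℤ) + 16 * ((4 : ℕ) : ℤ) = 64 := by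
  intro c hc
  rw [Finset.mem_singleton] at hc
  subst hc
  exact ⟨Spor.empty_mem_supports_golayCode, by simp⟩

lemma hW8 : ∀ c ∈ Cfsg.Agent.Helper28.Golay.octFin,
    c ∈ supports (golayCode : Set (GolayPt → ZMod 2)) ∧ 4 * (c.card : ℤ) + 16 * ((2 : ℕ) : ℤ) = 64 := by
  intro c hc
  have h := (mem_octFin c).mp hc
  exact ⟨h.1, by rw [h.2]; norm_num⟩

lemma hW12 : ∀ c ∈ Cfsg.Agent.Helper28.Golay.dodFin,
    c ∈ supports (golayCode : Set (GolayPt → ZMod 2)) ∧ 4 * (c.card : ℤ) + 16 * ((1 : ℕ) : ℤ) = 64 := by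
  intro c hc
  have h := (mem_dodFin' c).mp hc
  exact ⟨h.1, by rw [h.2]; norm_num⟩

lemma hW16 : ∀ c ∈ hexFin,
    c ∈ supports (golayCode : Set (GolayPt → ZMod 2)) ∧ 4 * (c.card : ℤ) + 16 * ((0 : ℕ) : ℤ) = 64 := by
  intro c hc
  have h := (mem_hexFin c).mp hc
  exact ⟨h.1, by rw [h.2]; norm_num⟩

/-- the even vectors of `ev` type of sum of squares 64 -/
def EE : Finset (GolayPt → ℤ) :=
  (FE {∅} 4 ∪ FE Cfsg.Agent.Helper28.Golay.octFin 2) ∪
    (FE Cfsg.Agent.Helper28.Golay.dodFin 1 ∪ FE hexFin 0)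

lemma EE_sub (x : GolayPt → ℤ) (h : x ∈ EE) : x ∈ leechLattice ∧ sqNorm x = 64 := by
  unfold EE at h
  rcases Finset.mem_union.mp h with h | h
  · rcases Finset.mem_union.mp h with h | h
    · exact FE_sub _ 4 hW0 x h
    · exact FE_sub _ 2 hW8 x h
  · rcases Finset.mem_union.mp h with h | h
    · exact FE_sub _ 1 hW12 x h
    · exact FE_sub _ 0 hW16 x h

lemma FE_vals (W : Finset (Finset GolayPt)) (t : ℕ) (x : GolayPt → ℤ) (h : x ∈ FE W t)
    (k : GolayPt) : x k = 0 ∨ x k = 2 ∨ x k = -2 ∨ x k = 4 ∨ x k = -4 := by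
  obtain ⟨c, ε, T, η, hc, hε, hp, hd, hT, hη, rfl⟩ := (mem_FE W t x).mp h
  exact ev_vals c ε T η hd k

lemma EE_vals (x : GolayPt → ℤ) (h : x ∈ EE) (k : GolayPt) :
    x k = 0 ∨ x k = 2 ∨ x k = -2 ∨ x k = 4 ∨ x k = -4 := by
  unfold EE at h
  rcases Finset.mem_union.mp h with h | h
  · rcases Finset.mem_union.mp h with h | h
    · exact FE_vals _ _ x h k
    · exact FE_vals _ _ x h k
  · rcases Finset.mem_union.mp h with h | h
    · exact FE_vals _ _ x h k
    · exact FE_vals _ _ x h k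

lemma FE_aset (W : Finset (Finset GolayPt)) (t : ℕ) (x : GolayPt → ℤ) (h : x ∈ FE W t) :
    (Finset.univ.filter fun k => x k % 4 = 2) ∈ W := by
  obtain ⟨c, ε, T, η, hc, hε, hp, hd, hT, hη, rfl⟩ := (mem_FE W t x).mp h
  have e : (Finset.univ.filter fun k => ev c ε T η k % 4 = 2) = c := by
    ext k
    simp only [Finset.mem_filter, Finset.mem_univ, true_and]
    exact ev_mod c ε T η k
  rw [e]; exact hc

lemma FE_disj (W W' : Finset (Finset GolayPt)) (t t' w w' : ℕ) (hw : ∀ c ∈ W, c.card = w)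
    (hw' : ∀ c ∈ W', c.card = w') (hne : w ≠ w') : Disjoint (FE W t) (FE W' t') := by
  rw [Finset.disjoint_left]
  intro x h h'
  have h1 := hw _ (FE_aset W t x h)
  have h2 := hw' _ (FE_aset W' t' x h')
  exact hne (h1.symm.trans h2)

lemma cardW0 : ∀ c ∈ ({∅} : Finset (Finset GolayPt)), c.card = 0 := by
  intro c hc
  rw [Finset.mem_singleton] at hc
  rw [hc]; rfl

lemma cardW8 : ∀ c ∈ Cfsg.Agent.Helper28.Golay.octFin, c.card = 8 :=
  fun c hc => ((mem_octFin c).mp hc).2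

lemma cardW12 : ∀ c ∈ Cfsg.Agent.Helper28.Golay.dodFin, c.card = 12 :=
  fun c hc => ((mem_dodFin' c).mp hc).2

lemma cardW16 : ∀ c ∈ hexFin, c.card = 16 :=
  fun c hc => ((mem_hexFin c).mp hc).2

lemma F23_big (x : GolayPt → ℤ) (h : x ∈ F2 ∪ F3) :
    ∃ k, x k = 8 ∨ x k = -8 ∨ x k = 6 ∨ x k = -6 := by
  rcases Finset.mem_union.mp h with h | h
  · obtain ⟨i, η, hη, rfl⟩ := (mem_F2 x).mp h
    refine ⟨i, ?_⟩
    unfold sv
    by_cases hi : i ∈ η <;> simp [hi]
  · obtain ⟨O, ε, j, hO, hε, ho, hj, rfl⟩ := (mem_F3 x).mp h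
    refine ⟨j, ?_⟩
    rw [evec_at]
    have h1 := sv2_vals O ε j
    have h2 := (sv2_mod O ε j).mpr hj
    omega

lemma dA : Disjoint F2 F3 := by
  rw [Finset.disjoint_left]
  intro x h h'
  obtain ⟨i, η, hη, rfl⟩ := (mem_F2 x).mp h
  obtain ⟨O, ε, j, hO, hε, ho, hj, e⟩ := (mem_F3 _).mp h'
  have e1 : sv 8 {i} η j = evec O ε j j := congrFun e j
  rw [evec_at] at e1
  have h1 := sv2_vals O ε j
  have h2 := (sv2_mod O ε j).mpr hj
  have h3 := sv8_vals {i} η j
  omega

lemma dB : Disjoint (F2 ∪ F3) EE := by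
  rw [Finset.disjoint_left]
  intro x h h'
  obtain ⟨k, hk⟩ := F23_big x h
  have := EE_vals x h' k
  omega

lemma dC : (EE).card = 170016 + 46632960 + (126615552 + 24870912) := by
  unfold EE
  have d1 : Disjoint (FE {∅} 4) (FE Cfsg.Agent.Helper28.Golay.octFin 2) :=
    FE_disj _ _ _ _ 0 8 cardW0 cardW8 (by norm_num)
  have d2 : Disjoint (FE Cfsg.Agent.Helper28.Golay.dodFin 1) (FE hexFin 0) :=
    FE_disj _ _ _ _ 12 16 cardW12 cardW16 (by norm_num)
  have d3 : Disjoint (FE {∅} 4 ∪ FE Cfsg.Agent.Helper28.Golay.octFin 2)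
      (FE Cfsg.Agent.Helper28.Golay.dodFin 1 ∪ FE hexFin 0) := by
    rw [Finset.disjoint_union_left, Finset.disjoint_union_right, Finset.disjoint_union_right]
    exact ⟨⟨FE_disj _ _ _ _ 0 12 cardW0 cardW12 (by norm_num),
      FE_disj _ _ _ _ 0 16 cardW0 cardW16 (by norm_num)⟩,
      ⟨FE_disj _ _ _ _ 8 12 cardW8 cardW12 (by norm_num),
      FE_disj _ _ _ _ 8 16 cardW8 cardW16 (by norm_num)⟩⟩
  have c0 : (FE {∅} 4).card = 170016 := by
    rw [card_FE, card_PE {∅} 4 0 1 cardW0]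
    · decide +kernel
    · intro c hc
      rw [Finset.mem_singleton] at hc
      subst hc
      decide
  have c8 : (FE Cfsg.Agent.Helper28.Golay.octFin 2).card = 46632960 := by
    rw [card_FE, card_PE _ 2 8 128 cardW8, Cfsg.Agent.Helper28.Golay.card_octFin]
    · decide +kernel
    · intro c hc
      have hc' := (mem_octFin c).mp hc
      have hne : c.Nonempty := by rw [← Finset.card_pos, hc'.2]; norm_num
      have h2 := par_subsets c hne 2
      rw [hc'.2] at h2
      omega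
  have c12 : (FE Cfsg.Agent.Helper28.Golay.dodFin 1).card = 126615552 := by
    rw [card_FE, card_PE _ 1 12 2048 cardW12, Cfsg.Agent.Helper28.Golay.card_dodFin]
    · decide +kernel
    · intro c hc
      have hc' := (mem_dodFin' c).mp hc
      have hne : c.Nonempty := by rw [← Finset.card_pos, hc'.2]; norm_num
      have h2 := par_subsets c hne 1
      rw [hc'.2] at h2
      omega
  have c16 : (FE hexFin 0).card = 24870912 := by
    rw [card_FE, card_PE _ 0 16 32768 cardW16, card_hexFin]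
    · decide +kernel
    · intro c hc
      have hc' := (mem_hexFin c).mp hc
      have hne : c.Nonempty := by rw [← Finset.card_pos, hc'.2]; norm_num
      have h2 := par_subsets c hne 0
      rw [hc'.2] at h2
      omega
  rw [Finset.card_union_of_disjoint d3, Finset.card_union_of_disjoint d1,
    Finset.card_union_of_disjoint d2, c0, c8, c12, c16]

lemma dD : Disjoint (F2 ∪ F3 ∪ EE) (FG 0 5 ∪ FG 1 2) := by
  rw [Finset.disjoint_left]
  intro x h h'
  have hev : x none % 2 = 0 := by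
    rcases Finset.mem_union.mp h with h | h
    · obtain ⟨k, hk⟩ := F23_big x h
      rcases Finset.mem_union.mp h with h | h
      · obtain ⟨i, η, hη, rfl⟩ := (mem_F2 x).mp h
        have := sv8_vals {i} η none
        omega
      · obtain ⟨O, ε, j, hO, hε, ho, hj, rfl⟩ := (mem_F3 x).mp h
        exact evec_even O ε j none
    · have := EE_vals x h none
      omega
  have hodd : x none % 2 = 1 := by
    rcases Finset.mem_union.mp h' with h | h
    · obtain ⟨c, S5, S3, hc, h5, hd, h3, rfl⟩ := (mem_FG 0 5 x).mp h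
      exact gv_odd c S5 S3 none
    · obtain ⟨c, S5, S3, hc, h5, hd, h3, rfl⟩ := (mem_FG 1 2 x).mp h
      exact gv_odd c S5 S3 none
  omega

lemma dE : Disjoint (FG 0 5) (FG 1 2) := by
  rw [Finset.disjoint_left]
  intro x h h'
  obtain ⟨c, S5, S3, hc, h5, hd, h3, rfl⟩ := (mem_FG 0 5 x).mp h
  obtain ⟨c', S5', S3', hc', h5', hd', h3', e⟩ := (mem_FG 1 2 _).mp h'
  obtain ⟨-, hS, -⟩ := gv_inj c S5 S3 c' S5' S3' hd hd' e
  rw [hS] at h5
  omega

theorem V64_eq : {x : GolayPt → ℤ | x ∈ leechLattice ∧ sqNorm x = 64} =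
    ↑(F2 ∪ F3 ∪ EE ∪ (FG 0 5 ∪ FG 1 2)) := by
  ext x
  constructor
  · rintro ⟨hx, hn⟩
    rw [Finset.mem_coe, Finset.mem_union, Finset.mem_union, Finset.mem_union, Finset.mem_union]
    rcases n64_cases x ((mem_leechLattice_iff x).mp hx) hn with
      ⟨i, η, hη, rfl⟩ | ⟨O, ε, j, hO, hε, ho, hj, rfl⟩ |
      ⟨c, ε, T, η, hc, hε, hd, hη, hp, h7, rfl⟩ | ⟨c, S5, S3, hc, hd, h7, rfl⟩
    · exact Or.inl (Or.inl (Or.inl ((mem_F2 _).mpr ⟨i, η, hη, rfl⟩)))
    · exact Or.inl (Or.inl (Or.inr ((mem_F3 _).mpr ⟨O, ε, j, hO, hε, ho, hj, rfl⟩)))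
    · left; right
      unfold EE
      rw [Finset.mem_union, Finset.mem_union, Finset.mem_union]
      rcases Cfsg.Agent.Helper28.Golay.card_of_mem_supports hc with h | h | h | h | h
      · have hc0 : c = ∅ := Finset.card_eq_zero.mp h
        subst hc0
        have hT : T.card = 4 := by rw [h] at h7; omega
        exact Or.inl (Or.inl ((mem_FE _ _ _).mpr ⟨∅, ε, T, η, Finset.mem_singleton_self _, hε,
          by rw [← hT]; exact hp, hd, hT, hη, rfl⟩))
      · have hT : T.card = 2 := by rw [h] at h7; omega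
        exact Or.inl (Or.inr ((mem_FE _ _ _).mpr ⟨c, ε, T, η, (mem_octFin c).mpr ⟨hc, h⟩, hε,
          by rw [← hT]; exact hp, hd, hT, hη, rfl⟩))
      · have hT : T.card = 1 := by rw [h] at h7; omega
        exact Or.inr (Or.inl ((mem_FE _ _ _).mpr ⟨c, ε, T, η, (mem_dodFin' c).mpr ⟨hc, h⟩, hε,
          by rw [← hT]; exact hp, hd, hT, hη, rfl⟩))
      · have hT : T.card = 0 := by rw [h] at h7; omega
        exact Or.inr (Or.inr ((mem_FE _ _ _).mpr ⟨c, ε, T, η, (mem_hexFin c).mpr ⟨hc, h⟩, hε,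
          by rw [← hT]; exact hp, hd, hT, hη, rfl⟩))
      · exfalso; rw [h] at h7; omega
    · right
      have hcases : (S5.card = 0 ∧ S3.card = 5) ∨ (S5.card = 1 ∧ S3.card = 2) := by omega
      rcases hcases with ⟨h5, h3⟩ | ⟨h5, h3⟩
      · exact Or.inl ((mem_FG _ _ _).mpr ⟨c, S5, S3, hc, h5, hd, h3, rfl⟩)
      · exact Or.inr ((mem_FG _ _ _).mpr ⟨c, S5, S3, hc, h5, hd, h3, rfl⟩)
  · intro hx
    rw [Finset.mem_coe, Finset.mem_union, Finset.mem_union, Finset.mem_union,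
      Finset.mem_union] at hx
    rcases hx with ((h | h) | h) | (h | h)
    · exact F2_sub x h
    · exact F3_sub x h
    · exact EE_sub x h
    · exact FG_sub 0 5 ⟨2, rfl⟩ (by norm_num) x h
    · exact FG_sub 1 2 ⟨1, rfl⟩ (by norm_num) x h

theorem ncard_V64 : {x : GolayPt → ℤ | x ∈ leechLattice ∧ sqNorm x = 64}.ncard = 398034000 := by
  have cg05 : (FG 0 5).card = 174096384 := by
    rw [card_FG, card_PG]
    decide +kernel
  have cg12 : (FG 1 2).card = 24870912 := by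
    rw [card_FG, card_PG]
    decide +kernel
  rw [V64_eq, Set.ncard_coe_finset, Finset.card_union_of_disjoint dD,
    Finset.card_union_of_disjoint dB, Finset.card_union_of_disjoint dA,
    Finset.card_union_of_disjoint dE, card_F2, card_F3, dC, cg05, cg12]

end Cfsg.Agent.Helper27
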