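import Cfsg.Agent.Helper27.LeechIndex
import Cfsg.Agent.S5551
import Cfsg.Agent.S5592
import Cfsg.Agent.S0394
import Cfsg.Agent.S0395
import Cfsg.Agent.S0396

set_option autoImplicit false
open Cfsg

namespace Cfsg.Agent.Helper27

/-- at most 24 pairwise orthogonal nonzero integer vectors -/
lemma orth_card_le (P : Finset (GolayPt → ℤ)) (h0 : ∀ v ∈ P, v ≠ 0)
    (ho : ∀ v ∈ P, ∀ w ∈ P, v ≠ w → dotInt v w = 0) : P.card ≤ 24 := by
  let f : P → EuclideanSpace ℝ GolayPt := fun v => WithLp.toLp 2 (fun i => ((v.1 i : ℤ) : ℝ))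
  have hli : LinearIndependent ℝ f := by
    apply linearIndependent_of_ne_zero_of_inner_eq_zero
    · intro v hv
      apply h0 v.1 v.2
      funext i
      have h1 := congrArg (fun u : EuclideanSpace ℝ GolayPt => u i) hv
      simpa [f] using h1
    · intro v w hvw
      have hne : v.1 ≠ w.1 := fun h => hvw (Subtype.ext h)
      have h := ho v.1 v.2 w.1 w.2 hne
      have h2 : ((dotInt v.1 w.1 : ℤ) : ℝ) = 0 := by rw [h]; simp
      unfold dotInt at h2
      push_cast at h2
      rw [EuclideanSpace.inner_eq_star_dotProduct]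
      simp only [f, dotProduct]
      rw [← h2]
      apply Finset.sum_congr rfl
      intro i _
      simp
      ring
  have h3 := hli.fintype_card_le_finrank
  rw [finrank_euclideanSpace, Fintype.card_coe] at h3
  have h24 : Fintype.card GolayPt = 24 := by
    rw [Fintype.card_option, ZMod.card]
  omega

lemma dotInt_neg_left (a b : GolayPt → ℤ) : dotInt (-a) b = -dotInt a b := by
  unfold dotInt
  rw [← Finset.sum_neg_distrib]
  apply Finset.sum_congr rfl
  intro i _
  simp

lemma dotInt_neg_right (a b : GolayPt → ℤ) : dotInt a (-b) = -dotInt a b := by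
  unfold dotInt
  rw [← Finset.sum_neg_distrib]
  apply Finset.sum_congr rfl
  intro i _
  simp

lemma sqNorm_zero' : sqNorm (0 : GolayPt → ℤ) = 0 := by
  unfold sqNorm
  simp

/-- a set of lattice vectors of sum of squares 64, pairwise congruent modulo twice the lattice,
has at most 48 members -/
lemma cross_card_le (C : Finset (GolayPt → ℤ))
    (hC : ∀ y ∈ C, y ∈ leechLattice ∧ sqNorm y = 64)
    (hcong : ∀ y ∈ C, ∀ y' ∈ C, ∃ z ∈ leechLattice, y - y' = 2 • z) : C.card ≤ 48 := by
  classical
  let f : (GolayPt → ℤ) → (GolayPt → ℤ) := fun y => (Quot.out (s(y, -y))).1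
  have hf : ∀ y, f y = y ∨ f y = -y := by
    intro y
    have h := Quot.out_eq (s(y, -y))
    have h2 : s((Quot.out (s(y, -y))).1, (Quot.out (s(y, -y))).2) = s(y, -y) := h
    rw [Sym2.eq_iff] at h2
    rcases h2 with ⟨h, -⟩ | ⟨h, -⟩
    · exact Or.inl h
    · exact Or.inr h
  have hfneg : ∀ y, f (-y) = f y := by
    intro y
    simp only [f, neg_neg]
    rw [Sym2.eq_swap]
  have hfib : ∀ b ∈ C.image f, (C.filter (fun a => f a = b)).card ≤ 2 := by
    intro b _
    have hsub : C.filter (fun a => f a = b) ⊆ {b, -b} := by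
      intro a ha
      rw [Finset.mem_filter] at ha
      rw [Finset.mem_insert, Finset.mem_singleton]
      rcases hf a with h | h
      · left; rw [← ha.2, h]
      · right; rw [← ha.2, h, neg_neg]
    exact (Finset.card_le_card hsub).trans Finset.card_le_two
  have h1 := Finset.card_le_mul_card_image C 2 hfib
  have h2 : (C.image f).card ≤ 24 := by
    apply orth_card_le
    · intro v hv
      obtain ⟨y, hy, rfl⟩ := Finset.mem_image.mp hv
      have hn := (hC y hy).2
      intro h0
      have hy0 : y = 0 := by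
        rcases hf y with h | h
        · rw [h] at h0; exact h0
        · rw [h] at h0; exact neg_eq_zero.mp h0
      rw [hy0, sqNorm_zero'] at hn
      norm_num at hn
    · intro v hv w hw hvw
      obtain ⟨y, hy, rfl⟩ := Finset.mem_image.mp hv
      obtain ⟨y', hy', rfl⟩ := Finset.mem_image.mp hw
      have hne1 : y ≠ y' := fun h => hvw (by rw [h])
      have hne2 : y ≠ -y' := by
        intro h
        apply hvw
        rw [h, hfneg]
      have key := Cfsg.Agent.S5592.result y y' (hC y hy).1 (hC y' hy').1 hne1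
        (le_of_eq (hC y hy).2) (le_of_eq (hC y' hy').2) (hcong y hy y' hy')
      rcases key with h | ⟨-, -, hd⟩
      · exact absurd h hne2
      · rcases hf y with h | h <;> rcases hf y' with h' | h' <;> rw [h, h']
        · exact hd
        · rw [dotInt_neg_right, hd, neg_zero]
        · rw [dotInt_neg_left, hd, neg_zero]
        · rw [dotInt_neg_left, dotInt_neg_right, hd, neg_zero, neg_zero]
  omega

/-- twice the lattice -/
def twoL : AddSubgroup (GolayPt → ℤ) := leechLattice.map dbl

lemma twoL_le : twoL ≤ leechLattice := by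
  rintro x ⟨y, hy, rfl⟩
  exact leechLattice.add_mem hy hy

lemma dbl_eq_smul (z : GolayPt → ℤ) : dbl z = 2 • z := by
  funext i
  rw [dbl_apply]
  simp

lemma mem_twoL (x : GolayPt → ℤ) : x ∈ twoL ↔ ∃ z ∈ leechLattice, x = 2 • z := by
  constructor
  · rintro ⟨z, hz, rfl⟩
    exact ⟨z, hz, dbl_eq_smul z⟩
  · rintro ⟨z, hz, rfl⟩
    exact ⟨z, hz, dbl_eq_smul z⟩

lemma relIndex_twoL : twoL.relIndex leechLattice = 2 ^ 24 := by
  have h1 : twoL.relIndex leechLattice * leechLattice.index = twoL.index :=
    AddSubgroup.relIndex_mul_index twoL_le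
  have h2 : twoL.index = leechLattice.index * dbl.range.index :=
    AddSubgroup.index_map_of_injective _ dbl_injective
  have h3 : dbl.range.index = 2 ^ 24 := by
    rw [← ker_redTwo, AddSubgroup.index_ker, AddMonoidHom.range_eq_top.mpr redTwo_surjective,
      AddSubgroup.card_top, card_words]
  rw [h2, h3, index_leech] at h1
  exact Nat.eq_of_mul_eq_mul_right (by norm_num : 0 < 2 ^ 36) (by rw [h1]; ring)

/-- congruence modulo twice the lattice, via the quotient map -/
lemma mk_eq_iff (a b : GolayPt → ℤ) :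
    (QuotientAddGroup.mk a : (GolayPt → ℤ) ⧸ twoL) = QuotientAddGroup.mk b ↔
      ∃ z ∈ leechLattice, a - b = 2 • z := by
  rw [QuotientAddGroup.eq, mem_twoL]
  constructor
  · rintro ⟨z, hz, h⟩
    refine ⟨-z, leechLattice.neg_mem hz, ?_⟩
    rw [smul_neg, ← h]; abel
  · rintro ⟨z, hz, h⟩
    refine ⟨-z, leechLattice.neg_mem hz, ?_⟩
    rw [smul_neg, ← h]; abel

lemma card_classes :
    Nat.card (leechLattice.map (QuotientAddGroup.mk' twoL)) = 2 ^ 24 := by
  rw [← AddSubgroup.relIndex_ker, QuotientAddGroup.ker_mk', relIndex_twoL]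

lemma sqNorm_two_smul (z : GolayPt → ℤ) : sqNorm (2 • z) = 4 * sqNorm z := by
  unfold sqNorm
  rw [Finset.mul_sum]
  apply Finset.sum_congr rfl
  intro i _
  simp only [Pi.smul_apply, smul_eq_mul]
  ring

end Cfsg.Agent.Helper27
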