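import Cfsg.Agent.Helper27.LeechMin
import Cfsg.Agent.S0358
import Cfsg.Agent.S0359

set_option autoImplicit false
open Cfsg

namespace Cfsg.Agent.Helper27

/-- reduction of integer vectors modulo 2 -/
def redTwo : (GolayPt → ℤ) →+ (GolayPt → ZMod 2) :=
  AddMonoidHom.compLeft (Int.castAddHom (ZMod 2)) GolayPt

lemma redTwo_apply (x : GolayPt → ℤ) (i : GolayPt) : redTwo x i = ((x i : ℤ) : ZMod 2) := rfl

/-- doubling of integer vectors -/
def dbl : (GolayPt → ℤ) →+ (GolayPt → ℤ) :=
  AddMonoidHom.mk' (fun x => x + x) (by intro a b; abel)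

lemma dbl_apply (x : GolayPt → ℤ) (i : GolayPt) : dbl x i = 2 * x i := by
  show x i + x i = 2 * x i
  ring

lemma dbl_injective : Function.Injective dbl := by
  intro a b h
  funext i
  have := congrFun h i
  rw [dbl_apply, dbl_apply] at this
  omega

lemma zmod2_intCast_eq_zero (a : ℤ) : ((a : ℤ) : ZMod 2) = 0 ↔ a % 2 = 0 := by
  rw [ZMod.intCast_zmod_eq_zero_iff_dvd]
  push_cast
  omega

lemma zmod2_intCast_eq_one (a : ℤ) : ((a : ℤ) : ZMod 2) = 1 ↔ a % 2 = 1 := by
  have h : ((a : ℤ) : ZMod 2) = 1 ↔ (((a - 1 : ℤ) : ℤ) : ZMod 2) = 0 := by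
    push_cast
    rw [sub_eq_zero]
  rw [h, zmod2_intCast_eq_zero]
  omega

lemma zmod2_val_cast : ∀ a : ZMod 2, (((a.val : ℤ) : ℤ) : ZMod 2) = a := by decide

lemma redTwo_surjective : Function.Surjective redTwo := by
  intro w
  refine ⟨fun i => ((w i).val : ℤ), ?_⟩
  funext i
  rw [redTwo_apply]
  exact zmod2_val_cast (w i)

lemma ker_redTwo : redTwo.ker = dbl.range := by
  ext x
  rw [AddMonoidHom.mem_ker, AddMonoidHom.mem_range]
  constructor
  · intro h
    refine ⟨fun i => x i / 2, ?_⟩
    funext i
    rw [dbl_apply]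
    have h1 := congrFun h i
    rw [redTwo_apply] at h1
    have h2 := (zmod2_intCast_eq_zero (x i)).mp h1
    omega
  · rintro ⟨y, rfl⟩
    funext i
    rw [redTwo_apply, dbl_apply]
    apply (zmod2_intCast_eq_zero _).mpr
    omega

lemma card_words : Nat.card (GolayPt → ZMod 2) = 2 ^ 24 := by
  rw [Nat.card_eq_fintype_card, Fintype.card_fun, ZMod.card]
  rfl

/-- index transfer: `[Z : H] * |H mod 2| = [Z : {y | 2y ∈ H}] * 2^24`. -/
lemma index_step (H : AddSubgroup (GolayPt → ℤ)) :
    H.index * Nat.card (H.map redTwo) = (H.comap dbl).index * 2 ^ 24 := by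
  have h1 : H.relIndex (H ⊔ redTwo.ker) * (H ⊔ redTwo.ker).index = H.index :=
    AddSubgroup.relIndex_mul_index le_sup_left
  have h2 : (H ⊔ redTwo.ker).index = (H.map redTwo).index := by
    rw [← AddSubgroup.comap_map_eq, AddSubgroup.index_comap_of_surjective _ redTwo_surjective]
  have h3 : Nat.card (H.map redTwo) * (H.map redTwo).index = 2 ^ 24 := by
    rw [AddSubgroup.card_mul_index, card_words]
  have h4 : H.relIndex (H ⊔ redTwo.ker) = (H.comap dbl).index := by
    rw [sup_comm, AddSubgroup.relIndex_sup_right, ker_redTwo, AddSubgroup.index_comap]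
  rw [← h1, h2, h4, mul_assoc, mul_comm (H.map redTwo).index, h3]

/-- an odd lattice vector -/
def oddVec : GolayPt → ℤ := fun i => if i = none then -3 else 1

lemma oddVec_mem : oddVec ∈ leechSet := by
  apply mem_leechSet_of_odd
  · intro i
    unfold oddVec
    split_ifs <;> rfl
  · have e : ∑ i, oddVec i = 20 := by
      rw [Fintype.sum_option]
      simp [oddVec]
    rw [e]; rfl
  · have e : (Finset.univ.filter fun i : GolayPt => oddVec i % 4 = 3) = ∅ := by
      ext i
      simp only [Finset.mem_filter, Finset.mem_univ, true_and, Finset.notMem_empty, iff_false]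
      unfold oddVec
      split_ifs <;> decide
    rw [e]; exact Spor.empty_mem_supports_golayCode

lemma redTwo_oddVec : redTwo oddVec = 1 := by
  funext i
  rw [redTwo_apply, Pi.one_apply]
  apply (zmod2_intCast_eq_one _).mpr
  unfold oddVec
  split_ifs <;> rfl

lemma redTwo_of_mem (x : GolayPt → ℤ) (hx : x ∈ leechLattice) :
    redTwo x ∈ AddSubgroup.zmultiples (1 : GolayPt → ZMod 2) := by
  rw [mem_leechLattice_iff] at hx
  rcases leechSet_cases x hx with ⟨h2, -, -⟩ | ⟨h2, -, -⟩
  · have e : redTwo x = 0 := by
      funext i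
      rw [redTwo_apply]
      exact (zmod2_intCast_eq_zero _).mpr (h2 i)
    rw [e]; exact zero_mem _
  · have e : redTwo x = 1 := by
      funext i
      rw [redTwo_apply]
      exact (zmod2_intCast_eq_one _).mpr (h2 i)
    rw [e]; exact AddSubgroup.mem_zmultiples _

lemma map_redTwo_leech :
    leechLattice.map redTwo = AddSubgroup.zmultiples (1 : GolayPt → ZMod 2) := by
  apply le_antisymm
  · rintro w ⟨x, hx, rfl⟩
    exact redTwo_of_mem x hx
  · rw [AddSubgroup.zmultiples_le]
    exact ⟨oddVec, (mem_leechLattice_iff _).mpr oddVec_mem, redTwo_oddVec⟩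

lemma two_nsmul_one_zmod2 : (2 : ℕ) • (1 : ZMod 2) = 0 := by decide

lemma addOrderOf_one_word : addOrderOf (1 : GolayPt → ZMod 2) = 2 := by
  haveI : Fact (Nat.Prime 2) := ⟨Nat.prime_two⟩
  apply addOrderOf_eq_prime
  · funext i
    simp only [Pi.smul_apply, Pi.one_apply, Pi.zero_apply]
    exact two_nsmul_one_zmod2
  · intro h
    have := congrFun h none
    simp at this

lemma card_zmultiples_one : Nat.card (AddSubgroup.zmultiples (1 : GolayPt → ZMod 2)) = 2 := by
  rw [Nat.card_zmultiples, addOrderOf_one_word]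

lemma zmod2_val_ite : ∀ a : ZMod 2, ((a.val : ℤ)) = if a ≠ 0 then 1 else 0 := by decide

lemma zmod2_val_mod : ∀ a : ZMod 2, (2 * (a.val : ℤ)) % 4 = 2 ↔ a ≠ 0 := by decide

lemma map_redTwo_half :
    (leechLattice.comap dbl).map redTwo = golayCode.toAddSubgroup := by
  obtain ⟨hDE, -⟩ := code_facts Cfsg.Agent.S0359.result
  apply le_antisymm
  · rintro w ⟨y, hy, rfl⟩
    have hy' : dbl y ∈ leechSet := (mem_leechLattice_iff _).mp hy
    show redTwo y ∈ golayCode
    rcases leechSet_cases _ hy' with ⟨-, -, hA⟩ | ⟨h2, -, -⟩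
    · have e : (Finset.univ.filter fun i => dbl y i % 4 = 2) = support₂ (redTwo y) := by
        ext i
        simp only [support₂, Finset.mem_filter, Finset.mem_univ, true_and, dbl_apply, redTwo_apply,
          ne_eq, zmod2_intCast_eq_zero]
        omega
      rw [e, mem_supports_iff, gInd_support₂] at hA
      exact hA
    · exfalso
      have := h2 none
      rw [dbl_apply] at this
      omega
  · intro w hw
    have hw' : w ∈ golayCode := hw
    refine ⟨fun i => ((w i).val : ℤ), ?_, ?_⟩
    · show dbl (fun i => ((w i).val : ℤ)) ∈ leechLattice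
      rw [mem_leechLattice_iff]
      have hS : support₂ w ∈ supports (golayCode : Set (GolayPt → ZMod 2)) := ⟨w, hw', rfl⟩
      apply mem_leechSet_of_even
      · intro i
        rw [dbl_apply]
        omega
      · have e : ∑ i, dbl (fun i => ((w i).val : ℤ)) i = 2 * ((support₂ w).card : ℤ) := by
          unfold support₂
          rw [Finset.card_filter]
          push_cast
          rw [Finset.mul_sum]
          apply Finset.sum_congr rfl
          intro i _
          rw [dbl_apply]
          rw [zmod2_val_ite]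
        rw [e]
        have := hDE _ hS
        omega
      · have e : (Finset.univ.filter fun i => dbl (fun i => ((w i).val : ℤ)) i % 4 = 2)
            = support₂ w := by
          ext i
          simp only [support₂, Finset.mem_filter, Finset.mem_univ, true_and, dbl_apply]
          exact zmod2_val_mod (w i)
        rw [e]
        exact hS
    · funext i
      rw [redTwo_apply]
      exact zmod2_val_cast (w i)

lemma card_code_add : Nat.card (golayCode.toAddSubgroup) = 4096 :=
  Cfsg.Agent.S0358.card_code

/-- parity of the coordinate sum -/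
def sumPar : (GolayPt → ℤ) →+ ZMod 2 :=
  AddMonoidHom.mk' (fun z => (((∑ i, z i : ℤ) : ℤ) : ZMod 2)) (by
    intro a b
    simp only [Pi.add_apply, Finset.sum_add_distrib]
    push_cast
    rfl)

lemma sumPar_apply (z : GolayPt → ℤ) : sumPar z = (((∑ i, z i : ℤ) : ℤ) : ZMod 2) := rfl

lemma sum_dbl (z : GolayPt → ℤ) : ∑ i, dbl z i = 2 * ∑ i, z i := by
  rw [Finset.mul_sum]
  exact Finset.sum_congr rfl (fun i _ => dbl_apply z i)

lemma comap_dbl_dbl : (leechLattice.comap dbl).comap dbl = sumPar.ker := by
  ext z
  rw [AddSubgroup.mem_comap, AddSubgroup.mem_comap, AddMonoidHom.mem_ker, sumPar_apply,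
    zmod2_intCast_eq_zero, mem_leechLattice_iff]
  constructor
  · intro h
    rcases leechSet_cases _ h with ⟨-, h8, -⟩ | ⟨h2, -, -⟩
    · rw [sum_dbl, sum_dbl] at h8
      omega
    · exfalso
      have := h2 none
      rw [dbl_apply] at this
      omega
  · intro h
    apply mem_leechSet_of_even
    · intro i
      rw [dbl_apply]
      omega
    · rw [sum_dbl, sum_dbl]
      omega
    · have e : (Finset.univ.filter fun i => dbl (dbl z) i % 4 = 2) = ∅ := by
        ext i
        simp only [Finset.mem_filter, Finset.mem_univ, true_and, Finset.notMem_empty, iff_false,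
          dbl_apply]
        omega
      rw [e]; exact Spor.empty_mem_supports_golayCode

lemma sumPar_surjective : Function.Surjective sumPar := by
  intro a
  refine ⟨fun i => if i = none then (a.val : ℤ) else 0, ?_⟩
  rw [sumPar_apply]
  have e : ∑ i : GolayPt, (if i = none then (a.val : ℤ) else 0) = (a.val : ℤ) := by
    rw [Finset.sum_ite_eq' Finset.univ none (fun _ => (a.val : ℤ))]
    simp
  rw [e]
  exact zmod2_val_cast a

lemma index_ker_sumPar : sumPar.ker.index = 2 := by
  rw [AddSubgroup.index_ker, AddMonoidHom.range_eq_top.mpr sumPar_surjective, AddSubgroup.card_top,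
    Nat.card_eq_fintype_card, ZMod.card]

lemma index_half : (leechLattice.comap dbl).index = 2 ^ 13 := by
  have e2 := index_step (leechLattice.comap dbl)
  rw [map_redTwo_half, card_code_add, comap_dbl_dbl, index_ker_sumPar] at e2
  generalize (leechLattice.comap dbl).index = a at e2 ⊢
  norm_num at e2 ⊢
  omega

lemma index_leech : leechLattice.index = 2 ^ 36 := by
  have e1 := index_step leechLattice
  rw [map_redTwo_leech, card_zmultiples_one, index_half] at e1
  generalize leechLattice.index = a at e1 ⊢
  norm_num at e1 ⊢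
  omega

end Cfsg.Agent.Helper27
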