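import Cfsg.Agent.Helper27.MCLData
import Cfsg.Agent.S1579

set_option autoImplicit false
open Cfsg

namespace Cfsg.Agent.Helper27

lemma sqNorm_sub2 (x y : GolayPt → ℤ) :
    sqNorm (x - y) = sqNorm x - 2 * dotInt x y + sqNorm y := by
  unfold sqNorm dotInt
  rw [Finset.mul_sum, ← Finset.sum_sub_distrib, ← Finset.sum_add_distrib]
  apply Finset.sum_congr rfl
  intro i _
  simp only [Pi.sub_apply]
  ring

/-- for `u` of sum of squares 48 and `x` minimal: `u - x` is minimal iff the dot product is 24 -/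
lemma sub_min_iff (u x : leechLattice) (hu : sqNorm u.1 = 48) (hx : sqNorm x.1 = 32) :
    sqNorm ((u - x : leechLattice) : GolayPt → ℤ) = 32 ↔ dotInt u.1 x.1 = 24 := by
  have h := sqNorm_sub2 u.1 x.1
  rw [hu, hx] at h
  show sqNorm (u.1 - x.1) = 32 ↔ _
  constructor
  · intro h2
    rw [h2] at h
    omega
  · intro h2
    rw [h, h2]
    norm_num

/-- the McLaughlin set attached to a pair of vectors -/
def mclSet (u v : leechLattice) : Set leechLattice :=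
  {x : leechLattice | sqNorm x.1 = 32 ∧ dotInt u.1 x.1 = 24 ∧ dotInt v.1 x.1 = 16}

lemma mclSet_smul (g : Co0) (u v x : leechLattice) :
    x ∈ mclSet u v ↔ g • x ∈ mclSet (g • u) (g • v) := by
  show (sqNorm x.1 = 32 ∧ dotInt u.1 x.1 = 24 ∧ dotInt v.1 x.1 = 16) ↔
    (sqNorm (g • x : leechLattice).1 = 32 ∧ dotInt (g • u : leechLattice).1 (g • x : leechLattice).1 = 24
      ∧ dotInt (g • v : leechLattice).1 (g • x : leechLattice).1 = 16)
  rw [co0_norm, co0_dot, co0_dot]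

/-- pairs `(u, v)` with `u` of sum of squares 48, `v` minimal and dot product 24 form one orbit -/
theorem mcl_pairs (u v u' v' : leechLattice) (hu : sqNorm u.1 = 48) (hv : sqNorm v.1 = 32)
    (huv : dotInt u.1 v.1 = 24) (hu' : sqNorm u'.1 = 48) (hv' : sqNorm v'.1 = 32)
    (huv' : dotInt u'.1 v'.1 = 24) : ∃ g : Co0, g • u = u' ∧ g • v = v' := by
  obtain ⟨g1, hg1⟩ := Cfsg.Agent.S0401.result u u' hu hu'
  have n1 : sqNorm (g1 • v : leechLattice).1 = 32 := by rw [co0_norm]; exact hv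
  have d1 : dotInt u'.1 (g1 • v : leechLattice).1 = 24 := by rw [← hg1, co0_dot]; exact huv
  obtain ⟨h, hh1, hh2⟩ := Cfsg.Agent.S1579.result u' (g1 • v) v' hu'
    ⟨n1, (sub_min_iff u' (g1 • v) hu' n1).mpr d1⟩ ⟨hv', (sub_min_iff u' v' hu' hv').mpr huv'⟩
  exact ⟨h * g1, by rw [mul_smul, hg1, hh1], by rw [mul_smul, hh2]⟩

theorem mcl_count (u v : leechLattice) (hu : sqNorm u.1 = 48) (hv : sqNorm v.1 = 32)
    (huv : dotInt u.1 v.1 = 24) : (mclSet u v).ncard = 275 := by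
  obtain ⟨g, hg1, hg2⟩ := mcl_pairs u v mclA1 mclA2 hu hv huv mclA1_norm mclA2_norm mclA_dot
  have h := census_sub mclL mclL_len 24 0 16 0
  rw [mcl_c1, mcl_c2, mcl_c3] at h
  have h' : {w : leechLattice | sqNorm w.1 = 32 ∧ CP mclL 24 0 16 0 w.1}.ncard = 275 := h
  rw [← h']
  apply ncard_smul g
  intro x
  rw [mclSet_smul g u v x, hg1, hg2]
  show (sqNorm (g • x : leechLattice).1 = 32 ∧ dotInt mclA1.1 (g • x : leechLattice).1 = 24
      ∧ dotInt mclA2.1 (g • x : leechLattice).1 = 16) ↔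
    (sqNorm (g • x : leechLattice).1 = 32 ∧ dotInt mclA1.1 (g • x : leechLattice).1 = ((24 : ℕ) : ℤ) - ((0 : ℕ) : ℤ)
      ∧ dotInt mclA2.1 (g • x : leechLattice).1 = ((16 : ℕ) : ℤ) - ((0 : ℕ) : ℤ))
  have e : ((24 : ℕ) : ℤ) - ((0 : ℕ) : ℤ) = 24 := by norm_num
  have e2 : ((16 : ℕ) : ℤ) - ((0 : ℕ) : ℤ) = 16 := by norm_num
  rw [e, e2]

theorem mcl_transB : (∀ x ∈ mclSet mclB1 mclB2, ∀ x' ∈ mclSet mclB1 mclB2,
    ∃ g : Co0, (∀ r ∈ [mclB1, mclB2], g • r = r) ∧ g • x = x') ∧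
    (∀ x ∈ mclSet mclB1 mclB2, ∃ e ∈ mcl_Y.flatten, x.1 = vecN (eVec e)) := by
  have hQS : ∀ g : Co0, (∀ r ∈ [mclB1, mclB2], g • r = r) → ∀ x ∈ mclSet mclB1 mclB2,
      g • x ∈ mclSet mclB1 mclB2 := by
    intro g hg x hx
    have := (mclSet_smul g mclB1 mclB2 x).mp hx
    rwa [hg mclB1 (by simp), hg mclB2 (by simp)] at this
  have h := orbit_full (mclSet mclB1 mclB2) (fun g => ∀ r ∈ [mclB1, mclB2], g • r = r)
    (fun r _ => one_smul _ r) (fixes_mul _) (fixes_inv _) hQS mcl_gens mcl_val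
    (gens_fix _ _ mcl_val mcl_fix) mcl_Y mcl_root mclX0 mclX0_mem rfl mcl_chk mcl_sorted
    (by rw [mcl_len]; exact mcl_count mclB1 mclB2 mclB1_norm mclB2_norm mclB_dot)
    (by rw [mcl_len]; norm_num)
  exact ⟨h.2.1, h.2.2⟩

theorem mcl_trans (u v : leechLattice) (hu : sqNorm u.1 = 48) (hv : sqNorm v.1 = 32)
    (huv : dotInt u.1 v.1 = 24) : ∀ x ∈ mclSet u v, ∀ x' ∈ mclSet u v,
    ∃ g : Co0, g • u = u ∧ g • v = v ∧ g • x = x' := by
  obtain ⟨g, hg1, hg2⟩ := mcl_pairs u v mclB1 mclB2 hu hv huv mclB1_norm mclB2_norm mclB_dot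
  intro x hx x' hx'
  have hx2 : g • x ∈ mclSet mclB1 mclB2 := by
    have := (mclSet_smul g u v x).mp hx
    rwa [hg1, hg2] at this
  have hx2' : g • x' ∈ mclSet mclB1 mclB2 := by
    have := (mclSet_smul g u v x').mp hx'
    rwa [hg1, hg2] at this
  obtain ⟨h, hh, hhx⟩ := mcl_transB.1 _ hx2 _ hx2'
  have h1 : h • mclB1 = mclB1 := hh mclB1 (by simp)
  have h2 : h • mclB2 = mclB2 := hh mclB2 (by simp)
  refine ⟨g⁻¹ * h * g, ?_, ?_, ?_⟩
  · rw [mul_smul, mul_smul, hg1, h1, ← hg1, inv_smul_smul]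
  · rw [mul_smul, mul_smul, hg2, h2, ← hg2, inv_smul_smul]
  · rw [mul_smul, mul_smul, hhx, inv_smul_smul]

end Cfsg.Agent.Helper27
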