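import Mathlib
import Cfsg.Agent.S0289

set_option autoImplicit false
open Cfsg

namespace Cfsg.Agent.Helper27.NS2

variable {F : Type*} [Field F] [Fintype F]

omit [Fintype F] in
theorem Q_smul (d : ℕ) (c : F) (v : Fin d ⊕ Fin d → F) :
    quadFormPlus d F (c • v) = c * c * quadFormPlus d F v := by
  unfold quadFormPlus
  rw [Finset.mul_sum]
  refine Finset.sum_congr rfl fun i _ => ?_
  simp only [Pi.smul_apply, smul_eq_mul]
  ring

omit [Fintype F] in
theorem Q_zero (d : ℕ) : quadFormPlus d F (0 : Fin d ⊕ Fin d → F) = 0 := by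
  unfold quadFormPlus
  simp

/-- Each nonsingular point carries `q - 1` nonsingular vectors. -/
theorem card_ns (d : ℕ) :
    Nat.card {v : Fin d ⊕ Fin d → F // quadFormPlus d F v ≠ 0} =
      (Fintype.card F - 1) * Nat.card {W : Submodule F (Fin d ⊕ Fin d → F) //
        Module.finrank F ↥W = 1 ∧ ∃ v ∈ W, quadFormPlus d F v ≠ 0} := by
  classical
  have hv0 : ∀ v : {v : Fin d ⊕ Fin d → F // quadFormPlus d F v ≠ 0},
      (v : Fin d ⊕ Fin d → F) ≠ 0 := by
    intro v h0
    apply v.2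
    rw [h0]
    exact Q_zero d
  let f : {v : Fin d ⊕ Fin d → F // quadFormPlus d F v ≠ 0} →
      {W : Submodule F (Fin d ⊕ Fin d → F) //
        Module.finrank F ↥W = 1 ∧ ∃ v ∈ W, quadFormPlus d F v ≠ 0} :=
    fun v => ⟨F ∙ (v : Fin d ⊕ Fin d → F), finrank_span_singleton (hv0 v), v,
      Submodule.mem_span_singleton_self _, v.2⟩
  have hfib : ∀ W : {W : Submodule F (Fin d ⊕ Fin d → F) //
        Module.finrank F ↥W = 1 ∧ ∃ v ∈ W, quadFormPlus d F v ≠ 0},
      Nat.card {v : {v : Fin d ⊕ Fin d → F // quadFormPlus d F v ≠ 0} // f v = W} =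
        Fintype.card F - 1 := by
    intro W
    obtain ⟨v0, hv0W, hQv0⟩ := W.2.2
    have hv00 : v0 ≠ 0 := fun h0 => hQv0 (by rw [h0]; exact Q_zero d)
    have hW : (W : Submodule F (Fin d ⊕ Fin d → F)) = F ∙ v0 := by
      symm
      apply Submodule.eq_of_le_of_finrank_eq
      · rw [Submodule.span_singleton_le_iff_mem]
        exact hv0W
      · rw [W.2.1]
        exact finrank_span_singleton hv00
    let g : Fˣ → {v : {v : Fin d ⊕ Fin d → F // quadFormPlus d F v ≠ 0} // f v = W} :=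
      fun c => ⟨⟨(c : F) • v0, by
          rw [Q_smul]
          exact mul_ne_zero (mul_ne_zero c.ne_zero c.ne_zero) hQv0⟩, by
        apply Subtype.ext
        show F ∙ ((c : F) • v0) = (W : Submodule F (Fin d ⊕ Fin d → F))
        rw [hW]
        exact Submodule.span_singleton_smul_eq c.isUnit v0⟩
    have hg : Function.Bijective g := by
      constructor
      · intro c c' hcc
        have h1 : (c : F) • v0 = (c' : F) • v0 :=
          congrArg (fun t : {v : {v : Fin d ⊕ Fin d → F // quadFormPlus d F v ≠ 0} // f v = W} =>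
            ((t : {v : Fin d ⊕ Fin d → F // quadFormPlus d F v ≠ 0}) : Fin d ⊕ Fin d → F)) hcc
        have h2 : ((c : F) - c') • v0 = 0 := by rw [sub_smul, h1, sub_self]
        rcases smul_eq_zero.mp h2 with h3 | h3
        · exact Units.ext (sub_eq_zero.mp h3)
        · exact absurd h3 hv00
      · rintro ⟨⟨v, hv⟩, hvW⟩
        have h1 : v ∈ (W : Submodule F (Fin d ⊕ Fin d → F)) := by
          have h2 : F ∙ v = (W : Submodule F (Fin d ⊕ Fin d → F)) := congrArg Subtype.val hvW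
          rw [← h2]
          exact Submodule.mem_span_singleton_self v
        rw [hW, Submodule.mem_span_singleton] at h1
        obtain ⟨c, hc⟩ := h1
        have hc0 : c ≠ 0 := by
          rintro rfl
          rw [zero_smul] at hc
          exact hv (by rw [← hc]; exact Q_zero d)
        refine ⟨Units.mk0 c hc0, ?_⟩
        apply Subtype.ext
        apply Subtype.ext
        exact hc
    rw [← Nat.card_eq_of_bijective g hg, Nat.card_units, Nat.card_eq_fintype_card]
  have : Fintype {W : Submodule F (Fin d ⊕ Fin d → F) //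
        Module.finrank F ↥W = 1 ∧ ∃ v ∈ W, quadFormPlus d F v ≠ 0} := Fintype.ofFinite _
  rw [← Nat.card_congr (Equiv.sigmaFiberEquiv f), Nat.card_sigma]
  simp only [hfib]
  rw [Finset.sum_const, Finset.card_univ, smul_eq_mul, mul_comm, Nat.card_eq_fintype_card]

theorem card_ns_add (d : ℕ) (hd : 1 ≤ d) {q : ℕ} (hq : Fintype.card F = q) :
    Nat.card {v : Fin d ⊕ Fin d → F // quadFormPlus d F v ≠ 0} +
      (q ^ (2 * d - 1) + q ^ d - q ^ (d - 1)) = q ^ (2 * d) := by
  classical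
  rw [← Cfsg.Agent.S0289.result hq d hd]
  have h1 := Fintype.card_subtype_compl (fun v : Fin d ⊕ Fin d → F => quadFormPlus d F v = 0)
  have h2 : Fintype.card {v : Fin d ⊕ Fin d → F // quadFormPlus d F v = 0} ≤
      Fintype.card (Fin d ⊕ Fin d → F) := Fintype.card_subtype_le _
  have h3 : Fintype.card (Fin d ⊕ Fin d → F) = q ^ (2 * d) := by
    rw [Fintype.card_fun, Fintype.card_sum, Fintype.card_fin, hq]
    congr 1
    omega
  rw [Nat.card_eq_fintype_card, Nat.card_eq_fintype_card]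
  have h4 : Fintype.card {v : Fin d ⊕ Fin d → F // quadFormPlus d F v ≠ 0} =
      Fintype.card (Fin d ⊕ Fin d → F) -
        Fintype.card {v : Fin d ⊕ Fin d → F // quadFormPlus d F v = 0} := by
    convert h1 using 2
  omega

theorem dvd_pow_sub_one (d : ℕ) (hd : 1 ≤ d) {q : ℕ} (hq : Fintype.card F = q) (n : ℕ)
    (hqn : q = 2 ^ n) (r : ℕ) (hr : r.Prime) (hr2 : r ≠ 2)
    (hdvd : r ∣ Nat.card {W : Submodule F (Fin d ⊕ Fin d → F) //
      Module.finrank F ↥W = 1 ∧ ∃ v ∈ W, quadFormPlus d F v ≠ 0}) :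
    r ∣ q ^ d - 1 := by
  have h1 := card_ns (F := F) d
  have h2 := card_ns_add (F := F) d hd hq
  have h3 : r ∣ Nat.card {v : Fin d ⊕ Fin d → F // quadFormPlus d F v ≠ 0} := by
    rw [h1]
    exact Dvd.dvd.mul_left hdvd _
  generalize Nat.card {v : Fin d ⊕ Fin d → F // quadFormPlus d F v ≠ 0} = Nv at h2 h3
  have hq1 : 1 ≤ q := by
    rw [hqn]
    exact Nat.one_le_two_pow
  obtain ⟨q', rfl⟩ : ∃ q', q = q' + 1 := ⟨q - 1, by omega⟩
  have ha1 : 1 ≤ (q' + 1) ^ (d - 1) := Nat.one_le_pow _ _ (by omega)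
  have hqd : (q' + 1) ^ d = (q' + 1) ^ (d - 1) * (q' + 1) := by
    rw [← pow_succ]
    congr 1
    omega
  have hq2d1 : (q' + 1) ^ (2 * d - 1) = (q' + 1) ^ (d - 1) * ((q' + 1) ^ (d - 1) * (q' + 1)) := by
    rw [← pow_succ, ← pow_add]
    congr 1
    omega
  have hq2d : (q' + 1) ^ (2 * d) =
      ((q' + 1) ^ (d - 1) * (q' + 1)) * ((q' + 1) ^ (d - 1) * (q' + 1)) := by
    rw [← hqd, ← pow_add]
    congr 1
    omega
  rw [hq2d1, hq2d, hqd] at h2
  rw [hqd]
  have h7' : r ∣ (q' + 1) ^ (d - 1) → False := by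
    intro h7
    have h8 := hr.dvd_of_dvd_pow h7
    rw [hqn] at h8
    have h9 := hr.dvd_of_dvd_pow h8
    exact absurd ((Nat.prime_dvd_prime_iff_eq hr Nat.prime_two).mp h9) hr2
  have h8' : q' ∣ (q' + 1) ^ (d - 1) * (q' + 1) - 1 := by
    have h10 := Nat.sub_dvd_pow_sub_pow (x := q' + 1) (y := 1) (n := d)
    rw [one_pow, hqd] at h10
    simpa using h10
  generalize (q' + 1) ^ (d - 1) = a at h2 ha1 h7' h8' ⊢
  obtain ⟨t, ht⟩ : ∃ t, a * (q' + 1) = t + 1 :=
    ⟨a * (q' + 1) - 1, by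
      have : 1 ≤ a * (q' + 1) := Nat.mul_pos ha1 (by omega)
      omega⟩
  rw [ht] at h2 h8' ⊢
  rw [Nat.add_sub_cancel] at h8' ⊢
  have hle : a ≤ a * (t + 1) := Nat.le_mul_of_pos_right _ (by omega)
  have h4 : Nv + a * (t + 1) + (t + 1) = (t + 1) * (t + 1) + a := by omega
  have h5 : Nv = a * q' * t := by
    zify at h4 ht ⊢
    linear_combination h4 - (t : ℤ) * ht
  rw [h5] at h3
  rcases (Nat.Prime.dvd_mul hr).mp h3 with h6 | h6
  · rcases (Nat.Prime.dvd_mul hr).mp h6 with h7 | h7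
    · exact absurd h7 h7'
    · exact dvd_trans h7 h8'
  · exact h6

end Cfsg.Agent.Helper27.NS2
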