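import Mathlib
import Cfsg.Agent.Helper27.NS1
import Cfsg.Agent.Helper27.NS2

set_option autoImplicit false
open Cfsg

namespace Cfsg.Agent.Helper27.NS3

open Matrix Cfsg.Agent.Helper4.OrthPlane Cfsg.Agent.Helper4.CartanD Cfsg.Agent.Helper4.Dickson

variable {F : Type*} [Field F] {d : ℕ}

theorem Q_elim (u w : Fin d → F) : quadFormPlus d F (Sum.elim u w) = u ⬝ᵥ w := rfl

theorem Q_eq (v : Fin d ⊕ Fin d → F) :
    quadFormPlus d F v = (v ∘ Sum.inl) ⬝ᵥ (v ∘ Sum.inr) := rfl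

theorem mem_iso (x : GL (Fin d ⊕ Fin d) F)
    (h : ∀ v, quadFormPlus d F ((x : Matrix (Fin d ⊕ Fin d) (Fin d ⊕ Fin d) F) *ᵥ v) =
      quadFormPlus d F v) :
    x ∈ Cfsg.isometryGroup F (quadFormPlus d F) := by
  show ∀ u w : Fin d ⊕ Fin d → F,
    quadFormPlus d F ((x : Matrix (Fin d ⊕ Fin d) (Fin d ⊕ Fin d) F) *ᵥ u) = quadFormPlus d F u
  intro u _
  exact h u

/-- The standard vector of norm one. -/
def v1 (hd : 0 < d) : Fin d ⊕ Fin d → F :=
  Sum.elim (Pi.single ⟨0, hd⟩ 1) (Pi.single ⟨0, hd⟩ 1)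

theorem Q_v1 (hd : 0 < d) : quadFormPlus d F (v1 (F := F) hd) = 1 := by
  unfold v1
  rw [Q_elim]
  simp

/-- Criterion for having no invariant nonsingular point. -/
theorem no_inv (x : Matrix (Fin d ⊕ Fin d) (Fin d ⊕ Fin d) F)
    (hx : ∀ (v : Fin d ⊕ Fin d → F) (μ : F), x *ᵥ v = μ • v → quadFormPlus d F v = 0) :
    ¬ ∃ W : Submodule F (Fin d ⊕ Fin d → F),
      (Module.finrank F ↥W = 1 ∧ ∃ v ∈ W, quadFormPlus d F v ≠ 0) ∧
        W.map (Matrix.toLin' x) ≤ W := by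
  rintro ⟨W, ⟨hW1, v, hvW, hQv⟩, hinv⟩
  have hv0 : (⟨v, hvW⟩ : ↥W) ≠ 0 := by
    intro h0
    apply hQv
    have h1 : v = 0 := congrArg Subtype.val h0
    rw [h1]
    exact NS2.Q_zero d
  have hxv : x *ᵥ v ∈ W := by
    apply hinv
    exact Submodule.mem_map.mpr ⟨v, hvW, Matrix.toLin'_apply x v⟩
  obtain ⟨c, hc⟩ := (finrank_eq_one_iff_of_nonzero' ⟨v, hvW⟩ hv0).mp hW1 ⟨x *ᵥ v, hxv⟩
  have hc' : x *ᵥ v = c • v := (congrArg Subtype.val hc).symm
  exact hQv (hx v c hc')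

theorem not_scalar (hd : 0 < d) (x : Matrix (Fin d ⊕ Fin d) (Fin d ⊕ Fin d) F)
    (hx : ∀ (v : Fin d ⊕ Fin d → F) (μ : F), x *ᵥ v = μ • v → quadFormPlus d F v = 0) :
    ∀ z : F, x ≠ z • (1 : Matrix (Fin d ⊕ Fin d) (Fin d ⊕ Fin d) F) := by
  intro z hz
  have h2 := hx (v1 hd) z (by rw [hz, Matrix.smul_mulVec, Matrix.one_mulVec])
  rw [Q_v1] at h2
  exact one_ne_zero h2

section ext

variable {K : Type*} [Field K] [Algebra F K] (φ : K →ₐ[F] Matrix (Fin d) (Fin d) F)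

/-- The block diagonal matrix attached to a pair of field elements. -/
def xM (a b : K) : Matrix (Fin d ⊕ Fin d) (Fin d ⊕ Fin d) F := fromBlocks (φ a) 0 0 (φ b)ᵀ

theorem xM_mul (a b a' b' : K) : xM φ a b * xM φ a' b' = xM φ (a * a') (b * b') := by
  unfold xM
  rw [fromBlocks_multiply]
  simp only [Matrix.mul_zero, Matrix.zero_mul, add_zero, zero_add]
  rw [← Matrix.transpose_mul, ← map_mul, ← map_mul, mul_comm b' b]

theorem xM_one : xM φ 1 1 = 1 := by
  unfold xM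
  rw [map_one, transpose_one, fromBlocks_one]

theorem xM_mulVec (a b : K) (v : Fin d ⊕ Fin d → F) :
    xM φ a b *ᵥ v = Sum.elim (φ a *ᵥ (v ∘ Sum.inl)) ((φ b)ᵀ *ᵥ (v ∘ Sum.inr)) := by
  unfold xM
  rw [fromBlocks_mulVec]
  simp

theorem xM_iso (a b : K) (hab : b * a = 1) (v : Fin d ⊕ Fin d → F) :
    quadFormPlus d F (xM φ a b *ᵥ v) = quadFormPlus d F v := by
  rw [xM_mulVec, Q_elim, Q_eq, Matrix.mulVec_transpose, dotProduct_comm,
    ← Matrix.dotProduct_mulVec, Matrix.mulVec_mulVec, ← map_mul, hab, map_one,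
    Matrix.one_mulVec, dotProduct_comm]

theorem xM_eig (ζ ζ' : K) (hne : ζ ≠ ζ') (v : Fin d ⊕ Fin d → F) (μ : F)
    (h : xM φ ζ ζ' *ᵥ v = μ • v) : quadFormPlus d F v = 0 := by
  rw [xM_mulVec] at h
  have hl : φ ζ *ᵥ (v ∘ Sum.inl) = μ • (v ∘ Sum.inl) := by
    have h1 := congrArg (fun t : Fin d ⊕ Fin d → F => t ∘ Sum.inl) h
    simp only [Sum.elim_comp_inl] at h1
    exact h1
  have hr : (v ∘ Sum.inr) ᵥ* φ ζ' = μ • (v ∘ Sum.inr) := by
    have h1 := congrArg (fun t : Fin d ⊕ Fin d → F => t ∘ Sum.inr) h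
    rw [← Matrix.mulVec_transpose]
    simp only [Sum.elim_comp_inr] at h1
    exact h1
  have key1 : v ∘ Sum.inl ≠ 0 → ζ = algebraMap F K μ := by
    intro hu
    by_contra hne'
    have hne2 : ζ - algebraMap F K μ ≠ 0 := sub_ne_zero.mpr hne'
    apply hu
    have h1 : φ (ζ - algebraMap F K μ) *ᵥ (v ∘ Sum.inl) = 0 := by
      rw [map_sub, AlgHom.commutes, Matrix.sub_mulVec, hl, Algebra.algebraMap_eq_smul_one,
        Matrix.smul_mulVec, Matrix.one_mulVec, sub_self]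
    calc v ∘ Sum.inl = φ ((ζ - algebraMap F K μ)⁻¹) *ᵥ
          (φ (ζ - algebraMap F K μ) *ᵥ (v ∘ Sum.inl)) := by
          rw [Matrix.mulVec_mulVec, ← map_mul, inv_mul_cancel₀ hne2, map_one, Matrix.one_mulVec]
      _ = 0 := by rw [h1, Matrix.mulVec_zero]
  have key2 : v ∘ Sum.inr ≠ 0 → ζ' = algebraMap F K μ := by
    intro hw
    by_contra hne'
    have hne2 : ζ' - algebraMap F K μ ≠ 0 := sub_ne_zero.mpr hne'
    apply hw
    have h1 : (v ∘ Sum.inr) ᵥ* φ (ζ' - algebraMap F K μ) = 0 := by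
      rw [map_sub, AlgHom.commutes, Matrix.vecMul_sub, hr, Algebra.algebraMap_eq_smul_one,
        Matrix.vecMul_smul, Matrix.vecMul_one, sub_self]
    calc v ∘ Sum.inr = ((v ∘ Sum.inr) ᵥ* φ (ζ' - algebraMap F K μ)) ᵥ*
          φ ((ζ' - algebraMap F K μ)⁻¹) := by
          rw [Matrix.vecMul_vecMul, ← map_mul, mul_inv_cancel₀ hne2, map_one, Matrix.vecMul_one]
      _ = 0 := by rw [h1, Matrix.zero_vecMul]
  rw [Q_eq]
  by_cases hu : v ∘ Sum.inl = 0
  · rw [hu, zero_dotProduct]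
  · by_cases hw : v ∘ Sum.inr = 0
    · rw [hw, dotProduct_zero]
    · exact absurd ((key1 hu).trans (key2 hw).symm) hne

/-- The homomorphism from the units of the field to the general linear group. -/
noncomputable def xHom : Kˣ →* GL (Fin d ⊕ Fin d) F where
  toFun ζ := ⟨xM φ (ζ : K) ((ζ⁻¹ : Kˣ) : K), xM φ ((ζ⁻¹ : Kˣ) : K) (ζ : K), by
    rw [xM_mul, Units.mul_inv, Units.inv_mul]
    exact xM_one φ, by
    rw [xM_mul, Units.mul_inv, Units.inv_mul]
    exact xM_one φ⟩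
  map_one' := by
    apply Units.ext
    show xM φ ((1 : Kˣ) : K) (((1 : Kˣ)⁻¹ : Kˣ) : K) = 1
    rw [inv_one, Units.val_one]
    exact xM_one φ
  map_mul' a b := by
    apply Units.ext
    show xM φ ((a * b : Kˣ) : K) (((a * b)⁻¹ : Kˣ) : K) =
      xM φ (a : K) ((a⁻¹ : Kˣ) : K) * xM φ (b : K) ((b⁻¹ : Kˣ) : K)
    rw [xM_mul, mul_inv, Units.val_mul, Units.val_mul]

theorem xHom_val (ζ : Kˣ) :
    ((xHom φ ζ : GL (Fin d ⊕ Fin d) F) : Matrix (Fin d ⊕ Fin d) (Fin d ⊕ Fin d) F) =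
      xM φ (ζ : K) ((ζ⁻¹ : Kˣ) : K) := rfl

theorem xHom_mem (ζ : Kˣ) : xHom φ ζ ∈ Cfsg.isometryGroup F (quadFormPlus d F) := by
  apply mem_iso
  intro v
  rw [xHom_val]
  exact xM_iso φ _ _ (Units.inv_mul ζ) v

end ext

section invol

variable (σ : Fin d → Fin d)

/-- The unipotent matrix attached to a fixed-point-free involution of the index set. -/
def nM : Matrix (Fin d ⊕ Fin d) (Fin d ⊕ Fin d) F :=
  fromBlocks 1 (Matrix.of fun i j => if σ i = j then (1 : F) else 0) 0 1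

theorem S_mulVec (w : Fin d → F) :
    (Matrix.of fun i j => if σ i = j then (1 : F) else 0) *ᵥ w = w ∘ σ := by
  ext i
  simp [Matrix.mulVec, dotProduct]

theorem nM_mulVec (v : Fin d ⊕ Fin d → F) :
    nM (F := F) σ *ᵥ v = Sum.elim (v ∘ Sum.inl + (v ∘ Sum.inr) ∘ σ) (v ∘ Sum.inr) := by
  unfold nM
  rw [fromBlocks_mulVec, S_mulVec]
  simp

theorem nM_sq (hch : (2 : F) = 0) : nM (F := F) σ * nM σ = 1 := by
  unfold nM
  rw [fromBlocks_multiply]
  simp only [Matrix.mul_one, Matrix.one_mul, Matrix.mul_zero, Matrix.zero_mul, add_zero, zero_add]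
  rw [← two_smul F (Matrix.of fun i j => if σ i = j then (1 : F) else 0), hch, zero_smul,
    fromBlocks_one]

theorem nM_iso (hch : (2 : F) = 0) (hσ : ∀ i, σ (σ i) = i) (hσ' : ∀ i, σ i ≠ i)
    (v : Fin d ⊕ Fin d → F) :
    quadFormPlus d F (nM σ *ᵥ v) = quadFormPlus d F v := by
  rw [nM_mulVec, Q_elim, Q_eq, add_dotProduct]
  have h1 : ((v ∘ Sum.inr) ∘ σ) ⬝ᵥ (v ∘ Sum.inr) = 0 := by
    unfold dotProduct
    apply Finset.sum_involution (fun i _ => σ i)
    · intro i _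
      simp only [Function.comp_apply, hσ]
      rw [mul_comm (v (Sum.inr i)), ← two_mul, hch, zero_mul]
    · intro i _ _
      exact hσ' i
    · intro i _
      exact Finset.mem_univ _
    · intro i _
      exact hσ i
  rw [h1, add_zero]

theorem nM_eig (hσ : ∀ i, σ (σ i) = i) (v : Fin d ⊕ Fin d → F) (μ : F)
    (h : nM σ *ᵥ v = μ • v) : quadFormPlus d F v = 0 := by
  rw [nM_mulVec] at h
  have hl : v ∘ Sum.inl + (v ∘ Sum.inr) ∘ σ = μ • (v ∘ Sum.inl) := by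
    have h1 := congrArg (fun t : Fin d ⊕ Fin d → F => t ∘ Sum.inl) h
    simp only [Sum.elim_comp_inl] at h1
    exact h1
  have hr : v ∘ Sum.inr = μ • (v ∘ Sum.inr) := by
    have h1 := congrArg (fun t : Fin d ⊕ Fin d → F => t ∘ Sum.inr) h
    simp only [Sum.elim_comp_inr] at h1
    exact h1
  rw [Q_eq]
  by_cases hw : v ∘ Sum.inr = 0
  · rw [hw, dotProduct_zero]
  · exfalso
    have hμ : μ = 1 := by
      by_contra hμ
      apply hw
      have h2 : (1 - μ) • (v ∘ Sum.inr) = 0 := by rw [sub_smul, one_smul, ← hr, sub_self]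
      rcases smul_eq_zero.mp h2 with h1 | h1
      · exact absurd (sub_eq_zero.mp h1).symm hμ
      · exact h1
    rw [hμ, one_smul] at hl
    have h2 : (v ∘ Sum.inr) ∘ σ = 0 := by simpa using hl
    apply hw
    funext i
    have h3 := congrFun h2 (σ i)
    simpa [hσ] using h3

theorem Fx_nM (hσ : ∀ i, σ (σ i) = i) :
    Fx (nM (F := F) σ) =
      LinearMap.ker (LinearMap.funLeft F F (Sum.inr : Fin d → Fin d ⊕ Fin d)) := by
  ext v
  rw [mem_Fx, LinearMap.mem_ker, nM_mulVec]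
  constructor
  · intro h
    have hl : v ∘ Sum.inl + (v ∘ Sum.inr) ∘ σ = v ∘ Sum.inl := by
      have h1 := congrArg (fun t : Fin d ⊕ Fin d → F => t ∘ Sum.inl) h
      simpa using h1
    have h2 : (v ∘ Sum.inr) ∘ σ = 0 := by simpa using hl
    funext i
    have h3 := congrFun h2 (σ i)
    simpa [hσ] using h3
  · intro h
    have h' : v ∘ Sum.inr = 0 := h
    rw [h']
    funext j
    rcases j with j | j
    · simp
    · simpa using (congrFun h' j).symm

theorem finrank_Fx_nM (hσ : ∀ i, σ (σ i) = i) :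
    Module.finrank F (Fx (nM (F := F) σ)) = d := by
  rw [Fx_nM σ hσ]
  have h1 := LinearMap.finrank_range_add_finrank_ker
    (LinearMap.funLeft F F (Sum.inr : Fin d → Fin d ⊕ Fin d))
  have h2 : LinearMap.range (LinearMap.funLeft F F (Sum.inr : Fin d → Fin d ⊕ Fin d)) = ⊤ :=
    LinearMap.range_eq_top.mpr (LinearMap.funLeft_surjective_of_injective F F _ Sum.inr_injective)
  rw [h2, finrank_top, Module.finrank_fintype_fun_eq_card, Module.finrank_fintype_fun_eq_card,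
    Fintype.card_sum, Fintype.card_fin] at h1
  omega

/-- The unipotent matrix as an element of the general linear group. -/
def nG (hch : (2 : F) = 0) : GL (Fin d ⊕ Fin d) F :=
  ⟨nM σ, nM σ, nM_sq σ hch, nM_sq σ hch⟩

theorem nG_mem (hch : (2 : F) = 0) (hσ : ∀ i, σ (σ i) = i) (hσ' : ∀ i, σ i ≠ i) :
    nG (F := F) σ hch ∈ Cfsg.isometryGroup F (quadFormPlus d F) := by
  apply mem_iso
  intro v
  exact nM_iso σ hch hσ hσ' v

end invol

end Cfsg.Agent.Helper27.NS3
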