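import Mathlib
import Cfsg.Agent.Helper27.NS3

set_option autoImplicit false
open Cfsg

namespace Cfsg.Agent.Helper27.NS4

open Matrix Cfsg.Agent.Helper4.OrthPlane Cfsg.Agent.Helper4.CartanD Cfsg.Agent.Helper4.Dickson
open Cfsg.Agent.Helper27.NS3

variable {F : Type*} [Field F] {d : ℕ}

theorem hcard (hd : 4 ≤ d) [Fintype F] :
    Fintype.card F ≠ 2 ∨ Fintype.card (Fin d ⊕ Fin d) ≠ 4 :=
  Or.inr (by rw [Fintype.card_sum, Fintype.card_fin]; omega)

/-- An involution of the commutator subgroup with totally singular eigenvectors (`d` even). -/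
theorem exists_invol [Fintype F] (hch : (2 : F) = 0) (hd : 4 ≤ d) (heven : Even d) :
    ∃ x : GL (Fin d ⊕ Fin d) F, x ∈ Cfsg.Geo.omegaGL (quadFormPlus d F) ∧ x ^ 2 = 1 ∧
      ∀ (v : Fin d ⊕ Fin d → F) (μ : F),
        (x : Matrix (Fin d ⊕ Fin d) (Fin d ⊕ Fin d) F) *ᵥ v = μ • v → quadFormPlus d F v = 0 := by
  obtain ⟨k, rfl⟩ := heven
  let e : Fin k ⊕ Fin k ≃ Fin (k + k) := finSumFinEquiv
  let σ : Fin (k + k) → Fin (k + k) := fun i => e (Sum.swap (e.symm i))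
  have hσ : ∀ i, σ (σ i) = i := by
    intro i
    simp [σ]
  have hσ' : ∀ i, σ i ≠ i := by
    intro i h
    have h1 : Sum.swap (e.symm i) = e.symm i := by
      apply e.injective
      rw [Equiv.apply_symm_apply]
      exact h
    rcases h2 : e.symm i with j | j <;> rw [h2] at h1 <;> simp at h1
  have hQ := Cfsg.Agent.Helper4.Spinor.plus_nd F (k + k)
  have hh := hcard (F := F) hd
  have hmem := nG_mem (F := F) σ hch hσ hσ'
  have hdk : dk (nG (F := F) σ hch) = 0 := by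
    unfold dk
    have h1 : ((nG (F := F) σ hch : GL (Fin (k + k) ⊕ Fin (k + k)) F) :
        Matrix (Fin (k + k) ⊕ Fin (k + k)) (Fin (k + k) ⊕ Fin (k + k)) F) = nM σ := rfl
    rw [h1, finrank_Fx_nM σ hσ, Fintype.card_sum, Fintype.card_fin]
    have h2 : k + k + (k + k + (k + k)) = 2 * (3 * k) := by ring
    rw [h2, Nat.cast_mul]
    have h3 : ((2 : ℕ) : ZMod 2) = 0 := by decide
    rw [h3, zero_mul]
  have hΩ := NS1.mem_of_dk_eq_zero _ hQ hch hh ⟨Sum.inl ⟨0, by omega⟩⟩ (v1 (by omega))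
    (by rw [Q_v1]; exact one_ne_zero) ⟨nG σ hch, hmem⟩ hdk
  refine ⟨nG σ hch, Subgroup.mem_map.mpr ⟨⟨nG σ hch, hmem⟩, hΩ, rfl⟩, ?_, ?_⟩
  · apply Units.ext
    rw [pow_two]
    exact nM_sq σ hch
  · intro v μ h
    exact nM_eig σ hσ v μ h

/-- An element of odd prime order of the commutator subgroup with totally singular
eigenvectors, from an extension field of degree `d`. -/
theorem exists_odd_aux [Fintype F] (hd : 4 ≤ d) {K : Type*} [Field K] [Algebra F K] [Finite K]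
    (hfr : Module.finrank F K = d) (r : ℕ) (hr : r.Prime) (hr2 : r ≠ 2)
    (hdvd : r ∣ Nat.card Kˣ) :
    ∃ x : GL (Fin d ⊕ Fin d) F, x ∈ Cfsg.Geo.omegaGL (quadFormPlus d F) ∧ x ^ r = 1 ∧
      ∀ (v : Fin d ⊕ Fin d → F) (μ : F),
        (x : Matrix (Fin d ⊕ Fin d) (Fin d ⊕ Fin d) F) *ᵥ v = μ • v → quadFormPlus d F v = 0 := by
  haveI : Fact r.Prime := ⟨hr⟩
  obtain ⟨ζ, hζ⟩ := exists_prime_orderOf_dvd_card' (G := Kˣ) r hdvd
  let b : Module.Basis (Fin d) F K := Module.finBasisOfFinrankEq F K hfr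
  let φ : K →ₐ[F] Matrix (Fin d) (Fin d) F := Algebra.leftMulMatrix b
  have hζr : ζ ^ r = 1 := by
    rw [← hζ]
    exact pow_orderOf_eq_one ζ
  have hne : (ζ : K) ≠ ((ζ⁻¹ : Kˣ) : K) := by
    intro h
    have h2 : ζ = ζ⁻¹ := Units.ext h
    have h3 : ζ ^ 2 = 1 := by
      rw [pow_two]
      nth_rewrite 2 [h2]
      exact mul_inv_cancel ζ
    have h4 := orderOf_dvd_of_pow_eq_one h3
    rw [hζ] at h4
    exact hr2 ((Nat.prime_dvd_prime_iff_eq hr Nat.prime_two).mp h4)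
  have hQ := Cfsg.Agent.Helper4.Spinor.plus_nd F d
  have hh := hcard (F := F) hd
  have hxO : xHom φ ζ ∈ Cfsg.isometryGroup F (quadFormPlus d F) := xHom_mem φ ζ
  have hxr : xHom φ ζ ^ r = 1 := by
    rw [← map_pow, hζr, map_one]
  obtain ⟨k, hk⟩ : ∃ k, r + 1 = 2 * k := by
    rcases Nat.Prime.eq_two_or_odd hr with h | h
    · exact absurd h hr2
    · exact ⟨(r + 1) / 2, by omega⟩
  have hxk : xHom φ ζ ^ k * xHom φ ζ ^ k = xHom φ ζ := by
    rw [← pow_add, ← two_mul, ← hk, pow_succ, hxr, one_mul]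
  have hΩ := sq_mem _ hQ hh (⟨xHom φ ζ ^ k, pow_mem hxO k⟩ :
    ↥(Cfsg.isometryGroup F (quadFormPlus d F)))
  refine ⟨xHom φ ζ, Subgroup.mem_map.mpr ⟨_, hΩ, hxk⟩, hxr, ?_⟩
  intro v μ h
  exact xM_eig φ _ _ hne v μ h

theorem exists_odd [Fintype F] [CharP F 2] (hd : 4 ≤ d) {q : ℕ} (hq : Fintype.card F = q)
    (r : ℕ) (hr : r.Prime) (hr2 : r ≠ 2) (hdvd : r ∣ q ^ d - 1) :
    ∃ x : GL (Fin d ⊕ Fin d) F, x ∈ Cfsg.Geo.omegaGL (quadFormPlus d F) ∧ x ^ r = 1 ∧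
      ∀ (v : Fin d ⊕ Fin d → F) (μ : F),
        (x : Matrix (Fin d ⊕ Fin d) (Fin d ⊕ Fin d) F) *ᵥ v = μ • v → quadFormPlus d F v = 0 := by
  haveI : NeZero d := ⟨by omega⟩
  have hfr : Module.finrank F (FiniteField.Extension F 2 d) = d :=
    FiniteField.finrank_extension F 2 d
  have hc : Nat.card (FiniteField.Extension F 2 d)ˣ = q ^ d - 1 := by
    rw [Nat.card_units, FiniteField.natCard_extension, Nat.card_eq_fintype_card, hq]
  exact exists_odd_aux hd hfr r hr hr2 (by rw [hc]; exact hdvd)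

/-- For `d` odd, every involution of the commutator subgroup fixes a nonsingular point. -/
theorem invol_fix [Fintype F] (hch : (2 : F) = 0) (hd : 4 ≤ d) (hodd : Odd d)
    (x : GL (Fin d ⊕ Fin d) F) (hxΩ : x ∈ Cfsg.Geo.omegaGL (quadFormPlus d F))
    (hx2 : ∃ z : F, ((x ^ 2 : GL (Fin d ⊕ Fin d) F) :
      Matrix (Fin d ⊕ Fin d) (Fin d ⊕ Fin d) F) = z • 1) :
    ∃ W : Submodule F (Fin d ⊕ Fin d → F),
      (Module.finrank F ↥W = 1 ∧ ∃ v ∈ W, quadFormPlus d F v ≠ 0) ∧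
        W.map (Matrix.toLin' (x : Matrix (Fin d ⊕ Fin d) (Fin d ⊕ Fin d) F)) ≤ W := by
  have hQ := Cfsg.Agent.Helper4.Spinor.plus_nd F d
  have hh := hcard (F := F) hd
  obtain ⟨g, hg, hgx⟩ := Subgroup.mem_map.mp hxΩ
  have hgx' : (g : GL (Fin d ⊕ Fin d) F) = x := hgx
  have hiso : ∀ u, quadFormPlus d F
      ((x : Matrix (Fin d ⊕ Fin d) (Fin d ⊕ Fin d) F) *ᵥ u) = quadFormPlus d F u := by
    intro u
    rw [← hgx']
    exact g.2 u u
  have hdk : dk x = 0 := by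
    rw [← hgx']
    exact NS1.dk_eq_zero_of_mem _ hQ hh g hg
  obtain ⟨z, hz⟩ := hx2
  have hxx : (x : Matrix (Fin d ⊕ Fin d) (Fin d ⊕ Fin d) F) *
      (x : Matrix (Fin d ⊕ Fin d) (Fin d ⊕ Fin d) F) = z • 1 := by
    rw [← hz, pow_two]
    rfl
  have hz1 : z = 1 := by
    have h1 : quadFormPlus d F ((x : Matrix (Fin d ⊕ Fin d) (Fin d ⊕ Fin d) F) *ᵥ
        ((x : Matrix (Fin d ⊕ Fin d) (Fin d ⊕ Fin d) F) *ᵥ v1 (by omega))) =
        quadFormPlus d F (v1 (F := F) (by omega)) := by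
      rw [hiso, hiso]
    rw [Matrix.mulVec_mulVec, hxx, Matrix.smul_mulVec, Matrix.one_mulVec, NS2.Q_smul, Q_v1,
      mul_one] at h1
    have h2 : (z - 1) * (z - 1) = 0 := by linear_combination h1 + (1 - z) * hch
    exact sub_eq_zero.mp (mul_self_eq_zero.mp h2)
  rw [hz1, one_smul] at hxx
  have hsub : ∀ a b : Fin d ⊕ Fin d → F, a - b = b - a := by
    intro a b
    have h2 : (a - b) + (a - b) = 0 := by
      rw [← two_smul F (a - b), hch, zero_smul]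
    calc a - b = -(a - b) := eq_neg_of_add_eq_zero_left h2
      _ = b - a := neg_sub a b
  have hrk : LinearMap.range (Matrix.toLin' (x : Matrix (Fin d ⊕ Fin d) (Fin d ⊕ Fin d) F) - 1) ≤
      Fx (x : Matrix (Fin d ⊕ Fin d) (Fin d ⊕ Fin d) F) := by
    rintro _ ⟨u, rfl⟩
    rw [mem_Fx]
    rw [LinearMap.sub_apply, Matrix.toLin'_apply, Module.End.one_apply, Matrix.mulVec_sub,
      Matrix.mulVec_mulVec, hxx, Matrix.one_mulVec]
    exact hsub _ _
  have h1 := LinearMap.finrank_range_add_finrank_ker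
    (Matrix.toLin' (x : Matrix (Fin d ⊕ Fin d) (Fin d ⊕ Fin d) F) - 1)
  have h2 := Submodule.finrank_mono hrk
  have h3 : Module.finrank F (Fin d ⊕ Fin d → F) = d + d := by
    rw [Module.finrank_fintype_fun_eq_card, Fintype.card_sum, Fintype.card_fin]
  have h4 : LinearMap.ker (Matrix.toLin' (x : Matrix (Fin d ⊕ Fin d) (Fin d ⊕ Fin d) F) - 1) =
      Fx (x : Matrix (Fin d ⊕ Fin d) (Fin d ⊕ Fin d) F) := rfl
  rw [h4, h3] at h1
  have h5 : 2 ∣ Module.finrank F (Fx (x : Matrix (Fin d ⊕ Fin d) (Fin d ⊕ Fin d) F)) + (d + d) := by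
    unfold dk at hdk
    rw [Fintype.card_sum, Fintype.card_fin] at hdk
    exact (ZMod.natCast_eq_zero_iff _ 2).mp hdk
  by_contra hcon
  have hts : ∀ w ∈ Fx (x : Matrix (Fin d ⊕ Fin d) (Fin d ⊕ Fin d) F), quadFormPlus d F w = 0 := by
    intro w hw
    by_contra hQw
    apply hcon
    have hw0 : w ≠ 0 := fun h0 => hQw (by rw [h0]; exact NS2.Q_zero d)
    refine ⟨F ∙ w, ⟨finrank_span_singleton hw0, w, Submodule.mem_span_singleton_self w, hQw⟩, ?_⟩
    rw [Submodule.map_span, Set.image_singleton, Matrix.toLin'_apply, (mem_Fx _ _).mp hw]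
  have hb := NS1.ts_bound _ hQ _ hts
  rw [Fintype.card_sum, Fintype.card_fin] at hb
  obtain ⟨j, hj⟩ := hodd
  omega

end Cfsg.Agent.Helper27.NS4
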