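import Mathlib
import Cfsg.Prelude.Def_Classical

set_option autoImplicit false

namespace Cfsg.Agent.Helper27.O3Adj

open Matrix
open scoped commutatorElement

variable {F : Type*} [Field F]

/-- The matrix of `X ↦ g X adj(g)` on trace-zero matrices `[[z, x], [y, -z]]`, in the
coordinates `(z, x, y)`, for `g = [[a, b], [c, d]]`. -/
def adM (a b c d : F) : Matrix (Unit ⊕ (Fin 1 ⊕ Fin 1)) (Unit ⊕ (Fin 1 ⊕ Fin 1)) F :=
  fun i j => match i, j with
    | .inl _, .inl _ => a * d + b * c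
    | .inl _, .inr (.inl _) => -(a * c)
    | .inl _, .inr (.inr _) => b * d
    | .inr (.inl _), .inl _ => -(2 * a * b)
    | .inr (.inl _), .inr (.inl _) => a ^ 2
    | .inr (.inl _), .inr (.inr _) => -(b ^ 2)
    | .inr (.inr _), .inl _ => 2 * c * d
    | .inr (.inr _), .inr (.inl _) => -(c ^ 2)
    | .inr (.inr _), .inr (.inr _) => d ^ 2

theorem adM_mul (a b c d a' b' c' d' : F) :
    adM a b c d * adM a' b' c' d' =
      adM (a * a' + b * c') (a * b' + b * d') (c * a' + d * c') (c * b' + d * d') := by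
  ext i j
  rcases i with _ | _ | _ <;> rcases j with _ | _ | _ <;>
    simp [adM, Matrix.mul_apply, Fintype.sum_sum_type] <;> ring

theorem adM_one : adM (1 : F) 0 0 1 = 1 := by
  ext i j
  rcases i with _ | _ | _ <;> rcases j with _ | _ | _ <;>
    simp [adM, Matrix.one_apply] <;> exact Subsingleton.elim _ _

theorem adM_mulVec (a b c d : F) (v : Unit ⊕ (Fin 1 ⊕ Fin 1) → F) :
    (adM a b c d *ᵥ v) (.inl ()) =
        (a * d + b * c) * v (.inl ()) - a * c * v (.inr (.inl 0)) + b * d * v (.inr (.inr 0)) ∧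
    (adM a b c d *ᵥ v) (.inr (.inl 0)) =
        -(2 * a * b) * v (.inl ()) + a ^ 2 * v (.inr (.inl 0)) - b ^ 2 * v (.inr (.inr 0)) ∧
    (adM a b c d *ᵥ v) (.inr (.inr 0)) =
        2 * c * d * v (.inl ()) - c ^ 2 * v (.inr (.inl 0)) + d ^ 2 * v (.inr (.inr 0)) := by
  refine ⟨?_, ?_, ?_⟩ <;>
    simp [adM, Matrix.mulVec, dotProduct, Fintype.sum_sum_type] <;> ring

theorem quad_adM (a b c d : F) (h : a * d - b * c = 1) (v : Unit ⊕ (Fin 1 ⊕ Fin 1) → F) :
    Cfsg.quadFormOdd 1 F (adM a b c d *ᵥ v) = Cfsg.quadFormOdd 1 F v := by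
  obtain ⟨h1, h2, h3⟩ := adM_mulVec a b c d v
  simp only [Cfsg.quadFormOdd, Fin.sum_univ_one, Fin.isValue]
  rw [h1, h2, h3]
  linear_combination
    (v (.inl ()) ^ 2 + v (.inr (.inl 0)) * v (.inr (.inr 0))) * (a * d - b * c + 1) * h

theorem quad_adM' (a b c d : F) (v : Unit ⊕ (Fin 1 ⊕ Fin 1) → F) :
    Cfsg.quadFormOdd 1 F (adM a b c d *ᵥ v) = (a * d - b * c) ^ 2 * Cfsg.quadFormOdd 1 F v := by
  obtain ⟨h1, h2, h3⟩ := adM_mulVec a b c d v
  simp only [Cfsg.quadFormOdd, Fin.sum_univ_one, Fin.isValue]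
  rw [h1, h2, h3]
  ring

theorem adM_eq_one_iff (a b c d : F) (h : a * d - b * c = 1) :
    adM a b c d = 1 ↔ (b = 0 ∧ c = 0 ∧ a = d) := by
  constructor
  · intro H
    have hb := congrFun (congrFun H (.inr (.inl 0))) (.inr (.inr 0))
    have hc := congrFun (congrFun H (.inr (.inr 0))) (.inr (.inl 0))
    have ha := congrFun (congrFun H (.inr (.inl 0))) (.inr (.inl 0))
    simp [adM] at hb hc ha
    subst hb
    subst hc
    refine ⟨rfl, rfl, ?_⟩
    have h1 : a * d = 1 := by linear_combination h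
    have h2 : a * a = 1 := by rcases ha with rfl | rfl <;> ring
    calc a = a * (a * d) := by rw [h1, mul_one]
      _ = (a * a) * d := by ring
      _ = d := by rw [h2, one_mul]
  · rintro ⟨rfl, rfl, rfl⟩
    have h1 : a * a = 1 := by linear_combination h
    ext i j
    rcases i with _ | _ | _ <;> rcases j with _ | _ | _ <;>
      simp [adM, Matrix.one_apply, pow_two, h1] <;> exact Subsingleton.elim _ _

/-- The adjoint representation as a monoid hom into matrices. -/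
def adHom : Matrix.SpecialLinearGroup (Fin 2) F →* Matrix (Unit ⊕ (Fin 1 ⊕ Fin 1)) (Unit ⊕ (Fin 1 ⊕ Fin 1)) F where
  toFun g := adM (g.1 0 0) (g.1 0 1) (g.1 1 0) (g.1 1 1)
  map_one' := by
    simp [adM_one]
  map_mul' g h := by
    rw [adM_mul]
    congr 1 <;> simp [Matrix.mul_apply, Fin.sum_univ_two]

theorem det_eq (g : Matrix.SpecialLinearGroup (Fin 2) F) :
    g.1 0 0 * g.1 1 1 - g.1 0 1 * g.1 1 0 = 1 := by
  have h := g.2
  rw [Matrix.det_fin_two] at h
  exact h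

/-- The adjoint representation `SL₂(F) → O(z² + xy)`. -/
def phi : Matrix.SpecialLinearGroup (Fin 2) F →*
    ↥(Cfsg.isometryGroup F (Cfsg.quadFormOdd 1 F)) :=
  (adHom (F := F)).toHomUnits.codRestrict _ (fun g => by
    intro u v
    show Cfsg.quadFormOdd 1 F (adM (g.1 0 0) (g.1 0 1) (g.1 1 0) (g.1 1 1) *ᵥ u) = _
    exact quad_adM _ _ _ _ (det_eq g) u)

theorem phi_coe (g : Matrix.SpecialLinearGroup (Fin 2) F) :
    ((phi g).1 : Matrix (Unit ⊕ (Fin 1 ⊕ Fin 1)) (Unit ⊕ (Fin 1 ⊕ Fin 1)) F) =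
      adM (g.1 0 0) (g.1 0 1) (g.1 1 0) (g.1 1 1) := rfl

theorem phi_eq_one_iff (g : Matrix.SpecialLinearGroup (Fin 2) F) :
    phi g = 1 ↔ (g.1 0 1 = 0 ∧ g.1 1 0 = 0 ∧ g.1 0 0 = g.1 1 1) := by
  rw [← adM_eq_one_iff _ _ _ _ (det_eq g), ← phi_coe]
  constructor
  · intro h
    rw [h]
    rfl
  · intro h
    apply Subtype.ext
    apply Units.ext
    rw [h]
    rfl

theorem phi_eq_one_iff_center (g : Matrix.SpecialLinearGroup (Fin 2) F) :
    phi g = 1 ↔ g ∈ Subgroup.center (Matrix.SpecialLinearGroup (Fin 2) F) := by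
  rw [phi_eq_one_iff, Matrix.SpecialLinearGroup.mem_center_iff]
  constructor
  · rintro ⟨h1, h2, h3⟩
    refine ⟨g.1 0 0, ?_, ?_⟩
    · have hd := det_eq g
      rw [h1, ← h3] at hd
      simp only [Fintype.card_fin]
      linear_combination hd
    · ext i j
      fin_cases i <;> fin_cases j <;> simp [Matrix.scalar_apply, Matrix.diagonal, h1, h2, h3]
  · rintro ⟨r, -, hr⟩
    have h01 := congrFun (congrFun hr 0) 1
    have h10 := congrFun (congrFun hr 1) 0
    have h00 := congrFun (congrFun hr 0) 0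
    have h11 := congrFun (congrFun hr 1) 1
    simp [Matrix.scalar_apply, Matrix.diagonal] at h01 h10 h00 h11
    exact ⟨h01.symm, h10.symm, by rw [← h00, ← h11]⟩

theorem ker_phi : (phi (F := F)).ker = Subgroup.center (Matrix.SpecialLinearGroup (Fin 2) F) := by
  ext g
  rw [MonoidHom.mem_ker, phi_eq_one_iff_center]

/-- The reflection `z ↦ -z` as an element of the isometry group. -/
def Eg : ↥(Cfsg.isometryGroup F (Cfsg.quadFormOdd 1 F)) :=
  ⟨⟨adM 1 0 0 (-1), adM 1 0 0 (-1), by rw [adM_mul]; simp [adM_one],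
    by rw [adM_mul]; simp [adM_one]⟩, by
    intro u v
    show Cfsg.quadFormOdd 1 F (adM 1 0 0 (-1) *ᵥ u) = _
    rw [quad_adM']
    ring⟩

theorem Eg_coe :
    ((Eg (F := F)).1 : Matrix (Unit ⊕ (Fin 1 ⊕ Fin 1)) (Unit ⊕ (Fin 1 ⊕ Fin 1)) F) =
      adM 1 0 0 (-1) := rfl

/-- Upper unitriangular element. -/
def Um (t : F) : Matrix.SpecialLinearGroup (Fin 2) F :=
  ⟨!![1, t; 0, 1], by simp [Matrix.det_fin_two]⟩

/-- Lower unitriangular element. -/
def Lm (t : F) : Matrix.SpecialLinearGroup (Fin 2) F :=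
  ⟨!![1, 0; t, 1], by simp [Matrix.det_fin_two]⟩

theorem Um_coe (t : F) : (Um t).1 = !![1, t; 0, 1] := rfl

theorem Lm_coe (t : F) : (Lm t).1 = !![1, 0; t, 1] := rfl

theorem Um_mul (s t : F) : Um s * Um t = Um (s + t) := by
  apply Subtype.ext
  rw [Matrix.SpecialLinearGroup.coe_mul, Um_coe, Um_coe, Um_coe]
  ext i j
  fin_cases i <;> fin_cases j <;> simp [Matrix.mul_apply, Fin.sum_univ_two, add_comm]

theorem Lm_mul (s t : F) : Lm s * Lm t = Lm (s + t) := by
  apply Subtype.ext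
  rw [Matrix.SpecialLinearGroup.coe_mul, Lm_coe, Lm_coe, Lm_coe]
  ext i j
  fin_cases i <;> fin_cases j <;> simp [Matrix.mul_apply, Fin.sum_univ_two]

theorem phi_Um (t : F) :
    ((phi (Um t)).1 : Matrix (Unit ⊕ (Fin 1 ⊕ Fin 1)) (Unit ⊕ (Fin 1 ⊕ Fin 1)) F) =
      adM 1 t 0 1 := by
  rw [phi_coe, Um_coe]
  simp

theorem phi_Lm (t : F) :
    ((phi (Lm t)).1 : Matrix (Unit ⊕ (Fin 1 ⊕ Fin 1)) (Unit ⊕ (Fin 1 ⊕ Fin 1)) F) =
      adM 1 0 t 1 := by
  rw [phi_coe, Lm_coe]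
  simp

theorem Eg_Um (t : F) : Eg * phi (Um t) = phi (Um (-t)) * Eg := by
  apply Subtype.ext
  apply Units.ext
  show (Eg (F := F)).1.1 * (phi (Um t)).1.1 = (phi (Um (-t))).1.1 * (Eg (F := F)).1.1
  rw [phi_Um, phi_Um, Eg_coe, adM_mul, adM_mul]
  congr 1 <;> ring

theorem Eg_Lm (t : F) : Eg * phi (Lm t) = phi (Lm (-t)) * Eg := by
  apply Subtype.ext
  apply Units.ext
  show (Eg (F := F)).1.1 * (phi (Lm t)).1.1 = (phi (Lm (-t))).1.1 * (Eg (F := F)).1.1
  rw [phi_Lm, phi_Lm, Eg_coe, adM_mul, adM_mul]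
  congr 1 <;> ring

theorem phi_Um_mem (h2 : (2 : F) ≠ 0) (s : F) :
    phi (Um s) ∈ commutator ↥(Cfsg.isometryGroup F (Cfsg.quadFormOdd 1 F)) := by
  have h1 : Eg * phi (Um (-s / 2)) = phi (Um s) * phi (Um (-s / 2)) * Eg := by
    rw [Eg_Um, ← map_mul, Um_mul]
    congr 3
    field_simp
    ring
  have h3 : phi (Um s) = ⁅(Eg (F := F)), phi (Um (-s / 2))⁆ := by
    rw [commutatorElement_def, h1]
    group
  rw [h3]
  exact Subgroup.commutator_mem_commutator (Subgroup.mem_top _) (Subgroup.mem_top _)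

theorem phi_Lm_mem (h2 : (2 : F) ≠ 0) (s : F) :
    phi (Lm s) ∈ commutator ↥(Cfsg.isometryGroup F (Cfsg.quadFormOdd 1 F)) := by
  have h1 : Eg * phi (Lm (-s / 2)) = phi (Lm s) * phi (Lm (-s / 2)) * Eg := by
    rw [Eg_Lm, ← map_mul, Lm_mul]
    congr 3
    field_simp
    ring
  have h3 : phi (Lm s) = ⁅(Eg (F := F)), phi (Lm (-s / 2))⁆ := by
    rw [commutatorElement_def, h1]
    group
  rw [h3]
  exact Subgroup.commutator_mem_commutator (Subgroup.mem_top _) (Subgroup.mem_top _)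

theorem decomp (g : Matrix.SpecialLinearGroup (Fin 2) F) (hc : g.1 1 0 ≠ 0) :
    g = Um ((g.1 0 0 - 1) / g.1 1 0) * Lm (g.1 1 0) * Um ((g.1 1 1 - 1) / g.1 1 0) := by
  have hd := det_eq g
  apply Subtype.ext
  rw [Matrix.SpecialLinearGroup.coe_mul, Matrix.SpecialLinearGroup.coe_mul, Um_coe, Um_coe, Lm_coe]
  ext i j
  fin_cases i <;> fin_cases j
  · simp [Matrix.mul_apply, Fin.sum_univ_two]
    field_simp
    ring
  · simp [Matrix.mul_apply, Fin.sum_univ_two]
    field_simp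
    linear_combination (-1 : F) * hd
  · simp [Matrix.mul_apply, Fin.sum_univ_two]
  · simp [Matrix.mul_apply, Fin.sum_univ_two]
    field_simp
    ring

theorem phi_mem_of_ne (h2 : (2 : F) ≠ 0) (g : Matrix.SpecialLinearGroup (Fin 2) F)
    (hc : g.1 1 0 ≠ 0) :
    phi g ∈ commutator ↥(Cfsg.isometryGroup F (Cfsg.quadFormOdd 1 F)) := by
  rw [decomp g hc, map_mul, map_mul]
  exact mul_mem (mul_mem (phi_Um_mem h2 _) (phi_Lm_mem h2 _)) (phi_Um_mem h2 _)

theorem phi_mem (h2 : (2 : F) ≠ 0) (g : Matrix.SpecialLinearGroup (Fin 2) F) :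
    phi g ∈ commutator ↥(Cfsg.isometryGroup F (Cfsg.quadFormOdd 1 F)) := by
  by_cases hc : g.1 1 0 = 0
  · have hd := det_eq g
    rw [hc, mul_zero, sub_zero] at hd
    have hd1 : g.1 1 1 ≠ 0 := by
      intro h
      rw [h, mul_zero] at hd
      exact zero_ne_one hd
    have h1 : (g * Lm 1).1 1 0 ≠ 0 := by
      have : (g * Lm 1).1 1 0 = g.1 1 0 + g.1 1 1 := by
        rw [Matrix.SpecialLinearGroup.coe_mul, Lm_coe]
        simp [Matrix.mul_apply, Fin.sum_univ_two]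
      rw [this, hc, zero_add]
      exact hd1
    have h3 : g = (g * Lm 1) * Lm (-1) := by
      rw [mul_assoc, Lm_mul]
      have : Lm ((1 : F) + -1) = 1 := by
        apply Subtype.ext
        rw [Lm_coe]
        ext i j
        fin_cases i <;> fin_cases j <;> simp
      rw [this, mul_one]
    rw [h3, map_mul]
    exact mul_mem (phi_mem_of_ne h2 _ h1) (phi_Lm_mem h2 _)
  · exact phi_mem_of_ne h2 g hc

end Cfsg.Agent.Helper27.O3Adj
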