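import Mathlib
import Cfsg.Agent.Helper27.O3Adj
import Cfsg.Agent.Helper4.OCenter
import Cfsg.Agent.S0286
import Cfsg.Agent.Helper12.SL2Card

set_option autoImplicit false

namespace Cfsg.Agent.Helper27.O3Main

open Matrix Cfsg.Agent.Helper27.O3Adj

variable {F : Type*} [Field F]

theorem mul_entries (A B : Matrix (Fin 2) (Fin 2) F) (i j : Fin 2) :
    (A * B) i j = A i 0 * B 0 j + A i 1 * B 1 j := by
  simp [Matrix.mul_apply, Fin.sum_univ_two]

theorem comm_entries (k M N : Matrix (Fin 2) (Fin 2) F) (h01 : k 0 1 = 0) (h10 : k 1 0 = 0)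
    (h11 : k 0 0 = k 1 1) (h : k * M = N) (i j : Fin 2) : k 0 0 * M i j = N i j := by
  rw [← h, mul_entries]
  fin_cases i
  · show k 0 0 * M 0 j = k 0 0 * M 0 j + k 0 1 * M 1 j
    rw [h01]; ring
  · show k 0 0 * M 1 j = k 1 0 * M 0 j + k 1 1 * M 1 j
    rw [h10, h11]; ring

theorem key (g h : Matrix.SpecialLinearGroup (Fin 2) F) (H : phi (g * h) = phi (h * g)) :
    ∃ ε : F, (ε = 1 ∨ ε = -1) ∧ ∀ i j, ε * (h.1 * g.1) i j = (g.1 * h.1) i j := by
  have hk : phi (g * h * (h * g)⁻¹) = 1 := by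
    rw [map_mul, H, ← map_mul, mul_inv_cancel, map_one]
  obtain ⟨k01, k10, k11⟩ := (phi_eq_one_iff _).1 hk
  have hmul : (g * h * (h * g)⁻¹).1 * (h.1 * g.1) = g.1 * h.1 := by
    have h1 : (g * h * (h * g)⁻¹) * (h * g) = g * h := by group
    have h3 := congrArg Subtype.val h1
    rw [Matrix.SpecialLinearGroup.coe_mul, Matrix.SpecialLinearGroup.coe_mul,
      Matrix.SpecialLinearGroup.coe_mul] at h3
    exact h3
  refine ⟨(g * h * (h * g)⁻¹).1 0 0, ?_, comm_entries _ _ _ k01 k10 k11 hmul⟩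
  have hd := det_eq (g * h * (h * g)⁻¹)
  apply mul_self_eq_one_iff.1
  linear_combination ((g * h * (h * g)⁻¹).1 0 0) * k11 + hd + ((g * h * (h * g)⁻¹).1 1 0) * k01

theorem Um_00 (t : F) : (Um t).1 0 0 = 1 := rfl
theorem Um_01 (t : F) : (Um t).1 0 1 = t := rfl
theorem Um_10 (t : F) : (Um t).1 1 0 = 0 := rfl
theorem Um_11 (t : F) : (Um t).1 1 1 = 1 := rfl
theorem Lm_00 (t : F) : (Lm t).1 0 0 = 1 := rfl
theorem Lm_01 (t : F) : (Lm t).1 0 1 = 0 := rfl
theorem Lm_10 (t : F) : (Lm t).1 1 0 = t := rfl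
theorem Lm_11 (t : F) : (Lm t).1 1 1 = 1 := rfl

theorem center_aux (h2 : (2 : F) ≠ 0) (g : Matrix.SpecialLinearGroup (Fin 2) F)
    (H : ∀ h, phi (g * h) = phi (h * g)) : phi g = 1 := by
  have hdet := det_eq g
  have hU : g.1 1 0 = 0 ∧ g.1 0 0 = g.1 1 1 := by
    obtain ⟨ε, hε, e⟩ := key g (Um 1) (H _)
    have e01 := e 0 1
    have e10 := e 1 0
    have e11 := e 1 1
    simp only [mul_entries, Um_00, Um_01, Um_10, Um_11] at e01 e10 e11
    rcases hε with rfl | rfl
    · exact ⟨by linear_combination (-1 : F) * e11, by linear_combination (-1 : F) * e01⟩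
    · exfalso
      have hc2 : (2 : F) * g.1 1 0 = 0 := by linear_combination (-1 : F) * e10
      have hc : g.1 1 0 = 0 := (mul_eq_zero.1 hc2).resolve_left h2
      have hd2 : (2 : F) * g.1 1 1 = 0 := by linear_combination (-1 : F) * e11 - hc
      have hd : g.1 1 1 = 0 := (mul_eq_zero.1 hd2).resolve_left h2
      have : (1 : F) = 0 := by
        linear_combination (-1 : F) * hdet + g.1 0 0 * hd - g.1 0 1 * hc
      exact one_ne_zero this
  have hL : g.1 0 1 = 0 := by
    obtain ⟨ε, hε, e⟩ := key g (Lm 1) (H _)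
    have e00 := e 0 0
    have e01 := e 0 1
    simp only [mul_entries, Lm_00, Lm_01, Lm_10, Lm_11] at e00 e01
    rcases hε with rfl | rfl
    · linear_combination (-1 : F) * e00
    · exfalso
      have hb2 : (2 : F) * g.1 0 1 = 0 := by linear_combination (-1 : F) * e01
      have hb : g.1 0 1 = 0 := (mul_eq_zero.1 hb2).resolve_left h2
      have ha2 : (2 : F) * g.1 0 0 = 0 := by linear_combination (-1 : F) * e00 - hb
      have ha : g.1 0 0 = 0 := (mul_eq_zero.1 ha2).resolve_left h2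
      have : (1 : F) = 0 := by
        linear_combination (-1 : F) * hdet + g.1 1 1 * ha - g.1 1 0 * hb
      exact one_ne_zero this
  exact (phi_eq_one_iff g).2 ⟨hL, hU.1, hU.2⟩

theorem center_bot (h2 : (2 : F) ≠ 0)
    (hrange : (phi (F := F)).range = commutator ↥(Cfsg.isometryGroup F (Cfsg.quadFormOdd 1 F))) :
    Subgroup.center ↥(commutator ↥(Cfsg.isometryGroup F (Cfsg.quadFormOdd 1 F))) = ⊥ := by
  rw [Subgroup.eq_bot_iff_forall]
  intro z hz
  have hz1 : z.1 ∈ (phi (F := F)).range := by rw [hrange]; exact z.2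
  obtain ⟨g, hg⟩ := hz1
  have h1 : phi g = 1 := center_aux h2 g (fun h => by
    have hmem : phi h ∈ commutator ↥(Cfsg.isometryGroup F (Cfsg.quadFormOdd 1 F)) := by
      rw [← hrange]; exact ⟨h, rfl⟩
    have h3 := Subgroup.mem_center_iff.1 hz ⟨phi h, hmem⟩
    have h4 := congrArg Subtype.val h3
    rw [map_mul, map_mul, hg]
    exact h4.symm)
  apply Subtype.ext
  rw [← hg, h1]
  rfl

theorem range_eq [Fintype F] (hodd : Odd (Fintype.card F)) :
    (phi (F := F)).range = commutator ↥(Cfsg.isometryGroup F (Cfsg.quadFormOdd 1 F)) := by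
  have h2 : (2 : F) ≠ 0 := Cfsg.Agent.Helper4.Spinor.two_ne_zero_of_odd hodd
  have hle : (phi (F := F)).range ≤ commutator ↥(Cfsg.isometryGroup F (Cfsg.quadFormOdd 1 F)) := by
    rintro _ ⟨g, rfl⟩
    exact phi_mem h2 g
  have hO := Cfsg.Agent.S0286.result (F := F) rfl hodd 1
  have hcard : Fintype.card (Unit ⊕ (Fin 1 ⊕ Fin 1)) = 3 := by
    simp [Fintype.card_sum]
  have hidx := Cfsg.Agent.Helper4.OCenter.index_four (Cfsg.quadFormOdd 1 F)
    (Cfsg.Agent.Helper4.Spinor.odd_nd F 1 h2) h2 (by rw [hcard]; omega)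
  have hmul := Subgroup.card_mul_index
    (commutator ↥(Cfsg.isometryGroup F (Cfsg.quadFormOdd 1 F)))
  have hP := Cfsg.Agent.Helper12.psl2_card_odd (F := F) h2
  have hR : Nat.card (phi (F := F)).range =
      Nat.card (Matrix.ProjectiveSpecialLinearGroup (Fin 2) F) := by
    have e1 := QuotientGroup.quotientKerEquivRange (phi (F := F))
    have e2 := QuotientGroup.quotientMulEquivOfEq (ker_phi (F := F))
    exact (Nat.card_congr e1.toEquiv).symm.trans (Nat.card_congr e2.toEquiv)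
  apply Subgroup.eq_of_le_of_card_ge hle
  rw [hR]
  rw [hidx, hO] at hmul
  simp only [Finset.prod_range_one, one_pow, pow_one, zero_add, mul_one] at hmul
  have h5 : 2 * Fintype.card F * (Fintype.card F ^ 2 - 1) =
      2 * (Fintype.card F * (Fintype.card F ^ 2 - 1)) := by ring
  rw [h5, ← hP] at hmul
  omega

theorem main [Fintype F] (hodd : Odd (Fintype.card F)) :
    Nonempty (Cfsg.POmega F (Cfsg.quadFormOdd 1 F) ≃*
      Matrix.ProjectiveSpecialLinearGroup (Fin 2) F) := by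
  have h2 : (2 : F) ≠ 0 := Cfsg.Agent.Helper4.Spinor.two_ne_zero_of_odd hodd
  have hrange := range_eq (F := F) hodd
  have hc := center_bot h2 hrange
  have e1 : Matrix.ProjectiveSpecialLinearGroup (Fin 2) F ≃*
      Matrix.SpecialLinearGroup (Fin 2) F ⧸ (phi (F := F)).ker :=
    QuotientGroup.quotientMulEquivOfEq (ker_phi (F := F)).symm
  have e2 := QuotientGroup.quotientKerEquivRange (phi (F := F))
  have e3 : ↥(phi (F := F)).range ≃*
      ↥(commutator ↥(Cfsg.isometryGroup F (Cfsg.quadFormOdd 1 F))) :=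
    MulEquiv.subgroupCongr hrange
  have e4 : Cfsg.POmega F (Cfsg.quadFormOdd 1 F) ≃*
      ↥(commutator ↥(Cfsg.isometryGroup F (Cfsg.quadFormOdd 1 F))) ⧸
        (⊥ : Subgroup ↥(commutator ↥(Cfsg.isometryGroup F (Cfsg.quadFormOdd 1 F)))) :=
    QuotientGroup.quotientMulEquivOfEq hc
  have e5 := QuotientGroup.quotientBot
    (G := ↥(commutator ↥(Cfsg.isometryGroup F (Cfsg.quadFormOdd 1 F))))
  exact ⟨e4.trans (e5.trans (e3.symm.trans (e2.symm.trans e1.symm)))⟩

end Cfsg.Agent.Helper27.O3Main
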