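import Mathlib
import Cfsg.Prelude.Def_Classical
import Cfsg.Agent.Helper27.O3Adj

set_option autoImplicit false

namespace Cfsg.Agent.Helper27.O4Adj

open Matrix Cfsg.Agent.Helper27.O3Adj
open scoped commutatorElement

variable {F : Type*} [Field F]

/-- The matrix of `X ↦ g X adj(h)` on `2 × 2` matrices `X = [[x₀, x₁], [-y₁, y₀]]`, for
`g = [[a, b], [c, d]]` and `h = [[p, q], [r, s]]`. -/
def tM (a b c d p q r s : F) : Matrix (Fin 2 ⊕ Fin 2) (Fin 2 ⊕ Fin 2) F :=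
  Matrix.fromBlocks !![a * s, -(a * r); -(a * q), a * p] !![-(b * r), -(b * s); b * p, b * q]
    !![-(c * q), c * p; -(c * s), c * r] !![d * p, d * q; d * r, d * s]

theorem tM_mul (a b c d p q r s a' b' c' d' p' q' r' s' : F) :
    tM a b c d p q r s * tM a' b' c' d' p' q' r' s' =
      tM (a * a' + b * c') (a * b' + b * d') (c * a' + d * c') (c * b' + d * d')
        (p * p' + q * r') (p * q' + q * s') (r * p' + s * r') (r * q' + s * s') := by
  ext i j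
  rcases i with i | i <;> rcases j with j | j <;> fin_cases i <;> fin_cases j <;>
    simp [tM, Matrix.mul_apply, Fintype.sum_sum_type, Fin.sum_univ_two] <;> ring

theorem tM_one : tM (1 : F) 0 0 1 1 0 0 1 = 1 := by
  ext i j
  rcases i with i | i <;> rcases j with j | j <;> fin_cases i <;> fin_cases j <;>
    simp [tM, Matrix.one_apply]

theorem tM_mulVec (a b c d p q r s : F) (v : Fin 2 ⊕ Fin 2 → F) :
    (tM a b c d p q r s *ᵥ v) (.inl 0) =
        a * s * v (.inl 0) - a * r * v (.inl 1) - b * r * v (.inr 0) - b * s * v (.inr 1) ∧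
    (tM a b c d p q r s *ᵥ v) (.inl 1) =
        -(a * q) * v (.inl 0) + a * p * v (.inl 1) + b * p * v (.inr 0) + b * q * v (.inr 1) ∧
    (tM a b c d p q r s *ᵥ v) (.inr 0) =
        -(c * q) * v (.inl 0) + c * p * v (.inl 1) + d * p * v (.inr 0) + d * q * v (.inr 1) ∧
    (tM a b c d p q r s *ᵥ v) (.inr 1) =
        -(c * s) * v (.inl 0) + c * r * v (.inl 1) + d * r * v (.inr 0) + d * s * v (.inr 1) := by
  refine ⟨?_, ?_, ?_, ?_⟩ <;>
    simp [tM, Matrix.mulVec, dotProduct, Fintype.sum_sum_type, Fin.sum_univ_two] <;> ring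

theorem quad_tM (a b c d p q r s : F) (v : Fin 2 ⊕ Fin 2 → F) :
    Cfsg.quadFormPlus 2 F (tM a b c d p q r s *ᵥ v) =
      (a * d - b * c) * (p * s - q * r) * Cfsg.quadFormPlus 2 F v := by
  obtain ⟨h1, h2, h3, h4⟩ := tM_mulVec a b c d p q r s v
  simp only [Cfsg.quadFormPlus, Fin.sum_univ_two, Fin.isValue]
  rw [h1, h2, h3, h4]
  ring

theorem tM_eq_one (a b c d p q r s : F) (h : a * d - b * c = 1)
    (H : tM a b c d p q r s = 1) :
    b = 0 ∧ c = 0 ∧ a = d ∧ q = 0 ∧ r = 0 ∧ p = a ∧ s = a := by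
  have e1 := congrFun (congrFun H (.inl 0)) (.inl 0)
  have e2 := congrFun (congrFun H (.inl 1)) (.inl 1)
  have e3 := congrFun (congrFun H (.inr 0)) (.inr 0)
  have e4 := congrFun (congrFun H (.inl 0)) (.inl 1)
  have e5 := congrFun (congrFun H (.inl 1)) (.inl 0)
  have e6 := congrFun (congrFun H (.inl 0)) (.inr 1)
  have e7 := congrFun (congrFun H (.inr 0)) (.inl 1)
  simp only [tM, Matrix.fromBlocks_apply₁₁, Matrix.fromBlocks_apply₁₂, Matrix.fromBlocks_apply₂₁,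
    Matrix.fromBlocks_apply₂₂, Matrix.one_apply] at e1 e2 e3 e4 e5 e6 e7
  simp at e1 e2 e3 e4 e5 e6 e7
  have ha : a ≠ 0 := by rintro rfl; simp at e1
  have hs : s ≠ 0 := by rintro rfl; simp at e1
  have hp : p ≠ 0 := by rintro rfl; simp at e2
  have hr : r = 0 := by rcases e4 with h | h; exact absurd h ha; exact h
  have hq : q = 0 := by rcases e5 with h | h; exact absurd h ha; exact h
  have hb : b = 0 := by rcases e6 with h | h; exact h; exact absurd h hs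
  have hc : c = 0 := by rcases e7 with h | h; exact h; exact absurd h hp
  subst hr hq hb hc
  have had : a = d := by
    apply mul_right_cancel₀ hp
    rw [e2, e3]
  subst had
  have haa : a * a = 1 := by linear_combination h
  have hpa : p = a := by
    apply mul_left_cancel₀ ha
    rw [e2, haa]
  have hsa : s = a := by
    apply mul_left_cancel₀ ha
    rw [e1, haa]
  exact ⟨rfl, rfl, rfl, rfl, rfl, hpa, hsa⟩

/-- The action as a monoid hom into matrices. -/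
def tHom : Matrix.SpecialLinearGroup (Fin 2) F × Matrix.SpecialLinearGroup (Fin 2) F →*
    Matrix (Fin 2 ⊕ Fin 2) (Fin 2 ⊕ Fin 2) F where
  toFun x := tM (x.1.1 0 0) (x.1.1 0 1) (x.1.1 1 0) (x.1.1 1 1)
    (x.2.1 0 0) (x.2.1 0 1) (x.2.1 1 0) (x.2.1 1 1)
  map_one' := by
    simp [tM_one]
  map_mul' x y := by
    rw [tM_mul]
    congr 1 <;> simp [Matrix.mul_apply, Fin.sum_univ_two]

/-- The action `SL₂(F) × SL₂(F) → O⁺₄(F)`. -/
def psi : Matrix.SpecialLinearGroup (Fin 2) F × Matrix.SpecialLinearGroup (Fin 2) F →*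
    ↥(Cfsg.isometryGroup F (Cfsg.quadFormPlus 2 F)) :=
  (tHom (F := F)).toHomUnits.codRestrict _ (fun x => by
    intro u v
    show Cfsg.quadFormPlus 2 F (tM (x.1.1 0 0) (x.1.1 0 1) (x.1.1 1 0) (x.1.1 1 1)
      (x.2.1 0 0) (x.2.1 0 1) (x.2.1 1 0) (x.2.1 1 1) *ᵥ u) = _
    rw [quad_tM, det_eq x.1, det_eq x.2, one_mul, one_mul])

theorem psi_coe (x : Matrix.SpecialLinearGroup (Fin 2) F × Matrix.SpecialLinearGroup (Fin 2) F) :
    ((psi x).1 : Matrix (Fin 2 ⊕ Fin 2) (Fin 2 ⊕ Fin 2) F) =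
      tM (x.1.1 0 0) (x.1.1 0 1) (x.1.1 1 0) (x.1.1 1 1)
        (x.2.1 0 0) (x.2.1 0 1) (x.2.1 1 0) (x.2.1 1 1) := rfl

theorem psi_eq_one (x : Matrix.SpecialLinearGroup (Fin 2) F × Matrix.SpecialLinearGroup (Fin 2) F)
    (hx : psi x = 1) :
    x.2 = x.1 ∧ x.1 ∈ Subgroup.center (Matrix.SpecialLinearGroup (Fin 2) F) := by
  have H : tM (x.1.1 0 0) (x.1.1 0 1) (x.1.1 1 0) (x.1.1 1 1)
        (x.2.1 0 0) (x.2.1 0 1) (x.2.1 1 0) (x.2.1 1 1) = 1 := by
    rw [← psi_coe, hx]; rfl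
  obtain ⟨hb, hc, had, hq, hr, hp, hs⟩ := tM_eq_one _ _ _ _ _ _ _ _ (det_eq x.1) H
  refine ⟨?_, (phi_eq_one_iff_center x.1).1 ((phi_eq_one_iff x.1).2 ⟨hb, hc, had⟩)⟩
  apply Subtype.ext
  ext i j
  fin_cases i <;> fin_cases j
  · exact hp
  · exact hq.trans hb.symm
  · exact hr.trans hc.symm
  · exact hs.trans had

/-- A hom on `SL₂` lands in a subgroup as soon as it does on the unitriangular elements. -/
theorem hom_mem {G' : Type*} [Group G'] (f : Matrix.SpecialLinearGroup (Fin 2) F →* G')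
    (S : Subgroup G') (hU : ∀ t, f (Um t) ∈ S) (hL : ∀ t, f (Lm t) ∈ S)
    (g : Matrix.SpecialLinearGroup (Fin 2) F) : f g ∈ S := by
  have hne : ∀ g : Matrix.SpecialLinearGroup (Fin 2) F, g.1 1 0 ≠ 0 → f g ∈ S := by
    intro g hc
    rw [decomp g hc, map_mul, map_mul]
    exact mul_mem (mul_mem (hU _) (hL _)) (hU _)
  by_cases hc : g.1 1 0 = 0
  · have hd := det_eq g
    rw [hc, mul_zero, sub_zero] at hd
    have hd1 : g.1 1 1 ≠ 0 := by
      intro h
      rw [h, mul_zero] at hd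
      exact zero_ne_one hd
    have h1 : (g * Lm 1).1 1 0 ≠ 0 := by
      have : (g * Lm 1).1 1 0 = g.1 1 0 + g.1 1 1 := by
        rw [Matrix.SpecialLinearGroup.coe_mul, Lm_coe]
        simp [Matrix.mul_apply, Fin.sum_univ_two]
      rw [this, hc, zero_add]
      exact hd1
    have h3 : g = (g * Lm 1) * Lm (-1) := by
      rw [mul_assoc, Lm_mul]
      have : Lm ((1 : F) + -1) = 1 := by
        apply Subtype.ext
        rw [Lm_coe]
        ext i j
        fin_cases i <;> fin_cases j <;> simp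
      rw [this, mul_one]
    rw [h3, map_mul]
    exact mul_mem (hne _ h1) (hL _)
  · exact hne g hc

theorem mem_comm_of {G' : Type*} [Group G'] (E x y : G') (h : E * x = y * x * E) :
    y ∈ commutator G' := by
  have h1 : y = ⁅E, x⁆ := by
    rw [commutatorElement_def, h]
    group
  rw [h1]
  exact Subgroup.commutator_mem_commutator (Subgroup.mem_top _) (Subgroup.mem_top _)

theorem comm_gen {G' : Type*} [Group G'] (E : G') (f : F → G') (μ : F) (hμ : μ ≠ 1)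
    (hadd : ∀ s t, f (s + t) = f s * f t) (hE : ∀ t, E * f t = f (μ * t) * E) (s : F) :
    f s ∈ commutator G' := by
  have hμ1 : μ - 1 ≠ 0 := sub_ne_zero.2 hμ
  apply mem_comm_of E (f (s / (μ - 1))) (f s)
  rw [hE, ← hadd]
  congr 2
  field_simp
  ring

/-- The isometry `X ↦ diag(l, 1) X diag(l, 1)⁻¹`. -/
def Eg (l : F) (hl : l ≠ 0) : ↥(Cfsg.isometryGroup F (Cfsg.quadFormPlus 2 F)) :=
  ⟨⟨tM l 0 0 1 1 0 0 l⁻¹, tM l⁻¹ 0 0 1 1 0 0 l, by rw [tM_mul]; simp [hl, tM_one],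
    by rw [tM_mul]; simp [hl, tM_one]⟩, by
    intro u v
    show Cfsg.quadFormPlus 2 F (tM l 0 0 1 1 0 0 l⁻¹ *ᵥ u) = _
    rw [quad_tM]
    have : (l * 1 - 0 * 0) * (1 * l⁻¹ - 0 * 0) = 1 := by
      field_simp
      ring
    rw [this, one_mul]⟩

theorem Eg_coe (l : F) (hl : l ≠ 0) :
    ((Eg l hl).1 : Matrix (Fin 2 ⊕ Fin 2) (Fin 2 ⊕ Fin 2) F) = tM l 0 0 1 1 0 0 l⁻¹ := rfl

theorem psi_U1 (t : F) :
    ((psi (Um t, 1)).1 : Matrix (Fin 2 ⊕ Fin 2) (Fin 2 ⊕ Fin 2) F) = tM 1 t 0 1 1 0 0 1 := by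
  rw [psi_coe, Um_coe]
  simp

theorem psi_U2 (t : F) :
    ((psi (1, Um t)).1 : Matrix (Fin 2 ⊕ Fin 2) (Fin 2 ⊕ Fin 2) F) = tM 1 0 0 1 1 t 0 1 := by
  rw [psi_coe, Um_coe]
  simp

theorem psi_L1 (t : F) :
    ((psi (Lm t, 1)).1 : Matrix (Fin 2 ⊕ Fin 2) (Fin 2 ⊕ Fin 2) F) = tM 1 0 t 1 1 0 0 1 := by
  rw [psi_coe, Lm_coe]
  simp

theorem psi_L2 (t : F) :
    ((psi (1, Lm t)).1 : Matrix (Fin 2 ⊕ Fin 2) (Fin 2 ⊕ Fin 2) F) = tM 1 0 0 1 1 0 t 1 := by
  rw [psi_coe, Lm_coe]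
  simp

theorem Eg_U1 (l : F) (hl : l ≠ 0) (t : F) :
    Eg l hl * psi (Um t, 1) = psi (Um (l * t), 1) * Eg l hl := by
  apply Subtype.ext
  apply Units.ext
  show (Eg l hl).1.1 * (psi (Um t, 1)).1.1 = (psi (Um (l * t), 1)).1.1 * (Eg l hl).1.1
  rw [psi_U1, psi_U1, Eg_coe, tM_mul, tM_mul]
  congr 1 <;> ring

theorem Eg_U2 (l : F) (hl : l ≠ 0) (t : F) :
    Eg l hl * psi (1, Um t) = psi (1, Um (l * t)) * Eg l hl := by
  apply Subtype.ext
  apply Units.ext
  show (Eg l hl).1.1 * (psi (1, Um t)).1.1 = (psi (1, Um (l * t))).1.1 * (Eg l hl).1.1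
  rw [psi_U2, psi_U2, Eg_coe, tM_mul, tM_mul]
  have key : l * t * l⁻¹ = t := by rw [mul_comm l t, mul_assoc, mul_inv_cancel₀ hl, mul_one]
  congr 1 <;> first | ring1 | linear_combination (-1 : F) * key | linear_combination key

theorem Eg_L1 (l : F) (hl : l ≠ 0) (t : F) :
    Eg l hl * psi (Lm t, 1) = psi (Lm (l⁻¹ * t), 1) * Eg l hl := by
  apply Subtype.ext
  apply Units.ext
  show (Eg l hl).1.1 * (psi (Lm t, 1)).1.1 = (psi (Lm (l⁻¹ * t), 1)).1.1 * (Eg l hl).1.1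
  rw [psi_L1, psi_L1, Eg_coe, tM_mul, tM_mul]
  have key : l⁻¹ * t * l = t := by rw [mul_comm l⁻¹ t, mul_assoc, inv_mul_cancel₀ hl, mul_one]
  congr 1 <;> first | ring1 | linear_combination (-1 : F) * key | linear_combination key

theorem Eg_L2 (l : F) (hl : l ≠ 0) (t : F) :
    Eg l hl * psi (1, Lm t) = psi (1, Lm (l⁻¹ * t)) * Eg l hl := by
  apply Subtype.ext
  apply Units.ext
  show (Eg l hl).1.1 * (psi (1, Lm t)).1.1 = (psi (1, Lm (l⁻¹ * t))).1.1 * (Eg l hl).1.1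
  rw [psi_L2, psi_L2, Eg_coe, tM_mul, tM_mul]
  congr 1 <;> ring

theorem psi_mem (l : F) (hl : l ≠ 0) (hl1 : l ≠ 1)
    (x : Matrix.SpecialLinearGroup (Fin 2) F × Matrix.SpecialLinearGroup (Fin 2) F) :
    psi x ∈ commutator ↥(Cfsg.isometryGroup F (Cfsg.quadFormPlus 2 F)) := by
  have hli : l⁻¹ ≠ 1 := by
    intro h
    exact hl1 (inv_eq_one.1 h)
  have h1 : ∀ g : Matrix.SpecialLinearGroup (Fin 2) F,
      psi (g, 1) ∈ commutator ↥(Cfsg.isometryGroup F (Cfsg.quadFormPlus 2 F)) := by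
    intro g
    have := hom_mem ((psi (F := F)).comp (MonoidHom.inl _ _))
      (commutator ↥(Cfsg.isometryGroup F (Cfsg.quadFormPlus 2 F)))
      (fun t => comm_gen (Eg l hl) (fun t => psi (Um t, 1)) l hl1
        (fun s t => by rw [← map_mul, Prod.mk_mul_mk, Um_mul, mul_one]) (Eg_U1 l hl) t)
      (fun t => comm_gen (Eg l hl) (fun t => psi (Lm t, 1)) l⁻¹ hli
        (fun s t => by rw [← map_mul, Prod.mk_mul_mk, Lm_mul, mul_one]) (Eg_L1 l hl) t) g
    exact this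
  have h2 : ∀ g : Matrix.SpecialLinearGroup (Fin 2) F,
      psi (1, g) ∈ commutator ↥(Cfsg.isometryGroup F (Cfsg.quadFormPlus 2 F)) := by
    intro g
    have := hom_mem ((psi (F := F)).comp (MonoidHom.inr _ _))
      (commutator ↥(Cfsg.isometryGroup F (Cfsg.quadFormPlus 2 F)))
      (fun t => comm_gen (Eg l hl) (fun t => psi (1, Um t)) l hl1
        (fun s t => by rw [← map_mul, Prod.mk_mul_mk, Um_mul, mul_one]) (Eg_U2 l hl) t)
      (fun t => comm_gen (Eg l hl) (fun t => psi (1, Lm t)) l⁻¹ hli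
        (fun s t => by rw [← map_mul, Prod.mk_mul_mk, Lm_mul, mul_one]) (Eg_L2 l hl) t) g
    exact this
  have h3 : x = (x.1, 1) * (1, x.2) := by
    rw [Prod.mk_mul_mk, mul_one, one_mul]
  rw [h3, map_mul]
  exact mul_mem (h1 _) (h2 _)

theorem exists_ne [Fintype F] (h3 : 3 ≤ Fintype.card F) : ∃ l : F, l ≠ 0 ∧ l ≠ 1 := by
  classical
  by_contra hcon
  push Not at hcon
  have hsub : (Finset.univ : Finset F) ⊆ {0, 1} := by
    intro x _
    by_cases hx : x = 0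
    · simp [hx]
    · simp [hcon x hx]
  have hc := Finset.card_le_card hsub
  have h2 : ({0, 1} : Finset F).card ≤ 2 := Finset.card_le_two
  rw [Finset.card_univ] at hc
  omega

end Cfsg.Agent.Helper27.O4Adj
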