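import Mathlib
import Cfsg.Agent.Helper27.O4Adj
import Cfsg.Agent.Helper4.OCenter
import Cfsg.Agent.S0287
import Cfsg.Agent.Helper12.SL2Card

set_option autoImplicit false

namespace Cfsg.Agent.Helper27.O4Main

open Matrix Cfsg.Agent.Helper27.O3Adj Cfsg.Agent.Helper27.O4Adj

variable {F : Type*} [Field F]

theorem ker_card_le [Fintype F] :
    Nat.card (psi (F := F)).ker ≤
      Nat.card (Subgroup.center (Matrix.SpecialLinearGroup (Fin 2) F)) := by
  apply Nat.card_le_card_of_injective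
    (fun x : (psi (F := F)).ker =>
      (⟨x.1.1, (psi_eq_one x.1 (MonoidHom.mem_ker.1 x.2)).2⟩ :
        Subgroup.center (Matrix.SpecialLinearGroup (Fin 2) F)))
  intro x y hxy
  have h1 : x.1.1 = y.1.1 := congrArg Subtype.val hxy
  apply Subtype.ext
  apply Prod.ext h1
  rw [(psi_eq_one x.1 (MonoidHom.mem_ker.1 x.2)).1, (psi_eq_one y.1 (MonoidHom.mem_ker.1 y.2)).1,
    h1]

theorem range_eq [Fintype F] (h3 : 3 ≤ Fintype.card F) :
    (psi (F := F)).range = commutator ↥(Cfsg.isometryGroup F (Cfsg.quadFormPlus 2 F)) := by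
  obtain ⟨l, hl, hl1⟩ := exists_ne h3
  have hle : (psi (F := F)).range ≤
      commutator ↥(Cfsg.isometryGroup F (Cfsg.quadFormPlus 2 F)) := by
    rintro _ ⟨x, rfl⟩
    exact psi_mem l hl hl1 x
  apply Subgroup.eq_of_le_of_card_ge hle
  have hO := Cfsg.Agent.S0287.result (F := F) rfl 2 (by norm_num)
  have hO' : Nat.card ↥(Cfsg.isometryGroup F (Cfsg.quadFormPlus 2 F)) =
      2 * ((Fintype.card F * (Fintype.card F ^ 2 - 1)) *
        (Fintype.card F * (Fintype.card F ^ 2 - 1))) := by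
    rw [hO, show (2 - 1 : ℕ) = 1 from rfl, Finset.prod_range_one]
    simp only [zero_add, mul_one]
    ring
  have hmul := Subgroup.card_mul_index
    (commutator ↥(Cfsg.isometryGroup F (Cfsg.quadFormPlus 2 F)))
  have hS := Cfsg.Agent.Helper12.sl2_card (F := F)
  have hK := ker_card_le (F := F)
  have hRK : (Fintype.card F * (Fintype.card F ^ 2 - 1)) *
      (Fintype.card F * (Fintype.card F ^ 2 - 1)) =
      Nat.card (psi (F := F)).range * Nat.card (psi (F := F)).ker := by
    rw [← hS, ← Nat.card_prod,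
      Subgroup.card_eq_card_quotient_mul_card_subgroup (psi (F := F)).ker,
      Nat.card_congr (QuotientGroup.quotientKerEquivRange (psi (F := F))).toEquiv]
  have hcard : Fintype.card (Fin 2 ⊕ Fin 2) = 4 := by
    simp [Fintype.card_sum]
  rw [hO', hRK] at hmul
  by_cases hch : (2 : F) = 0
  · have hidx := Cfsg.Agent.Helper4.OCenter.index_two (Cfsg.quadFormPlus 2 F)
      (Cfsg.Agent.Helper4.Spinor.plus_nd F 2) hch (Or.inl (by omega)) ⟨Sum.inl 0⟩
    have hZ : Nat.card (Subgroup.center (Matrix.SpecialLinearGroup (Fin 2) F)) = 1 := by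
      rw [Cfsg.Agent.Helper12.sl2_center_eq_bot_char2 hch]
      exact Subgroup.card_bot
    rw [hZ] at hK
    rw [hidx] at hmul
    have hT := Nat.mul_le_mul_left (Nat.card (psi (F := F)).range) hK
    generalize Nat.card (psi (F := F)).range * Nat.card (psi (F := F)).ker = T at hmul hT
    omega
  · have hidx := Cfsg.Agent.Helper4.OCenter.index_four (Cfsg.quadFormPlus 2 F)
      (Cfsg.Agent.Helper4.Spinor.plus_nd F 2) hch (by rw [hcard]; omega)
    have hZ := Cfsg.Agent.Helper12.sl2_center_card_odd (F := F) hch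
    rw [hZ] at hK
    rw [hidx] at hmul
    have hT := Nat.mul_le_mul_left (Nat.card (psi (F := F)).range) hK
    generalize Nat.card (psi (F := F)).range * Nat.card (psi (F := F)).ker = T at hmul hT
    omega

theorem main [Fintype F] (h3 : 3 ≤ Fintype.card F) :
    Nonempty (Cfsg.POmega F (Cfsg.quadFormPlus 2 F) ≃*
      Matrix.ProjectiveSpecialLinearGroup (Fin 2) F ×
        Matrix.ProjectiveSpecialLinearGroup (Fin 2) F) := by
  have hrange := range_eq (F := F) h3
  obtain ⟨ψ', hψ'⟩ : ∃ ψ' : Matrix.SpecialLinearGroup (Fin 2) F ×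
      Matrix.SpecialLinearGroup (Fin 2) F →*
      ↥(commutator ↥(Cfsg.isometryGroup F (Cfsg.quadFormPlus 2 F))),
      ∀ x, (ψ' x).1 = psi x :=
    ⟨(psi (F := F)).codRestrict _ (fun x => by rw [← hrange]; exact ⟨x, rfl⟩), fun x => rfl⟩
  have hsurj : Function.Surjective ψ' := by
    intro z
    have hz : z.1 ∈ (psi (F := F)).range := by rw [hrange]; exact z.2
    obtain ⟨x, hx⟩ := hz
    exact ⟨x, Subtype.ext ((hψ' x).trans hx)⟩
  obtain ⟨Φ, hΦ⟩ : ∃ Φ : Matrix.SpecialLinearGroup (Fin 2) F ×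
      Matrix.SpecialLinearGroup (Fin 2) F →* Cfsg.POmega F (Cfsg.quadFormPlus 2 F),
      ∀ x, Φ x = QuotientGroup.mk (ψ' x) :=
    ⟨(QuotientGroup.mk' _).comp ψ', fun x => rfl⟩
  have hΦs : Function.Surjective Φ := by
    intro z
    obtain ⟨w, rfl⟩ := QuotientGroup.mk_surjective z
    obtain ⟨x, rfl⟩ := hsurj w
    exact ⟨x, hΦ x⟩
  obtain ⟨P, hP⟩ : ∃ P : Matrix.SpecialLinearGroup (Fin 2) F ×
      Matrix.SpecialLinearGroup (Fin 2) F →*
      Matrix.ProjectiveSpecialLinearGroup (Fin 2) F ×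
        Matrix.ProjectiveSpecialLinearGroup (Fin 2) F,
      ∀ x, P x = (QuotientGroup.mk x.1, QuotientGroup.mk x.2) :=
    ⟨MonoidHom.prodMap (QuotientGroup.mk' _) (QuotientGroup.mk' _), fun x => rfl⟩
  have hPs : Function.Surjective P := by
    rintro ⟨z1, z2⟩
    obtain ⟨w1, rfl⟩ := QuotientGroup.mk_surjective z1
    obtain ⟨w2, rfl⟩ := QuotientGroup.mk_surjective z2
    exact ⟨(w1, w2), hP _⟩
  have hcomm_of : ∀ x, ψ' x ∈ Subgroup.center
      ↥(commutator ↥(Cfsg.isometryGroup F (Cfsg.quadFormPlus 2 F))) →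
      ∀ y, psi (y * x) = psi (x * y) := by
    intro x hx y
    have h4 := congrArg Subtype.val (Subgroup.mem_center_iff.1 hx (ψ' y))
    rw [← map_mul, ← map_mul, hψ', hψ'] at h4
    exact h4
  have hker : Φ.ker = P.ker := by
    ext x
    rw [MonoidHom.mem_ker, MonoidHom.mem_ker, hΦ, hP, Prod.mk_eq_one, QuotientGroup.eq_one_iff,
      QuotientGroup.eq_one_iff, QuotientGroup.eq_one_iff]
    constructor
    · intro hx
      have hc := hcomm_of x hx
      constructor
      · rw [Subgroup.mem_center_iff]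
        intro g
        have h6 : psi (((g, 1) * x) * (x * (g, 1))⁻¹) = 1 := by
          rw [map_mul, hc (g, 1), ← map_mul, mul_inv_cancel, map_one]
        have h7 := (psi_eq_one _ h6).1
        have h8 : (g * x.1) * (x.1 * g)⁻¹ = 1 := by
          have e1 : (((g, 1) * x) * (x * (g, 1))⁻¹).1 = (g * x.1) * (x.1 * g)⁻¹ := rfl
          have e2 : (((g, 1) * x) * (x * (g, 1))⁻¹).2 = (1 * x.2) * (x.2 * 1)⁻¹ := rfl
          rw [← e1, ← h7, e2]
          group
        exact mul_inv_eq_one.1 h8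
      · rw [Subgroup.mem_center_iff]
        intro g
        have h6 : psi (((1, g) * x) * (x * (1, g))⁻¹) = 1 := by
          rw [map_mul, hc (1, g), ← map_mul, mul_inv_cancel, map_one]
        have h7 := (psi_eq_one _ h6).1
        have h8 : (g * x.2) * (x.2 * g)⁻¹ = 1 := by
          have e1 : (((1, g) * x) * (x * (1, g))⁻¹).1 = (1 * x.1) * (x.1 * 1)⁻¹ := rfl
          have e2 : (((1, g) * x) * (x * (1, g))⁻¹).2 = (g * x.2) * (x.2 * g)⁻¹ := rfl
          rw [← e2, h7, e1]
          group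
        exact mul_inv_eq_one.1 h8
    · rintro ⟨hx1, hx2⟩
      rw [Subgroup.mem_center_iff]
      intro z
      obtain ⟨y, rfl⟩ := hsurj z
      rw [← map_mul, ← map_mul]
      congr 1
      apply Prod.ext
      · exact Subgroup.mem_center_iff.1 hx1 y.1
      · exact Subgroup.mem_center_iff.1 hx2 y.2
  exact ⟨(QuotientGroup.quotientKerEquivOfSurjective Φ hΦs).symm.trans
    ((QuotientGroup.quotientMulEquivOfEq hker).trans
      (QuotientGroup.quotientKerEquivOfSurjective P hPs))⟩

end Cfsg.Agent.Helper27.O4Main
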