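import Mathlib
import Cfsg.Prelude.Def_Classical

set_option autoImplicit false

namespace Cfsg.Agent.Helper27.O6Adj

open Matrix

variable {F : Type*} [Field F]

/-- The ordered pairs indexing the basis `e₀∧e₁, e₀∧e₂, e₀∧e₃, e₂∧e₃, e₃∧e₁, e₁∧e₂` of `Λ²(F⁴)`. -/
def pr : Fin 3 ⊕ Fin 3 → Fin 4 × Fin 4 :=
  Sum.elim ![(0, 1), (0, 2), (0, 3)] ![(2, 3), (3, 1), (1, 2)]

/-- The second compound matrix (matrix of `Λ² M`). -/
def cM (M : Matrix (Fin 4) (Fin 4) F) : Matrix (Fin 3 ⊕ Fin 3) (Fin 3 ⊕ Fin 3) F :=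
  fun I J => M (pr I).1 (pr J).1 * M (pr I).2 (pr J).2 - M (pr I).1 (pr J).2 * M (pr I).2 (pr J).1

theorem cM_mul (M N : Matrix (Fin 4) (Fin 4) F) : cM (M * N) = cM M * cM N := by
  ext I J
  rcases I with i | i <;> rcases J with j | j <;> fin_cases i <;> fin_cases j <;>
    simp [cM, pr, Matrix.mul_apply, Fin.sum_univ_four, Fin.sum_univ_three,
      Fintype.sum_sum_type] <;> ring

theorem cM_one : cM (1 : Matrix (Fin 4) (Fin 4) F) = 1 := by
  ext I J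
  rcases I with i | i <;> rcases J with j | j <;> fin_cases i <;> fin_cases j <;>
    simp [cM, pr, Matrix.one_apply]

/-- A vector with `Q = 1`. -/
def e0 : Fin 3 ⊕ Fin 3 → F := Sum.elim ![1, 0, 0] ![1, 0, 0]

/-- The multiplier of `Λ² M` on the Klein quadric (it is `det M`). -/
def dF (M : Matrix (Fin 4) (Fin 4) F) : F := Cfsg.quadFormPlus 3 F (cM M *ᵥ e0)

theorem quad_cM (M : Matrix (Fin 4) (Fin 4) F) (v : Fin 3 ⊕ Fin 3 → F) :
    Cfsg.quadFormPlus 3 F (cM M *ᵥ v) = dF M * Cfsg.quadFormPlus 3 F v := by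
  simp only [dF, Cfsg.quadFormPlus, Fin.sum_univ_three]
  simp [e0, cM, pr, Matrix.mulVec, dotProduct, Fintype.sum_sum_type, Fin.sum_univ_three]
  ring

theorem quad_e0 : Cfsg.quadFormPlus 3 F (e0 (F := F)) = 1 := by
  simp [Cfsg.quadFormPlus, e0, Fin.sum_univ_three]

theorem dF_one : dF (1 : Matrix (Fin 4) (Fin 4) F) = 1 := by
  rw [dF, cM_one, Matrix.one_mulVec, quad_e0]

theorem dF_mul (M N : Matrix (Fin 4) (Fin 4) F) : dF (M * N) = dF M * dF N := by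
  rw [dF, cM_mul, ← Matrix.mulVec_mulVec, quad_cM, ← dF]

end Cfsg.Agent.Helper27.O6Adj
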