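import Mathlib
import Cfsg.Prelude.Def_Classical
import Cfsg.Agent.Helper27.O6Adj

set_option autoImplicit false

namespace Cfsg.Agent.Helper27.O5Adj

open Matrix Cfsg.Agent.Helper27.O6Adj

variable {F : Type*} [Field F]

/-- Reindexing `Fin 4 → Fin 2 ⊕ Fin 2`. -/
def e4 : Fin 4 → Fin 2 ⊕ Fin 2 := ![.inl 0, .inl 1, .inr 0, .inr 1]

/-- A `(Fin 2 ⊕ Fin 2)`-matrix as a `Fin 4`-matrix. -/
def m4 (A : Matrix (Fin 2 ⊕ Fin 2) (Fin 2 ⊕ Fin 2) F) : Matrix (Fin 4) (Fin 4) F :=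
  fun i j => A (e4 i) (e4 j)

theorem m4_mul (A B : Matrix (Fin 2 ⊕ Fin 2) (Fin 2 ⊕ Fin 2) F) : m4 (A * B) = m4 A * m4 B := by
  ext i j
  simp [m4, Matrix.mul_apply, Fintype.sum_sum_type, Fin.sum_univ_four, Fin.sum_univ_two, e4]
  ring

theorem m4_one : m4 (1 : Matrix (Fin 2 ⊕ Fin 2) (Fin 2 ⊕ Fin 2) F) = 1 := by
  ext i j
  fin_cases i <;> fin_cases j <;> simp [m4, e4, Matrix.one_apply]

omit [Field F] in
theorem m4_transpose (A : Matrix (Fin 2 ⊕ Fin 2) (Fin 2 ⊕ Fin 2) F) : m4 Aᵀ = (m4 A)ᵀ := rfl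

theorem cM_transpose (M : Matrix (Fin 4) (Fin 4) F) : cM Mᵀ = (cM M)ᵀ := by
  ext I J
  simp only [cM, Matrix.transpose_apply]
  ring

/-- The section of the coordinate map. -/
def sI : Unit ⊕ (Fin 2 ⊕ Fin 2) → Fin 3 ⊕ Fin 3 :=
  Sum.elim (fun _ => .inl 1) (Sum.elim ![.inl 0, .inl 2] ![.inr 0, .inr 2])

theorem sI_u (u : Unit) : sI (.inl u) = .inl 1 := rfl
theorem sI_00 : sI (.inr (.inl 0)) = .inl 0 := rfl
theorem sI_01 : sI (.inr (.inl 1)) = .inl 2 := rfl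
theorem sI_10 : sI (.inr (.inr 0)) = .inr 0 := rfl
theorem sI_11 : sI (.inr (.inr 1)) = .inr 2 := rfl

/-- The coordinate map. -/
def cI : Fin 3 ⊕ Fin 3 → Unit ⊕ (Fin 2 ⊕ Fin 2) :=
  Sum.elim ![.inr (.inl 0), .inl (), .inr (.inl 1)] ![.inr (.inr 0), .inl (), .inr (.inr 1)]

/-- The fixed bivector. -/
def bv : Fin 3 ⊕ Fin 3 → F := Sum.elim ![0, -1, 0] ![0, 1, 0]

/-- Restriction of a 6×6 matrix to the hyperplane `v (inl 1) = v (inr 1)`. -/
def rM (C : Matrix (Fin 3 ⊕ Fin 3) (Fin 3 ⊕ Fin 3) F) :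
    Matrix (Unit ⊕ (Fin 2 ⊕ Fin 2)) (Unit ⊕ (Fin 2 ⊕ Fin 2)) F :=
  fun k l => Sum.elim (fun _ => C (sI k) (.inl 1) + C (sI k) (.inr 1))
    (fun x => C (sI k) (sI (.inr x))) l

/-- Row identity. -/
def RowId (C : Matrix (Fin 3 ⊕ Fin 3) (Fin 3 ⊕ Fin 3) F) : Prop :=
  ∀ J, C (.inr 1) J - C (.inl 1) J = bv J

/-- Column identity. -/
def ColId (C : Matrix (Fin 3 ⊕ Fin 3) (Fin 3 ⊕ Fin 3) F) : Prop :=
  ∀ I, C I (.inr 1) - C I (.inl 1) = bv I

theorem rM_mul (C D : Matrix (Fin 3 ⊕ Fin 3) (Fin 3 ⊕ Fin 3) F) (hD : RowId D) :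
    rM (C * D) = rM C * rM D := by
  have h1 := hD (.inl 0)
  have h2 := hD (.inl 1)
  have h3 := hD (.inl 2)
  have h4 := hD (.inr 0)
  have h5 := hD (.inr 1)
  have h6 := hD (.inr 2)
  simp [bv] at h1 h2 h3 h4 h5 h6
  ext k l
  rcases l with l | l | l
  · simp [rM, sI_u, sI_00, sI_01, sI_10, sI_11, Matrix.mul_apply, Fintype.sum_sum_type,
        Fin.sum_univ_three, Fin.sum_univ_two]
    linear_combination C (sI k) (.inr 1) * (h2 + h5)
  · fin_cases l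
    · simp [rM, sI_u, sI_00, sI_01, sI_10, sI_11, Matrix.mul_apply, Fintype.sum_sum_type,
        Fin.sum_univ_three, Fin.sum_univ_two]
      linear_combination C (sI k) (.inr 1) * h1
    · simp [rM, sI_u, sI_00, sI_01, sI_10, sI_11, Matrix.mul_apply, Fintype.sum_sum_type,
        Fin.sum_univ_three, Fin.sum_univ_two]
      linear_combination C (sI k) (.inr 1) * h3
  · fin_cases l
    · simp [rM, sI_u, sI_00, sI_01, sI_10, sI_11, Matrix.mul_apply, Fintype.sum_sum_type,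
        Fin.sum_univ_three, Fin.sum_univ_two]
      linear_combination C (sI k) (.inr 1) * h4
    · simp [rM, sI_u, sI_00, sI_01, sI_10, sI_11, Matrix.mul_apply, Fintype.sum_sum_type,
        Fin.sum_univ_three, Fin.sum_univ_two]
      linear_combination C (sI k) (.inr 1) * h6

theorem rM_one : rM (1 : Matrix (Fin 3 ⊕ Fin 3) (Fin 3 ⊕ Fin 3) F) = 1 := by
  ext k l
  rcases k with k | k | k <;> rcases l with l | l | l <;> (try fin_cases k) <;>
    (try fin_cases l) <;> simp [rM, sI, Matrix.one_apply]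

theorem quad_bv : Cfsg.quadFormPlus 3 F (bv (F := F)) = -1 := by
  simp [Cfsg.quadFormPlus, bv, Fin.sum_univ_three]

theorem mulVec_bv (C : Matrix (Fin 3 ⊕ Fin 3) (Fin 3 ⊕ Fin 3) F) (hC : ColId C) :
    C *ᵥ bv = bv := by
  funext I
  rw [← hC I]
  simp [Matrix.mulVec, dotProduct, Fintype.sum_sum_type, Fin.sum_univ_three, bv]
  ring

theorem dF_eq_one (M : Matrix (Fin 4) (Fin 4) F) (hC : ColId (cM M)) : dF M = 1 := by
  have h := quad_cM M bv
  rw [mulVec_bv _ hC, quad_bv] at h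
  linear_combination h

theorem quad_rM (M : Matrix (Fin 4) (Fin 4) F) (hrow : RowId (cM M)) (hcol : ColId (cM M))
    (w : Unit ⊕ (Fin 2 ⊕ Fin 2) → F) :
    Cfsg.quadFormOdd 2 F (rM (cM M) *ᵥ w) = Cfsg.quadFormOdd 2 F w := by
  have key : ∀ k, (rM (cM M) *ᵥ w) k = (cM M *ᵥ (w ∘ cI)) (sI k) := by
    intro k
    simp [rM, sI_00, sI_01, sI_10, sI_11, cI, Matrix.mulVec, dotProduct,
      Fintype.sum_sum_type, Fin.sum_univ_three, Fin.sum_univ_two]
    ring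
  have hfix : (cM M *ᵥ (w ∘ cI)) (.inr 1) = (cM M *ᵥ (w ∘ cI)) (.inl 1) := by
    have h1 := hrow (.inl 0)
    have h2 := hrow (.inl 1)
    have h3 := hrow (.inl 2)
    have h4 := hrow (.inr 0)
    have h5 := hrow (.inr 1)
    have h6 := hrow (.inr 2)
    simp [bv] at h1 h2 h3 h4 h5 h6
    simp [cI, Matrix.mulVec, dotProduct, Fintype.sum_sum_type, Fin.sum_univ_three]
    linear_combination w (.inr (.inl 0)) * h1 + w (.inl ()) * (h2 + h5) + w (.inr (.inl 1)) * h3 +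
      w (.inr (.inr 0)) * h4 + w (.inr (.inr 1)) * h6
  have h6 := quad_cM M (w ∘ cI)
  rw [dF_eq_one M hcol, one_mul] at h6
  have e1 : Cfsg.quadFormPlus 3 F (w ∘ cI) = Cfsg.quadFormOdd 2 F w := by
    simp [Cfsg.quadFormPlus, Cfsg.quadFormOdd, cI, Fin.sum_univ_three, Fin.sum_univ_two]
    ring
  rw [← e1, ← h6]
  simp only [Cfsg.quadFormPlus, Cfsg.quadFormOdd, Fin.sum_univ_three, Fin.sum_univ_two, key]
  rw [hfix]
  simp [sI_u, sI_00, sI_01, sI_10, sI_11]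
  ring

theorem J_entries (A : Matrix (Fin 2 ⊕ Fin 2) (Fin 2 ⊕ Fin 2) F) (i j : Fin 2 ⊕ Fin 2) :
    (A * J (Fin 2) F * Aᵀ) i j =
      (A i (.inr 0) * A j (.inl 0) - A i (.inl 0) * A j (.inr 0)) +
        (A i (.inr 1) * A j (.inl 1) - A i (.inl 1) * A j (.inr 1)) := by
  simp [Matrix.mul_apply, Matrix.J, Fintype.sum_sum_type, Fin.sum_univ_two, Matrix.fromBlocks,
    Matrix.one_apply]
  ring

theorem col_id (A : Matrix (Fin 2 ⊕ Fin 2) (Fin 2 ⊕ Fin 2) F)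
    (hA : A * J (Fin 2) F * Aᵀ = J (Fin 2) F) : ColId (cM (m4 A)) := by
  intro I
  rcases I with i | i <;> fin_cases i
  · have h := congrFun (congrFun hA (.inl 0)) (.inl 1)
    rw [J_entries] at h
    simp [Matrix.J, Matrix.fromBlocks] at h
    simp [cM, m4, pr, e4, bv]
    linear_combination h
  · have h := congrFun (congrFun hA (.inl 0)) (.inr 0)
    rw [J_entries] at h
    simp [Matrix.J, Matrix.fromBlocks] at h
    simp [cM, m4, pr, e4, bv]
    linear_combination h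
  · have h := congrFun (congrFun hA (.inl 0)) (.inr 1)
    rw [J_entries] at h
    simp [Matrix.J, Matrix.fromBlocks] at h
    simp [cM, m4, pr, e4, bv]
    linear_combination h
  · have h := congrFun (congrFun hA (.inr 0)) (.inr 1)
    rw [J_entries] at h
    simp [Matrix.J, Matrix.fromBlocks] at h
    simp [cM, m4, pr, e4, bv]
    linear_combination h
  · have h := congrFun (congrFun hA (.inr 1)) (.inl 1)
    rw [J_entries] at h
    simp [Matrix.J, Matrix.fromBlocks] at h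
    simp [cM, m4, pr, e4, bv]
    linear_combination h
  · have h := congrFun (congrFun hA (.inl 1)) (.inr 0)
    rw [J_entries] at h
    simp [Matrix.J, Matrix.fromBlocks] at h
    simp [cM, m4, pr, e4, bv]
    linear_combination h

theorem row_id (A : Matrix (Fin 2 ⊕ Fin 2) (Fin 2 ⊕ Fin 2) F)
    (hA : Aᵀ * J (Fin 2) F * Aᵀᵀ = J (Fin 2) F) : RowId (cM (m4 A)) := by
  intro I
  have h := col_id Aᵀ hA I
  rw [m4_transpose, cM_transpose] at h
  exact h

end Cfsg.Agent.Helper27.O5Adj
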