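import Mathlib
import Cfsg.Agent.Helper27.O5Adj
import Cfsg.Agent.Helper4.OCenter
import Cfsg.Agent.S0286
import Cfsg.Agent.S0245
import Cfsg.Agent.S0246
import Cfsg.Agent.S0269
import Cfsg.Agent.S0270

set_option autoImplicit false

namespace Cfsg.Agent.Helper27.O5Main

open Matrix Cfsg.Agent.Helper27.O6Adj Cfsg.Agent.Helper27.O5Adj
open scoped commutatorElement

variable {F : Type*} [Field F]

theorem row_id' (g : Matrix.symplecticGroup (Fin 2) F) : RowId (cM (m4 g.1)) :=
  row_id g.1 (SymplecticGroup.mem_iff.1 (SymplecticGroup.transpose_mem g.2))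

theorem col_id' (g : Matrix.symplecticGroup (Fin 2) F) : ColId (cM (m4 g.1)) :=
  col_id g.1 (SymplecticGroup.mem_iff.1 g.2)

/-- The restricted compound matrix as a monoid hom. -/
def rHom : Matrix.symplecticGroup (Fin 2) F →*
    Matrix (Unit ⊕ (Fin 2 ⊕ Fin 2)) (Unit ⊕ (Fin 2 ⊕ Fin 2)) F where
  toFun g := rM (cM (m4 g.1))
  map_one' := by
    show rM (cM (m4 (1 : Matrix (Fin 2 ⊕ Fin 2) (Fin 2 ⊕ Fin 2) F))) = 1
    rw [m4_one, cM_one, rM_one]
  map_mul' g h := by
    show rM (cM (m4 (g.1 * h.1))) = _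
    rw [m4_mul, cM_mul, rM_mul _ _ (row_id' h)]

/-- The hom `Sp₄(F) → O₅(F)`. -/
def phi5 : Matrix.symplecticGroup (Fin 2) F →*
    ↥(Cfsg.isometryGroup F (Cfsg.quadFormOdd 2 F)) :=
  (rHom (F := F)).toHomUnits.codRestrict _ (fun g => by
    intro u v
    show Cfsg.quadFormOdd 2 F (rM (cM (m4 g.1)) *ᵥ u) = _
    rw [quad_rM _ (row_id' g) (col_id' g)])

theorem phi5_coe (g : Matrix.symplecticGroup (Fin 2) F) :
    ((phi5 g).1 : Matrix (Unit ⊕ (Fin 2 ⊕ Fin 2)) (Unit ⊕ (Fin 2 ⊕ Fin 2)) F) =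
      rM (cM (m4 g.1)) := rfl

theorem phi5_J_ne : phi5 (SymplecticGroup.symJ (Fin 2) F) ≠ 1 := by
  intro h
  have h0 : rM (cM (m4 (Matrix.J (Fin 2) F))) = 1 := by
    have h1 := phi5_coe (SymplecticGroup.symJ (Fin 2) F)
    rw [h] at h1
    exact h1.symm
  have h1 := congrFun (congrFun h0 (.inr (.inl 0))) (.inr (.inl 0))
  simp [rM, sI_00, cM, pr, m4, e4, Matrix.J, Matrix.fromBlocks] at h1

theorem three_le [Fintype F] (hodd : Odd (Fintype.card F)) : 3 ≤ Fintype.card F := by
  have h1 : 2 ≤ Fintype.card F := Fintype.one_lt_card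
  rcases hodd with ⟨k, hk⟩
  omega

theorem perfect_sp [Fintype F] (hodd : Odd (Fintype.card F)) :
    commutator (Matrix.symplecticGroup (Fin 2) F) = ⊤ :=
  Cfsg.Agent.S0269.result 2 (Or.inr (Or.inl ⟨rfl, three_le hodd⟩))

/-- A normal subgroup of `Sp₄(F)` is central or everything. -/
theorem normal_le_center [Fintype F] (hodd : Odd (Fintype.card F))
    (N : Subgroup (Matrix.symplecticGroup (Fin 2) F)) [N.Normal] :
    N ≤ Subgroup.center (Matrix.symplecticGroup (Fin 2) F) ∨ N = ⊤ := by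
  have : IsSimpleGroup (Cfsg.PSp 2 F) :=
    Cfsg.Agent.S0270.result 2 le_rfl (fun _ => three_le hodd)
  have hn : (N.map (QuotientGroup.mk' (Subgroup.center
      (Matrix.symplecticGroup (Fin 2) F)))).Normal :=
    Subgroup.Normal.map inferInstance _ (QuotientGroup.mk'_surjective _)
  rcases hn.eq_bot_or_eq_top with h | h
  · left
    intro g hg
    have h1 : QuotientGroup.mk' (Subgroup.center (Matrix.symplecticGroup (Fin 2) F)) g ∈
        N.map (QuotientGroup.mk' (Subgroup.center (Matrix.symplecticGroup (Fin 2) F))) :=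
      Subgroup.mem_map_of_mem _ hg
    rw [h, Subgroup.mem_bot] at h1
    exact (QuotientGroup.eq_one_iff g).1 h1
  · right
    have hsup : N ⊔ Subgroup.center (Matrix.symplecticGroup (Fin 2) F) = ⊤ := by
      rw [eq_top_iff]
      intro g _
      have h1 : QuotientGroup.mk' (Subgroup.center (Matrix.symplecticGroup (Fin 2) F)) g ∈
          N.map (QuotientGroup.mk' (Subgroup.center (Matrix.symplecticGroup (Fin 2) F))) := by
        rw [h]; trivial
      obtain ⟨n, hn, hng⟩ := h1
      have h3 : n⁻¹ * g ∈ Subgroup.center (Matrix.symplecticGroup (Fin 2) F) :=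
        QuotientGroup.eq.1 hng
      have h4 : g = n * (n⁻¹ * g) := by group
      rw [h4]
      exact Subgroup.mul_mem_sup hn h3
    have hc := Subgroup.Normal.commutator_le_of_self_sup_commutative_eq_top hsup inferInstance
    rw [perfect_sp hodd] at hc
    exact eq_top_iff.2 hc

theorem ker_ne_top : (phi5 (F := F)).ker ≠ ⊤ := by
  intro h
  apply phi5_J_ne (F := F)
  rw [← MonoidHom.mem_ker, h]
  trivial

theorem ker_le_center [Fintype F] (hodd : Odd (Fintype.card F)) :
    (phi5 (F := F)).ker ≤ Subgroup.center (Matrix.symplecticGroup (Fin 2) F) :=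
  (normal_le_center hodd _).resolve_right ker_ne_top

theorem card_center [Fintype F] (hodd : Odd (Fintype.card F)) :
    Nat.card (Subgroup.center (Matrix.symplecticGroup (Fin 2) F)) = 2 := by
  rw [Cfsg.Agent.S0246.result (F := F) rfl 2 (by norm_num)]
  have h3 := three_le hodd
  rcases hodd with ⟨k, hk⟩
  have h1 : Fintype.card F - 1 = 2 * k := by omega
  rw [h1]
  exact Nat.gcd_mul_right_right k 2

theorem range_le [Fintype F] (hodd : Odd (Fintype.card F)) :
    (phi5 (F := F)).range ≤ commutator ↥(Cfsg.isometryGroup F (Cfsg.quadFormOdd 2 F)) := by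
  rintro _ ⟨g, rfl⟩
  have hg : g ∈ commutator (Matrix.symplecticGroup (Fin 2) F) := by
    rw [perfect_sp hodd]; trivial
  have h1 : phi5 g ∈ (commutator (Matrix.symplecticGroup (Fin 2) F)).map phi5 :=
    Subgroup.mem_map_of_mem _ hg
  rw [commutator_def, Subgroup.map_commutator] at h1
  exact Subgroup.commutator_mono le_top le_top h1

theorem card_O5 [Fintype F] (hodd : Odd (Fintype.card F)) :
    Nat.card ↥(Cfsg.isometryGroup F (Cfsg.quadFormOdd 2 F)) =
      2 * Nat.card (Matrix.symplecticGroup (Fin 2) F) := by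
  rw [Cfsg.Agent.S0286.result (F := F) rfl hodd 2, Cfsg.Agent.S0245.result (F := F) rfl 2,
    mul_assoc]

theorem range_eq [Fintype F] (hodd : Odd (Fintype.card F)) :
    (phi5 (F := F)).range = commutator ↥(Cfsg.isometryGroup F (Cfsg.quadFormOdd 2 F)) := by
  have h2 : (2 : F) ≠ 0 := Cfsg.Agent.Helper4.Spinor.two_ne_zero_of_odd hodd
  apply Subgroup.eq_of_le_of_card_ge (range_le hodd)
  have hO' := card_O5 (F := F) hodd
  have hmul := Subgroup.card_mul_index
    (commutator ↥(Cfsg.isometryGroup F (Cfsg.quadFormOdd 2 F)))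
  have hRK : Nat.card (Matrix.symplecticGroup (Fin 2) F) =
      Nat.card (phi5 (F := F)).range * Nat.card (phi5 (F := F)).ker := by
    rw [Subgroup.card_eq_card_quotient_mul_card_subgroup (phi5 (F := F)).ker,
      Nat.card_congr (QuotientGroup.quotientKerEquivRange (phi5 (F := F))).toEquiv]
  have hK : Nat.card (phi5 (F := F)).ker ≤ 2 :=
    (Subgroup.card_le_of_le (ker_le_center hodd)).trans (card_center hodd).le
  have hcard : Fintype.card (Unit ⊕ (Fin 2 ⊕ Fin 2)) = 5 := by
    simp [Fintype.card_sum]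
  have hidx := Cfsg.Agent.Helper4.OCenter.index_four (Cfsg.quadFormOdd 2 F)
    (Cfsg.Agent.Helper4.Spinor.odd_nd F 2 h2) h2 (by rw [hcard]; omega)
  rw [hO', hRK, hidx] at hmul
  have hT := Nat.mul_le_mul_left (Nat.card (phi5 (F := F)).range) hK
  generalize Nat.card (phi5 (F := F)).range * Nat.card (phi5 (F := F)).ker = T at hmul hT
  omega

theorem main [Fintype F] (hodd : Odd (Fintype.card F)) :
    Nonempty (Cfsg.POmega F (Cfsg.quadFormOdd 2 F) ≃* Cfsg.PSp 2 F) := by
  have hrange := range_eq (F := F) hodd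
  obtain ⟨ψ', hψ'⟩ : ∃ ψ' : Matrix.symplecticGroup (Fin 2) F →*
      ↥(commutator ↥(Cfsg.isometryGroup F (Cfsg.quadFormOdd 2 F))),
      ∀ x, (ψ' x).1 = phi5 x :=
    ⟨(phi5 (F := F)).codRestrict _ (fun x => by rw [← hrange]; exact ⟨x, rfl⟩), fun x => rfl⟩
  have hsurj : Function.Surjective ψ' := by
    intro z
    have hz : z.1 ∈ (phi5 (F := F)).range := by rw [hrange]; exact z.2
    obtain ⟨x, hx⟩ := hz
    exact ⟨x, Subtype.ext ((hψ' x).trans hx)⟩
  obtain ⟨Φ, hΦ⟩ : ∃ Φ : Matrix.symplecticGroup (Fin 2) F →*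
      Cfsg.POmega F (Cfsg.quadFormOdd 2 F), ∀ x, Φ x = QuotientGroup.mk (ψ' x) :=
    ⟨(QuotientGroup.mk' _).comp ψ', fun x => rfl⟩
  have hΦs : Function.Surjective Φ := by
    intro z
    obtain ⟨w, rfl⟩ := QuotientGroup.mk_surjective z
    obtain ⟨x, rfl⟩ := hsurj w
    exact ⟨x, hΦ x⟩
  have hmem : ∀ x, x ∈ Φ.ker ↔ ψ' x ∈ Subgroup.center
      ↥(commutator ↥(Cfsg.isometryGroup F (Cfsg.quadFormOdd 2 F))) := by
    intro x
    rw [MonoidHom.mem_ker, hΦ, QuotientGroup.eq_one_iff]
  have hker : Φ.ker = Subgroup.center (Matrix.symplecticGroup (Fin 2) F) := by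
    apply le_antisymm
    · rcases normal_le_center hodd Φ.ker with h | h
      · exact h
      · exfalso
        apply ker_ne_top (F := F)
        rw [eq_top_iff, ← perfect_sp hodd, commutator_def, Subgroup.commutator_le]
        intro g _ k _
        rw [MonoidHom.mem_ker, map_commutatorElement]
        have hg : ψ' g ∈ Subgroup.center
            ↥(commutator ↥(Cfsg.isometryGroup F (Cfsg.quadFormOdd 2 F))) := by
          rw [← hmem, h]; trivial
        have h4 := congrArg Subtype.val (Subgroup.mem_center_iff.1 hg (ψ' k))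
        rw [Subgroup.coe_mul, Subgroup.coe_mul, hψ', hψ'] at h4
        rw [commutatorElement_def, ← h4]
        group
    · intro x hx
      rw [hmem, Subgroup.mem_center_iff]
      intro z
      obtain ⟨y, rfl⟩ := hsurj z
      rw [← map_mul, ← map_mul, Subgroup.mem_center_iff.1 hx y]
  exact ⟨(QuotientGroup.quotientKerEquivOfSurjective Φ hΦs).symm.trans
    (QuotientGroup.quotientMulEquivOfEq hker)⟩

end Cfsg.Agent.Helper27.O5Main
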