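import Mathlib
import Cfsg.Prelude.Def_Classical
import Cfsg.Agent.Helper27.O6Adj
import Cfsg.Agent.Helper2.SLGen

set_option autoImplicit false

namespace Cfsg.Agent.Helper27.O6Hom

open Matrix Cfsg.Agent.Helper27.O6Adj

variable {F : Type*} [Field F]

theorem perfect4 : commutator (Matrix.SpecialLinearGroup (Fin 4) F) = ⊤ :=
  Cfsg.Agent.Helper2.SLGen.commutator_SL_eq_top (by decide)

/-- `dF` as a monoid hom on `SL₄`. -/
def dHom : Matrix.SpecialLinearGroup (Fin 4) F →* F where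
  toFun g := dF g.1
  map_one' := by
    rw [Matrix.SpecialLinearGroup.coe_one, dF_one]
  map_mul' g h := by
    rw [Matrix.SpecialLinearGroup.coe_mul, dF_mul]

theorem dF_eq_one (g : Matrix.SpecialLinearGroup (Fin 4) F) : dF g.1 = 1 := by
  have h1 := Abelianization.commutator_subset_ker (dHom (F := F)).toHomUnits
    (show g ∈ commutator (Matrix.SpecialLinearGroup (Fin 4) F) by rw [perfect4]; trivial)
  rw [MonoidHom.mem_ker] at h1
  have h3 := congrArg Units.val h1
  exact h3

/-- The compound matrix as a monoid hom. -/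
def cHom : Matrix.SpecialLinearGroup (Fin 4) F →*
    Matrix (Fin 3 ⊕ Fin 3) (Fin 3 ⊕ Fin 3) F where
  toFun g := cM g.1
  map_one' := by
    rw [Matrix.SpecialLinearGroup.coe_one, cM_one]
  map_mul' g h := by
    rw [Matrix.SpecialLinearGroup.coe_mul, cM_mul]

/-- The Klein correspondence `SL₄(F) → O⁺₆(F)`. -/
def phi6 : Matrix.SpecialLinearGroup (Fin 4) F →*
    ↥(Cfsg.isometryGroup F (Cfsg.quadFormPlus 3 F)) :=
  (cHom (F := F)).toHomUnits.codRestrict _ (fun g => by
    intro u v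
    show Cfsg.quadFormPlus 3 F (cM g.1 *ᵥ u) = _
    rw [quad_cM, dF_eq_one, one_mul])

theorem phi6_coe (g : Matrix.SpecialLinearGroup (Fin 4) F) :
    ((phi6 g).1 : Matrix (Fin 3 ⊕ Fin 3) (Fin 3 ⊕ Fin 3) F) = cM g.1 := rfl

theorem phi6_eq_one_iff (g : Matrix.SpecialLinearGroup (Fin 4) F) :
    phi6 g = 1 ↔ cM g.1 = 1 := by
  rw [← phi6_coe]
  constructor
  · intro h
    rw [h]
    rfl
  · intro h
    apply Subtype.ext
    apply Units.ext
    rw [h]
    rfl

theorem phi6_transvection_ne :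
    phi6 (Matrix.SpecialLinearGroup.transvection (F := F) (i := (0 : Fin 4)) (j := 1)
      (by decide) 1) ≠ 1 := by
  intro h
  rw [phi6_eq_one_iff] at h
  have h1 := congrFun (congrFun h (.inl 1)) (.inr 2)
  simp [cM, pr, Matrix.SpecialLinearGroup.transvection_coe, Matrix.one_apply,
    Matrix.single_apply] at h1

theorem scalar_sq (g : Matrix.SpecialLinearGroup (Fin 4) F) (h : phi6 g = 1)
    (hg : g ∈ Subgroup.center (Matrix.SpecialLinearGroup (Fin 4) F)) :
    g.1 = Matrix.scalar (Fin 4) (g.1 0 0) ∧ g.1 0 0 * g.1 0 0 = 1 := by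
  rw [Matrix.SpecialLinearGroup.mem_center_iff] at hg
  obtain ⟨r, -, hr⟩ := hg
  have h00 : g.1 0 0 = r := by
    rw [← hr]
    simp [Matrix.scalar_apply, Matrix.diagonal]
  rw [phi6_eq_one_iff] at h
  have h1 := congrFun (congrFun h (.inl 0)) (.inl 0)
  rw [h00]
  refine ⟨hr.symm, ?_⟩
  rw [← hr] at h1
  simpa [cM, pr, Matrix.scalar_apply, Matrix.diagonal, Matrix.one_apply] using h1

end Cfsg.Agent.Helper27.O6Hom
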