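import Mathlib
import Cfsg.Agent.Helper27.O6Hom
import Cfsg.Agent.Helper4.OCenter
import Cfsg.Agent.S0287
import Cfsg.Agent.Helper2.SLCard

set_option autoImplicit false

namespace Cfsg.Agent.Helper27.O6Main

open Matrix Cfsg.Agent.Helper27.O6Adj Cfsg.Agent.Helper27.O6Hom
open scoped commutatorElement

variable {F : Type*} [Field F]

/-- A normal subgroup of `SL₄(F)` is central or everything. -/
theorem normal_le_center (N : Subgroup (Matrix.SpecialLinearGroup (Fin 4) F)) [N.Normal] :
    N ≤ Subgroup.center (Matrix.SpecialLinearGroup (Fin 4) F) ∨ N = ⊤ := by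
  haveI : IsSimpleGroup (Matrix.ProjectiveSpecialLinearGroup (Fin 4) F) :=
    Cfsg.Agent.Helper2.SLGen.isSimpleGroup_PSL perfect4
  have hn : (N.map (QuotientGroup.mk' (Subgroup.center
      (Matrix.SpecialLinearGroup (Fin 4) F)))).Normal :=
    Subgroup.Normal.map inferInstance _ (QuotientGroup.mk'_surjective _)
  rcases hn.eq_bot_or_eq_top with h | h
  · left
    intro g hg
    have h1 : QuotientGroup.mk' (Subgroup.center (Matrix.SpecialLinearGroup (Fin 4) F)) g ∈
        N.map (QuotientGroup.mk' (Subgroup.center (Matrix.SpecialLinearGroup (Fin 4) F))) :=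
      Subgroup.mem_map_of_mem _ hg
    rw [h, Subgroup.mem_bot] at h1
    exact (QuotientGroup.eq_one_iff g).1 h1
  · right
    have hsup : N ⊔ Subgroup.center (Matrix.SpecialLinearGroup (Fin 4) F) = ⊤ := by
      rw [eq_top_iff]
      intro g _
      have h1 : QuotientGroup.mk' (Subgroup.center (Matrix.SpecialLinearGroup (Fin 4) F)) g ∈
          N.map (QuotientGroup.mk' (Subgroup.center (Matrix.SpecialLinearGroup (Fin 4) F))) := by
        rw [h]; trivial
      obtain ⟨n, hn, hng⟩ := h1
      have h3 : n⁻¹ * g ∈ Subgroup.center (Matrix.SpecialLinearGroup (Fin 4) F) :=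
        QuotientGroup.eq.1 hng
      have h4 : g = n * (n⁻¹ * g) := by group
      rw [h4]
      exact Subgroup.mul_mem_sup hn h3
    have hc := Subgroup.Normal.commutator_le_of_self_sup_commutative_eq_top hsup inferInstance
    rw [perfect4] at hc
    exact eq_top_iff.2 hc

theorem ker_ne_top : (phi6 (F := F)).ker ≠ ⊤ := by
  intro h
  apply phi6_transvection_ne (F := F)
  rw [← MonoidHom.mem_ker, h]
  trivial

theorem ker_le_center :
    (phi6 (F := F)).ker ≤ Subgroup.center (Matrix.SpecialLinearGroup (Fin 4) F) :=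
  (normal_le_center _).resolve_right ker_ne_top

theorem sq_card_le [Finite F] : Nat.card {x : F // x * x = 1} ≤ 2 := by
  classical
  have h := Nat.card_le_card_of_injective (fun x : {x : F // x * x = 1} => decide (x.1 = 1))
    (by
      intro x y hxy
      have hx := mul_self_eq_one_iff.1 x.2
      have hy := mul_self_eq_one_iff.1 y.2
      apply Subtype.ext
      by_cases h1 : x.1 = 1
      · have : y.1 = 1 := by simpa [h1] using hxy
        rw [h1, this]
      · have h2 : ¬ y.1 = 1 := by
          intro hy1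
          simp [h1, hy1] at hxy
        rw [hx.resolve_left h1, hy.resolve_left h2])
  simpa using h

theorem sq_card_char2 [Finite F] (hch : (2 : F) = 0) : Nat.card {x : F // x * x = 1} ≤ 1 := by
  haveI : Subsingleton {x : F // x * x = 1} := by
    constructor
    intro x y
    have key : ∀ z : F, z * z = 1 → z = 1 := by
      intro z hz
      have h1 : (z - 1) * (z - 1) = 0 := by linear_combination hz - (z - 1) * hch
      have h3 := mul_self_eq_zero.1 h1
      exact sub_eq_zero.1 h3
    apply Subtype.ext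
    rw [key x.1 x.2, key y.1 y.2]
  exact Finite.card_le_one_iff_subsingleton.2 inferInstance

theorem ker_card_le [Finite F] :
    Nat.card (phi6 (F := F)).ker ≤ Nat.card {x : F // x * x = 1} := by
  apply Nat.card_le_card_of_injective
    (fun g : (phi6 (F := F)).ker =>
      (⟨g.1.1 0 0, (scalar_sq g.1 (MonoidHom.mem_ker.1 g.2) (ker_le_center g.2)).2⟩ :
        {x : F // x * x = 1}))
  intro g h hgh
  have h1 : g.1.1 0 0 = h.1.1 0 0 := congrArg Subtype.val hgh
  apply Subtype.ext
  apply Subtype.ext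
  rw [(scalar_sq g.1 (MonoidHom.mem_ker.1 g.2) (ker_le_center g.2)).1,
    (scalar_sq h.1 (MonoidHom.mem_ker.1 h.2) (ker_le_center h.2)).1, h1]

theorem card_SL4 [Fintype F] :
    Nat.card (Matrix.SpecialLinearGroup (Fin 4) F) =
      Fintype.card F ^ 6 * (Fintype.card F ^ 3 - 1) * (Fintype.card F ^ 2 - 1) *
        (Fintype.card F ^ 4 - 1) := by
  have h1 := Cfsg.Agent.Helper2.SLCard.card_SL_mul F 4 (by norm_num)
  rw [Matrix.card_GL_field, Fin.prod_univ_four] at h1
  have hq : 2 ≤ Fintype.card F := Fintype.one_lt_card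
  have hpos : 0 < Fintype.card F - 1 := by omega
  have e1 : Fintype.card F ^ 4 - Fintype.card F ^ 1 =
      Fintype.card F * (Fintype.card F ^ 3 - 1) := by
    have h : Fintype.card F * Fintype.card F ^ 3 = Fintype.card F ^ 4 := by ring
    rw [Nat.mul_sub_one, h, pow_one]
  have e2 : Fintype.card F ^ 4 - Fintype.card F ^ 2 =
      Fintype.card F ^ 2 * (Fintype.card F ^ 2 - 1) := by
    have h : Fintype.card F ^ 2 * Fintype.card F ^ 2 = Fintype.card F ^ 4 := by ring
    rw [Nat.mul_sub_one, h]
  have e3 : Fintype.card F ^ 4 - Fintype.card F ^ 3 =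
      Fintype.card F ^ 3 * (Fintype.card F - 1) := by
    have h : Fintype.card F ^ 3 * Fintype.card F = Fintype.card F ^ 4 := by ring
    rw [Nat.mul_sub_one, h]
  have e0 : Fintype.card F ^ 4 - Fintype.card F ^ 0 = Fintype.card F ^ 4 - 1 := by
    rw [pow_zero]
  simp only [Fin.val_zero, Fin.val_one, Fin.val_two] at h1
  have e3' : Fintype.card F ^ 4 - Fintype.card F ^ ((3 : Fin 4) : ℕ) =
      Fintype.card F ^ 3 * (Fintype.card F - 1) := e3
  rw [e0, e1, e2, e3'] at h1
  apply Nat.eq_of_mul_eq_mul_right hpos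
  rw [h1]
  ring

theorem range_le :
    (phi6 (F := F)).range ≤ commutator ↥(Cfsg.isometryGroup F (Cfsg.quadFormPlus 3 F)) := by
  rintro _ ⟨g, rfl⟩
  have hg : g ∈ commutator (Matrix.SpecialLinearGroup (Fin 4) F) := by rw [perfect4]; trivial
  have h1 : phi6 g ∈ (commutator (Matrix.SpecialLinearGroup (Fin 4) F)).map phi6 :=
    Subgroup.mem_map_of_mem _ hg
  rw [commutator_def, Subgroup.map_commutator] at h1
  exact Subgroup.commutator_mono le_top le_top h1

theorem card_O6 [Fintype F] :
    Nat.card ↥(Cfsg.isometryGroup F (Cfsg.quadFormPlus 3 F)) =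
      2 * Nat.card (Matrix.SpecialLinearGroup (Fin 4) F) := by
  have hO := Cfsg.Agent.S0287.result (F := F) rfl 3 (by norm_num)
  rw [hO, card_SL4, show (3 - 1 : ℕ) = 2 from rfl, Finset.prod_range_succ, Finset.prod_range_one]
  have e1 : 3 * 2 = 6 := rfl
  have e2 : 2 * (0 + 1) = 2 := rfl
  have e3 : 2 * (1 + 1) = 4 := rfl
  rw [e1, e2, e3]
  ring

theorem range_eq [Fintype F] :
    (phi6 (F := F)).range = commutator ↥(Cfsg.isometryGroup F (Cfsg.quadFormPlus 3 F)) := by
  apply Subgroup.eq_of_le_of_card_ge range_le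
  have hO' := card_O6 (F := F)
  have hmul := Subgroup.card_mul_index
    (commutator ↥(Cfsg.isometryGroup F (Cfsg.quadFormPlus 3 F)))
  have hRK : Nat.card (Matrix.SpecialLinearGroup (Fin 4) F) =
      Nat.card (phi6 (F := F)).range * Nat.card (phi6 (F := F)).ker := by
    rw [Subgroup.card_eq_card_quotient_mul_card_subgroup (phi6 (F := F)).ker,
      Nat.card_congr (QuotientGroup.quotientKerEquivRange (phi6 (F := F))).toEquiv]
  have hK := ker_card_le (F := F)
  have hcard : Fintype.card (Fin 3 ⊕ Fin 3) = 6 := by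
    simp [Fintype.card_sum]
  rw [hO', hRK] at hmul
  by_cases hch : (2 : F) = 0
  · have hidx := Cfsg.Agent.Helper4.OCenter.index_two (Cfsg.quadFormPlus 3 F)
      (Cfsg.Agent.Helper4.Spinor.plus_nd F 3) hch (Or.inr (by rw [hcard]; omega)) ⟨Sum.inl 0⟩
    have hK2 := hK.trans (sq_card_char2 hch)
    rw [hidx] at hmul
    have hT := Nat.mul_le_mul_left (Nat.card (phi6 (F := F)).range) hK2
    generalize Nat.card (phi6 (F := F)).range * Nat.card (phi6 (F := F)).ker = T at hmul hT
    omega
  · have hidx := Cfsg.Agent.Helper4.OCenter.index_four (Cfsg.quadFormPlus 3 F)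
      (Cfsg.Agent.Helper4.Spinor.plus_nd F 3) hch (by rw [hcard]; omega)
    have hK2 := hK.trans sq_card_le
    rw [hidx] at hmul
    have hT := Nat.mul_le_mul_left (Nat.card (phi6 (F := F)).range) hK2
    generalize Nat.card (phi6 (F := F)).range * Nat.card (phi6 (F := F)).ker = T at hmul hT
    omega

theorem main [Fintype F] :
    Nonempty (Cfsg.POmega F (Cfsg.quadFormPlus 3 F) ≃*
      Matrix.ProjectiveSpecialLinearGroup (Fin 4) F) := by
  have hrange := range_eq (F := F)
  obtain ⟨ψ', hψ'⟩ : ∃ ψ' : Matrix.SpecialLinearGroup (Fin 4) F →*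
      ↥(commutator ↥(Cfsg.isometryGroup F (Cfsg.quadFormPlus 3 F))),
      ∀ x, (ψ' x).1 = phi6 x :=
    ⟨(phi6 (F := F)).codRestrict _ (fun x => by rw [← hrange]; exact ⟨x, rfl⟩), fun x => rfl⟩
  have hsurj : Function.Surjective ψ' := by
    intro z
    have hz : z.1 ∈ (phi6 (F := F)).range := by rw [hrange]; exact z.2
    obtain ⟨x, hx⟩ := hz
    exact ⟨x, Subtype.ext ((hψ' x).trans hx)⟩
  obtain ⟨Φ, hΦ⟩ : ∃ Φ : Matrix.SpecialLinearGroup (Fin 4) F →*
      Cfsg.POmega F (Cfsg.quadFormPlus 3 F), ∀ x, Φ x = QuotientGroup.mk (ψ' x) :=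
    ⟨(QuotientGroup.mk' _).comp ψ', fun x => rfl⟩
  have hΦs : Function.Surjective Φ := by
    intro z
    obtain ⟨w, rfl⟩ := QuotientGroup.mk_surjective z
    obtain ⟨x, rfl⟩ := hsurj w
    exact ⟨x, hΦ x⟩
  have hmem : ∀ x, x ∈ Φ.ker ↔ ψ' x ∈ Subgroup.center
      ↥(commutator ↥(Cfsg.isometryGroup F (Cfsg.quadFormPlus 3 F))) := by
    intro x
    rw [MonoidHom.mem_ker, hΦ, QuotientGroup.eq_one_iff]
  have hker : Φ.ker = Subgroup.center (Matrix.SpecialLinearGroup (Fin 4) F) := by
    apply le_antisymm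
    · rcases normal_le_center Φ.ker with h | h
      · exact h
      · exfalso
        apply ker_ne_top (F := F)
        rw [eq_top_iff, ← perfect4, commutator_def, Subgroup.commutator_le]
        intro g _ k _
        rw [MonoidHom.mem_ker, map_commutatorElement]
        have hg : ψ' g ∈ Subgroup.center
            ↥(commutator ↥(Cfsg.isometryGroup F (Cfsg.quadFormPlus 3 F))) := by
          rw [← hmem, h]; trivial
        have h4 := congrArg Subtype.val (Subgroup.mem_center_iff.1 hg (ψ' k))
        rw [Subgroup.coe_mul, Subgroup.coe_mul, hψ', hψ'] at h4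
        rw [commutatorElement_def, ← h4]
        group
    · intro x hx
      rw [hmem, Subgroup.mem_center_iff]
      intro z
      obtain ⟨y, rfl⟩ := hsurj z
      rw [← map_mul, ← map_mul, Subgroup.mem_center_iff.1 hx y]
  exact ⟨(QuotientGroup.quotientKerEquivOfSurjective Φ hΦs).symm.trans
    (QuotientGroup.quotientMulEquivOfEq hker)⟩

end Cfsg.Agent.Helper27.O6Main
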