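import Cfsg.Agent.Helper27.Co2N48
import Cfsg.Agent.Helper28.GolayTab

set_option autoImplicit false
open Cfsg

namespace Cfsg.Agent.Helper27

open Cfsg.Agent.Helper28.Golay (tf permOf inM24 permOf_mem_M24 permOf_apply isPerm_of_inM24 isCW
  toSet toSet_mem_supports_iff isCW_lt idx pt idx_pt pt_idx idx_lt tf_lt mem_toSet)

/-! ### explicit conjugates of the sextet involution -/

/-- composition of a vector with the permutation given by a table -/
def permT (T : List ℕ) (x : GolayPt → ℤ) : GolayPt → ℤ := fun i => x (pt (tf T (idx i)))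

/-- sign change on the set bits of a mask -/
def signM (c : ℕ) (x : GolayPt → ℤ) : GolayPt → ℤ :=
  fun i => if c.testBit (idx i) = true then -x i else x i

/-- the sextet involution on vectors -/
def xiFun (x : GolayPt → ℤ) : GolayPt → ℤ := fun i => sgnT i * (2 * x i - tsum x i) / 2

lemma xiC_val (v : leechLattice) : ((xiC • v : leechLattice) : GolayPt → ℤ) = xiFun v.1 := by
  funext i
  have h := xiC_apply v i
  unfold xiFun
  rw [← h]
  exact (Int.mul_ediv_cancel_left _ (by norm_num)).symm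

lemma signFun_toSet (c : ℕ) (x : GolayPt → ℤ) : signFun (toSet c) x = signM c x := by
  funext i
  simp only [signFun, signM, mem_toSet]

lemma permFun_table (T Ti : List ℕ) (hT : inM24 T = true) (hTi : inM24 Ti = true)
    (hinv : ∀ i, i < 24 → tf T (tf Ti i) = i) (x : GolayPt → ℤ) :
    permFun (permOf T) x = permT Ti x := by
  funext i
  show x ((permOf T).symm i) = x (pt (tf Ti (idx i)))
  congr 1
  rw [Equiv.symm_apply_eq, permOf_apply (isPerm_of_inM24 hT),
    idx_pt _ (tf_lt (isPerm_of_inM24 hTi) (idx_lt i)), hinv _ (idx_lt i), pt_idx]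

/-- the data of a conjugate: table, inverse table, sign mask -/
def gdValid (d : List ℕ × List ℕ × ℕ) : Bool :=
  inM24 d.1 && (inM24 d.2.1 && (isCW d.2.2 && (List.range 24).all fun i =>
    Nat.beq (tf d.1 (tf d.2.1 i)) i && Nat.beq (tf d.2.1 (tf d.1 i)) i))

lemma gdValid_iff (d : List ℕ × List ℕ × ℕ) : gdValid d = true ↔
    inM24 d.1 = true ∧ inM24 d.2.1 = true ∧ isCW d.2.2 = true ∧
      (∀ i, i < 24 → tf d.1 (tf d.2.1 i) = i) ∧ (∀ i, i < 24 → tf d.2.1 (tf d.1 i) = i) := by
  unfold gdValid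
  rw [Bool.and_eq_true, Bool.and_eq_true, Bool.and_eq_true, List.all_eq_true]
  constructor
  · rintro ⟨h1, h2, h3, h4⟩
    refine ⟨h1, h2, h3, fun i hi => ?_, fun i hi => ?_⟩
    · have := h4 i (List.mem_range.mpr hi)
      rw [Bool.and_eq_true] at this
      exact Nat.eq_of_beq_eq_true this.1
    · have := h4 i (List.mem_range.mpr hi)
      rw [Bool.and_eq_true] at this
      exact Nat.eq_of_beq_eq_true this.2
  · rintro ⟨h1, h2, h3, h4, h5⟩
    refine ⟨h1, h2, h3, fun i hi => ?_⟩
    rw [List.mem_range] at hi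
    rw [Bool.and_eq_true, h4 i hi, h5 i hi]
    exact ⟨Nat.beq_refl i, Nat.beq_refl i⟩

lemma gd_mem (d : List ℕ × List ℕ × ℕ) (h : gdValid d = true) :
    toSet d.2.2 ∈ supports (golayCode : Set (GolayPt → ZMod 2)) :=
  (toSet_mem_supports_iff (isCW_lt ((gdValid_iff d).mp h).2.2.1)).mpr ((gdValid_iff d).mp h).2.2.1

/-- the automorphism given by the data of a conjugate of the sextet involution -/
noncomputable def gdC (d : List ℕ × List ℕ × ℕ) : Co0 :=
  if h : gdValid d = true then
    (signC (toSet d.2.2) (gd_mem d h) * permC (permOf d.1) (permOf_mem_M24 ((gdValid_iff d).mp h).1))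
      * (xiC * (permC (permOf d.2.1) (permOf_mem_M24 ((gdValid_iff d).mp h).2.1)
        * signC (toSet d.2.2) (gd_mem d h)))
  else 1

/-- the action of a conjugate on vectors -/
def gdFun (d : List ℕ × List ℕ × ℕ) (x : GolayPt → ℤ) : GolayPt → ℤ :=
  signM d.2.2 (permT d.2.1 (xiFun (permT d.1 (signM d.2.2 x))))

lemma gdC_apply (d : List ℕ × List ℕ × ℕ) (h : gdValid d = true) (y : leechLattice) :
    ((gdC d • y : leechLattice) : GolayPt → ℤ) = gdFun d y.1 := by
  obtain ⟨h1, h2, h3, h4, h5⟩ := (gdValid_iff d).mp h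
  rw [gdC, dif_pos h, mul_smul_coe, mul_smul_coe, mul_smul_coe, mul_smul_coe, signC_apply,
    permC_apply, xiC_val, permC_apply, signC_apply, signFun_toSet, signFun_toSet,
    permFun_table d.1 d.2.1 h1 h2 h4, permFun_table d.2.1 d.1 h2 h1 h5]
  rfl

/-! ### orbit certificates -/

/-- a tree of images under explicit elements fixing the reference vectors -/
theorem orbit_cert (refs : List leechLattice) (gens : List (List ℕ × List ℕ × ℕ))
    (hval : ∀ d ∈ gens, gdValid d = true)
    (hfix : ∀ d ∈ gens, ∀ r ∈ refs, gdFun d r.1 = r.1)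
    (Y : List (List ℤ)) (par gi : List ℕ)
    (hcert : ∀ k < Y.length, 0 < k → par.getD k 0 < k ∧ gi.getD k 0 < gens.length ∧
      gdFun (gens.getD (gi.getD k 0) ([], [], 0)) (vecL (Y.getD (par.getD k 0) []))
        = vecL (Y.getD k []))
    (x0 : leechLattice) (hx0 : x0.1 = vecL (Y.getD 0 [])) :
    ∀ k < Y.length, ∃ g : Co0, (∀ r ∈ refs, g • r = r) ∧
      ((g • x0 : leechLattice) : GolayPt → ℤ) = vecL (Y.getD k []) := by
  intro k
  induction k using Nat.strong_induction_on with
  | _ k ih =>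
    intro hk
    by_cases h0 : k = 0
    · subst h0
      exact ⟨1, fun r _ => one_smul _ _, by rw [one_smul]; exact hx0⟩
    · obtain ⟨hp, hg, he⟩ := hcert k hk (Nat.pos_of_ne_zero h0)
      obtain ⟨g, hgr, hgx⟩ := ih _ hp (lt_trans hp hk)
      have hd : gens.getD (gi.getD k 0) ([], [], 0) ∈ gens := by
        rw [List.getD_eq_getElem _ _ hg]
        exact List.getElem_mem hg
      refine ⟨gdC (gens.getD (gi.getD k 0) ([], [], 0)) * g, fun r hr => ?_, ?_⟩
      · rw [mul_smul, hgr r hr]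
        apply Subtype.ext
        rw [gdC_apply _ (hval _ hd)]
        exact hfix _ hd r hr
      · rw [mul_smul_coe, gdC_apply _ (hval _ hd), hgx]
        exact he

/-- transitivity on a finite set of lattice vectors from an orbit certificate -/
theorem trans_of_cert (S : Set leechLattice) (Q : Co0 → Prop)
    (hQmul : ∀ g h, Q g → Q h → Q (g * h)) (hQinv : ∀ g, Q g → Q g⁻¹)
    (Y : List (List ℤ)) (hS : S.ncard = Y.length) (hpos : 0 < Y.length)
    (hmem : ∀ k < Y.length, ∃ y : leechLattice, y ∈ S ∧ y.1 = vecL (Y.getD k []))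
    (hinj : ∀ k < Y.length, ∀ k' < k, vecL (Y.getD k []) ≠ vecL (Y.getD k' []))
    (x0 : leechLattice)
    (reach : ∀ k < Y.length, ∃ g : Co0, Q g ∧
      ((g • x0 : leechLattice) : GolayPt → ℤ) = vecL (Y.getD k [])) :
    ∀ x ∈ S, ∀ x' ∈ S, ∃ g : Co0, Q g ∧ g • x = x' := by
  classical
  have hfin : S.Finite := Set.finite_of_ncard_pos (by rw [hS]; exact hpos)
  let f : Fin Y.length → leechLattice := fun k => Classical.choose (hmem k k.2)
  have hf : ∀ k : Fin Y.length, f k ∈ S ∧ (f k).1 = vecL (Y.getD k []) :=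
    fun k => Classical.choose_spec (hmem k k.2)
  have hfinj : Function.Injective f := by
    intro a b hab
    by_contra hne
    have e : vecL (Y.getD a []) = vecL (Y.getD b []) := by
      rw [← (hf a).2, ← (hf b).2, hab]
    rcases lt_or_gt_of_ne (fun h => hne (Fin.ext h) : (a : ℕ) ≠ b) with h | h
    · exact hinj b b.2 a h e.symm
    · exact hinj a a.2 b h e
  have himg : Set.range f = S := by
    apply Set.eq_of_subset_of_ncard_le
    · rintro _ ⟨k, rfl⟩
      exact (hf k).1
    · rw [hS, Set.ncard_range_of_injective hfinj, Nat.card_fin]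
    · exact hfin
  have key : ∀ x ∈ S, ∃ g : Co0, Q g ∧ g • x0 = x := by
    intro x hx
    rw [← himg] at hx
    obtain ⟨k, rfl⟩ := hx
    obtain ⟨g, hg, hgx⟩ := reach k k.2
    exact ⟨g, hg, Subtype.ext (hgx.trans (hf k).2.symm)⟩
  intro x hx x' hx'
  obtain ⟨g, hg, hgx⟩ := key x hx
  obtain ⟨g', hg', hgx'⟩ := key x' hx'
  refine ⟨g' * g⁻¹, hQmul _ _ hg' (hQinv _ hg), ?_⟩
  rw [mul_smul, ← hgx, inv_smul_smul, hgx']

/-- pairs of vectors of sum of squares 48 with dot product `-32` form one orbit -/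
theorem pairs48 (v w v' w' : leechLattice) (hv : sqNorm v.1 = 48) (hw : sqNorm w.1 = 48)
    (hv' : sqNorm v'.1 = 48) (hw' : sqNorm w'.1 = 48) (hvw : dotInt v.1 w.1 = -32)
    (hvw' : dotInt v'.1 w'.1 = -32) : ∃ g : Co0, g • v = v' ∧ g • w = w' := by
  have hm : ∀ a b : leechLattice, sqNorm a.1 = 48 → sqNorm b.1 = 48 → dotInt a.1 b.1 = -32 →
      sqNorm (a + b : leechLattice).1 = 32 ∧ dotInt (a + b : leechLattice).1 (-a : leechLattice).1 = -16 := by
    intro a b ha hb hab
    constructor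
    · show sqNorm (a.1 + b.1) = 32
      rw [sqNorm_add, ha, hb, hab]
      norm_num
    · show dotInt (a.1 + b.1) (-a.1) = -16
      rw [dotInt_neg_right, dotInt_add_left, dotInt_self, ha, dotInt_comm b.1 a.1, hab]
      norm_num
  obtain ⟨m1, d1⟩ := hm v w hv hw hvw
  obtain ⟨m2, d2⟩ := hm v' w' hv' hw' hvw'
  obtain ⟨g1, hg1⟩ := Cfsg.Agent.S0400.result (v + w) (v' + w') m1 m2
  have n1 : sqNorm (g1 • (-v) : leechLattice).1 = 48 := by
    rw [co0_norm]
    show sqNorm (-v.1) = 48
    rw [sqNorm_neg', hv]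
  have n2 : sqNorm (-v' : leechLattice).1 = 48 := by
    show sqNorm (-v'.1) = 48
    rw [sqNorm_neg', hv']
  have d1' : dotInt (v' + w' : leechLattice).1 (g1 • (-v) : leechLattice).1 = -16 := by
    rw [← hg1, co0_dot]
    exact d1
  obtain ⟨h, hh, hhv⟩ := m48_trans_gen (v' + w') (g1 • (-v)) (-v') m2 n1 n2 d1' d2
  have e1 : (h * g1) • v = v' := by
    rw [co0_neg, co0_neg, neg_inj] at hhv
    rw [mul_smul, hhv]
  refine ⟨h * g1, e1, ?_⟩
  have e2 : (h * g1) • (v + w) = v' + w' := by rw [mul_smul, hg1, hh]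
  rw [co0_add, e1] at e2
  exact add_left_cancel e2

end Cfsg.Agent.Helper27
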