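import Cfsg.Agent.Helper27.OrbitCert3

set_option autoImplicit false
open Cfsg

/-! Checking an orbit certificate in ranges of chunks (to bound memory use). -/

namespace Cfsg.Agent.Helper27

/-- the check of a range of chunks -/
def chkRange (gens : List (List ℕ × List ℕ × ℕ)) (Yc : List (List ℕ)) (root : ℕ) (a b : ℕ) :
    Bool :=
  ((Yc.drop a).take b).all fun c => c.all fun e => chkEnt gens Yc root e

lemma chkAll_of_ranges (gens : List (List ℕ × List ℕ × ℕ)) (Yc : List (List ℕ)) (root : ℕ)
    (b n : ℕ) (hb : 0 < b)
    (h : ∀ j < n, chkRange gens Yc root (j * b) b = true) (hlen : Yc.length ≤ n * b) :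
    chkAll gens Yc root = true := by
  rw [chkAll_iff]
  intro c hc e he
  obtain ⟨i, hi, rfl⟩ := List.mem_iff_getElem.mp hc
  have hj : i / b < n := by
    apply Nat.div_lt_of_lt_mul
    rw [Nat.mul_comm]
    omega
  have h1 := h (i / b) hj
  unfold chkRange at h1
  rw [List.all_eq_true] at h1
  have hdm := Nat.div_add_mod' i b
  have hmod := Nat.mod_lt i hb
  have hmem : Yc[i] ∈ (Yc.drop (i / b * b)).take b := by
    rw [List.mem_iff_getElem]
    refine ⟨i % b, ?_, ?_⟩
    · rw [List.length_take, List.length_drop]
      omega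
    · rw [List.getElem_take, List.getElem_drop]
      congr 1
  exact List.all_eq_true.mp (h1 _ hmem) e he

end Cfsg.Agent.Helper27
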