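import Mathlib

/-!
Verified Schreier–Sims style certificates for permutation groups on `Fin n`,
with permutations represented by tables (`List Nat`).
-/

namespace Cfsg.Agent.Helper27.PC

abbrev Tb := Nat

/-- digit `i` of the table (base 256). -/
def app (t : Tb) (i : Nat) : Nat := t / 256 ^ i % 256

/-- pack a function into a table, low digit first. -/
def packL (f : Nat → Nat) : Nat → Nat
  | 0 => 0
  | k + 1 => f 0 + 256 * packL (fun i => f (i + 1)) k

def compA (s t : Tb) : Nat → Nat
  | 0 => 0
  | k + 1 => app s (t % 256) + 256 * compA s (t / 256) k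

def comp (n : ℕ) (s t : Tb) : Tb := compA s t n
def idT (n : Nat) : Tb := packL (fun i => i) n

lemma app_zero (t : Tb) : app t 0 = t % 256 := by simp [app]

lemma app_div (t : Tb) (i : Nat) : app (t / 256) i = app t (i + 1) := by
  simp only [app]
  rw [Nat.div_div_eq_div_mul, pow_succ, mul_comm]

lemma app_packL : ∀ (n : ℕ) (f : Nat → Nat) (i : Nat), i < n → (∀ j < n, f j < 256) →
    app (packL f n) i = f i
  | 0, _, _, h, _ => by omega
  | n + 1, f, 0, _, hf => by
      rw [app_zero, packL, Nat.add_mul_mod_self_left]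
      exact Nat.mod_eq_of_lt (hf 0 (by omega))
  | n + 1, f, i + 1, h, hf => by
      rw [← app_div, packL]
      have h0 : f 0 < 256 := hf 0 (by omega)
      have : (f 0 + 256 * packL (fun i => f (i + 1)) n) / 256 = packL (fun i => f (i + 1)) n := by
        omega
      rw [this]
      exact app_packL n (fun i => f (i + 1)) i (by omega) (fun j hj => hf (j + 1) (by omega))

lemma packL_congr : ∀ (n : ℕ) (f g : Nat → Nat), (∀ i < n, f i = g i) → packL f n = packL g n
  | 0, _, _, _ => rfl
  | n + 1, f, g, h => by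
      rw [packL, packL, h 0 (by omega),
        packL_congr n (fun i => f (i + 1)) (fun i => g (i + 1)) (fun i hi => h (i + 1) (by omega))]

lemma compA_eq : ∀ (n : ℕ) (s t : Tb), compA s t n = packL (fun i => app s (app t i)) n
  | 0, _, _ => rfl
  | n + 1, s, t => by
      rw [compA, packL, compA_eq n s (t / 256), app_zero,
        show (fun i => app s (app (t / 256) i)) = (fun i => app s (app t (i + 1))) from
          funext fun i => by rw [app_div]]

variable {n : ℕ} [Fact (n ≤ 256)]

/-- the table of a permutation. -/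
def tbl (g : Equiv.Perm (Fin n)) : Tb :=
  packL (fun i => if h : i < n then (g ⟨i, h⟩).val else 0) n

def Rep (g : Equiv.Perm (Fin n)) (t : Tb) : Prop := t = tbl g

lemma rep_app {g : Equiv.Perm (Fin n)} {t : Tb} (h : Rep g t) (i : Fin n) :
    app t i.val = (g i).val := by
  have hn : n ≤ 256 := Fact.out
  rw [h, tbl, app_packL n _ i.val i.2]
  · simp [i.2]
  · intro j hj
    simp only [hj, dite_true]
    exact lt_of_lt_of_le (g ⟨j, hj⟩).2 hn

omit [Fact (n ≤ 256)] in
lemma rep_one : Rep (1 : Equiv.Perm (Fin n)) (idT n) := by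
  unfold Rep tbl idT
  apply packL_congr
  intro i hi
  simp [hi]

lemma rep_mul {g h : Equiv.Perm (Fin n)} {s t : Tb} (hg : Rep g s)
    (hh : Rep h t) : Rep (g * h) (comp n s t) := by
  unfold Rep tbl comp
  rw [compA_eq]
  apply packL_congr
  intro i hi
  simp only [hi, dite_true]
  rw [rep_app hh ⟨i, hi⟩, rep_app hg (h ⟨i, hi⟩)]
  rfl

lemma rep_unique {g h : Equiv.Perm (Fin n)} {t : Tb} (h1 : Rep g t)
    (h2 : Rep h t) : g = h := by
  ext i
  rw [← rep_app h1 i, ← rep_app h2 i]

omit [Fact (n ≤ 256)] in
lemma rep_eq_idT {t : Tb} (h : Rep (1 : Equiv.Perm (Fin n)) t) : t = idT n := by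
  rw [h]; exact (rep_one (n := n)).symm

def Valid (n : ℕ) [Fact (n ≤ 256)] (t : Tb) : Prop := ∃ g : Equiv.Perm (Fin n), Rep g t

open Classical in
noncomputable def pm (n : ℕ) [Fact (n ≤ 256)] (t : Tb) : Equiv.Perm (Fin n) :=
  if h : Valid n t then h.choose else 1

lemma pm_rep {t : Tb} (h : Valid n t) : Rep (pm n t) t := by
  unfold pm
  rw [dif_pos h]
  exact h.choose_spec

lemma pm_eq {t : Tb} {g : Equiv.Perm (Fin n)} (h : Rep g t) : pm n t = g :=
  rep_unique (pm_rep ⟨g, h⟩) h

lemma pm_idT : pm n (idT n) = 1 := pm_eq rep_one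

lemma valid_idT : Valid n (idT n) := ⟨1, rep_one⟩

lemma valid_comp {s t : Tb} (hs : Valid n s) (ht : Valid n t) : Valid n (comp n s t) :=
  ⟨pm n s * pm n t, rep_mul (pm_rep hs) (pm_rep ht)⟩

lemma pm_comp {s t : Tb} (hs : Valid n s) (ht : Valid n t) :
    pm n (comp n s t) = pm n s * pm n t :=
  pm_eq (rep_mul (pm_rep hs) (pm_rep ht))

lemma pm_apply {t : Tb} (h : Valid n t) (i : Fin n) : ((pm n t) i).val = app t i.val :=
  (rep_app (pm_rep h) i).symm

lemma pm_eq_one {t : Tb} (h : Valid n t) (h1 : pm n t = 1) : t = idT n := by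
  have := pm_rep h
  rw [h1] at this
  exact rep_eq_idT this

/-- A table with an explicit inverse table is valid. -/
def okPair (n : ℕ) (t ti : Tb) : Bool :=
  (t == packL (app t) n) &&
    (List.range n).all (fun i => decide (app t i < n) && decide (app ti i < n) &&
      app ti (app t i) == i && app t (app ti i) == i)

lemma valid_of_okPair {t ti : Tb} (h : okPair n t ti = true) : Valid n t := by
  simp only [okPair, Bool.and_eq_true, beq_iff_eq, List.all_eq_true, List.mem_range,
    decide_eq_true_eq] at h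
  obtain ⟨h1, h3⟩ := h
  refine ⟨⟨fun i => ⟨app t i.val, (h3 i.val i.2).1.1.1⟩, fun i => ⟨app ti i.val, (h3 i.val i.2).1.1.2⟩,
    fun i => ?_, fun i => ?_⟩, ?_⟩
  · apply Fin.ext
    exact (h3 i.val i.2).1.2
  · apply Fin.ext
    exact (h3 i.val i.2).2
  · unfold Rep tbl
    refine h1.trans (packL_congr _ _ _ ?_)
    intro i hi
    simp [hi]

/-- Induction on a closure in a finite group using left multiplication by generators only. -/
lemma closure_ind_fin {G : Type*} [Group G] [Finite G] (s : Set G) (p : G → Prop) (h1 : p 1)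
    (hmul : ∀ x ∈ s, ∀ y, p y → p (x * y)) : ∀ g ∈ Subgroup.closure s, p g := by
  intro g hg
  have hg' : g ∈ Submonoid.closure s := by
    rw [← Subgroup.closure_toSubmonoid_of_finite]; exact hg
  induction hg' using Submonoid.closure_induction_left with
  | one => exact h1
  | mul_left x hx y _ ih => exact hmul x hx y (ih (by
      rw [← Subgroup.closure_toSubmonoid_of_finite (s := s)] at *; assumption))

/-- The subgroup generated by a list of tables. -/
noncomputable def gp (n : ℕ) [Fact (n ≤ 256)] (gens : List Tb) : Subgroup (Equiv.Perm (Fin n)) :=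
  Subgroup.closure {g | ∃ s ∈ gens, g = pm n s}

lemma pm_mem_gp {gens : List Tb} {s : Tb} (h : s ∈ gens) : pm n s ∈ gp n gens :=
  Subgroup.subset_closure ⟨s, h, rfl⟩

lemma gp_mono {g1 g2 : List Tb} (h : ∀ s ∈ g1, s ∈ g2) : gp n g1 ≤ gp n g2 := by
  apply Subgroup.closure_mono
  rintro g ⟨s, hs, rfl⟩
  exact ⟨s, h s hs, rfl⟩

lemma gp_ind (gens : List Tb) (p : Equiv.Perm (Fin n) → Prop) (h1 : p 1)
    (hmul : ∀ s ∈ gens, ∀ y, p y → p (pm n s * y)) : ∀ g ∈ gp n gens, p g := by
  apply closure_ind_fin _ p h1
  rintro x ⟨s, hs, rfl⟩ y hy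
  exact hmul s hs y hy

/-- Schreier tree check: `T[0] = id`, `T[j] = comp n gens[q] T[p]` with `p < j`. -/
def treeChk (n : ℕ) (gens T : List Tb) (steps : List (Nat × Nat)) : Bool :=
  (List.range T.length).all (fun j =>
    match T[j]?, steps[j]? with
    | some t, some (p, q) =>
        if j = 0 then t == idT n else
          decide (p < j) && (match T[p]?, gens[q]? with
            | some u, some s => t == comp n s u
            | _, _ => false)
    | _, _ => false)

lemma tree_sound {gens T : List Tb} {steps : List (Nat × Nat)}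
    (hg : ∀ s ∈ gens, Valid n s) (h : treeChk n gens T steps = true) :
    ∀ t ∈ T, Valid n t ∧ pm n t ∈ gp n gens := by
  simp only [treeChk, List.all_eq_true, List.mem_range] at h
  have key : ∀ j, ∀ (hj : j < T.length), Valid n T[j] ∧ pm n T[j] ∈ gp n gens := by
    intro j
    induction j using Nat.strong_induction_on with
    | _ j ih =>
      intro hj
      have hj' := h j hj
      rw [List.getElem?_eq_getElem hj] at hj'
      rcases hst : steps[j]? with _ | ⟨p, q⟩
      · rw [hst] at hj'; simp at hj'
      · rw [hst] at hj'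
        simp only at hj'
        by_cases hj0 : j = 0
        · rw [if_pos hj0] at hj'
          have : T[j] = idT n := by simpa using hj'
          rw [this]
          exact ⟨valid_idT, by rw [pm_idT]; exact Subgroup.one_mem _⟩
        · rw [if_neg hj0] at hj'
          simp only [Bool.and_eq_true, decide_eq_true_eq] at hj'
          obtain ⟨hp, hm⟩ := hj'
          have hpT : p < T.length := lt_trans hp hj
          rw [List.getElem?_eq_getElem hpT] at hm
          rcases hs : gens[q]? with _ | s
          · rw [hs] at hm; simp at hm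
          · rw [hs] at hm
            have hsm : s ∈ gens := List.mem_of_getElem? hs
            have hte : T[j] = comp n s T[p] := by simpa using hm
            obtain ⟨hv, hmem⟩ := ih p hp hpT
            rw [hte]
            refine ⟨valid_comp (hg s hsm) hv, ?_⟩
            rw [pm_comp (hg s hsm) hv]
            exact Subgroup.mul_mem _ (pm_mem_gp hsm) hmem
  intro t ht
  obtain ⟨j, hj, rfl⟩ := List.getElem_of_mem ht
  exact key j hj

/-- Product of selected transversal elements. -/
def sel (n : ℕ) : List (List Tb) → List Nat → Option Tb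
  | [], [] => some (idT n)
  | T :: Ts, i :: is =>
      match T[i]?, sel n Ts is with
      | some u, some r => some (comp n u r)
      | _, _ => none
  | _, _ => none

/-- The set of products of transversal elements. -/
noncomputable def PM (n : ℕ) [Fact (n ≤ 256)] : List (List Tb) → Set (Equiv.Perm (Fin n))
  | [] => {1}
  | T :: Ts => {g | ∃ u ∈ T, ∃ k ∈ PM n Ts, g = pm n u * k}

lemma sel_sound : ∀ (Ts : List (List Tb)) (idx : List Nat) (r : Tb),
    (∀ T ∈ Ts, ∀ t ∈ T, Valid n t) → sel n Ts idx = some r →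
    Valid n r ∧ pm n r ∈ PM n Ts
  | [], [], r, _, h => by
      simp only [sel, Option.some.injEq] at h
      subst h
      exact ⟨valid_idT, by simp [PM, pm_idT]⟩
  | [], _ :: _, r, _, h => by simp [sel] at h
  | _ :: _, [], r, _, h => by simp [sel] at h
  | T :: Ts, i :: is, r, hv, h => by
      simp only [sel] at h
      rcases hu : T[i]? with _ | u
      · rw [hu] at h; simp at h
      · rcases hr : sel n Ts is with _ | r'
        · rw [hu, hr] at h; simp at h
        · rw [hu, hr] at h
          simp only [Option.some.injEq] at h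
          subst h
          have huT : u ∈ T := List.mem_of_getElem? hu
          have huv : Valid n u := hv T (by simp) u huT
          obtain ⟨hv', hm'⟩ := sel_sound Ts is r' (fun T' hT' => hv T' (by simp [hT'])) hr
          refine ⟨valid_comp huv hv', ?_⟩
          rw [pm_comp huv hv']
          exact ⟨u, huT, pm n r', hm', rfl⟩

lemma PM_subset (K : Subgroup (Equiv.Perm (Fin n))) : ∀ (Ts : List (List Tb)),
    (∀ T ∈ Ts, ∀ t ∈ T, pm n t ∈ K) → PM n Ts ⊆ K
  | [], _ => by
      intro g hg
      simp only [PM, Set.mem_singleton_iff] at hg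
      subst hg
      exact Subgroup.one_mem _
  | T :: Ts, h => by
      rintro g ⟨u, hu, k, hk, rfl⟩
      exact Subgroup.mul_mem _ (h T (by simp) u hu)
        (PM_subset K Ts (fun T' hT' => h T' (by simp [hT'])) hk)

def rowChk (n : ℕ) (Ts : List (List Tb)) (s : Tb) : List Tb → List (List Nat) → Bool
  | [], _ => true
  | u :: us, idx :: idxs => (sel n Ts idx == some (comp n s u)) && rowChk n Ts s us idxs
  | _ :: _, [] => false

def closeChk (n : ℕ) (T : List Tb) (Ts : List (List Tb)) : List Tb → List (List (List Nat)) → Bool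
  | [], _ => true
  | s :: ss, ca :: cas => rowChk n (T :: Ts) s T ca && closeChk n T Ts ss cas
  | _ :: _, [] => false

lemma row_sound (Ts : List (List Tb)) (s : Tb) : ∀ (us : List Tb) (idxs : List (List Nat)),
    rowChk n Ts s us idxs = true → ∀ u ∈ us, ∃ idx, sel n Ts idx = some (comp n s u)
  | [], _, _ => by simp
  | u :: us, idx :: idxs, h => by
      simp only [rowChk, Bool.and_eq_true, beq_iff_eq] at h
      intro u' hu'
      rcases List.mem_cons.1 hu' with rfl | hu'
      · exact ⟨idx, h.1⟩
      · exact row_sound Ts s us idxs h.2 u' hu'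
  | _ :: _, [], h => by simp [rowChk] at h

lemma close_sound (T : List Tb) (Ts : List (List Tb)) : ∀ (ss : List Tb)
    (cas : List (List (List Nat))), closeChk n T Ts ss cas = true →
    ∀ s ∈ ss, ∀ u ∈ T, ∃ idx, sel n (T :: Ts) idx = some (comp n s u)
  | [], _, _ => by simp
  | s :: ss, ca :: cas, h => by
      simp only [closeChk, Bool.and_eq_true] at h
      intro s' hs'
      rcases List.mem_cons.1 hs' with rfl | hs'
      · exact row_sound (T :: Ts) s' T ca h.1
      · exact close_sound T Ts ss cas h.2 s' hs'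
  | _ :: _, [], h => by simp [closeChk] at h

/-- One level of the stabiliser chain: `gp gens = T · K`. -/
theorem level (gens T : List Tb) (Ts : List (List Tb)) (cert : List (List (List Nat)))
    (K : Subgroup (Equiv.Perm (Fin n)))
    (hgv : ∀ s ∈ gens, Valid n s) (hTv : ∀ t ∈ T, Valid n t)
    (hTsv : ∀ T' ∈ Ts, ∀ t ∈ T', Valid n t)
    (hid : idT n ∈ T)
    (hK : ∀ T' ∈ Ts, ∀ t ∈ T', pm n t ∈ K)
    (hc : closeChk n T Ts gens cert = true) :
    ∀ g ∈ gp n gens, ∃ u ∈ T, ∃ k ∈ K, g = pm n u * k := by
  have hcs := close_sound T Ts gens cert hc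
  apply gp_ind
  · exact ⟨idT n, hid, 1, Subgroup.one_mem _, by simp [pm_idT]⟩
  · rintro s hs y ⟨u, hu, k, hk, rfl⟩
    obtain ⟨idx, hidx⟩ := hcs s hs u hu
    have hallv : ∀ T' ∈ T :: Ts, ∀ t ∈ T', Valid n t := by
      intro T' hT'
      rcases List.mem_cons.1 hT' with rfl | hT'
      · exact hTv
      · exact hTsv T' hT'
    obtain ⟨_, hmem⟩ := sel_sound (T :: Ts) idx _ hallv hidx
    obtain ⟨u', hu', k', hk', he⟩ := hmem
    rw [pm_comp (hgv s hs) (hTv u hu)] at he
    refine ⟨u', hu', k' * k, Subgroup.mul_mem _ (PM_subset K Ts hK hk') hk, ?_⟩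
    rw [← mul_assoc, he, mul_assoc]

/-- Elements of `gp gens` fix the point `b` if the generators do. -/
lemma gp_fix (gens : List Tb) (b : Fin n) (hgv : ∀ s ∈ gens, Valid n s)
    (h : ∀ s ∈ gens, app s b.val = b.val) : ∀ g ∈ gp n gens, g b = b := by
  apply gp_ind
  · simp
  · intro s hs y hy
    rw [Equiv.Perm.mul_apply, hy]
    apply Fin.ext
    rw [pm_apply (hgv s hs), h s hs]

/-- Elements of `gp gens` preserve the set given by the list `L` if the generators do. -/
lemma gp_inv (gens : List Tb) (L : List Nat) (hgv : ∀ s ∈ gens, Valid n s)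
    (h : ∀ s ∈ gens, ∀ x ∈ L, app s x ∈ L) :
    ∀ g ∈ gp n gens, ∀ x : Fin n, x.val ∈ L → (g x).val ∈ L := by
  apply gp_ind
  · simp
  · intro s hs y hy x hx
    rw [Equiv.Perm.mul_apply, pm_apply (hgv s hs)]
    exact h s hs _ (hy x hx)

/-- Exact order from one level. -/
theorem level_card (gens T : List Tb) (K : Subgroup (Equiv.Perm (Fin n))) (b : Fin n)
    (hTv : ∀ t ∈ T, Valid n t)
    (hTm : ∀ t ∈ T, pm n t ∈ gp n gens)
    (hKle : K ≤ gp n gens)
    (hKfix : ∀ k ∈ K, k b = b)
    (hnd : (T.map (fun t => app t b.val)).Nodup)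
    (hlev : ∀ g ∈ gp n gens, ∃ u ∈ T, ∃ k ∈ K, g = pm n u * k) :
    Nat.card (gp n gens) = T.length * Nat.card K := by
  have hinjT : ∀ i j : Fin T.length, app (T.get i) b.val = app (T.get j) b.val → i = j := by
    intro i j hij
    have := (List.nodup_iff_injective_get.1 hnd)
    have h2 : (T.map (fun t => app t b.val)).get (Fin.cast (by simp) i) =
        (T.map (fun t => app t b.val)).get (Fin.cast (by simp) j) := by
      simpa using hij
    have := this h2
    simpa [Fin.ext_iff] using this
  let f : Fin T.length × K → gp n gens := fun p =>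
    ⟨pm n (T.get p.1) * p.2.1, Subgroup.mul_mem _ (hTm _ (List.get_mem T p.1)) (hKle p.2.2)⟩
  have hf : Function.Bijective f := by
    constructor
    · rintro ⟨i, k⟩ ⟨j, k'⟩ hij
      have hij' : pm n (T.get i) * k.1 = pm n (T.get j) * k'.1 := by
        simpa [f] using congrArg Subtype.val hij
      have hb := congrArg (fun g : Equiv.Perm (Fin n) => (g b).val) hij'
      simp only [Equiv.Perm.mul_apply, hKfix k.1 k.2, hKfix k'.1 k'.2] at hb
      rw [pm_apply (hTv _ (List.get_mem T i)), pm_apply (hTv _ (List.get_mem T j))] at hb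
      have hi := hinjT i j hb
      subst hi
      have : k.1 = k'.1 := mul_left_cancel hij'
      simp [Subtype.ext_iff, this]
    · rintro ⟨g, hg⟩
      obtain ⟨u, hu, k, hk, rfl⟩ := hlev g hg
      obtain ⟨i, hi⟩ := List.get_of_mem hu
      refine ⟨⟨i, ⟨k, hk⟩⟩, Subtype.ext ?_⟩
      show pm n (T.get i) * k = pm n u * k
      rw [hi]
  rw [← Nat.card_congr (Equiv.ofBijective f hf), Nat.card_prod, Nat.card_fin]

/-- Stabiliser of the base point. -/
theorem level_stab (gens T : List Tb) (K : Subgroup (Equiv.Perm (Fin n))) (b : Fin n)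
    (hTv : ∀ t ∈ T, Valid n t)
    (hid : idT n ∈ T)
    (hKfix : ∀ k ∈ K, k b = b)
    (hnd : (T.map (fun t => app t b.val)).Nodup)
    (hlev : ∀ g ∈ gp n gens, ∃ u ∈ T, ∃ k ∈ K, g = pm n u * k) :
    ∀ g ∈ gp n gens, g b = b → g ∈ K := by
  intro g hg hgb
  obtain ⟨u, hu, k, hk, rfl⟩ := hlev g hg
  rw [Equiv.Perm.mul_apply, hKfix k hk] at hgb
  have h1 : app u b.val = app (idT n) b.val := by
    rw [← pm_apply (hTv u hu), hgb, ← pm_apply valid_idT, pm_idT]; rfl
  have : u = idT n := by
    have hinj := List.inj_on_of_nodup_map hnd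
    exact hinj hu hid h1
  rw [this, pm_idT, one_mul]
  exact hk

end Cfsg.Agent.Helper27.PC
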