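import Mathlib
import Cfsg.Agent.Helper27.PermChain

/-!
Brute-force simplicity certificates and suborbit tools for table permutation groups.
-/

namespace Cfsg.Agent.Helper27.PC

variable {n : ℕ} [Fact (n ≤ 256)]

/-- Simplicity of a subgroup from the "internal" normal subgroup property. -/
lemma simple_of_sub {G : Type*} [Group G] (H : Subgroup G) (hnt : ∃ g ∈ H, g ≠ 1)
    (h : ∀ N : Subgroup G, N ≤ H → (∀ x ∈ H, ∀ y ∈ N, x * y * x⁻¹ ∈ N) → N = ⊥ ∨ N = H) :
    IsSimpleGroup H := by
  obtain ⟨g, hg, hg1⟩ := hnt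
  haveI : Nontrivial H := ⟨⟨⟨g, hg⟩, 1, fun he => hg1 (congrArg Subtype.val he)⟩⟩
  refine ⟨fun N' hN' => ?_⟩
  have hle : N'.map H.subtype ≤ H := Subgroup.map_subtype_le N'
  have hconj : ∀ x ∈ H, ∀ y ∈ N'.map H.subtype, x * y * x⁻¹ ∈ N'.map H.subtype := by
    rintro x hx y ⟨z, hz, rfl⟩
    exact ⟨⟨x, hx⟩ * z * ⟨x, hx⟩⁻¹, hN'.conj_mem z hz ⟨x, hx⟩, rfl⟩
  rcases h _ hle hconj with h1 | h1
  · left
    exact (Subgroup.map_eq_bot_iff_of_injective N' H.subtype_injective).1 h1
  · right
    rw [eq_top_iff]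
    intro y _
    have : (y : G) ∈ N'.map H.subtype := by rw [h1]; exact y.2
    obtain ⟨z, hz, hzy⟩ := this
    have : z = y := Subtype.ext hzy
    rw [← this]; exact hz

/-- product of conjugates of `g` by the listed elements (with their inverses). -/
def conjProd (n : ℕ) (els : List Tb) (g : Tb) : List (Nat × Nat) → Option Tb
  | [] => some (idT n)
  | (k, ki) :: ks =>
      match els[k]?, els[ki]?, conjProd n els g ks with
      | some e, some ei, some r =>
          if comp n e ei == idT n then some (comp n (comp n e (comp n g ei)) r) else none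
      | _, _, _ => none

def ncRow (n : ℕ) (els : List Tb) (g : Tb) : List Tb → List (List (Nat × Nat)) → Bool
  | [], _ => true
  | s :: ss, ks :: kss => (conjProd n els g ks == some s) && ncRow n els g ss kss
  | _ :: _, [] => false

def ncChk (n : ℕ) (els gens : List Tb) : List Tb → List (List (List (Nat × Nat))) → Bool
  | [], _ => true
  | g :: gs, row :: rows => (g == idT n || ncRow n els g gens row) && ncChk n els gens gs rows
  | _ :: _, [] => false

lemma conjProd_sound (els : List Tb) (g : Tb) (H N : Subgroup (Equiv.Perm (Fin n)))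
    (hels : ∀ e ∈ els, Valid n e ∧ pm n e ∈ H) (hg : Valid n g) (hgN : pm n g ∈ N)
    (hconj : ∀ x ∈ H, ∀ y ∈ N, x * y * x⁻¹ ∈ N) :
    ∀ (ks : List (Nat × Nat)) (r : Tb), conjProd n els g ks = some r →
      Valid n r ∧ pm n r ∈ N
  | [], r, h => by
      simp only [conjProd, Option.some.injEq] at h
      subst h
      exact ⟨valid_idT, by rw [pm_idT]; exact Subgroup.one_mem _⟩
  | (k, ki) :: ks, r, h => by
      simp only [conjProd] at h
      rcases he : els[k]? with _ | e
      · rw [he] at h; simp at h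
      rcases hei : els[ki]? with _ | ei
      · rw [he, hei] at h; simp at h
      rcases hr : conjProd n els g ks with _ | r'
      · rw [he, hei, hr] at h; simp at h
      rw [he, hei, hr] at h
      simp only at h
      by_cases hc : comp n e ei = idT n
      · rw [if_pos (by simpa using hc)] at h
        simp only [Option.some.injEq] at h
        subst h
        obtain ⟨hev, heH⟩ := hels e (List.mem_of_getElem? he)
        obtain ⟨heiv, _⟩ := hels ei (List.mem_of_getElem? hei)
        obtain ⟨hrv, hrN⟩ := conjProd_sound els g H N hels hg hgN hconj ks r' hr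
        have hinv : pm n ei = (pm n e)⁻¹ := by
          have : pm n e * pm n ei = 1 := by
            rw [← pm_comp hev heiv, hc, pm_idT]
          exact eq_inv_of_mul_eq_one_right this
        have hv1 : Valid n (comp n g ei) := valid_comp hg heiv
        have hv2 : Valid n (comp n e (comp n g ei)) := valid_comp hev hv1
        refine ⟨valid_comp hv2 hrv, ?_⟩
        rw [pm_comp hv2 hrv, pm_comp hev hv1, pm_comp hg heiv, hinv, ← mul_assoc]
        exact Subgroup.mul_mem _ (hconj _ heH _ hgN) hrN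
      · rw [if_neg (by simpa using hc)] at h
        simp at h

lemma ncRow_sound (els : List Tb) (g : Tb) (H N : Subgroup (Equiv.Perm (Fin n)))
    (hels : ∀ e ∈ els, Valid n e ∧ pm n e ∈ H) (hg : Valid n g) (hgN : pm n g ∈ N)
    (hconj : ∀ x ∈ H, ∀ y ∈ N, x * y * x⁻¹ ∈ N) :
    ∀ (ss : List Tb) (kss : List (List (Nat × Nat))), ncRow n els g ss kss = true →
      ∀ s ∈ ss, pm n s ∈ N
  | [], _, _ => by simp
  | s :: ss, ks :: kss, h => by
      simp only [ncRow, Bool.and_eq_true, beq_iff_eq] at h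
      intro s' hs'
      rcases List.mem_cons.1 hs' with rfl | hs'
      · exact (conjProd_sound els g H N hels hg hgN hconj ks s' h.1).2
      · exact ncRow_sound els g H N hels hg hgN hconj ss kss h.2 s' hs'
  | _ :: _, [], h => by simp [ncRow] at h

lemma ncChk_sound (els gens : List Tb) (H N : Subgroup (Equiv.Perm (Fin n)))
    (hels : ∀ e ∈ els, Valid n e ∧ pm n e ∈ H)
    (hconj : ∀ x ∈ H, ∀ y ∈ N, x * y * x⁻¹ ∈ N) :
    ∀ (gs : List Tb) (rows : List (List (List (Nat × Nat)))), ncChk n els gens gs rows = true →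
      ∀ g ∈ gs, Valid n g → g ≠ idT n → pm n g ∈ N → ∀ s ∈ gens, pm n s ∈ N
  | [], _, _ => by simp
  | g :: gs, row :: rows, h => by
      simp only [ncChk, Bool.and_eq_true, Bool.or_eq_true, beq_iff_eq] at h
      intro g' hg' hv hne hN
      rcases List.mem_cons.1 hg' with rfl | hg'
      · rcases h.1 with h1 | h1
        · exact absurd h1 hne
        · exact ncRow_sound els g' H N hels hv hN hconj gens row h1
      · exact ncChk_sound els gens H N hels hconj gs rows h.2 g' hg' hv hne hN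
  | _ :: _, [], h => by simp [ncChk] at h

/-- Brute-force simplicity of `gp n gens`. -/
theorem simple_of_nc (els gens : List Tb) (NC : List (List (List (Nat × Nat))))
    (hels : ∀ e ∈ els, Valid n e ∧ pm n e ∈ gp n gens)
    (hcov : ∀ g ∈ gp n gens, ∃ e ∈ els, g = pm n e)
    (hnt : ∃ g ∈ gp n gens, g ≠ 1)
    (h : ncChk n els gens els NC = true) : IsSimpleGroup (gp n gens) := by
  apply simple_of_sub _ hnt
  intro N hN hconj
  by_cases hb : N = ⊥
  · exact Or.inl hb
  right
  obtain ⟨x, hx1⟩ := (Subgroup.ne_bot_iff_exists_ne_one).1 hb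
  have hxN : x.1 ∈ N := x.2
  have hx1' : x.1 ≠ 1 := fun he => hx1 (Subtype.ext he)
  obtain ⟨e, he, hxe⟩ := hcov x.1 (hN hxN)
  have hev := (hels e he).1
  have hne : e ≠ idT n := by
    rintro rfl
    rw [pm_idT] at hxe
    exact hx1' hxe
  have hgens := ncChk_sound els gens (gp n gens) N hels hconj els NC h e he hev hne
    (by rw [← hxe]; exact hxN)
  apply le_antisymm hN
  unfold gp
  rw [Subgroup.closure_le]
  rintro g ⟨s, hs, rfl⟩
  exact hgens s hs

/-- stabiliser of a point in `H` is isomorphic to `K`. -/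
noncomputable def stabEquiv (H K : Subgroup (Equiv.Perm (Fin n))) (b : Fin n) (hKH : K ≤ H)
    (hKfix : ∀ k ∈ K, k b = b) (hstab : ∀ g ∈ H, g b = b → g ∈ K) :
    MulAction.stabilizer H b ≃* K where
  toFun g := ⟨g.1.1, hstab g.1.1 g.1.2 (by
    have := g.2
    rw [MulAction.mem_stabilizer_iff] at this
    exact this)⟩
  invFun k := ⟨⟨k.1, hKH k.2⟩, by
    rw [MulAction.mem_stabilizer_iff]
    exact hKfix k.1 k.2⟩
  left_inv g := by ext; rfl
  right_inv k := by ext; rfl
  map_mul' g h := by ext; rfl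

lemma stab_simple (H K : Subgroup (Equiv.Perm (Fin n))) (b : Fin n) (hKH : K ≤ H)
    (hKfix : ∀ k ∈ K, k b = b) (hstab : ∀ g ∈ H, g b = b → g ∈ K) (hK : IsSimpleGroup K) :
    IsSimpleGroup (MulAction.stabilizer H b) :=
  (stabEquiv H K b hKH hKfix hstab).isSimpleGroup

/-- transitivity on a list-set from a covering family of tables. -/
lemma trans_of_cover (H K : Subgroup (Equiv.Perm (Fin n))) (x0 : Fin n) (hKH : K ≤ H)
    (hKfix : ∀ k ∈ K, k x0 = x0) (E : List Tb) (hE : ∀ e ∈ E, Valid n e ∧ pm n e ∈ K)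
    (c : Fin n) (L : List Nat) (hcov : ∀ y ∈ L, ∃ e ∈ E, app e c.val = y) :
    ∀ y y' : Fin n, y.val ∈ L → y'.val ∈ L → ∃ h : H, h • x0 = x0 ∧ h • y = y' := by
  intro y y' hy hy'
  obtain ⟨e, he, hey⟩ := hcov y.val hy
  obtain ⟨e', he', hey'⟩ := hcov y'.val hy'
  obtain ⟨hv, hK⟩ := hE e he
  obtain ⟨hv', hK'⟩ := hE e' he'
  have h1 : pm n e c = y := Fin.ext (by rw [pm_apply hv, hey])
  have h2 : pm n e' c = y' := Fin.ext (by rw [pm_apply hv', hey'])
  have hk : pm n e' * (pm n e)⁻¹ ∈ K := Subgroup.mul_mem _ hK' (Subgroup.inv_mem _ hK)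
  refine ⟨⟨pm n e' * (pm n e)⁻¹, hKH hk⟩, ?_, ?_⟩
  · exact hKfix _ hk
  · show (pm n e' * (pm n e)⁻¹) y = y'
    rw [Equiv.Perm.mul_apply, ← h1]
    simp [h2]

/-- orbit covering: every point of the list-set is an image of the base point. -/
lemma orbit_of_cover (H : Subgroup (Equiv.Perm (Fin n))) (x0 : Fin n)
    (E : List Tb) (hE : ∀ e ∈ E, Valid n e ∧ pm n e ∈ H)
    (L : List Nat) (hcov : ∀ y ∈ L, ∃ e ∈ E, app e x0.val = y) :
    ∀ y : Fin n, y.val ∈ L → ∃ h : H, h • x0 = y := by
  intro y hy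
  obtain ⟨e, he, hey⟩ := hcov y.val hy
  obtain ⟨hv, hK⟩ := hE e he
  exact ⟨⟨pm n e, hK⟩, Fin.ext (by
    show ((pm n e) x0).val = y.val
    rw [pm_apply hv, hey])⟩

lemma ncard_list (L : List Nat) (hnd : L.Nodup) (hlt : ∀ x ∈ L, x < n) :
    {x : Fin n | x.val ∈ L}.ncard = L.length := by
  have h1 : (Fin.val '' {x : Fin n | x.val ∈ L}) = (↑L.toFinset : Set ℕ) := by
    ext m
    simp only [Set.mem_image, Set.mem_setOf_eq, Finset.mem_coe, List.mem_toFinset]
    constructor
    · rintro ⟨x, hx, rfl⟩; exact hx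
    · intro hm; exact ⟨⟨m, hlt m hm⟩, hm, rfl⟩
  rw [← Set.ncard_image_of_injective _ Fin.val_injective, h1, Set.ncard_coe_finset,
    List.toFinset_card_of_nodup hnd]

end Cfsg.Agent.Helper27.PC
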