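import Mathlib

set_option autoImplicit false
open scoped MatrixGroups

namespace Cfsg.Agent.Helper27.S5968C

open Matrix

variable {F : Type*} [Field F]

theorem diag_sub {n : ℕ} (d : Fin n → F) (m : F) :
    Matrix.diagonal d - m • (1 : Matrix (Fin n) (Fin n) F) =
      Matrix.diagonal (fun i => d i - m) := by
  ext i j
  by_cases h : i = j
  · subst h
    simp [Matrix.sub_apply, Matrix.smul_apply]
  · simp [Matrix.sub_apply, Matrix.smul_apply, Matrix.diagonal_apply_ne _ h,
      Matrix.one_apply_ne h]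

theorem finrank_ker_diag [DecidableEq F] {n : ℕ} (w : Fin n → F) :
    Module.finrank F (LinearMap.ker (Matrix.toLin' (Matrix.diagonal w))) =
      (Finset.univ.filter (fun i => w i = 0)).card := by
  have h1 := LinearMap.finrank_range_add_finrank_ker (Matrix.toLin' (Matrix.diagonal w))
  have h2 : Module.finrank F (LinearMap.range (Matrix.toLin' (Matrix.diagonal w))) =
      Fintype.card {i // w i ≠ 0} := by
    rw [← Matrix.rank_diagonal w]
    rfl
  rw [h2, Module.finrank_fin_fun] at h1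
  have h3 : Fintype.card {i // w i ≠ 0} + (Finset.univ.filter (fun i => w i = 0)).card = n := by
    rw [Fintype.card_subtype]
    have h4 := Finset.card_filter_add_card_filter_not (s := (Finset.univ : Finset (Fin n)))
      (fun i => w i ≠ 0)
    simp only [not_not, Finset.card_univ, Fintype.card_fin] at h4
    exact h4
  omega

theorem diag_ss {n : ℕ} (w : Fin n → F) :
    LinearMap.ker (Matrix.toLin' (Matrix.diagonal w)) ⊓
      LinearMap.range (Matrix.toLin' (Matrix.diagonal w)) = ⊥ := by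
  rw [eq_bot_iff]
  rintro v ⟨hk, u, rfl⟩
  rw [SetLike.mem_coe, LinearMap.mem_ker] at hk
  rw [Submodule.mem_bot]
  funext i
  have h1 := congrFun hk i
  simp only [Matrix.toLin'_apply, Matrix.mulVec_diagonal, Pi.zero_apply] at h1 ⊢
  by_cases hw : w i = 0
  · rw [hw, zero_mul]
  · exact (mul_eq_zero.1 h1).resolve_left hw

/-- The diagonal entries. -/
def dd (w : F) : ℕ → F := fun k => if k < 3 then w else if k = 3 then w⁻¹ ^ 3 else 1

theorem dd0 (w : F) : dd w 0 = w := by simp [dd]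
theorem dd1 (w : F) : dd w (0 + 1) = w := by simp [dd]
theorem dd2 (w : F) : dd w (0 + 1 + 1) = w := by simp [dd]
theorem dd3 (w : F) : dd w (0 + 1 + 1 + 1) = w⁻¹ ^ 3 := by simp [dd]
theorem dd4 (w : F) (i : ℕ) : dd w (i + 1 + 1 + 1 + 1) = 1 := by
  have h1 : ¬ (i + 1 + 1 + 1 + 1 < 3) := by omega
  have h2 : ¬ (i + 1 + 1 + 1 + 1 = 3) := by omega
  simp only [dd, h1, h2, if_false]

theorem count [DecidableEq F] (w : F) (k : ℕ) (m : F) :
    (Finset.univ.filter (fun i : Fin (k + 4) => dd w i.val - m = 0)).card =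
      k * (if (1 : F) = m then 1 else 0) + (if w⁻¹ ^ 3 = m then 1 else 0) +
        3 * (if w = m then 1 else 0) := by
  rw [Finset.card_filter]
  have h1 : ∀ i : Fin (k + 4), (if dd w i.val - m = 0 then 1 else 0 : ℕ) =
      (fun j : ℕ => if dd w j = m then 1 else 0) i.val := by
    intro i; simp only [sub_eq_zero]
  rw [Finset.sum_congr rfl (fun i _ => h1 i),
    Fin.sum_univ_eq_sum_range (fun j : ℕ => if dd w j = m then 1 else 0) (k + 4)]
  rw [Finset.sum_range_succ', Finset.sum_range_succ', Finset.sum_range_succ',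
    Finset.sum_range_succ']
  simp only [dd4, dd0, dd1, dd2, dd3, Finset.sum_const, Finset.card_range, smul_eq_mul]
  ring

/-- [C] diagonal construction (r ∣ q - 1). -/
theorem exists_diag {F : Type*} [Field F] [Fintype F] {q : ℕ} (hq : Fintype.card F = q) (n : ℕ) (hn : 4 ≤ n)
    (he : Even n) (r : ℕ) [Fact r.Prime] (hr2 : r ≠ 2) (hgap : ¬ (n = 6 ∧ r = 3)) (hr : r ∣ q - 1) :
    ∃ (x : Matrix.SpecialLinearGroup (Fin n) F) (l : F), l ≠ 0 ∧ x ^ r = 1 ∧
      (∀ z : F, (x : Matrix (Fin n) (Fin n) F) ≠ z • (1 : Matrix (Fin n) (Fin n) F)) ∧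
      Odd (Module.finrank F (LinearMap.ker (Matrix.toLin' ((x : Matrix (Fin n) (Fin n) F) - l • (1 : Matrix (Fin n) (Fin n) F))))) ∧
      LinearMap.ker (Matrix.toLin' ((x : Matrix (Fin n) (Fin n) F) - l • (1 : Matrix (Fin n) (Fin n) F))) ⊓
        LinearMap.range (Matrix.toLin' ((x : Matrix (Fin n) (Fin n) F) - l • (1 : Matrix (Fin n) (Fin n) F))) = ⊥ ∧
      ∀ m : F, m ≠ l →
        Module.finrank F (LinearMap.ker (Matrix.toLin' ((x : Matrix (Fin n) (Fin n) F) - m • (1 : Matrix (Fin n) (Fin n) F)))) ≠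
        Module.finrank F (LinearMap.ker (Matrix.toLin' ((x : Matrix (Fin n) (Fin n) F) - l • (1 : Matrix (Fin n) (Fin n) F)))) := by
  classical
  have hrp : r.Prime := Fact.out
  obtain ⟨k, rfl⟩ : ∃ k, n = k + 4 := ⟨n - 4, by omega⟩
  have hkev : Even k := by
    obtain ⟨t, ht⟩ := he
    exact ⟨t - 2, by omega⟩
  have hcard : Nat.card Fˣ = q - 1 := by rw [Nat.card_units, Nat.card_eq_fintype_card, hq]
  obtain ⟨ζ, hζ⟩ := exists_prime_orderOf_dvd_card' (G := Fˣ) r (by rw [hcard]; exact hr)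
  obtain ⟨w, hwdef⟩ : ∃ w : F, w = (ζ : F) := ⟨_, rfl⟩
  have hw0 : w ≠ 0 := by rw [hwdef]; exact ζ.ne_zero
  have hwr : w ^ r = 1 := by
    rw [hwdef, ← Units.val_pow_eq_pow_val, ← hζ, pow_orderOf_eq_one, Units.val_one]
  have hord : ∀ j : ℕ, w ^ j = 1 → r ∣ j := by
    intro j hj
    have h1 : ζ ^ j = 1 := Units.ext (by rw [Units.val_pow_eq_pow_val, ← hwdef, hj, Units.val_one])
    have h2 := orderOf_dvd_of_pow_eq_one h1
    rwa [hζ] at h2
  have hw1 : (1 : F) ≠ w := by
    intro h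
    have h1 := hord 1 (by rw [pow_one, ← h])
    exact hrp.one_lt.ne' (Nat.dvd_one.1 h1)
  have hw3w : w⁻¹ ^ 3 ≠ w := by
    intro h
    have h4 : w ^ 4 = 1 := by
      calc w ^ 4 = w ^ 3 * w := by ring
        _ = w ^ 3 * w⁻¹ ^ 3 := by rw [h]
        _ = 1 := by rw [← mul_pow, mul_inv_cancel₀ hw0, one_pow]
    have h5 : r ∣ 2 ^ 2 := hord 4 h4
    exact hr2 ((Nat.prime_dvd_prime_iff_eq hrp Nat.prime_two).1 (hrp.dvd_of_dvd_pow h5))
  have h13 : (1 : F) = w⁻¹ ^ 3 → r = 3 := by
    intro h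
    have h3 : w ^ 3 = 1 := by
      calc w ^ 3 = w ^ 3 * 1 := by ring
        _ = w ^ 3 * w⁻¹ ^ 3 := by rw [← h]
        _ = 1 := by rw [← mul_pow, mul_inv_cancel₀ hw0, one_pow]
    exact (Nat.prime_dvd_prime_iff_eq hrp Nat.prime_three).1 (hord 3 h3)
  obtain ⟨d, hd⟩ : ∃ d : Fin (k + 4) → F, d = fun i => dd w i.val := ⟨_, rfl⟩
  have hdet : (Matrix.diagonal d).det = 1 := by
    rw [Matrix.det_diagonal, hd, Fin.prod_univ_eq_prod_range (dd w) (k + 4),
      Finset.prod_range_succ', Finset.prod_range_succ', Finset.prod_range_succ',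
      Finset.prod_range_succ']
    simp only [dd4, dd0, dd1, dd2, dd3, Finset.prod_const_one, one_mul]
    field_simp
  have hdr : ∀ i, d i ^ r = 1 := by
    intro i
    rw [hd]
    simp only [dd]
    split_ifs
    · exact hwr
    · rw [← pow_mul, mul_comm, pow_mul, inv_pow, hwr, inv_one, one_pow]
    · exact one_pow r
  have hcnt : ∀ m : F, Module.finrank F (LinearMap.ker (Matrix.toLin'
      (Matrix.diagonal d - m • (1 : Matrix (Fin (k + 4)) (Fin (k + 4)) F)))) =
      k * (if (1 : F) = m then 1 else 0) + (if w⁻¹ ^ 3 = m then 1 else 0) +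
        3 * (if w = m then 1 else 0) := by
    intro m
    rw [diag_sub, finrank_ker_diag, hd]
    exact count w k m
  have hcw : Module.finrank F (LinearMap.ker (Matrix.toLin'
      (Matrix.diagonal d - w • (1 : Matrix (Fin (k + 4)) (Fin (k + 4)) F)))) = 3 := by
    rw [hcnt, if_neg hw1, if_neg hw3w, if_pos rfl]
    omega
  obtain ⟨x, hx⟩ : ∃ x : Matrix.SpecialLinearGroup (Fin (k + 4)) F,
      (x : Matrix (Fin (k + 4)) (Fin (k + 4)) F) = Matrix.diagonal d :=
    ⟨⟨Matrix.diagonal d, hdet⟩, rfl⟩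
  refine ⟨x, w, hw0, ?_, ?_, ?_, ?_, ?_⟩
  · apply Subtype.ext
    show ((x ^ r : Matrix.SpecialLinearGroup (Fin (k + 4)) F) :
      Matrix (Fin (k + 4)) (Fin (k + 4)) F) = 1
    rw [Matrix.SpecialLinearGroup.coe_pow, hx, Matrix.diagonal_pow, ← Matrix.diagonal_one]
    congr 1
    funext i
    exact hdr i
  · intro z hz
    rw [hx] at hz
    have h0 := congrFun (congrFun hz ⟨0, by omega⟩) ⟨0, by omega⟩
    have h3 := congrFun (congrFun hz ⟨3, by omega⟩) ⟨3, by omega⟩
    rw [Matrix.diagonal_apply_eq, Matrix.smul_apply, Matrix.one_apply_eq, smul_eq_mul, mul_one,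
      hd] at h0 h3
    have e0 : dd w 0 = w := dd0 w
    have e3 : dd w 3 = w⁻¹ ^ 3 := dd3 w
    simp only at h0 h3
    rw [e0] at h0
    rw [e3] at h3
    exact hw3w (h3.trans h0.symm)
  · rw [hx, hcw]
    exact ⟨1, by norm_num⟩
  · rw [hx, diag_sub]
    exact diag_ss _
  · intro m hm
    rw [hx, hcw, hcnt, if_neg (Ne.symm hm)]
    obtain ⟨t, ht⟩ := hkev
    by_cases h1m : (1 : F) = m
    · by_cases h3m : w⁻¹ ^ 3 = m
      · rw [if_pos h1m, if_pos h3m]
        have hr3 : r = 3 := h13 (h1m.trans h3m.symm)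
        intro hk
        exact hgap ⟨by omega, hr3⟩
      · rw [if_pos h1m, if_neg h3m]
        omega
    · by_cases h3m : w⁻¹ ^ 3 = m
      · rw [if_neg h1m, if_pos h3m]
        omega
      · rw [if_neg h1m, if_neg h3m]
        omega

end Cfsg.Agent.Helper27.S5968C
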