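import Mathlib

set_option autoImplicit false

namespace Cfsg.Agent.Helper27.S5968D1

open Matrix

theorem exists_block_aux {F : Type*} [Field F] [Fintype F] (e : ℕ) {K : Type*} [Field K]
    [Algebra F K] [Finite K]
    (hfr : Module.finrank F K = e) (r : ℕ) (hr : r.Prime) (hdvd : r ∣ Nat.card Kˣ)
    (hr1 : ¬ r ∣ Fintype.card F - 1) :
    ∃ A : Matrix (Fin e) (Fin e) F, A ^ r = 1 ∧ A.det = 1 ∧
      ∀ (m : F) (v : Fin e → F), A.mulVec v = m • v → v = 0 := by
  haveI : Fact r.Prime := ⟨hr⟩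
  obtain ⟨ζ, hζ⟩ := exists_prime_orderOf_dvd_card' (G := Kˣ) r hdvd
  let b : Module.Basis (Fin e) F K := Module.finBasisOfFinrankEq F K hfr
  let φ : K →ₐ[F] Matrix (Fin e) (Fin e) F := Algebra.leftMulMatrix b
  have hζr : (ζ : K) ^ r = 1 := by
    rw [← Units.val_pow_eq_pow_val, ← hζ, pow_orderOf_eq_one, Units.val_one]
  have hAr : φ (ζ : K) ^ r = 1 := by rw [← map_pow, hζr, map_one]
  have key : ∀ u : F, u ^ r = 1 → u = 1 := by
    intro u hu
    have hu0 : u ≠ 0 := by
      rintro rfl
      rw [zero_pow hr.ne_zero] at hu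
      exact zero_ne_one hu
    have h1 : u ^ (Fintype.card F - 1) = 1 := FiniteField.pow_card_sub_one_eq_one u hu0
    have h2 : orderOf u ∣ r := orderOf_dvd_of_pow_eq_one hu
    have h3 : orderOf u ∣ Fintype.card F - 1 := orderOf_dvd_of_pow_eq_one h1
    rcases (Nat.dvd_prime hr).1 h2 with h | h
    · exact orderOf_eq_one_iff.1 h
    · rw [h] at h3; exact absurd h3 hr1
  refine ⟨φ (ζ : K), hAr, ?_, ?_⟩
  · apply key
    rw [← Matrix.det_pow, hAr, Matrix.det_one]
  · intro m v hv
    by_contra hv0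
    have hζm : (ζ : K) = algebraMap F K m := by
      by_contra hne'
      have hne2 : (ζ : K) - algebraMap F K m ≠ 0 := sub_ne_zero.mpr hne'
      apply hv0
      have h1 : φ ((ζ : K) - algebraMap F K m) *ᵥ v = 0 := by
        rw [map_sub, AlgHom.commutes, Matrix.sub_mulVec, hv, Algebra.algebraMap_eq_smul_one,
          Matrix.smul_mulVec, Matrix.one_mulVec, sub_self]
      calc v = φ (((ζ : K) - algebraMap F K m)⁻¹) *ᵥ
            (φ ((ζ : K) - algebraMap F K m) *ᵥ v) := by
            rw [Matrix.mulVec_mulVec, ← map_mul, inv_mul_cancel₀ hne2, map_one,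
              Matrix.one_mulVec]
        _ = 0 := by rw [h1, Matrix.mulVec_zero]
    have hm : m ^ r = 1 := by
      apply (algebraMap F K).injective
      rw [map_pow, ← hζm, hζr, map_one]
    have hm1 := key m hm
    rw [hm1, map_one] at hζm
    have h1 : ζ = 1 := Units.ext hζm
    rw [h1, orderOf_one] at hζ
    exact hr.one_lt.ne hζ

/-- [D1] an `e × e` block of order dividing `r`, determinant one, without eigenvectors over `F`. -/
theorem exists_block {F : Type*} [Field F] [Fintype F] {q : ℕ} (hq : Fintype.card F = q) (r : ℕ) [Fact r.Prime]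
    (e : ℕ) (he : 1 ≤ e) (hre : r ∣ q ^ e - 1) (hr1 : ¬ r ∣ q - 1) :
    ∃ A : Matrix (Fin e) (Fin e) F, A ^ r = 1 ∧ A.det = 1 ∧
      ∀ (m : F) (v : Fin e → F), A.mulVec v = m • v → v = 0 := by
  obtain ⟨p, hp⟩ := CharP.exists F
  haveI := hp
  haveI : Fact p.Prime := ⟨CharP.char_is_prime F p⟩
  haveI : NeZero e := ⟨by omega⟩
  have hfr : Module.finrank F (FiniteField.Extension F p e) = e :=
    FiniteField.finrank_extension F p e
  have hc : Nat.card (FiniteField.Extension F p e)ˣ = q ^ e - 1 := by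
    rw [Nat.card_units, FiniteField.natCard_extension, Nat.card_eq_fintype_card, hq]
  exact exists_block_aux e hfr r Fact.out (by rw [hc]; exact hre) (by rw [hq]; exact hr1)

end Cfsg.Agent.Helper27.S5968D1
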