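import Mathlib
import Cfsg.Prelude.Def_GeometricClasses
import Cfsg.Agent.Helper27.SpE1

set_option autoImplicit false
open scoped MatrixGroups

namespace Cfsg.Agent.Helper27.S5968K

variable {F : Type*} [Field F]

/-- The eigenspace for `c / l` is orthogonal to the range of `X - l`. -/
theorem perp {V : Type*} [AddCommGroup V] [Module F V] (B : LinearMap.BilinForm F V)
    (X : V →ₗ[F] V) (c : F) (hX : ∀ u v, B (X u) (X v) = c * B u v) (m m' : F) (hm' : m' ≠ 0)
    (hmm : m * m' = c) (w v : V) (hv : X v = m' • v) : B (X w - m • w) v = 0 := by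
  have h1 := hX w v
  rw [hv, map_smul, smul_eq_mul, ← hmm] at h1
  have h2 : m' * (B (X w) v - m * B w v) = 0 := by rw [mul_sub, h1]; ring
  have h3 := (mul_eq_zero.1 h2).resolve_left hm'
  rw [map_sub, LinearMap.sub_apply, map_smul, LinearMap.smul_apply, smul_eq_mul]
  exact h3

theorem finrank_le {V : Type*} [AddCommGroup V] [Module F V] [FiniteDimensional F V]
    (B : LinearMap.BilinForm F V) (hnd : ∀ u, (∀ v, B u v = 0) → u = 0)
    (X : V →ₗ[F] V) (c : F) (hX : ∀ u v, B (X u) (X v) = c * B u v) (m m' : F) (hm' : m' ≠ 0)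
    (hmm : m * m' = c) :
    Module.finrank F (LinearMap.ker (X - m' • LinearMap.id)) ≤
      Module.finrank F (LinearMap.ker (X - m • LinearMap.id)) := by
  have hle : LinearMap.ker (X - m' • LinearMap.id) ≤
      B.orthogonal (LinearMap.range (X - m • LinearMap.id)) := by
    intro v hv
    rw [LinearMap.mem_ker, LinearMap.sub_apply, LinearMap.smul_apply, LinearMap.id_apply,
      sub_eq_zero] at hv
    rw [LinearMap.BilinForm.mem_orthogonal_iff]
    rintro _ ⟨w, rfl⟩
    rw [LinearMap.sub_apply, LinearMap.smul_apply, LinearMap.id_apply]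
    exact perp B X c hX m m' hm' hmm w v hv
  have h1 := Submodule.finrank_mono hle
  have h2 := LinearMap.BilinForm.finrank_add_finrank_orthogonal' (B := B)
    (LinearMap.range (X - m • LinearMap.id))
  have hker : LinearMap.ker B = ⊥ := by
    rw [LinearMap.ker_eq_bot']
    intro u hu
    exact hnd u (fun v => by rw [hu]; rfl)
  rw [hker, inf_bot_eq, finrank_bot, add_zero] at h2
  have h3 := LinearMap.finrank_range_add_finrank_ker (X - m • LinearMap.id)
  omega

/-- The transported form `(u, v) ↦ f (Q u) (Q v)`. -/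
def Bq {n : ℕ} (f : (Fin n → F) → (Fin n → F) → F) (hf : Cfsg.Geo.IsSymplecticForm f)
    (Q : Matrix (Fin n) (Fin n) F) : LinearMap.BilinForm F (Fin n → F) :=
  LinearMap.mk₂ F (fun u v => f (Q.mulVec u) (Q.mulVec v))
    (fun u u' v => by simp only [Matrix.mulVec_add]; exact hf.bilinear.add_left _ _ _)
    (fun a u v => by simp only [Matrix.mulVec_smul]; exact hf.bilinear.smul_left _ _ _)
    (fun u v v' => by simp only [Matrix.mulVec_add]; exact hf.bilinear.add_right _ _ _)
    (fun a u v => by simp only [Matrix.mulVec_smul]; exact hf.bilinear.smul_right _ _ _)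

theorem Bq_apply {n : ℕ} (f : (Fin n → F) → (Fin n → F) → F) (hf : Cfsg.Geo.IsSymplecticForm f)
    (Q : Matrix (Fin n) (Fin n) F) (u v : Fin n → F) :
    Bq f hf Q u v = f (Q.mulVec u) (Q.mulVec v) := rfl

theorem toLin_sub {n : ℕ} (X : Matrix (Fin n) (Fin n) F) (m : F) :
    Matrix.toLin' (X - m • (1 : Matrix (Fin n) (Fin n) F)) =
      Matrix.toLin' X - m • LinearMap.id := by
  rw [map_sub, map_smul, Matrix.toLin'_one]

/-- [K] criterion: an eigenvalue with odd, unique multiplicity and semisimple eigenspace. -/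
theorem no_conj {F : Type*} [Field F] {n : ℕ} (f : (Fin n → F) → (Fin n → F) → F)
    (hf : Cfsg.Geo.IsSymplecticForm f) (x : Matrix.SpecialLinearGroup (Fin n) F) (l : F) (hl : l ≠ 0)
    (hodd : Odd (Module.finrank F (LinearMap.ker (Matrix.toLin' ((x : Matrix (Fin n) (Fin n) F) - l • (1 : Matrix (Fin n) (Fin n) F))))))
    (hss : LinearMap.ker (Matrix.toLin' ((x : Matrix (Fin n) (Fin n) F) - l • (1 : Matrix (Fin n) (Fin n) F))) ⊓
      LinearMap.range (Matrix.toLin' ((x : Matrix (Fin n) (Fin n) F) - l • (1 : Matrix (Fin n) (Fin n) F))) = ⊥)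
    (huniq : ∀ m : F, m ≠ l →
      Module.finrank F (LinearMap.ker (Matrix.toLin' ((x : Matrix (Fin n) (Fin n) F) - m • (1 : Matrix (Fin n) (Fin n) F)))) ≠
      Module.finrank F (LinearMap.ker (Matrix.toLin' ((x : Matrix (Fin n) (Fin n) F) - l • (1 : Matrix (Fin n) (Fin n) F)))))
    (P : Matrix.SpecialLinearGroup (Fin n) F) :
    P⁻¹ * x * P ∉ (Cfsg.Geo.similarityGroup f).comap
      (Matrix.SpecialLinearGroup.toGL : Matrix.SpecialLinearGroup (Fin n) F →* GL (Fin n) F) := by
  intro hmem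
  rw [Subgroup.mem_comap] at hmem
  obtain ⟨c, hc⟩ := hmem
  obtain ⟨X, hXdef⟩ : ∃ X : Matrix (Fin n) (Fin n) F, X = (x : Matrix (Fin n) (Fin n) F) := ⟨_, rfl⟩
  obtain ⟨Pm, hPm⟩ : ∃ Pm : Matrix (Fin n) (Fin n) F, Pm = (P : Matrix (Fin n) (Fin n) F) := ⟨_, rfl⟩
  obtain ⟨Pi, hPi⟩ : ∃ Pi : Matrix (Fin n) (Fin n) F,
    Pi = ((P⁻¹ : Matrix.SpecialLinearGroup (Fin n) F) : Matrix (Fin n) (Fin n) F) := ⟨_, rfl⟩
  have hPiPm : Pi * Pm = 1 := by
    rw [hPi, hPm, ← Matrix.SpecialLinearGroup.coe_mul, inv_mul_cancel]; rfl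
  have hPmPi : Pm * Pi = 1 := by
    rw [hPi, hPm, ← Matrix.SpecialLinearGroup.coe_mul, mul_inv_cancel]; rfl
  have hcoe : ((Matrix.SpecialLinearGroup.toGL (P⁻¹ * x * P) : GL (Fin n) F) :
      Matrix (Fin n) (Fin n) F) = Pi * X * Pm := by
    rw [hPi, hXdef, hPm]; rfl
  rw [hcoe] at hc
  rw [← hXdef] at hodd hss huniq
  have e : ∀ u, (Pi * X * Pm).mulVec (Pi.mulVec u) = Pi.mulVec (X.mulVec u) := by
    intro u
    rw [Matrix.mulVec_mulVec, Matrix.mulVec_mulVec, Matrix.mul_assoc (Pi * X), hPmPi,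
      Matrix.mul_one]
  have hPP : ∀ y, Pi.mulVec (Pm.mulVec y) = y := by
    intro y; rw [Matrix.mulVec_mulVec, hPiPm, Matrix.one_mulVec]
  have hPP' : ∀ y, Pm.mulVec (Pi.mulVec y) = y := by
    intro y; rw [Matrix.mulVec_mulVec, hPmPi, Matrix.one_mulVec]
  obtain ⟨B, hBdef⟩ : ∃ B : LinearMap.BilinForm F (Fin n → F), B = Bq f hf Pi := ⟨_, rfl⟩
  have hBapp : ∀ u v, B u v = f (Pi.mulVec u) (Pi.mulVec v) := by
    intro u v; rw [hBdef]; rfl
  have hBalt : B.IsAlt := fun v => by rw [hBapp]; exact hf.alternating _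
  have hnd : ∀ u, (∀ v, B u v = 0) → u = 0 := by
    intro u hu
    by_contra hu0
    have h1 : Pi.mulVec u ≠ 0 := by
      intro h0
      apply hu0
      rw [← hPP' u, h0, Matrix.mulVec_zero]
    obtain ⟨y, hy⟩ := (hf.nondegenerate _ h1).2
    apply hy
    have h2 := hu (Pm.mulVec y)
    rw [hBapp, hPP] at h2
    exact h2
  have hX : ∀ u v, B (Matrix.toLin' X u) (Matrix.toLin' X v) = (c : F) * B u v := by
    intro u v
    rw [Matrix.toLin'_apply, Matrix.toLin'_apply, hBapp, hBapp, ← e, ← e]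
    exact hc _ _
  have hcne : (c : F) ≠ 0 := c.ne_zero
  have hm' : (c : F) / l ≠ 0 := div_ne_zero hcne hl
  have hmm1 : l * ((c : F) / l) = c := mul_div_cancel₀ _ hl
  have hmm2 : ((c : F) / l) * l = c := div_mul_cancel₀ _ hl
  have hle1 := finrank_le B hnd (Matrix.toLin' X) c hX l ((c : F) / l) hm' hmm1
  have hle2 := finrank_le B hnd (Matrix.toLin' X) c hX ((c : F) / l) l hl hmm2
  rw [← toLin_sub, ← toLin_sub] at hle1 hle2
  by_cases hml : (c : F) / l = l
  · have hll : l * l = c := by rw [← hmm1, hml]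
    have hev : Even (Module.finrank F (LinearMap.ker (Matrix.toLin' (X - l • (1 : Matrix (Fin n) (Fin n) F))))) := by
      apply SpE1.even_finrank B hBalt
      intro a ha ha0
      by_contra hcon
      push Not at hcon
      apply ha0
      apply hnd
      intro v
      have htop : LinearMap.ker (Matrix.toLin' (X - l • (1 : Matrix (Fin n) (Fin n) F))) ⊔
          LinearMap.range (Matrix.toLin' (X - l • (1 : Matrix (Fin n) (Fin n) F))) = ⊤ := by
        apply Submodule.eq_top_of_finrank_eq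
        have h1 := Submodule.finrank_sup_add_finrank_inf_eq
          (LinearMap.ker (Matrix.toLin' (X - l • (1 : Matrix (Fin n) (Fin n) F))))
          (LinearMap.range (Matrix.toLin' (X - l • (1 : Matrix (Fin n) (Fin n) F))))
        rw [hss, finrank_bot, add_zero] at h1
        have h3 := LinearMap.finrank_range_add_finrank_ker
          (Matrix.toLin' (X - l • (1 : Matrix (Fin n) (Fin n) F)))
        omega
      have hv : v ∈ LinearMap.ker (Matrix.toLin' (X - l • (1 : Matrix (Fin n) (Fin n) F))) ⊔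
          LinearMap.range (Matrix.toLin' (X - l • (1 : Matrix (Fin n) (Fin n) F))) := by
        rw [htop]; exact Submodule.mem_top
      obtain ⟨k, hk, t, ht, rfl⟩ := Submodule.mem_sup.1 hv
      rw [map_add, hcon k hk, zero_add]
      obtain ⟨w, rfl⟩ := ht
      have ha' : Matrix.toLin' X a = l • a := by
        rw [LinearMap.mem_ker, toLin_sub, LinearMap.sub_apply, LinearMap.smul_apply,
          LinearMap.id_apply, sub_eq_zero] at ha
        exact ha
      have h4 := perp B (Matrix.toLin' X) c hX l l hl hll w a ha'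
      rw [toLin_sub, LinearMap.sub_apply, LinearMap.smul_apply, LinearMap.id_apply,
        ← hBalt.neg_eq, h4, neg_zero]
    exact (Nat.not_even_iff_odd.2 hodd) hev
  · exact huniq _ hml (le_antisymm hle1 hle2)

end Cfsg.Agent.Helper27.S5968K
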