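import Mathlib
import Cfsg.Agent.Helper27.NS3
import Cfsg.Agent.Helper27.SpD3

set_option autoImplicit false
open Cfsg

namespace Cfsg.Agent.Helper27.SpQd

open Matrix

variable {F : Type*} [Field F] {d : ℕ}

theorem nM_symp (σ : Fin d → Fin d) (hσ : ∀ i, σ (σ i) = i) (u v : Fin d ⊕ Fin d → F) :
    Cfsg.sympForm d F (NS3.nM σ *ᵥ u) (NS3.nM σ *ᵥ v) = Cfsg.sympForm d F u v := by
  rw [SpD3.symp_formula, SpD3.symp_formula, NS3.nM_mulVec, NS3.nM_mulVec]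
  simp only [Sum.elim_comp_inl, Sum.elim_comp_inr]
  rw [dotProduct_add, add_dotProduct]
  have h1 : (u ∘ Sum.inr) ⬝ᵥ ((v ∘ Sum.inr) ∘ σ) = ((u ∘ Sum.inr) ∘ σ) ⬝ᵥ (v ∘ Sum.inr) := by
    unfold dotProduct
    let e : Fin d ≃ Fin d := ⟨σ, σ, hσ, hσ⟩
    exact Fintype.sum_equiv e _ _ (fun i => by simp [e, hσ])
  rw [h1]
  ring

theorem nM_alt (hch : (2 : F) = 0) (σ : Fin d → Fin d) (hσ : ∀ i, σ (σ i) = i)
    (hσ' : ∀ i, σ i ≠ i) (v : Fin d ⊕ Fin d → F) :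
    Cfsg.sympForm d F v (NS3.nM σ *ᵥ v - v) = 0 := by
  have h1 : ((v ∘ Sum.inr) ∘ σ) ⬝ᵥ (v ∘ Sum.inr) = 0 := by
    have h := NS3.nM_iso σ hch hσ hσ' v
    rw [NS3.nM_mulVec, NS3.Q_elim, NS3.Q_eq, add_dotProduct] at h
    exact add_eq_left.1 h
  rw [SpD3.symp_formula, NS3.nM_mulVec]
  have h2 : (Sum.elim (v ∘ Sum.inl + (v ∘ Sum.inr) ∘ σ) (v ∘ Sum.inr) - v) ∘ Sum.inl =
      (v ∘ Sum.inr) ∘ σ := by
    funext i
    simp
  have h3 : (Sum.elim (v ∘ Sum.inl + (v ∘ Sum.inr) ∘ σ) (v ∘ Sum.inr) - v) ∘ Sum.inr = 0 := by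
    funext i
    simp
  rw [h2, h3, dotProduct_zero, sub_zero, dotProduct_comm, h1]

/-- (L8 for S5983) For `d` even and `Q` not of plus type there is an involution of `Sp`, not a
scalar, none of whose `Sp`-conjugates lies in the similarity group of `Q`. -/
theorem exists_invol_not_conj [Fintype F] (hch : (2 : F) = 0) (hev : Even d) (hd : 2 ≤ d)
    (Q : (Fin d ⊕ Fin d → F) → F)
    (hsm : ∀ (c : F) (v : Fin d ⊕ Fin d → F), Q (c • v) = c ^ 2 * Q v)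
    (hpol : ∀ u v : Fin d ⊕ Fin d → F, Q (u + v) = Q u + Q v + Cfsg.sympForm d F u v)
    (hnot : ¬ Cfsg.Geo.IsPlusTypeOn Q ⊤) :
    ∃ x ∈ Cfsg.spGL d F, x ^ 2 = 1 ∧
      (∀ z : F, (x : Matrix (Fin d ⊕ Fin d) (Fin d ⊕ Fin d) F) ≠ z • 1) ∧
      ∀ g ∈ Cfsg.spGL d F, g⁻¹ * x * g ∉ Cfsg.Geo.quadSimilarityGroup Q := by
  classical
  obtain ⟨k, rfl⟩ := hev
  let e : Fin k ⊕ Fin k ≃ Fin (k + k) := finSumFinEquiv
  let σ : Fin (k + k) → Fin (k + k) := fun i => e (Sum.swap (e.symm i))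
  have hσ : ∀ i, σ (σ i) = i := by
    intro i
    simp [σ]
  have hσ' : ∀ i, σ i ≠ i := by
    intro i h
    have h1 : Sum.swap (e.symm i) = e.symm i := by
      apply e.injective
      rw [Equiv.apply_symm_apply]
      exact h
    rcases h2 : e.symm i with j | j <;> rw [h2] at h1 <;> simp at h1
  have hxval : ((NS3.nG (F := F) σ hch : GL (Fin (k + k) ⊕ Fin (k + k)) F) :
      Matrix (Fin (k + k) ⊕ Fin (k + k)) (Fin (k + k) ⊕ Fin (k + k)) F) = NS3.nM σ := rfl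
  have hxmem : NS3.nG (F := F) σ hch ∈ Cfsg.spGL (k + k) F := by
    intro u v
    exact nM_symp σ hσ u v
  refine ⟨NS3.nG σ hch, hxmem, ?_, ?_, ?_⟩
  · apply Units.ext
    rw [pow_two]
    exact NS3.nM_sq σ hch
  · intro z hz
    rw [hxval] at hz
    have i0 : Fin (k + k) := ⟨0, by omega⟩
    have h1 := congrFun (congrFun hz (Sum.inl i0)) (Sum.inr (σ i0))
    simp [NS3.nM] at h1
  · intro g hg hmem
    obtain ⟨c, hc⟩ := hmem
    have hgi : ∀ u v : Fin (k + k) ⊕ Fin (k + k) → F,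
        Cfsg.sympForm (k + k) F
          (((g⁻¹ : GL (Fin (k + k) ⊕ Fin (k + k)) F) :
            Matrix (Fin (k + k) ⊕ Fin (k + k)) (Fin (k + k) ⊕ Fin (k + k)) F) *ᵥ u)
          (((g⁻¹ : GL (Fin (k + k) ⊕ Fin (k + k)) F) :
            Matrix (Fin (k + k) ⊕ Fin (k + k)) (Fin (k + k) ⊕ Fin (k + k)) F) *ᵥ v) =
          Cfsg.sympForm (k + k) F u v := Subgroup.inv_mem _ hg
    have hcancel : ∀ w : Fin (k + k) ⊕ Fin (k + k) → F,
        (g : Matrix (Fin (k + k) ⊕ Fin (k + k)) (Fin (k + k) ⊕ Fin (k + k)) F) *ᵥ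
          (((g⁻¹ : GL (Fin (k + k) ⊕ Fin (k + k)) F) :
            Matrix (Fin (k + k) ⊕ Fin (k + k)) (Fin (k + k) ⊕ Fin (k + k)) F) *ᵥ w) = w := by
      intro w
      rw [Matrix.mulVec_mulVec, ← Units.val_mul, mul_inv_cancel, Units.val_one,
        Matrix.one_mulVec]
    have hy : ∀ w : Fin (k + k) ⊕ Fin (k + k) → F,
        Q (((g⁻¹ : GL (Fin (k + k) ⊕ Fin (k + k)) F) :
            Matrix (Fin (k + k) ⊕ Fin (k + k)) (Fin (k + k) ⊕ Fin (k + k)) F) *ᵥ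
              (NS3.nM σ *ᵥ w)) =
          (c : F) * Q (((g⁻¹ : GL (Fin (k + k) ⊕ Fin (k + k)) F) :
            Matrix (Fin (k + k) ⊕ Fin (k + k)) (Fin (k + k) ⊕ Fin (k + k)) F) *ᵥ w) := by
      intro w
      have h1 := hc (((g⁻¹ : GL (Fin (k + k) ⊕ Fin (k + k)) F) :
            Matrix (Fin (k + k) ⊕ Fin (k + k)) (Fin (k + k) ⊕ Fin (k + k)) F) *ᵥ w)
      rw [Units.val_mul, Units.val_mul, ← Matrix.mulVec_mulVec, ← Matrix.mulVec_mulVec,
        hcancel w, hxval] at h1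
      exact h1
    -- the multiplier is 1
    have hc1 : (c : F) = 1 := by
      have i0 : Fin (k + k) := ⟨0, by omega⟩
      have h1 := hy (Pi.single (Sum.inl i0) 1 + Pi.single (Sum.inr i0) 1)
      rw [Matrix.mulVec_add, Matrix.mulVec_add, Matrix.mulVec_add, hpol, hpol, hgi, hgi,
        nM_symp σ hσ, hy, hy, ← S0766.sB_apply, SpD3.single_form] at h1
      have h2 : J (Fin (k + k)) F (Sum.inl i0) (Sum.inr i0) = -1 := by
        simp [J]
      rw [h2] at h1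
      linear_combination h1
    have hinv : ∀ w : Fin (k + k) ⊕ Fin (k + k) → F,
        Q (((g⁻¹ : GL (Fin (k + k) ⊕ Fin (k + k)) F) :
            Matrix (Fin (k + k) ⊕ Fin (k + k)) (Fin (k + k) ⊕ Fin (k + k)) F) *ᵥ
              (NS3.nM σ *ᵥ w)) =
          Q (((g⁻¹ : GL (Fin (k + k) ⊕ Fin (k + k)) F) :
            Matrix (Fin (k + k) ⊕ Fin (k + k)) (Fin (k + k) ⊕ Fin (k + k)) F) *ᵥ w) := by
      intro w
      rw [hy w, hc1, one_mul]
    have hzero : ∀ w : Fin (k + k) ⊕ Fin (k + k) → F,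
        Q (((g⁻¹ : GL (Fin (k + k) ⊕ Fin (k + k)) F) :
            Matrix (Fin (k + k) ⊕ Fin (k + k)) (Fin (k + k) ⊕ Fin (k + k)) F) *ᵥ
              (NS3.nM σ *ᵥ w - w)) = 0 := by
      intro w
      have h1 := hinv w
      have h2 : NS3.nM σ *ᵥ w = w + (NS3.nM σ *ᵥ w - w) := by abel
      rw [h2, Matrix.mulVec_add, hpol, hgi, nM_alt hch σ hσ hσ' w, add_zero] at h1
      exact add_eq_left.1 h1
    apply hnot
    have hinj : Function.Injective (Matrix.toLin'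
        ((g⁻¹ : GL (Fin (k + k) ⊕ Fin (k + k)) F) :
          Matrix (Fin (k + k) ⊕ Fin (k + k)) (Fin (k + k) ⊕ Fin (k + k)) F)) := by
      have hl : Function.LeftInverse
          (Matrix.toLin' (g : Matrix (Fin (k + k) ⊕ Fin (k + k)) (Fin (k + k) ⊕ Fin (k + k)) F))
          (Matrix.toLin' ((g⁻¹ : GL (Fin (k + k) ⊕ Fin (k + k)) F) :
            Matrix (Fin (k + k) ⊕ Fin (k + k)) (Fin (k + k) ⊕ Fin (k + k)) F)) := by
        intro w
        rw [Matrix.toLin'_apply, Matrix.toLin'_apply]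
        exact hcancel w
      exact hl.injective
    refine ⟨(LinearMap.range (Matrix.toLin' (NS3.nM (F := F) σ) - 1)).map (Matrix.toLin'
        ((g⁻¹ : GL (Fin (k + k) ⊕ Fin (k + k)) F) :
          Matrix (Fin (k + k) ⊕ Fin (k + k)) (Fin (k + k) ⊕ Fin (k + k)) F)), le_top, ?_, ?_⟩
    · rintro _ ⟨_, ⟨w, rfl⟩, rfl⟩
      have h1 : Matrix.toLin' ((g⁻¹ : GL (Fin (k + k) ⊕ Fin (k + k)) F) :
          Matrix (Fin (k + k) ⊕ Fin (k + k)) (Fin (k + k) ⊕ Fin (k + k)) F)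
          ((Matrix.toLin' (NS3.nM (F := F) σ) - 1) w) =
          ((g⁻¹ : GL (Fin (k + k) ⊕ Fin (k + k)) F) :
          Matrix (Fin (k + k) ⊕ Fin (k + k)) (Fin (k + k) ⊕ Fin (k + k)) F) *ᵥ
            (NS3.nM σ *ᵥ w - w) := by
        rw [Matrix.toLin'_apply, LinearMap.sub_apply, Matrix.toLin'_apply]
        rfl
      rw [h1]
      exact hzero w
    · rw [← LinearEquiv.finrank_eq (Submodule.equivMapOfInjective _ hinj _), finrank_top,
        SpD3.finrank_V]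
      have h1 := LinearMap.finrank_range_add_finrank_ker (Matrix.toLin' (NS3.nM (F := F) σ) - 1)
      have h2 := NS3.finrank_Fx_nM (F := F) σ hσ
      unfold Cfsg.Agent.Helper4.CartanD.Fx at h2
      rw [h2, SpD3.finrank_V] at h1
      omega

end Cfsg.Agent.Helper27.SpQd
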