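import Mathlib
import Cfsg.Prelude.Def_FischerSpaces
import Cfsg.Agent.Helper27.Fischer

set_option autoImplicit false

namespace Cfsg.Agent.Helper27.TTLines

open Cfsg Cfsg.LineSystem

section basic

variable {G : Type*} [Group G] (D : Set G)

/-- working hypotheses on a conjugation-invariant set of 3-transpositions -/
def H3 : Prop :=
  (∀ d ∈ D, d * d = 1) ∧ (∀ d ∈ D, ∀ e ∈ D, Commute d e ∨ (d * e) ^ 3 = 1) ∧
    ∀ g : G, ∀ d ∈ D, g * d * g⁻¹ ∈ D

theorem h3_of (hD : IsThreeTranspositionGroup D) : H3 D := by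
  obtain ⟨⟨ho, h23⟩, hc, -⟩ := hD
  have hsq : ∀ d ∈ D, d * d = 1 := by
    intro d hd
    have h1 := pow_orderOf_eq_one d
    rw [ho d hd, pow_two] at h1
    exact h1
  refine ⟨hsq, ?_, hc⟩
  intro d hd e he
  rcases h23 d hd e he with h | h
  · left
    have h1 : d * e * (d * e) = 1 := by rw [← pow_two]; exact h
    have h3 : d * e = (d * e)⁻¹ := eq_inv_of_mul_eq_one_left h1
    have h2 : d * e = e * d := by
      rw [h3, mul_inv_rev, inv_eq_of_mul_eq_one_left (hsq d hd),
        inv_eq_of_mul_eq_one_left (hsq e he)]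
    exact h2
  · right
    exact h

/-- a line `{x, y, z}` -/
def Tr (x y z : G) : Prop := x ∈ D ∧ y ∈ D ∧ z ∈ D ∧ ¬ Commute x y ∧ y * x * y = z

variable {D}

theorem inv_eq (h : H3 D) {d : G} (hd : d ∈ D) : d⁻¹ = d :=
  inv_eq_of_mul_eq_one_left (h.1 d hd)

theorem tr_mk (h : H3 D) {x y : G} (hx : x ∈ D) (hy : y ∈ D) (hn : ¬ Commute x y) :
    Tr D x y (y * x * y) := by
  refine ⟨hx, hy, ?_, hn, rfl⟩
  have h1 := h.2.2 y x hx
  rw [inv_eq h hy] at h1
  exact h1

theorem cube (h : H3 D) {x y : G} (hx : x ∈ D) (hy : y ∈ D) (hn : ¬ Commute x y) :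
    x * y * x * y * x * y = 1 := by
  rcases h.2.1 x hx y hy with h1 | h1
  · exact absurd h1 hn
  · have h2 : (x * y) ^ 3 = x * y * x * y * x * y := by
      simp only [pow_succ, pow_zero, one_mul, mul_assoc]
    rw [← h2]
    exact h1

theorem braid (h : H3 D) {x y : G} (hx : x ∈ D) (hy : y ∈ D) (hn : ¬ Commute x y) :
    x * y * x = y * x * y := by
  have h1 := cube h hx hy hn
  have h2 : x * y * x * (y * x * y) = 1 := by rw [← h1]; group
  have h3 := eq_inv_of_mul_eq_one_left h2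
  rw [h3, mul_inv_rev, mul_inv_rev, inv_eq h hx, inv_eq h hy, mul_assoc]

theorem Tr.braid (h : H3 D) {x y z : G} (t : Tr D x y z) : x * y * x = z := by
  obtain ⟨hx, hy, -, hn, e⟩ := t
  rw [TTLines.braid h hx hy hn]
  exact e

theorem Tr.swap (h : H3 D) {x y z : G} (t : Tr D x y z) : Tr D y x z :=
  ⟨t.2.1, t.1, t.2.2.1, fun hc => t.2.2.2.1 hc.symm, t.braid h⟩

theorem Tr.rot (h : H3 D) {x y z : G} (t : Tr D x y z) : Tr D x z y := by
  have hb := t.braid h
  obtain ⟨hx, hy, hz, hn, e⟩ := t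
  have hxx := h.1 x hx
  have hyy := h.1 y hy
  refine ⟨hx, hz, hy, ?_, ?_⟩
  · intro hc
    apply hn
    have h1 : x * z = y * x := by
      rw [← hb]
      calc x * (x * y * x) = (x * x) * y * x := by group
        _ = y * x := by rw [hxx, one_mul]
    have h2 : z * x = x * y := by
      rw [← hb]
      calc x * y * x * x = x * y * (x * x) := by group
        _ = x * y := by rw [hxx, mul_one]
    have h3 : x * z = z * x := hc
    show x * y = y * x
    rw [← h2, ← h1, h3]
  · rw [← hb]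
    have hc := cube h hx hy hn
    calc x * y * x * x * (x * y * x) = x * y * (x * x) * (x * y * x) := by group
      _ = x * y * x * y * x := by rw [hxx]; group
      _ = (x * y * x * y * x * y) * y := by
          rw [mul_assoc (x * y * x * y * x) y y, hyy, mul_one]
      _ = y := by rw [hc, one_mul]

theorem Tr.all (h : H3 D) {x y z : G} (t : Tr D x y z) :
    y * x * y = z ∧ x * y * x = z ∧ z * x * z = y ∧ x * z * x = y ∧ z * y * z = x ∧
      y * z * y = x :=
  ⟨t.2.2.2.2, t.braid h, (t.rot h).2.2.2.2, (t.rot h).braid h, ((t.swap h).rot h).2.2.2.2,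
    ((t.swap h).rot h).braid h⟩

theorem Tr.ne12 {x y z : G} (t : Tr D x y z) : x ≠ y :=
  fun e => t.2.2.2.1 (by rw [e])

theorem Tr.ne13 (h : H3 D) {x y z : G} (t : Tr D x y z) : x ≠ z := (t.rot h).ne12

theorem Tr.ne23 (h : H3 D) {x y z : G} (t : Tr D x y z) : y ≠ z := ((t.swap h).rot h).ne12

theorem mem_lines (h : H3 D) (l : Set D) :
    l ∈ threeTranspositionLines D ↔ ∃ x y z : D, Tr D (x : G) y z ∧ l = {x, y, z} := by
  constructor
  · rintro ⟨x, y, hn, rfl⟩
    have t := tr_mk h x.2 y.2 hn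
    refine ⟨x, y, ⟨y * x * y, t.2.2.1⟩, t, ?_⟩
    ext w
    simp only [Set.mem_setOf_eq, Set.mem_insert_iff, Set.mem_singleton_iff, Subtype.ext_iff]
    rw [inv_eq h y.2]
  · rintro ⟨x, y, z, t, rfl⟩
    refine ⟨x, y, t.2.2.2.1, ?_⟩
    ext w
    simp only [Set.mem_setOf_eq, Set.mem_insert_iff, Set.mem_singleton_iff, Subtype.ext_iff]
    rw [inv_eq h y.2, t.2.2.2.2]

theorem line_of_one (h : H3 D) {l : Set D} (hl : l ∈ threeTranspositionLines D) {p : D}
    (hp : p ∈ l) : ∃ q r : D, Tr D (p : G) q r ∧ l = {p, q, r} := by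
  obtain ⟨x, y, z, t, rfl⟩ := (mem_lines h l).mp hl
  rcases hp with rfl | rfl | rfl
  · exact ⟨y, z, t, rfl⟩
  · exact ⟨x, z, t.swap h, by rw [Set.insert_comm]⟩
  · refine ⟨x, y, (t.rot h).swap h, ?_⟩
    ext w
    simp only [Set.mem_insert_iff, Set.mem_singleton_iff]
    tauto

theorem line_of_two (h : H3 D) {l : Set D} (hl : l ∈ threeTranspositionLines D) {p q : D}
    (hp : p ∈ l) (hq : q ∈ l) (hpq : p ≠ q) :
    ∃ r : D, Tr D (p : G) q r ∧ l = {p, q, r} := by
  obtain ⟨q', r', t, rfl⟩ := line_of_one h hl hp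
  rcases hq with rfl | rfl | rfl
  · exact absurd rfl hpq
  · exact ⟨r', t, rfl⟩
  · exact ⟨q', t.rot h, by rw [Set.pair_comm]⟩

theorem partial_linear (h : H3 D) : IsPartialLinear (threeTranspositionLines D) := by
  intro l hl m hm x y hxy hxl hyl hxm hym
  obtain ⟨r, t, rfl⟩ := line_of_two h hl hxl hyl hxy
  obtain ⟨r', t', rfl⟩ := line_of_two h hm hxm hym hxy
  have e : r = r' := Subtype.ext (t.2.2.2.2.symm.trans t'.2.2.2.2)
  rw [e]

theorem ncard_three (h : H3 D) (l : Set D) (hl : l ∈ threeTranspositionLines D) :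
    l.ncard = 3 := by
  obtain ⟨x, y, z, t, rfl⟩ := (mem_lines h l).mp hl
  rw [Set.ncard_eq_three]
  exact ⟨x, y, z, fun e => t.ne12 (congrArg Subtype.val e),
    fun e => t.ne13 h (congrArg Subtype.val e), fun e => t.ne23 h (congrArg Subtype.val e), rfl⟩

end basic

section model

variable {G : Type*} [Group G] {D : Set G}

/-- conjugation table from a list of lines and a list of commuting pairs -/
theorem hop_of_lines (h : H3 D) {k : ℕ} (g : Fin k → G) (op : Fin k → Fin k → Fin k)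
    (lines : List (Fin k × Fin k × Fin k)) (comm : List (Fin k × Fin k))
    (hgD : ∀ i, g i ∈ D)
    (hl : ∀ t ∈ lines, Tr D (g t.1) (g t.2.1) (g t.2.2))
    (hc : ∀ t ∈ comm, Commute (g t.1) (g t.2))
    (hchk : ∀ v u : Fin k, (u = v ∧ op v u = u) ∨ ((v, u) ∈ comm ∧ op v u = u) ∨
      ((u, v) ∈ comm ∧ op v u = u) ∨ (u, v, op v u) ∈ lines ∨ (v, u, op v u) ∈ lines ∨
      (u, op v u, v) ∈ lines ∨ (op v u, u, v) ∈ lines ∨ (v, op v u, u) ∈ lines ∨
      (op v u, v, u) ∈ lines) :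
    ∀ v u, g v * g u * g v = g (op v u) := by
  intro v u
  have hvv := h.1 _ (hgD v)
  rcases hchk v u with ⟨huv, e⟩ | ⟨hm, e⟩ | ⟨hm, e⟩ | hm | hm | hm | hm | hm | hm
  · rw [e, huv, mul_assoc, hvv, mul_one]
  · rw [e]
    have h1 : g v * g u = g u * g v := hc _ hm
    rw [h1, mul_assoc, hvv, mul_one]
  · rw [e]
    have h1 : g u * g v = g v * g u := hc _ hm
    rw [← h1, mul_assoc, hvv, mul_one]
  · exact ((hl _ hm).all h).1
  · exact ((hl _ hm).all h).2.1
  · exact ((hl _ hm).all h).2.2.1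
  · exact ((hl _ hm).all h).2.2.2.2.1
  · exact ((hl _ hm).all h).2.2.2.1
  · exact ((hl _ hm).all h).2.2.2.2.2

theorem inj_of {k : ℕ} (g : Fin k → G) (op : Fin k → Fin k → Fin k) (o : Fin k)
    (hop : ∀ v u, g v * g u * g v = g (op v u))
    (hinj0 : ∀ j, g j = g o → j = o)
    (hopinj : ∀ v, Function.Injective (op v))
    (htr : ∀ u, ∃ v₁ v₂, op v₁ (op v₂ u) = o) : Function.Injective g := by
  intro u w huw
  obtain ⟨v₁, v₂, hv⟩ := htr u
  have h1 : g (op v₁ (op v₂ w)) = g o := by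
    have e1 : g (op v₁ (op v₂ w)) = g v₁ * (g v₂ * g w * g v₂) * g v₁ := by
      rw [hop, hop]
    have e2 : g (op v₁ (op v₂ u)) = g v₁ * (g v₂ * g u * g v₂) * g v₁ := by
      rw [hop, hop]
    rw [← hv, e1, e2, huw]
  have h2 := hinj0 _ h1
  rw [← hv] at h2
  exact (hopinj v₂ (hopinj v₁ h2)).symm

theorem range_subspace (h : H3 D) {k : ℕ} (g : Fin k → G) (op : Fin k → Fin k → Fin k)
    (hop : ∀ v u, g v * g u * g v = g (op v u)) :
    IsSubspace (threeTranspositionLines D) {x : D | ∃ u, g u = (x : G)} := by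
  intro l hl x hx y hy hxy hxl hyl
  obtain ⟨r, t, rfl⟩ := line_of_two h hl hxl hyl hxy
  obtain ⟨u, hu⟩ := hx
  obtain ⟨v, hv⟩ := hy
  intro w hw
  rcases hw with rfl | rfl | rfl
  · exact ⟨u, hu⟩
  · exact ⟨v, hv⟩
  · refine ⟨op v u, ?_⟩
    rw [← hop, hu, hv]
    exact t.2.2.2.2

theorem iso_range (h : H3 D) {k : ℕ} (g : Fin k → G) (op : Fin k → Fin k → Fin k)
    (hgD : ∀ i, g i ∈ D) (hop : ∀ v u, g v * g u * g v = g (op v u))
    (hinj : Function.Injective g) {Y : Type*} (N : Set (Set Y)) (φ : Fin k ≃ Y)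
    (hN : ∀ l : Set Y, l ∈ N ↔ ∃ u v, op v u ≠ u ∧ l = {φ u, φ v, φ (op v u)}) :
    Isomorphic (restrict (threeTranspositionLines D) {x : D | ∃ u, g u = (x : G)}) N := by
  classical
  let ψ : Fin k → ({x : D | ∃ u, g u = (x : G)} : Set D) := fun u => ⟨⟨g u, hgD u⟩, ⟨u, rfl⟩⟩
  have hψ : Function.Bijective ψ := by
    constructor
    · intro u w e
      apply hinj
      exact congrArg (fun s : ({x : D | ∃ u, g u = (x : G)} : Set D) => ((s : D) : G)) e
    · rintro ⟨x, u, hu⟩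
      exact ⟨u, Subtype.ext (Subtype.ext hu)⟩
  let e0 : Fin k ≃ ({x : D | ∃ u, g u = (x : G)} : Set D) := Equiv.ofBijective ψ hψ
  have he0 : ∀ u, (((e0 u : ({x : D | ∃ u, g u = (x : G)} : Set D)) : D) : G) = g u :=
    fun u => rfl
  refine ⟨e0.symm.trans φ, ?_⟩
  intro m
  have himg : (e0.symm.trans φ) '' m = {y | e0 (φ.symm y) ∈ m} := by
    ext y
    constructor
    · rintro ⟨x, hx, rfl⟩
      simp only [Set.mem_setOf_eq, Equiv.trans_apply, Equiv.symm_apply_apply,
        Equiv.apply_symm_apply]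
      exact hx
    · intro hy
      exact ⟨e0 (φ.symm y), hy, by simp⟩
  rw [himg, hN]
  constructor
  · rintro ⟨l, hl, hlS, rfl⟩
    obtain ⟨x, y, z, t, rfl⟩ := (mem_lines h l).mp hl
    obtain ⟨u, hu⟩ := hlS (show x ∈ ({x, y, z} : Set D) by simp)
    obtain ⟨v, hv⟩ := hlS (show y ∈ ({x, y, z} : Set D) by simp)
    have hz : g (op v u) = (z : G) := by
      rw [← hop, hu, hv]
      exact t.2.2.2.2
    refine ⟨u, v, ?_, ?_⟩
    · intro e
      rw [e, hu] at hz
      exact t.ne13 h hz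
    · ext w
      have key : ∀ i : Fin k, ∀ d : D, g i = (d : G) →
          (((e0 (φ.symm w) : ({x : D | ∃ u, g u = (x : G)} : Set D)) : D) = d ↔ w = φ i) := by
        intro i d hi
        constructor
        · intro e
          have e2 : g (φ.symm w) = g i := by
            rw [hi, ← e]
            exact (he0 _).symm
          have e3 := hinj e2
          rw [← e3, Equiv.apply_symm_apply]
        · intro e
          apply Subtype.ext
          rw [e, Equiv.symm_apply_apply, he0 i, hi]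
      simp only [Set.mem_setOf_eq, Set.mem_insert_iff, Set.mem_singleton_iff]
      rw [key u x hu, key v y hv, key (op v u) z hz]
  · rintro ⟨u, v, hne, hm⟩
    have hnc : ¬ Commute (g u) (g v) := by
      intro hc
      apply hne
      apply hinj
      have h1 : g u * g v = g v * g u := hc
      rw [← hop, ← h1, mul_assoc, h.1 _ (hgD v), mul_one]
    have t : Tr D (g u) (g v) (g (op v u)) := by
      have h1 := tr_mk h (hgD u) (hgD v) hnc
      rw [hop] at h1
      exact h1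
    refine ⟨{⟨g u, hgD u⟩, ⟨g v, hgD v⟩, ⟨g (op v u), hgD _⟩},
      (mem_lines h _).mpr ⟨_, _, _, t, rfl⟩, ?_, ?_⟩
    · intro w hw
      rcases hw with rfl | rfl | rfl
      · exact ⟨u, rfl⟩
      · exact ⟨v, rfl⟩
      · exact ⟨op v u, rfl⟩
    · ext x
      obtain ⟨i, rfl⟩ := e0.surjective x
      have h1 : e0 i ∈ m ↔ φ i ∈ ({φ u, φ v, φ (op v u)} : Set Y) := by
        rw [← hm]
        simp only [Set.mem_setOf_eq, Equiv.symm_apply_apply]
      rw [h1]
      simp only [Set.mem_setOf_eq, Set.mem_insert_iff, Set.mem_singleton_iff,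
        EmbeddingLike.apply_eq_iff_eq, Subtype.ext_iff]
      rw [he0 i, hinj.eq_iff, hinj.eq_iff, hinj.eq_iff]

theorem plane_iso (h : H3 D) {k : ℕ} (g : Fin k → G) (op : Fin k → Fin k → Fin k) (o : Fin k)
    (hgD : ∀ i, g i ∈ D) (hop : ∀ v u, g v * g u * g v = g (op v u))
    (hinj0 : ∀ j, g j = g o → j = o) (hopinj : ∀ v, Function.Injective (op v))
    (htr : ∀ u, ∃ v₁ v₂, op v₁ (op v₂ u) = o)
    {Y : Type*} (N : Set (Set Y)) (φ : Fin k ≃ Y)
    (hN : ∀ l : Set Y, l ∈ N ↔ ∃ u v, op v u ≠ u ∧ l = {φ u, φ v, φ (op v u)})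
    (S₀ : Set D) (hsub : ∀ x ∈ S₀, ∃ u, g u = (x : G)) (i₁ i₂ i₃ : Fin k)
    (hs1 : (⟨g i₁, hgD i₁⟩ : D) ∈ S₀) (hs2 : (⟨g i₂, hgD i₂⟩ : D) ∈ S₀)
    (hs3 : (⟨g i₃, hgD i₃⟩ : D) ∈ S₀)
    (hgen : ∀ P : Fin k → Prop, P i₁ → P i₂ → P i₃ → (∀ v u, P v → P u → P (op v u)) →
      ∀ u, P u) :
    Isomorphic (restrict (threeTranspositionLines D) (span (threeTranspositionLines D) S₀)) N := by
  have hinj := inj_of g op o hop hinj0 hopinj htr
  have hspan : span (threeTranspositionLines D) S₀ = {x : D | ∃ u, g u = (x : G)} := by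
    apply Set.Subset.antisymm
    · intro x hx
      simp only [span, Set.mem_sInter, Set.mem_setOf_eq] at hx
      exact hx _ ⟨hsub, range_subspace h g op hop⟩
    · rintro x ⟨u, hu⟩
      have hP : ∀ u, (⟨g u, hgD u⟩ : D) ∈ span (threeTranspositionLines D) S₀ := by
        apply hgen
        · exact Fischer.subset_span _ hs1
        · exact Fischer.subset_span _ hs2
        · exact Fischer.subset_span _ hs3
        · intro v u hv hu
          by_cases hc : Commute (g u) (g v)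
          · have h1 : g u * g v = g v * g u := hc
            have h2 : g (op v u) = g u := by
              rw [← hop, ← h1, mul_assoc, h.1 _ (hgD v), mul_one]
            have e : (⟨g (op v u), hgD _⟩ : D) = ⟨g u, hgD u⟩ := Subtype.ext h2
            rw [e]
            exact hu
          · have t : Tr D (g u) (g v) (g (op v u)) := by
              have h1 := tr_mk h (hgD u) (hgD v) hc
              rw [hop] at h1
              exact h1
            have hl : ({⟨g u, hgD u⟩, ⟨g v, hgD v⟩, ⟨g (op v u), hgD _⟩} : Set D) ∈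
                threeTranspositionLines D := (mem_lines h _).mpr ⟨_, _, _, t, rfl⟩
            have hne : (⟨g u, hgD u⟩ : D) ≠ ⟨g v, hgD v⟩ :=
              fun e => t.ne12 (congrArg Subtype.val e)
            exact Fischer.span_subspace _ _ hl _ hu _ hv hne (by simp) (by simp) (by simp)
      have e : x = ⟨g u, hgD u⟩ := Subtype.ext hu.symm
      rw [e]
      exact hP u
  rw [hspan]
  exact iso_range h g op hgD hop hinj N φ hN

end model

section dualmodel

/-- conjugation table of the six transpositions of the symmetric group of degree four -/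
def op6 (v u : Fin 6) : Fin 6 :=
  (![![0, 3, 4, 1, 2, 5], ![3, 1, 2, 0, 5, 4], ![4, 1, 2, 5, 0, 3], ![1, 0, 5, 3, 4, 2],
    ![2, 5, 0, 3, 4, 1], ![0, 4, 3, 2, 1, 5]] v) u

/-- the lines among the six points -/
def lines6 : List (Fin 6 × Fin 6 × Fin 6) := [(0, 1, 3), (0, 2, 4), (3, 2, 5), (4, 1, 5)]

/-- the commuting pairs among the six points -/
def comm6 : List (Fin 6 × Fin 6) := [(1, 2), (3, 4), (0, 5)]

/-- the six points of the dual affine plane -/
def pts6 : Fin 6 → DualAffinePoint :=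
  ![⟨{1, 2}, by decide⟩, ⟨{0, 1}, by decide⟩, ⟨{2, 3}, by decide⟩, ⟨{0, 2}, by decide⟩,
    ⟨{1, 3}, by decide⟩, ⟨{0, 3}, by decide⟩]

theorem pts6_bij : Function.Bijective pts6 := by decide +kernel

set_option synthInstance.maxSize 4000 in
set_option synthInstance.maxHeartbeats 400000 in
theorem chk6 : ∀ v u : Fin 6, (u = v ∧ op6 v u = u) ∨ ((v, u) ∈ comm6 ∧ op6 v u = u) ∨
    ((u, v) ∈ comm6 ∧ op6 v u = u) ∨ (u, v, op6 v u) ∈ lines6 ∨ (v, u, op6 v u) ∈ lines6 ∨
    (u, op6 v u, v) ∈ lines6 ∨ (op6 v u, u, v) ∈ lines6 ∨ (v, op6 v u, u) ∈ lines6 ∨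
    (op6 v u, v, u) ∈ lines6 := by decide +kernel

theorem opinj6 : ∀ v : Fin 6, Function.Injective (op6 v) := by decide +kernel

theorem tr6 : ∀ u : Fin 6, ∃ v₁ v₂ : Fin 6, op6 v₁ (op6 v₂ u) = 0 := by decide +kernel

theorem gen6 : ∀ P : Fin 6 → Prop, P 0 → P 1 → P 2 → (∀ v u, P v → P u → P (op6 v u)) →
    ∀ u, P u := by
  intro P h0 h1 h2 hcl
  have h3 : P 3 := hcl 0 1 h0 h1
  have h4 : P 4 := hcl 0 2 h0 h2
  have h5 : P 5 := hcl 2 3 h2 h3
  intro u
  fin_cases u <;> assumption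

theorem dual_fwd : ∀ i : Fin 4, ∃ u v : Fin 6, op6 v u ≠ u ∧ ∀ s : DualAffinePoint,
    i ∉ s.val ↔ (s = pts6 u ∨ s = pts6 v ∨ s = pts6 (op6 v u)) := by decide +kernel

theorem dual_bwd : ∀ u v : Fin 6, op6 v u ≠ u → ∃ i : Fin 4, ∀ s : DualAffinePoint,
    (s = pts6 u ∨ s = pts6 v ∨ s = pts6 (op6 v u)) ↔ i ∉ s.val := by decide +kernel

theorem dual_hN (l : Set DualAffinePoint) :
    l ∈ dualAffinePlaneTwo ↔ ∃ u v : Fin 6, op6 v u ≠ u ∧
      l = {(Equiv.ofBijective pts6 pts6_bij) u, (Equiv.ofBijective pts6 pts6_bij) v,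
        (Equiv.ofBijective pts6 pts6_bij) (op6 v u)} := by
  simp only [Equiv.ofBijective_apply]
  constructor
  · rintro ⟨i, rfl⟩
    obtain ⟨u, v, hne, H⟩ := dual_fwd i
    refine ⟨u, v, hne, ?_⟩
    ext s
    simp only [Set.mem_setOf_eq, Set.mem_insert_iff, Set.mem_singleton_iff]
    exact H s
  · rintro ⟨u, v, hne, rfl⟩
    obtain ⟨i, H⟩ := dual_bwd u v hne
    refine ⟨i, ?_⟩
    ext s
    simp only [Set.mem_setOf_eq, Set.mem_insert_iff, Set.mem_singleton_iff]
    exact H s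

end dualmodel

section affmodel

/-- first coordinate of the nine points -/
def c0 (i : Fin 9) : ZMod 3 := ((i.val / 3 : ℕ) : ZMod 3)

/-- second coordinate of the nine points -/
def c1 (i : Fin 9) : ZMod 3 := ((i.val % 3 : ℕ) : ZMod 3)

/-- the point reflections of the affine plane of order three -/
def op9 (v u : Fin 9) : Fin 9 :=
  ⟨3 * ((6 - u.val / 3 - v.val / 3) % 3) + (6 - u.val % 3 - v.val % 3) % 3, by omega⟩

/-- the index of a point given by coordinates -/
def idx (x y : ZMod 3) : Fin 9 :=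
  ⟨3 * x.val + y.val, by
    have h1 := ZMod.val_lt x
    have h2 := ZMod.val_lt y
    omega⟩

/-- the nine points of the affine plane -/
def pts9 (i : Fin 9) : Fin 2 → ZMod 3 := ![c0 i, c1 i]

/-- the twelve lines -/
def lines9 : List (Fin 9 × Fin 9 × Fin 9) :=
  [(0, 3, 6), (0, 1, 2), (1, 3, 8), (2, 3, 7), (1, 6, 5), (2, 6, 4), (8, 0, 4), (7, 0, 5),
    (7, 1, 4), (5, 2, 8), (4, 3, 5), (7, 6, 8)]

theorem c_inj : ∀ i j : Fin 9, c0 i = c0 j → c1 i = c1 j → i = j := by decide +kernel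

theorem c_surj : ∀ x y : ZMod 3, ∃ i : Fin 9, c0 i = x ∧ c1 i = y := by decide +kernel

theorem pts9_bij : Function.Bijective pts9 := by
  constructor
  · intro i j e
    exact c_inj i j (congrFun e 0) (congrFun e 1)
  · intro f
    obtain ⟨i, h0, h1⟩ := c_surj (f 0) (f 1)
    refine ⟨i, ?_⟩
    ext k
    fin_cases k
    · exact h0
    · exact h1

set_option synthInstance.maxSize 4000 in
set_option synthInstance.maxHeartbeats 400000 in
theorem chk9 : ∀ v u : Fin 9, (u = v ∧ op9 v u = u) ∨ ((v, u) ∈ ([] : List (Fin 9 × Fin 9)) ∧ op9 v u = u) ∨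
    ((u, v) ∈ ([] : List (Fin 9 × Fin 9)) ∧ op9 v u = u) ∨ (u, v, op9 v u) ∈ lines9 ∨ (v, u, op9 v u) ∈ lines9 ∨
    (u, op9 v u, v) ∈ lines9 ∨ (op9 v u, u, v) ∈ lines9 ∨ (v, op9 v u, u) ∈ lines9 ∨
    (op9 v u, v, u) ∈ lines9 := by decide +kernel

theorem opinj9 : ∀ v : Fin 9, Function.Injective (op9 v) := by decide +kernel

theorem tr9 : ∀ u : Fin 9, ∃ v₁ v₂ : Fin 9, op9 v₁ (op9 v₂ u) = 0 := by decide +kernel

theorem gen9 : ∀ P : Fin 9 → Prop, P 0 → P 3 → P 1 → (∀ v u, P v → P u → P (op9 v u)) →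
    ∀ u, P u := by
  intro P h0 h3 h1 hcl
  have h6 : P 6 := hcl 0 3 h0 h3
  have h2 : P 2 := hcl 0 1 h0 h1
  have h8 : P 8 := hcl 3 1 h3 h1
  have h7 : P 7 := hcl 3 2 h3 h2
  have h5 : P 5 := hcl 6 1 h6 h1
  have h4 : P 4 := hcl 6 2 h6 h2
  intro u
  fin_cases u <;> assumption

theorem aff_fwd : ∀ v0 v1 w0 w1 : ZMod 3, (w0 ≠ 0 ∨ w1 ≠ 0) →
    op9 (idx (v0 + w0) (v1 + w1)) (idx v0 v1) ≠ idx v0 v1 ∧ ∀ x0 x1 : ZMod 3,
      (∃ c : ZMod 3, x0 = v0 + c * w0 ∧ x1 = v1 + c * w1) ↔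
        ((x0 = c0 (idx v0 v1) ∧ x1 = c1 (idx v0 v1)) ∨
          (x0 = c0 (idx (v0 + w0) (v1 + w1)) ∧ x1 = c1 (idx (v0 + w0) (v1 + w1))) ∨
          (x0 = c0 (op9 (idx (v0 + w0) (v1 + w1)) (idx v0 v1)) ∧
            x1 = c1 (op9 (idx (v0 + w0) (v1 + w1)) (idx v0 v1)))) := by decide +kernel

theorem aff_bwd : ∀ u v : Fin 9, op9 v u ≠ u → (c0 v - c0 u ≠ 0 ∨ c1 v - c1 u ≠ 0) ∧
    ∀ x0 x1 : ZMod 3, ((x0 = c0 u ∧ x1 = c1 u) ∨ (x0 = c0 v ∧ x1 = c1 v) ∨
      (x0 = c0 (op9 v u) ∧ x1 = c1 (op9 v u))) ↔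
        ∃ c : ZMod 3, x0 = c0 u + c * (c0 v - c0 u) ∧ x1 = c1 u + c * (c1 v - c1 u) := by
  decide +kernel

theorem pts_eq (x : Fin 2 → ZMod 3) (i : Fin 9) : x = pts9 i ↔ (x 0 = c0 i ∧ x 1 = c1 i) := by
  constructor
  · rintro rfl
    exact ⟨rfl, rfl⟩
  · rintro ⟨h0, h1⟩
    ext k
    fin_cases k
    · exact h0
    · exact h1

theorem aff_hN (l : Set (Fin 2 → ZMod 3)) :
    l ∈ affinePlaneThree ↔ ∃ u v : Fin 9, op9 v u ≠ u ∧
      l = {(Equiv.ofBijective pts9 pts9_bij) u, (Equiv.ofBijective pts9 pts9_bij) v,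
        (Equiv.ofBijective pts9 pts9_bij) (op9 v u)} := by
  simp only [Equiv.ofBijective_apply]
  constructor
  · rintro ⟨v, w, hw, rfl⟩
    have hw' : w 0 ≠ 0 ∨ w 1 ≠ 0 := by
      by_contra hcon
      rw [not_or, not_not, not_not] at hcon
      apply hw
      ext k
      fin_cases k
      · exact hcon.1
      · exact hcon.2
    obtain ⟨hne, H⟩ := aff_fwd (v 0) (v 1) (w 0) (w 1) hw'
    refine ⟨idx (v 0) (v 1), idx (v 0 + w 0) (v 1 + w 1), hne, ?_⟩
    ext x
    simp only [Set.mem_setOf_eq, Set.mem_insert_iff, Set.mem_singleton_iff]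
    rw [pts_eq, pts_eq, pts_eq, ← H (x 0) (x 1)]
    constructor
    · rintro ⟨c, rfl⟩
      exact ⟨c, by simp, by simp⟩
    · rintro ⟨c, h0, h1⟩
      refine ⟨c, ?_⟩
      ext k
      fin_cases k
      · simpa using h0
      · simpa using h1
  · rintro ⟨u, v, hne, rfl⟩
    obtain ⟨hw, H⟩ := aff_bwd u v hne
    refine ⟨pts9 u, pts9 v - pts9 u, ?_, ?_⟩
    · intro e
      have e0 : c0 v - c0 u = 0 := congrFun e 0
      have e1 : c1 v - c1 u = 0 := congrFun e 1
      rcases hw with hw | hw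
      · exact hw e0
      · exact hw e1
    · ext x
      simp only [Set.mem_setOf_eq, Set.mem_insert_iff, Set.mem_singleton_iff]
      rw [pts_eq, pts_eq, pts_eq, H (x 0) (x 1)]
      constructor
      · rintro ⟨c, h0, h1⟩
        refine ⟨c, ?_⟩
        ext k
        fin_cases k
        · simpa [pts9] using h0
        · simpa [pts9] using h1
      · rintro ⟨c, rfl⟩
        exact ⟨c, by simp [pts9], by simp [pts9]⟩

end affmodel

section cases

variable {G : Type*} [Group G] {D : Set G}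

theorem conj3 {c x y : G} (hc : c * c = 1) :
    c * (x * y * x) * c = (c * x * c) * (c * y * c) * (c * x * c) := by
  have e : (c * x * c) * (c * y * c) * (c * x * c) = c * x * (c * c) * y * (c * c) * x * c := by
    group
  rw [e, hc]
  group

theorem comm_conj {x y a : G} (hy : y * y = 1) (hc : Commute (y * x * y) a) :
    Commute x (y * a * y) := by
  have h1 : x * (y * a * y) = y * (y * x * y * a) * y := by
    calc x * (y * a * y) = (y * y) * x * (y * a * y) := by rw [hy, one_mul]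
      _ = y * (y * x * y * a) * y := by group
  have h2 : y * a * y * x = y * (a * (y * x * y)) * y := by
    calc y * a * y * x = y * a * y * x * (y * y) := by rw [hy, mul_one]
      _ = y * (a * (y * x * y)) * y := by group
  have h3 : y * x * y * a = a * (y * x * y) := hc
  show x * (y * a * y) = y * a * y * x
  rw [h1, h2, h3]

theorem comm_conj2 {a x y : G} (ha : a * a = 1) (hc : Commute x y) :
    Commute (a * x * a) (a * y * a) := by
  have h0 : x * y = y * x := hc
  have h1 : a * x * a * (a * y * a) = a * (x * y) * a := by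
    calc a * x * a * (a * y * a) = a * x * (a * a) * y * a := by group
      _ = a * (x * y) * a := by rw [ha]; group
  have h2 : a * y * a * (a * x * a) = a * (y * x) * a := by
    calc a * y * a * (a * x * a) = a * y * (a * a) * x * a := by group
      _ = a * (y * x) * a := by rw [ha]; group
  show a * x * a * (a * y * a) = a * y * a * (a * x * a)
  rw [h1, h2, h0]

theorem nc_of_ne {x y z : G} (hy : y * y = 1) (e : y * x * y = z) (hne : z ≠ x) :
    ¬ Commute x y := by
  intro hc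
  apply hne
  have h0 : x * y = y * x := hc
  rw [← e, ← h0, mul_assoc, hy, mul_one]

theorem conj_inj {y u w : G} (e : y * u * y = y * w * y) : u = w :=
  mul_left_cancel (mul_right_cancel e)

theorem comm_of_conj {a e : G} (ha : a * a = 1) (h : a * e * a = e) : Commute a e := by
  show a * e = e * a
  calc a * e = a * e * (a * a) := by rw [ha, mul_one]
    _ = (a * e * a) * a := by group
    _ = e * a := by rw [h]

theorem dual_nc (h : H3 D) {a b b' c c' : G} (tab : Tr D a b b') (tac : Tr D a c c')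
    (hbc : Commute b c) : ¬ Commute b' c := by
  intro hcon
  have haa := h.1 a tab.1
  obtain ⟨ab1, ab2, ab3, ab4, ab5, ab6⟩ := tab.all h
  obtain ⟨ac1, ac2, ac3, ac4, ac5, ac6⟩ := tac.all h
  have h1 := comm_conj2 haa hcon
  rw [ab4, ac2] at h1
  have h2 : Commute b (c * c' * c) := (hbc.mul_right h1).mul_right hbc
  rw [ac6] at h2
  exact tab.2.2.2.1 h2.symm

theorem dual_case (h : H3 D) {a b b' c c' : G} (tab : Tr D a b b') (tac : Tr D a c c')
    (hbc : Commute b c) (hne : b ≠ c) (S₀ : Set D)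
    (hS₀ : ∀ x : D, x ∈ S₀ ↔
      ((x : G) = a ∨ (x : G) = b ∨ (x : G) = b' ∨ (x : G) = c ∨ (x : G) = c')) :
    Isomorphic (restrict (threeTranspositionLines D) (span (threeTranspositionLines D) S₀))
      dualAffinePlaneTwo := by
  have haD := tab.1
  have hbD := tab.2.1
  have hb'D := tab.2.2.1
  have hcD := tac.2.1
  have hc'D := tac.2.2.1
  have haa := h.1 a haD
  have hbb := h.1 b hbD
  have hcc := h.1 c hcD
  obtain ⟨ab1, ab2, ab3, ab4, ab5, ab6⟩ := tab.all h
  obtain ⟨ac1, ac2, ac3, ac4, ac5, ac6⟩ := tac.all h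
  have hb'c' : Commute b' c' := by
    have h1 := comm_conj2 haa hbc
    rw [ab2, ac2] at h1
    exact h1
  have n1 : ¬ Commute b' c := dual_nc h tab tac hbc
  have n2 : ¬ Commute c' b := dual_nc h tac tab hbc.symm
  have t3 : Tr D b' c (c * b' * c) := tr_mk h hb'D hcD n1
  have hbe : b * (c * b' * c) * b = c' := by
    have hbcb : b * c * b = c := by
      have h0 : b * c = c * b := hbc
      rw [h0, mul_assoc, hbb, mul_one]
    rw [conj3 hbb, hbcb, ab6]
    exact ac1
  have e4 : b * c' * b = c * b' * c := by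
    calc b * c' * b = b * (b * (c * b' * c) * b) * b := by rw [hbe]
      _ = (b * b) * (c * b' * c) * (b * b) := by group
      _ = c * b' * c := by rw [hbb, one_mul, mul_one]
  have t4 : Tr D c' b (c * b' * c) := ⟨hc'D, hbD, t3.2.2.1, n2, e4⟩
  have hae : Commute a (c * b' * c) := by
    apply comm_of_conj haa
    rw [conj3 haa, ac2, ab4]
    exact (t4.all h).2.1
  have hea : c * b' * c ≠ a := by
    intro hcon
    have h1 : c * (c * b' * c) * c = b' := by
      calc c * (c * b' * c) * c = (c * c) * b' * (c * c) := by group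
        _ = b' := by rw [hcc, one_mul, mul_one]
    rw [hcon, ac1] at h1
    apply hne
    apply conj_inj (y := a)
    rw [ab2, ac2, h1]
  have hgD : ∀ i : Fin 6, (![a, b, c, b', c', c * b' * c] : Fin 6 → G) i ∈ D := by
    intro i
    fin_cases i
    exacts [haD, hbD, hcD, hb'D, hc'D, t3.2.2.1]
  have hl : ∀ t ∈ lines6, Tr D ((![a, b, c, b', c', c * b' * c] : Fin 6 → G) t.1)
      ((![a, b, c, b', c', c * b' * c] : Fin 6 → G) t.2.1)
      ((![a, b, c, b', c', c * b' * c] : Fin 6 → G) t.2.2) := by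
    intro t ht
    simp only [lines6, List.mem_cons, List.not_mem_nil, or_false] at ht
    rcases ht with rfl | rfl | rfl | rfl
    exacts [tab, tac, t3, t4]
  have hc : ∀ t ∈ comm6, Commute ((![a, b, c, b', c', c * b' * c] : Fin 6 → G) t.1)
      ((![a, b, c, b', c', c * b' * c] : Fin 6 → G) t.2) := by
    intro t ht
    simp only [comm6, List.mem_cons, List.not_mem_nil, or_false] at ht
    rcases ht with rfl | rfl | rfl
    exacts [hbc, hb'c', hae]
  have hop := hop_of_lines h _ op6 lines6 comm6 hgD hl hc chk6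
  have hinj0 : ∀ j : Fin 6, (![a, b, c, b', c', c * b' * c] : Fin 6 → G) j =
      (![a, b, c, b', c', c * b' * c] : Fin 6 → G) 0 → j = 0 := by
    intro j hj
    fin_cases j
    exacts [rfl, absurd hj tab.ne12.symm, absurd hj tac.ne12.symm, absurd hj (tab.ne13 h).symm,
      absurd hj (tac.ne13 h).symm, absurd hj hea]
  refine plane_iso h _ op6 0 hgD hop hinj0 opinj6 tr6 dualAffinePlaneTwo
    (Equiv.ofBijective pts6 pts6_bij) dual_hN S₀ ?_ 0 1 2 ?_ ?_ ?_ gen6
  · intro x hx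
    rcases (hS₀ x).mp hx with e | e | e | e | e
    exacts [⟨0, e.symm⟩, ⟨1, e.symm⟩, ⟨3, e.symm⟩, ⟨2, e.symm⟩, ⟨4, e.symm⟩]
  · exact (hS₀ _).mpr (Or.inl rfl)
  · exact (hS₀ _).mpr (Or.inr (Or.inl rfl))
  · exact (hS₀ _).mpr (Or.inr (Or.inr (Or.inr (Or.inl rfl))))

theorem aff_case (h : H3 D) {a b b' c c' : G} (tab : Tr D a b b') (tac : Tr D a c c')
    (n1 : ¬ Commute b c) (n2 : ¬ Commute b c') (n3 : ¬ Commute b' c) (n4 : ¬ Commute b' c')
    (S₀ : Set D)
    (hS₀ : ∀ x : D, x ∈ S₀ ↔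
      ((x : G) = a ∨ (x : G) = b ∨ (x : G) = b' ∨ (x : G) = c ∨ (x : G) = c')) :
    Isomorphic (restrict (threeTranspositionLines D) (span (threeTranspositionLines D) S₀))
      affinePlaneThree := by
  have haD := tab.1
  have hbD := tab.2.1
  have hb'D := tab.2.2.1
  have hcD := tac.2.1
  have hc'D := tac.2.2.1
  have haa := h.1 a haD
  have hbb := h.1 b hbD
  have hb'b' := h.1 b' hb'D
  have hcc := h.1 c hcD
  have hc'c' := h.1 c' hc'D
  obtain ⟨ab1, ab2, ab3, ab4, ab5, ab6⟩ := tab.all h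
  obtain ⟨ac1, ac2, ac3, ac4, ac5, ac6⟩ := tac.all h
  have t1 : Tr D c b (b * c * b) := tr_mk h hcD hbD (fun hc => n1 hc.symm)
  have t2 : Tr D c' b (b * c' * b) := tr_mk h hc'D hbD (fun hc => n2 hc.symm)
  have t3 : Tr D c b' (b' * c * b') := tr_mk h hcD hb'D (fun hc => n3 hc.symm)
  have t4 : Tr D c' b' (b' * c' * b') := tr_mk h hc'D hb'D (fun hc => n4 hc.symm)
  have e5 : a * (b * c * b) * a = b' * c' * b' := by
    rw [conj3 haa, ab2, ac2]
  have nc5 : ¬ Commute (b * c * b) a := by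
    intro hcon
    have h1 := comm_conj hbb hcon
    rw [ab1] at h1
    exact n3 h1.symm
  have t5 : Tr D (b * c * b) a (b' * c' * b') := ⟨t1.2.2.1, haD, t4.2.2.1, nc5, e5⟩
  have e6 : a * (b * c' * b) * a = b' * c * b' := by
    rw [conj3 haa, ab2, ac4]
  have nc6 : ¬ Commute (b * c' * b) a := by
    intro hcon
    have h1 := comm_conj hbb hcon
    rw [ab1] at h1
    exact n4 h1.symm
  have t6 : Tr D (b * c' * b) a (b' * c * b') := ⟨t2.2.2.1, haD, t3.2.2.1, nc6, e6⟩
  obtain ⟨q1, q2, q3, q4, q5, q6⟩ := t5.all h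
  obtain ⟨r1, r2, r3, r4, r5, r6⟩ := t6.all h
  have e7 : c * (b * c' * b) * c = b' * c' * b' := by
    rw [conj3 hcc, (t1.all h).2.1, ac6, q2]
  have ne7 : b' * c' * b' ≠ b * c' * b := by
    intro hcon
    rw [← (t4.all h).2.1, ← (t2.all h).2.1] at hcon
    exact tab.ne23 h (conj_inj hcon).symm
  have t7 : Tr D (b * c' * b) c (b' * c' * b') :=
    ⟨t2.2.2.1, hcD, t4.2.2.1, nc_of_ne hcc e7 ne7, e7⟩
  have e8 : c' * (b' * c * b') * c' = b * c * b := by
    rw [conj3 hc'c', (t4.all h).2.1, ac5, q5]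
  have ne8 : b * c * b ≠ b' * c * b' := by
    intro hcon
    rw [← (t1.all h).2.1, ← (t3.all h).2.1] at hcon
    exact tab.ne23 h (conj_inj hcon)
  have t8 : Tr D (b' * c * b') c' (b * c * b) :=
    ⟨t3.2.2.1, hc'D, t1.2.2.1, nc_of_ne hc'c' e8 ne8, e8⟩
  have e9 : b * (b' * c' * b') * b = b' * c * b' := by
    rw [conj3 hbb, ab6, r1]
  have ne9 : b' * c * b' ≠ b' * c' * b' := fun hcon => tac.ne23 h (conj_inj hcon)
  have t9 : Tr D (b' * c' * b') b (b' * c * b') :=
    ⟨t4.2.2.1, hbD, t3.2.2.1, nc_of_ne hbb e9 ne9, e9⟩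
  have e10 : b' * (b * c' * b) * b' = b * c * b := by
    rw [conj3 hb'b', ab5, q6]
  have ne10 : b * c * b ≠ b * c' * b := fun hcon => tac.ne23 h (conj_inj hcon)
  have t10 : Tr D (b * c' * b) b' (b * c * b) :=
    ⟨t2.2.2.1, hb'D, t1.2.2.1, nc_of_ne hb'b' e10 ne10, e10⟩
  have hgD : ∀ i : Fin 9, (![a, c, c', b, b' * c' * b', b' * c * b', b', b * c' * b,
      b * c * b] : Fin 9 → G) i ∈ D := by
    intro i
    fin_cases i
    exacts [haD, hcD, hc'D, hbD, t4.2.2.1, t3.2.2.1, hb'D, t2.2.2.1, t1.2.2.1]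
  have hl : ∀ t ∈ lines9, Tr D
      ((![a, c, c', b, b' * c' * b', b' * c * b', b', b * c' * b, b * c * b] : Fin 9 → G) t.1)
      ((![a, c, c', b, b' * c' * b', b' * c * b', b', b * c' * b, b * c * b] : Fin 9 → G) t.2.1)
      ((![a, c, c', b, b' * c' * b', b' * c * b', b', b * c' * b, b * c * b] : Fin 9 → G) t.2.2) := by
    intro t ht
    simp only [lines9, List.mem_cons, List.not_mem_nil, or_false] at ht
    rcases ht with rfl | rfl | rfl | rfl | rfl | rfl | rfl | rfl | rfl | rfl | rfl | rfl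
    exacts [tab, tac, t1, t2, t3, t4, t5, t6, t7, t8, t9, t10]
  have hc : ∀ t ∈ ([] : List (Fin 9 × Fin 9)), Commute
      ((![a, c, c', b, b' * c' * b', b' * c * b', b', b * c' * b, b * c * b] : Fin 9 → G) t.1)
      ((![a, c, c', b, b' * c' * b', b' * c * b', b', b * c' * b, b * c * b] : Fin 9 → G) t.2) := by
    intro t ht
    exact absurd ht (List.not_mem_nil)
  have hop := hop_of_lines h _ op9 lines9 [] hgD hl hc chk9
  have hinj0 : ∀ j : Fin 9,
      (![a, c, c', b, b' * c' * b', b' * c * b', b', b * c' * b, b * c * b] : Fin 9 → G) j =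
      (![a, c, c', b, b' * c' * b', b' * c * b', b', b * c' * b, b * c * b] : Fin 9 → G) 0 →
      j = 0 := by
    intro j hj
    fin_cases j
    exacts [rfl, absurd hj tac.ne12.symm, absurd hj (tac.ne13 h).symm, absurd hj tab.ne12.symm,
      absurd hj (t5.ne23 h).symm, absurd hj (t6.ne23 h).symm, absurd hj (tab.ne13 h).symm,
      absurd hj t6.ne12, absurd hj t5.ne12]
  refine plane_iso h _ op9 0 hgD hop hinj0 opinj9 tr9 affinePlaneThree
    (Equiv.ofBijective pts9 pts9_bij) aff_hN S₀ ?_ 0 3 1 ?_ ?_ ?_ gen9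
  · intro x hx
    rcases (hS₀ x).mp hx with e | e | e | e | e
    exacts [⟨0, e.symm⟩, ⟨3, e.symm⟩, ⟨6, e.symm⟩, ⟨1, e.symm⟩, ⟨2, e.symm⟩]
  · exact (hS₀ _).mpr (Or.inl rfl)
  · exact (hS₀ _).mpr (Or.inr (Or.inl rfl))
  · exact (hS₀ _).mpr (Or.inr (Or.inr (Or.inr (Or.inl rfl))))

theorem main [Finite G] (hD : IsThreeTranspositionGroup D) :
    IsFischerSpace (threeTranspositionLines D) := by
  have h := h3_of D hD
  refine ⟨partial_linear h, ncard_three h, ?_⟩
  rintro l hl m hm hne ⟨p, hpl, hpm⟩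
  obtain ⟨b, b', tab, rfl⟩ := line_of_one h hl hpl
  obtain ⟨c, c', tac, rfl⟩ := line_of_one h hm hpm
  have hb : b ∉ ({p, c, c'} : Set D) := by
    intro hb
    apply hne
    exact partial_linear h _ hl _ hm p b (fun e => tab.ne12 (congrArg Subtype.val e)) (by simp)
      (by simp) (by simp) hb
  have hb' : b' ∉ ({p, c, c'} : Set D) := by
    intro hb
    apply hne
    exact partial_linear h _ hl _ hm p b' (fun e => tab.ne13 h (congrArg Subtype.val e))
      (by simp) (by simp) (by simp) hb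
  have n1 : (b : G) ≠ c := fun e => hb (by rw [Subtype.ext e]; simp)
  have n2 : (b : G) ≠ c' := fun e => hb (by rw [Subtype.ext e]; simp)
  have n3 : (b' : G) ≠ c := fun e => hb' (by rw [Subtype.ext e]; simp)
  have n4 : (b' : G) ≠ c' := fun e => hb' (by rw [Subtype.ext e]; simp)
  by_cases h1 : Commute (b : G) c
  · left
    refine dual_case h tab tac h1 n1 _ ?_
    intro x
    simp only [Set.mem_union, Set.mem_insert_iff, Set.mem_singleton_iff, Subtype.ext_iff]
    tauto
  by_cases h2 : Commute (b : G) c'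
  · left
    refine dual_case h tab (tac.rot h) h2 n2 _ ?_
    intro x
    simp only [Set.mem_union, Set.mem_insert_iff, Set.mem_singleton_iff, Subtype.ext_iff]
    tauto
  by_cases h3 : Commute (b' : G) c
  · left
    refine dual_case h (tab.rot h) tac h3 n3 _ ?_
    intro x
    simp only [Set.mem_union, Set.mem_insert_iff, Set.mem_singleton_iff, Subtype.ext_iff]
    tauto
  by_cases h4 : Commute (b' : G) c'
  · left
    refine dual_case h (tab.rot h) (tac.rot h) h4 n4 _ ?_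
    intro x
    simp only [Set.mem_union, Set.mem_insert_iff, Set.mem_singleton_iff, Subtype.ext_iff]
    tauto
  · right
    refine aff_case h tab tac h1 h2 h3 h4 _ ?_
    intro x
    simp only [Set.mem_union, Set.mem_insert_iff, Set.mem_singleton_iff, Subtype.ext_iff]
    tauto

end cases

end Cfsg.Agent.Helper27.TTLines
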