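import Mathlib
import Cfsg.Prelude.Def_FischerSpaces
import Cfsg.Agent.Helper27.TTLines
import Cfsg.Agent.Helper12.S4

set_option autoImplicit false

namespace Cfsg.Agent.Helper27.TTS4

open Cfsg Cfsg.Agent.Helper27.TTLines Cfsg.Agent.Helper12

/-- Variant of `Cfsg.Agent.Helper12.exists_s4_of_rel` recording that the subgroup contains the
four given elements (same proof). -/
theorem s4_of_rel_mem {G : Type*} [Group G] [Finite G] (a b c t : G)
    (haa : a * a = 1) (hbb : b * b = 1) (hab : a * b = b * a) (ha : a ≠ 1) (hb : b ≠ 1)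
    (hne : a ≠ b) (hc : orderOf c = 3) (hca : c * a * c⁻¹ = b) (hcb : c * b * c⁻¹ = a * b)
    (htt : t * t = 1) (ht1 : t ≠ 1) (hta : t * a * t⁻¹ = b) (htb : t * b * t⁻¹ = a)
    (htc : t * c * t⁻¹ = c⁻¹) :
    ∃ H : Subgroup G, a ∈ H ∧ b ∈ H ∧ c ∈ H ∧ t ∈ H ∧ Nonempty (H ≃* Equiv.Perm (Fin 4)) := by
  have hto : orderOf t = 2 := orderOf_eq_prime (by rw [pow_two]; exact htt) ht1
  have hcab : c * (a * b) * c⁻¹ = a := by
    calc c * (a * b) * c⁻¹ = (c * a * c⁻¹) * (c * b * c⁻¹) := by group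
      _ = b * (a * b) := by rw [hca, hcb]
      _ = (b * a) * b := by rw [mul_assoc]
      _ = a * (b * b) := by rw [← hab, mul_assoc]
      _ = a := by rw [hbb, mul_one]
  have hcia : c⁻¹ * a * c = a * b := by
    calc c⁻¹ * a * c = c⁻¹ * (c * (a * b) * c⁻¹) * c := by rw [hcab]
      _ = a * b := by group
  have htab : t * (a * b) * t⁻¹ = a * b := by
    calc t * (a * b) * t⁻¹ = (t * a * t⁻¹) * (t * b * t⁻¹) := by group
      _ = b * a := by rw [hta, htb]
      _ = a * b := hab.symm
  have hab1 : a * b ≠ a := by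
    intro h
    apply hb
    have h1 : a * b = a * 1 := by rw [mul_one]; exact h
    exact mul_left_cancel h1
  have hab2 : a * b ≠ b := by
    intro h
    apply ha
    have h1 : a * b = 1 * b := by rw [one_mul]; exact h
    exact mul_right_cancel h1
  obtain ⟨V, hVdef⟩ : ∃ V : Subgroup G, V = S0807.kv a b haa hbb hab := ⟨_, rfl⟩
  have hVK : IsKleinFour V := by
    rw [hVdef]; exact S0807.isKleinFour_kv a b haa hbb hab ha hb hne
  have hVcard : Nat.card V = 4 := hVK.card_four
  have hVmem : ∀ v, v ∈ V ↔ v = 1 ∨ v = a ∨ v = b ∨ v = a * b := by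
    intro v; rw [hVdef]; exact S0807.mem_kv
  have haV : a ∈ V := (hVmem a).mpr (Or.inr (Or.inl rfl))
  have hbV : b ∈ V := (hVmem b).mpr (Or.inr (Or.inr (Or.inl rfl)))
  have hVcomm : ∀ v ∈ V, ∀ w ∈ V, v * w = w * v := fun v hv w hw =>
    S0807.klein_comm V v w hv hw
  have hcV : ∀ v ∈ V, c * v * c⁻¹ ∈ V := by
    intro v hv
    rcases (hVmem v).mp hv with h | h | h | h
    · rw [h, mul_one, mul_inv_cancel]; exact V.one_mem
    · rw [h, hca]; exact hbV
    · rw [h, hcb]; exact V.mul_mem haV hbV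
    · rw [h, hcab]; exact haV
  have htV : ∀ v ∈ V, t * v * t⁻¹ ∈ V := by
    intro v hv
    rcases (hVmem v).mp hv with h | h | h | h
    · rw [h, mul_one, mul_inv_cancel]; exact V.one_mem
    · rw [h, hta]; exact hbV
    · rw [h, htb]; exact haV
    · rw [h, htab]; exact V.mul_mem haV hbV
  obtain ⟨K, hKdef⟩ : ∃ K : Subgroup G, K = Subgroup.zpowers c := ⟨_, rfl⟩
  obtain ⟨T, hTdef⟩ : ∃ T : Subgroup G, T = Subgroup.zpowers t := ⟨_, rfl⟩
  have hKcard : Nat.card K = 3 := by rw [hKdef, Nat.card_zpowers, hc]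
  have hTcard : Nat.card T = 2 := by rw [hTdef, Nat.card_zpowers, hto]
  have hcK : c ∈ K := by rw [hKdef]; exact Subgroup.mem_zpowers c
  have htT : t ∈ T := by rw [hTdef]; exact Subgroup.mem_zpowers t
  have hKmem : ∀ k ∈ K, k = 1 ∨ k = c ∨ k = c⁻¹ := by
    intro k hk; rw [hKdef] at hk; exact mem_zpowers_order_three c hc k hk
  have hTmem : ∀ k ∈ T, k = 1 ∨ k = t := by
    intro k hk; rw [hTdef] at hk; exact mem_zpowers_order_two t hto k hk
  have htK : ∀ k ∈ K, t * k * t⁻¹ ∈ K := by
    intro k hk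
    rcases hKmem k hk with h | h | h
    · rw [h, mul_one, mul_inv_cancel]; exact K.one_mem
    · rw [h, htc]; exact K.inv_mem hcK
    · rw [h]
      have e : t * c⁻¹ * t⁻¹ = (t * c * t⁻¹)⁻¹ := by group
      rw [e, htc, inv_inv]; exact hcK
  have hTK : ∀ k ∈ T, ∀ v ∈ K, k * v * k⁻¹ ∈ K := by
    rw [hTdef]; exact conj_mem_of_mem_zpowers K t htK
  have hKV : ∀ k ∈ K, ∀ v ∈ V, k * v * k⁻¹ ∈ V := by
    rw [hKdef]; exact conj_mem_of_mem_zpowers V c hcV
  have hTV : ∀ k ∈ T, ∀ v ∈ V, k * v * k⁻¹ ∈ V := by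
    rw [hTdef]; exact conj_mem_of_mem_zpowers V t htV
  obtain ⟨S, hSdef⟩ : ∃ S : Subgroup G, S = prodSubgroup K T hTK := ⟨_, rfl⟩
  have hSmem : ∀ s, s ∈ S ↔ ∃ k ∈ K, ∃ u ∈ T, s = k * u := by
    intro s; rw [hSdef]; exact mem_prodSubgroup K T hTK s
  have hSV : ∀ s ∈ S, ∀ v ∈ V, s * v * s⁻¹ ∈ V := by
    intro s hs v hv
    obtain ⟨k, hk, u, hu, rfl⟩ := (hSmem s).mp hs
    have e : k * u * v * (k * u)⁻¹ = k * (u * v * u⁻¹) * k⁻¹ := by group
    rw [e]
    exact hKV k hk _ (hTV u hu v hv)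
  have hcent : ∀ z ∈ S, z * a * z⁻¹ = a → z * b * z⁻¹ = b → z = 1 := by
    intro z hz hza hzb
    obtain ⟨k, hk, u, hu, hzku⟩ := (hSmem z).mp hz
    rcases hKmem k hk with hk1 | hk1 | hk1 <;> rcases hTmem u hu with hu1 | hu1 <;>
      rw [hk1, hu1] at hzku <;> rw [hzku] at hza hzb ⊢
    · rw [mul_one]
    · exfalso
      have e : 1 * t * a * (1 * t)⁻¹ = t * a * t⁻¹ := by group
      rw [e, hta] at hza
      exact hne hza.symm
    · exfalso
      have e : c * 1 * a * (c * 1)⁻¹ = c * a * c⁻¹ := by group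
      rw [e, hca] at hza
      exact hne hza.symm
    · exfalso
      have e : c * t * a * (c * t)⁻¹ = c * (t * a * t⁻¹) * c⁻¹ := by group
      rw [e, hta, hcb] at hza
      exact hab1 hza
    · exfalso
      have e : c⁻¹ * 1 * a * (c⁻¹ * 1)⁻¹ = c⁻¹ * a * c := by group
      rw [e, hcia] at hza
      exact hab1 hza
    · exfalso
      have e : c⁻¹ * t * b * (c⁻¹ * t)⁻¹ = c⁻¹ * (t * b * t⁻¹) * c := by group
      rw [e, htb, hcia] at hzb
      exact hab2 hzb
  obtain ⟨H, hHdef⟩ : ∃ H : Subgroup G, H = prodSubgroup V S hSV := ⟨_, rfl⟩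
  have hHmem : ∀ g, g ∈ H ↔ ∃ v ∈ V, ∃ s ∈ S, g = v * s := by
    intro g; rw [hHdef]; exact mem_prodSubgroup V S hSV g
  have hVH : V ≤ H := fun v hv => (hHmem v).mpr ⟨v, hv, 1, S.one_mem, (mul_one v).symm⟩
  have hSH : S ≤ H := fun s hs => (hHmem s).mpr ⟨1, V.one_mem, s, hs, (one_mul s).symm⟩
  have hKS : K ≤ S := fun k hk => (hSmem k).mpr ⟨k, hk, 1, T.one_mem, (mul_one k).symm⟩
  have hTS : T ≤ S := fun u hu => (hSmem u).mpr ⟨1, K.one_mem, u, hu, (one_mul u).symm⟩
  have hVS1 : ∀ z, z ∈ V → z ∈ S → z = 1 := by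
    intro z hzV hzS
    apply hcent z hzS
    · rw [hVcomm z hzV a haV, mul_inv_cancel_right]
    · rw [hVcomm z hzV b hbV, mul_inv_cancel_right]
  have hScard : Nat.card S = 6 := by
    have hle : Nat.card S ≤ 6 := by
      have hsurj : Function.Surjective (fun p : K × T => (⟨(p.1 : G) * (p.2 : G),
          (hSmem _).mpr ⟨p.1, p.1.2, p.2, p.2.2, rfl⟩⟩ : S)) := by
        rintro ⟨s, hs⟩
        obtain ⟨k, hk, u, hu, rfl⟩ := (hSmem s).mp hs
        exact ⟨(⟨k, hk⟩, ⟨u, hu⟩), rfl⟩
      have h1 := Nat.card_le_card_of_surjective _ hsurj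
      rw [Nat.card_prod, hKcard, hTcard] at h1
      exact h1
    have h3 : 3 ∣ Nat.card S := by rw [← hKcard]; exact Subgroup.card_dvd_of_le hKS
    have h2 : 2 ∣ Nat.card S := by rw [← hTcard]; exact Subgroup.card_dvd_of_le hTS
    have hpos : 0 < Nat.card S := Nat.card_pos
    omega
  have hHcard : Nat.card H = 24 := by
    have hbij : Function.Bijective (fun p : V × S => (⟨(p.1 : G) * (p.2 : G),
        (hHmem _).mpr ⟨p.1, p.1.2, p.2, p.2.2, rfl⟩⟩ : H)) := by
      constructor
      · rintro ⟨⟨v, hv⟩, ⟨s, hs⟩⟩ ⟨⟨v', hv'⟩, ⟨s', hs'⟩⟩ h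
        have h1 : v * s = v' * s' := congrArg Subtype.val h
        have h2 : v'⁻¹ * v = s' * s⁻¹ := by
          calc v'⁻¹ * v = v'⁻¹ * (v * s) * s⁻¹ := by group
            _ = v'⁻¹ * (v' * s') * s⁻¹ := by rw [h1]
            _ = s' * s⁻¹ := by group
        have h3 : v'⁻¹ * v = 1 :=
          hVS1 _ (V.mul_mem (V.inv_mem hv') hv) (by rw [h2]; exact S.mul_mem hs' (S.inv_mem hs))
        have h4 : v = v' := by
          calc v = v' * (v'⁻¹ * v) := by group
            _ = v' := by rw [h3, mul_one]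
        have h5 : s = s' := by
          rw [h4] at h1; exact mul_left_cancel h1
        subst h4
        subst h5
        rfl
      · rintro ⟨g, hg⟩
        obtain ⟨v, hv, s, hs, rfl⟩ := (hHmem g).mp hg
        exact ⟨(⟨v, hv⟩, ⟨s, hs⟩), rfl⟩
    have h := Nat.card_congr (Equiv.ofBijective _ hbij)
    rw [Nat.card_prod, hVcard, hScard] at h
    omega
  have hcoreG : ∀ n ∈ S, (∀ g ∈ H, g * n * g⁻¹ ∈ S) → n = 1 := by
    intro n hn hconj
    have hcomm : ∀ v ∈ V, v * n * v⁻¹ = n := by
      intro v hv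
      have h1 : v * n * v⁻¹ * n⁻¹ ∈ S := S.mul_mem (hconj v (hVH hv)) (S.inv_mem hn)
      have h2 : v * n * v⁻¹ * n⁻¹ ∈ V := by
        have e : v * n * v⁻¹ * n⁻¹ = v * (n * v⁻¹ * n⁻¹) := by group
        rw [e]; exact V.mul_mem hv (hSV n hn _ (V.inv_mem hv))
      have h3 := hVS1 _ h2 h1
      calc v * n * v⁻¹ = (v * n * v⁻¹ * n⁻¹) * n := by group
        _ = n := by rw [h3, one_mul]
    apply hcent n hn
    · rw [← mul_inv_eq_iff_eq_mul.mp (hcomm a haV), mul_inv_cancel_right]
    · rw [← mul_inv_eq_iff_eq_mul.mp (hcomm b hbV), mul_inv_cancel_right]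
  have hS' : Nat.card (S.subgroupOf H) = 6 := by
    rw [Nat.card_congr (Subgroup.subgroupOfEquivOfLe hSH).toEquiv, hScard]
  refine ⟨H, hVH haV, hVH hbV, hSH (hKS hcK), hSH (hTS htT),
    s4_of_card hHcard (S.subgroupOf H) hS' ?_⟩
  intro n hn
  have h1 : (n : G) ∈ S := by
    have h0 := hn 1
    have e : (1 : H) * n * (1 : H)⁻¹ = n := by group
    rw [e, Subgroup.mem_subgroupOf] at h0
    exact h0
  have h2 : (n : G) = 1 := hcoreG n h1 (fun g hg => by
    have h0 := hn ⟨g, hg⟩
    rw [Subgroup.mem_subgroupOf] at h0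
    exact h0)
  exact Subtype.ext h2

section plane

variable {G : Type*} [Group G] {D : Set G}

theorem sq_mul_of_comm {x y : G} (hx : x * x = 1) (hy : y * y = 1) (hc : x * y = y * x) :
    (x * y) * (x * y) = 1 := by
  calc (x * y) * (x * y) = x * (y * x) * y := by group
    _ = x * (x * y) * y := by rw [hc]
    _ = (x * x) * (y * y) := by group
    _ = 1 := by rw [hx, hy, one_mul]

theorem comm_of_sq {x y : G} (hx : x * x = 1) (hy : y * y = 1) (hxy : (x * y) * (x * y) = 1) :
    x * y = y * x := by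
  have h1 : x * y = (x * y)⁻¹ := eq_inv_of_mul_eq_one_left hxy
  rw [h1, mul_inv_rev, inv_eq_of_mul_eq_one_left hx, inv_eq_of_mul_eq_one_left hy]

/-- the basic facts of a dual affine plane with centre `a` and commuting points `b`, `c` -/
theorem dual_pre (h : H3 D) {a b b' c c' : G} (tab : Tr D a b b') (tac : Tr D a c c')
    (hbc : Commute b c) (hne : b ≠ c) :
    Commute b' c' ∧ Tr D b' c (c * b' * c) ∧ Tr D c' b (c * b' * c) ∧
      Commute a (c * b' * c) ∧ c * b' * c ≠ a ∧ b' ≠ c' := by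
  have haD := tab.1
  have hbD := tab.2.1
  have hb'D := tab.2.2.1
  have hcD := tac.2.1
  have hc'D := tac.2.2.1
  have haa := h.1 a haD
  have hbb := h.1 b hbD
  have hcc := h.1 c hcD
  obtain ⟨ab1, ab2, ab3, ab4, ab5, ab6⟩ := tab.all h
  obtain ⟨ac1, ac2, ac3, ac4, ac5, ac6⟩ := tac.all h
  have hb'c' : Commute b' c' := by
    have h1 := comm_conj2 haa hbc
    rw [ab2, ac2] at h1
    exact h1
  have n1 : ¬ Commute b' c := dual_nc h tab tac hbc
  have n2 : ¬ Commute c' b := dual_nc h tac tab hbc.symm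
  have t3 : Tr D b' c (c * b' * c) := tr_mk h hb'D hcD n1
  have hbe : b * (c * b' * c) * b = c' := by
    have hbcb : b * c * b = c := by
      have h0 : b * c = c * b := hbc
      rw [h0, mul_assoc, hbb, mul_one]
    rw [conj3 hbb, hbcb, ab6]
    exact ac1
  have e4 : b * c' * b = c * b' * c := by
    calc b * c' * b = b * (b * (c * b' * c) * b) * b := by rw [hbe]
      _ = (b * b) * (c * b' * c) * (b * b) := by group
      _ = c * b' * c := by rw [hbb, one_mul, mul_one]
  have t4 : Tr D c' b (c * b' * c) := ⟨hc'D, hbD, t3.2.2.1, n2, e4⟩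
  have hae : Commute a (c * b' * c) := by
    apply comm_of_conj haa
    rw [conj3 haa, ac2, ab4]
    exact (t4.all h).2.1
  have hb'c'ne : b' ≠ c' := by
    intro hcon
    apply hne
    apply conj_inj (y := a)
    rw [ab2, ac2, hcon]
  have hea : c * b' * c ≠ a := by
    intro hcon
    have h1 : c * (c * b' * c) * c = b' := by
      calc c * (c * b' * c) * c = (c * c) * b' * (c * c) := by group
        _ = b' := by rw [hcc, one_mul, mul_one]
    rw [hcon, ac1] at h1
    exact hb'c'ne h1.symm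
  exact ⟨hb'c', t3, t4, hae, hea, hb'c'ne⟩

/-- further relations in the plane -/
theorem dual_facts (h : H3 D) {a b b' c c' : G} (tab : Tr D a b b') (tac : Tr D a c c')
    (hbc : Commute b c) (hne : b ≠ c) :
    b * c * (a * (c * b' * c)) = b' * c' ∧
      a * (c * b' * c) * b * (a * (c * b' * c))⁻¹ = c ∧
      a * (c * b' * c) * c * (a * (c * b' * c))⁻¹ = b := by
  obtain ⟨hb'c', t3, t4, hae, hea, hb'c'ne⟩ := dual_pre h tab tac hbc hne
  have haD := tab.1
  have hbD := tab.2.1
  have hcD := tac.2.1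
  have heD := t3.2.2.1
  have haa := h.1 a haD
  have hbb := h.1 b hbD
  have hcc := h.1 c hcD
  obtain ⟨ab1, ab2, ab3, ab4, ab5, ab6⟩ := tab.all h
  obtain ⟨ac1, ac2, ac3, ac4, ac5, ac6⟩ := tac.all h
  obtain ⟨s1, s2, s3, s4, s5, s6⟩ := t4.all h
  obtain ⟨u1, u2, u3, u4, u5, u6⟩ := t3.all h
  have c05 : a * (c * b' * c) = c * b' * c * a := hae
  have hT1 : b * c * (a * (c * b' * c)) = b' * c' := by
    calc b * c * (a * (c * b' * c)) = b * c * (c * b' * c * a) := by rw [c05]
      _ = b * (c * c) * b' * c * a := by group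
      _ = b * b' * c * a := by rw [hcc, mul_one]
      _ = b * (b * a * b) * c * a := by rw [ab1]
      _ = (b * b) * a * b * c * a := by group
      _ = a * b * c * a := by rw [hbb, one_mul]
      _ = (a * b * a) * (a * c * a) := by
          rw [show a * b * a * (a * c * a) = a * b * (a * a) * c * a by group, haa, mul_one]
      _ = b' * c' := by rw [ab2, ac2]
  have hinv : (a * (c * b' * c))⁻¹ = c * b' * c * a := by
    rw [mul_inv_rev, inv_eq h heD, inv_eq h haD]
  refine ⟨hT1, ?_, ?_⟩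
  · rw [hinv]
    calc a * (c * b' * c) * b * (c * b' * c * a)
        = a * ((c * b' * c) * b * (c * b' * c)) * a := by group
      _ = a * c' * a := by rw [s5]
      _ = c := ac4
  · rw [hinv]
    calc a * (c * b' * c) * c * (c * b' * c * a)
        = a * ((c * b' * c) * c * (c * b' * c)) * a := by group
      _ = a * b' * a := by rw [u5]
      _ = b := ab4

/-- the points of the plane generate a copy of the symmetric group of degree four -/
theorem plane_s4 [Finite G] (h : H3 D) {a b b' c c' : G} (tab : Tr D a b b') (tac : Tr D a c c')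
    (hbc : Commute b c) (hne : b ≠ c) :
    ∃ H : Subgroup G, a ∈ H ∧ b ∈ H ∧ c ∈ H ∧ Nonempty (H ≃* Equiv.Perm (Fin 4)) := by
  obtain ⟨hb'c', t3, t4, hae, hea, hb'c'ne⟩ := dual_pre h tab tac hbc hne
  obtain ⟨hT1, -, -⟩ := dual_facts h tab tac hbc hne
  have haD := tab.1
  have hbD := tab.2.1
  have hb'D := tab.2.2.1
  have hcD := tac.2.1
  have hc'D := tac.2.2.1
  have heD := t3.2.2.1
  have haa := h.1 a haD
  have hbb := h.1 b hbD
  have hcc := h.1 c hcD
  have hb'b' := h.1 b' hb'D
  have hc'c' := h.1 c' hc'D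
  have hee := h.1 _ heD
  obtain ⟨ab1, ab2, ab3, ab4, ab5, ab6⟩ := tab.all h
  obtain ⟨ac1, ac2, ac3, ac4, ac5, ac6⟩ := tac.all h
  have e4 : b * c' * b = c * b' * c := t4.2.2.2.2
  have hbc' : b * c = c * b := hbc
  have hb'c'' : b' * c' = c' * b' := hb'c'
  have hae' : a * (c * b' * c) = c * b' * c * a := hae
  have hXX : (b * c) * (b * c) = 1 := sq_mul_of_comm hbb hcc hbc'
  have hZZ : (b' * c') * (b' * c') = 1 := sq_mul_of_comm hb'b' hc'c' hb'c''
  have hYY : (a * (c * b' * c)) * (a * (c * b' * c)) = 1 := sq_mul_of_comm haa hee hae'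
  have hXY : (b * c) * (a * (c * b' * c)) = (a * (c * b' * c)) * (b * c) := by
    apply comm_of_sq hXX hYY
    rw [hT1]
    exact hZZ
  have hY : a * (c * b' * c) = (b * c) * (b' * c') := by
    rw [← hT1]
    calc a * (c * b' * c) = ((b * c) * (b * c)) * (a * (c * b' * c)) := by rw [hXX, one_mul]
      _ = b * c * (b * c * (a * (c * b' * c))) := by group
  have hab' : (b * c) * (b' * c') = (b' * c') * (b * c) := by
    rw [← hT1]
    calc b * c * (b * c * (a * (c * b' * c)))
        = ((b * c) * (b * c)) * (a * (c * b' * c)) := by group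
      _ = (a * (c * b' * c)) * ((b * c) * (b * c)) := by rw [hXX, one_mul, mul_one]
      _ = ((a * (c * b' * c)) * (b * c)) * (b * c) := by group
      _ = b * c * (a * (c * b' * c)) * (b * c) := by rw [← hXY]
  have ha' : b * c ≠ 1 := by
    intro hcon
    apply hne
    have h1 := eq_inv_of_mul_eq_one_left hcon
    rw [inv_eq h hcD] at h1
    exact h1
  have hb'' : b' * c' ≠ 1 := by
    intro hcon
    apply hb'c'ne
    have h1 := eq_inv_of_mul_eq_one_left hcon
    rw [inv_eq h hc'D] at h1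
    exact h1
  have hne' : b * c ≠ b' * c' := by
    intro hcon
    rw [← hT1] at hcon
    have h1 : a * (c * b' * c) = 1 := by
      have h0 : b * c * (a * (c * b' * c)) = b * c * 1 := by
        rw [mul_one]
        exact hcon.symm
      exact mul_left_cancel h0
    have h2 := eq_inv_of_mul_eq_one_left h1
    rw [inv_eq h heD] at h2
    exact hea h2.symm
  have hc3 : orderOf (a * b) = 3 := by
    have hcube := cube h haD hbD tab.2.2.2.1
    have hpow : (a * b) ^ 3 = 1 := by
      rw [← hcube]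
      simp only [pow_succ, pow_zero, one_mul, mul_assoc]
    have hne1 : a * b ≠ 1 := by
      intro hcon
      have h1 := eq_inv_of_mul_eq_one_left hcon
      rw [inv_eq h hbD] at h1
      exact tab.ne12 h1
    exact orderOf_eq_prime hpow hne1
  have hinv : (a * b)⁻¹ = b * a := by
    rw [mul_inv_rev, inv_eq h hbD, inv_eq h haD]
  have hca : (a * b) * (b * c) * (a * b)⁻¹ = b' * c' := by
    rw [hinv]
    calc a * b * (b * c) * (b * a) = a * (b * b) * c * b * a := by group
      _ = a * c * b * a := by rw [hbb, mul_one]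
      _ = (a * c * a) * (a * b * a) := by
          rw [show a * c * a * (a * b * a) = a * c * (a * a) * b * a by group, haa, mul_one]
      _ = c' * b' := by rw [ac2, ab2]
      _ = b' * c' := hb'c''.symm
  have hcb : (a * b) * (b' * c') * (a * b)⁻¹ = (b * c) * (b' * c') := by
    rw [hinv, ← hY]
    calc a * b * (b' * c') * (b * a) = a * ((b * b' * b) * (b * c' * b)) * a := by
          rw [show (b * b' * b) * (b * c' * b) = b * b' * (b * b) * c' * b by group, hbb, mul_one]
          group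
      _ = a * (a * (c * b' * c)) * a := by rw [ab6, e4]
      _ = (a * a) * (c * b' * c) * a := by group
      _ = c * b' * c * a := by rw [haa, one_mul]
      _ = a * (c * b' * c) := hae'.symm
  have ht1 : a ≠ 1 := by
    intro hcon
    apply tab.2.2.2.1
    rw [hcon]
    exact Commute.one_left b
  have hta : a * (b * c) * a⁻¹ = b' * c' := by
    rw [inv_eq h haD]
    calc a * (b * c) * a = (a * b * a) * (a * c * a) := by
          rw [show a * b * a * (a * c * a) = a * b * (a * a) * c * a by group, haa, mul_one]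
          group
      _ = b' * c' := by rw [ab2, ac2]
  have htb : a * (b' * c') * a⁻¹ = b * c := by
    rw [inv_eq h haD]
    calc a * (b' * c') * a = (a * b' * a) * (a * c' * a) := by
          rw [show a * b' * a * (a * c' * a) = a * b' * (a * a) * c' * a by group, haa, mul_one]
          group
      _ = b * c := by rw [ab4, ac4]
  have htc : a * (a * b) * a⁻¹ = (a * b)⁻¹ := by
    rw [hinv, inv_eq h haD]
    calc a * (a * b) * a = (a * a) * b * a := by group
      _ = b * a := by rw [haa, one_mul]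
  obtain ⟨H, h1, h2, h3, h4, hiso⟩ :=
    s4_of_rel_mem (b * c) (b' * c') (a * b) a hXX hZZ hab' ha' hb'' hne' hc3 hca hcb haa ht1 hta
      htb htc
  have hbH : b ∈ H := by
    have e : b = a * (a * b) := by rw [← mul_assoc, haa, one_mul]
    rw [e]
    exact H.mul_mem h4 h3
  have hcH : c ∈ H := by
    have e : c = b * (b * c) := by rw [← mul_assoc, hbb, one_mul]
    rw [e]
    exact H.mul_mem hbH h1
  exact ⟨H, h4, hbH, hcH, hiso⟩

end plane

section main

variable {G : Type*} [Group G] [Finite G] {D : Set G}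

theorem h3_of_class (hD : IsThreeTranspositionClass D) : H3 D := by
  obtain ⟨hset, ⟨d₀, hd₀, hcl⟩, hgen⟩ := hD
  apply h3_of
  refine ⟨hset, ?_, hgen⟩
  intro g d hd
  rw [hcl] at hd ⊢
  have hd1 : IsConj d₀ d := hd
  show IsConj d₀ (g * d * g⁻¹)
  exact hd1.trans (isConj_iff.mpr ⟨g, rfl⟩)

theorem perp_card (hD : IsThreeTranspositionClass D) {d : G} (hd : d ∈ D)
    (hm : {y : G | y ∈ D ∧ Commute d y}.ncard = 2) {u : G} (hu : u ∈ D) :
    {y : G | y ∈ D ∧ Commute u y}.ncard = 2 := by
  have h := h3_of_class hD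
  obtain ⟨-, ⟨d₀, -, hcl⟩, -⟩ := hD
  have h1 : IsConj d u := by
    rw [hcl] at hd hu
    have hd1 : IsConj d₀ d := hd
    have hu1 : IsConj d₀ u := hu
    exact hd1.symm.trans hu1
  obtain ⟨x, hx⟩ := isConj_iff.mp h1
  have e : {y : G | y ∈ D ∧ Commute u y} =
      (fun y => x * y * x⁻¹) '' {y : G | y ∈ D ∧ Commute d y} := by
    ext z
    constructor
    · rintro ⟨hz, hc⟩
      have e1 : x * (x⁻¹ * z * x) * x⁻¹ = z := by group
      refine ⟨x⁻¹ * z * x, ⟨?_, ?_⟩, e1⟩
      · have h2 := h.2.2 x⁻¹ z hz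
        rwa [inv_inv] at h2
      · rw [← hx, ← e1] at hc
        exact (Commute.conj_iff x).mp hc
    · rintro ⟨y, ⟨hy, hc⟩, rfl⟩
      refine ⟨h.2.2 x y hy, ?_⟩
      rw [← hx]
      exact (Commute.conj_iff x).mpr hc
  have hinj : Function.Injective (fun y => x * y * x⁻¹) := by
    intro y y' hyy
    have h5 : x * y * x⁻¹ = x * y' * x⁻¹ := hyy
    exact mul_left_cancel (mul_right_cancel h5)
  rw [e, Set.ncard_image_of_injective _ hinj]
  exact hm

theorem perp_two (hD : IsThreeTranspositionClass D) {d : G} (hd : d ∈ D)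
    (hm : {y : G | y ∈ D ∧ Commute d y}.ncard = 2) {u p z : G} (hu : u ∈ D) (hp : p ∈ D)
    (hup : Commute u p) (hne : p ≠ u) (hz : z ∈ D) (huz : Commute u z) : z = u ∨ z = p := by
  have hc := perp_card hD hd hm hu
  obtain ⟨s, t, hst, hS⟩ := Set.ncard_eq_two.mp hc
  have h1 : u ∈ ({s, t} : Set G) := by rw [← hS]; exact ⟨hu, Commute.refl u⟩
  have h2 : p ∈ ({s, t} : Set G) := by rw [← hS]; exact ⟨hp, hup⟩
  have h3 : z ∈ ({s, t} : Set G) := by rw [← hS]; exact ⟨hz, huz⟩
  simp only [Set.mem_insert_iff, Set.mem_singleton_iff] at h1 h2 h3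
  rcases h1 with e1 | e1 <;> rcases h2 with e2 | e2 <;> rcases h3 with e3 | e3
  · left; rw [e3, e1]
  · exact absurd (e2.trans e1.symm) hne
  · left; rw [e3, e1]
  · right; rw [e3, e2]
  · right; rw [e3, e2]
  · left; rw [e3, e1]
  · exact absurd (e2.trans e1.symm) hne
  · left; rw [e3, e1]

theorem main (hD : IsThreeTranspositionClass D) {d : G} (hd : d ∈ D)
    (hm : {y : G | y ∈ D ∧ Commute d y}.ncard = 2) : Nonempty (G ≃* Equiv.Perm (Fin 4)) := by
  have h := h3_of_class hD
  have hgen : Subgroup.closure D = ⊤ := hD.2.2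
  have hcl := hD.2.1
  obtain ⟨s, t, hst, hS⟩ := Set.ncard_eq_two.mp hm
  have hdS : d ∈ ({s, t} : Set G) := by rw [← hS]; exact ⟨hd, Commute.refl d⟩
  obtain ⟨d', hd'D, hdd', hd'ne⟩ : ∃ d', d' ∈ D ∧ Commute d d' ∧ d' ≠ d := by
    have hs : s ∈ {y : G | y ∈ D ∧ Commute d y} := by rw [hS]; simp
    have ht : t ∈ {y : G | y ∈ D ∧ Commute d y} := by rw [hS]; simp
    rcases hdS with e | e
    · exact ⟨t, ht.1, ht.2, fun e2 => hst (e.symm.trans e2.symm)⟩
    · exact ⟨s, hs.1, hs.2, fun e2 => hst (e2.trans e)⟩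
  have hdd'ne : d ≠ d' := Ne.symm hd'ne
  have hex : ∃ a ∈ D, ¬ Commute d a := by
    by_contra hcon
    simp only [not_exists, not_and, not_not] at hcon
    have hcent : ∀ g : G, g * d = d * g := by
      intro g
      have hle : Subgroup.closure D ≤ Subgroup.centralizer ({d} : Set G) := by
        rw [Subgroup.closure_le]
        intro y hy
        rw [SetLike.mem_coe, Subgroup.mem_centralizer_iff]
        intro z hz
        rw [Set.mem_singleton_iff.mp hz]
        exact hcon y hy
      have hg : g ∈ Subgroup.centralizer ({d} : Set G) := hle (by rw [hgen]; trivial)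
      rw [Subgroup.mem_centralizer_iff] at hg
      exact (hg d rfl).symm
    obtain ⟨d₀, -, hcl'⟩ := hcl
    have h1 : IsConj d d' := by
      rw [hcl'] at hd hd'D
      have hd1 : IsConj d₀ d := hd
      have hu1 : IsConj d₀ d' := hd'D
      exact hd1.symm.trans hu1
    obtain ⟨x, hx⟩ := isConj_iff.mp h1
    apply hd'ne
    rw [← hx, hcent x, mul_inv_cancel_right]
  obtain ⟨a, haD, hda⟩ := hex
  have hd'a : ¬ Commute d' a := by
    intro hc
    rcases perp_two hD hd hm hd'D hd hdd'.symm hdd'ne haD hc with e1 | e1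
    · exact hda (by rw [e1]; exact hdd')
    · exact hda (by rw [e1])
  have hna_d : ¬ Commute a d := fun hc => hda hc.symm
  have hna_d' : ¬ Commute a d' := fun hc => hd'a hc.symm
  have tab := tr_mk h haD hd hna_d
  have tac := tr_mk h haD hd'D hna_d'
  have haa := h.1 a haD
  obtain ⟨hb'c', t3, t4, hae, hea, hb'c'ne⟩ := dual_pre h tab tac hdd' hdd'ne
  obtain ⟨hT1, hL2a, hL2b⟩ := dual_facts h tab tac hdd' hdd'ne
  have heD : d' * (d * a * d) * d' ∈ D := t3.2.2.1
  have hall : ∀ y ∈ D, y = a ∨ y = d ∨ y = d' ∨ y = d * a * d ∨ y = d' * a * d' ∨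
      y = d' * (d * a * d) * d' := by
    intro y hy
    by_cases hdy : Commute d y
    · rcases perp_two hD hd hm hd hd'D hdd' hd'ne hy hdy with e1 | e1
      · right; left; exact e1
      · right; right; left; exact e1
    have hd'y : ¬ Commute d' y := by
      intro hc
      rcases perp_two hD hd hm hd'D hd hdd'.symm hdd'ne hy hc with e1 | e1
      · exact hdy (by rw [e1]; exact hdd')
      · exact hdy (by rw [e1])
    by_cases hay : Commute a y
    · rcases perp_two hD hd hm haD heD hae hea hy hay with e1 | e1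
      · left; exact e1
      · right; right; right; right; right; exact e1
    have hey : ¬ Commute (d' * (d * a * d) * d') y := by
      intro hc
      rcases perp_two hD hd hm heD haD hae.symm (Ne.symm hea) hy hc with e1 | e1
      · exact hay (by rw [e1]; exact hae)
      · exact hay (by rw [e1])
    have hya : ¬ Commute y a := fun hc => hay hc.symm
    have hye : ¬ Commute y (d' * (d * a * d) * d') := fun hc => hey hc.symm
    have tya := tr_mk h hy haD hya
    have tye := tr_mk h hy heD hye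
    obtain ⟨p1, p2, p3, p4, p5, p6⟩ := dual_pre h tya tye hae (Ne.symm hea)
    obtain ⟨q1, -, -⟩ := dual_facts h tya tye hae (Ne.symm hea)
    have hyd : ¬ Commute y d := fun hc => hdy hc.symm
    have hyd' : ¬ Commute y d' := fun hc => hd'y hc.symm
    have tyd := tr_mk h hy hd hyd
    have tyd' := tr_mk h hy hd'D hyd'
    obtain ⟨r1, r2, r3, r4, r5, r6⟩ := dual_pre h tyd tyd' hdd' hdd'ne
    obtain ⟨-, s2, -⟩ := dual_facts h tyd tyd' hdd' hdd'ne
    have hpart : d' * (d * y * d) * d' =
        (d' * (d * a * d) * d') * (a * y * a) * (d' * (d * a * d) * d') := by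
      rcases perp_two hD hd hm hy p2.2.2.1 p4 p5 r2.2.2.1 r4 with e1 | e1
      · exact absurd e1 r5
      · exact e1
    rw [hpart] at s2
    have hX : (a * (d' * (d * a * d) * d') *
        (y * ((d' * (d * a * d) * d') * (a * y * a) * (d' * (d * a * d) * d')))) * d *
        (a * (d' * (d * a * d) * d') *
          (y * ((d' * (d * a * d) * d') * (a * y * a) * (d' * (d * a * d) * d'))))⁻¹ = d := by
      calc (a * (d' * (d * a * d) * d') *
            (y * ((d' * (d * a * d) * d') * (a * y * a) * (d' * (d * a * d) * d')))) * d *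
            (a * (d' * (d * a * d) * d') *
              (y * ((d' * (d * a * d) * d') * (a * y * a) * (d' * (d * a * d) * d'))))⁻¹
          = (a * (d' * (d * a * d) * d')) *
            ((y * ((d' * (d * a * d) * d') * (a * y * a) * (d' * (d * a * d) * d'))) * d *
              (y * ((d' * (d * a * d) * d') * (a * y * a) * (d' * (d * a * d) * d')))⁻¹) *
            (a * (d' * (d * a * d) * d'))⁻¹ := by group
        _ = (a * (d' * (d * a * d) * d')) * d' * (a * (d' * (d * a * d) * d'))⁻¹ := by rw [s2]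
        _ = d := hL2b
    rw [q1] at hX
    have hWD : a * y * a ∈ D := tya.2.2.1
    have hW2D : (d' * (d * a * d) * d') * y * (d' * (d * a * d) * d') ∈ D := tye.2.2.1
    have hdW : Commute d (a * y * a) := by
      by_contra hcon
      have hd'W : ¬ Commute d' (a * y * a) := by
        intro hc
        rcases perp_two hD hd hm hd'D hd hdd'.symm hdd'ne hWD hc with e1 | e1
        · exact hcon (by rw [e1]; exact hdd')
        · exact hcon (by rw [e1])
      have tWd := tr_mk h hWD hd (fun hc => hcon hc.symm)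
      have tWd' := tr_mk h hWD hd'D (fun hc => hd'W hc.symm)
      obtain ⟨v1, v2, v3, v4, v5, v6⟩ := dual_pre h tWd tWd' hdd' hdd'ne
      obtain ⟨-, w2, -⟩ := dual_facts h tWd tWd' hdd' hdd'ne
      have hpW : (d' * (d * a * d) * d') * y * (d' * (d * a * d) * d') =
          d' * (d * (a * y * a) * d) * d' := by
        rcases perp_two hD hd hm hWD v2.2.2.1 v4 v5 hW2D p1 with e1 | e1
        · exact absurd e1.symm p6
        · exact e1
      rw [← hpW] at w2
      exact hd'ne (w2.symm.trans hX)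
    rcases perp_two hD hd hm hd hd'D hdd' hd'ne hWD hdW with e1 | e1
    · right; right; right; left
      have hy' : y = a * (a * y * a) * a := by
        rw [show a * (a * y * a) * a = (a * a) * y * (a * a) by group, haa, one_mul, mul_one]
      rw [hy', e1]
      exact (tab.all h).2.1
    · right; right; right; right; left
      have hy' : y = a * (a * y * a) * a := by
        rw [show a * (a * y * a) * a = (a * a) * y * (a * a) by group, haa, one_mul, mul_one]
      rw [hy', e1]
      exact (tac.all h).2.1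
  obtain ⟨H, haH, hdH, hd'H, ⟨eH⟩⟩ := plane_s4 h tab tac hdd' hdd'ne
  have hDH : D ⊆ H := by
    intro y hy
    rcases hall y hy with e1 | e1 | e1 | e1 | e1 | e1 <;> rw [e1]
    · exact haH
    · exact hdH
    · exact hd'H
    · exact H.mul_mem (H.mul_mem hdH haH) hdH
    · exact H.mul_mem (H.mul_mem hd'H haH) hd'H
    · exact H.mul_mem (H.mul_mem hd'H (H.mul_mem (H.mul_mem hdH haH) hdH)) hd'H
  have hHtop : H = ⊤ := by
    rw [eq_top_iff, ← hgen, Subgroup.closure_le]
    exact hDH
  subst hHtop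
  exact ⟨Subgroup.topEquiv.symm.trans eH⟩

end main

end Cfsg.Agent.Helper27.TTS4
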