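import Mathlib
import Cfsg.Prelude.Def_GeometricClasses
import Cfsg.Prelude.Def_LieClassical
import Cfsg.Agent.S0783
import Cfsg.Agent.S2587
import Cfsg.Agent.Helper23.S5998p5

set_option autoImplicit false
open scoped MatrixGroups

namespace Cfsg.Agent.Helper27.U3C

open Matrix

variable {F : Type*} [Field F] [Fintype F] {p : ℕ} [Fact p.Prime] [CharP F p]

theorem Tm_mulVec (u : Fin 3 → F) :
    (!![-1, 0, 0; 0, 0, -1; 0, -1, 0] : Matrix (Fin 3) (Fin 3) F) *ᵥ u = ![-u 0, -u 2, -u 1] := by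
  ext i
  fin_cases i <;> simp [Matrix.mulVec, dotProduct, Fin.sum_univ_three]

theorem Tm_sq :
    (!![-1, 0, 0; 0, 0, -1; 0, -1, 0] : Matrix (Fin 3) (Fin 3) F) *
      !![-1, 0, 0; 0, 0, -1; 0, -1, 0] = 1 := by
  ext i j
  fin_cases i <;> fin_cases j <;> simp [Matrix.mul_apply, Fin.sum_univ_three]

theorem Tm_det :
    (!![-1, 0, 0; 0, 0, -1; 0, -1, 0] : Matrix (Fin 3) (Fin 3) F).det = 1 := by
  rw [Matrix.det_fin_three]
  simp

theorem inv_conj (hF : Fintype.card F = p ^ 2) (hp : 5 ≤ p) (x : GL (Fin 3) F) (hx : x ∈ Cfsg.GU 3 F p ⊓ Cfsg.Geo.specialLinear (Fin 3) F) (hx2 : ∃ z : F, ((x ^ 2 : GL (Fin 3) F) : Matrix (Fin 3) (Fin 3) F) = z • (1 : Matrix (Fin 3) (Fin 3) F)) (hns : ∀ z : F, (x : Matrix (Fin 3) (Fin 3) F) ≠ z • (1 : Matrix (Fin 3) (Fin 3) F)) (g : GL (Fin 3) F) (hg : g ∈ Cfsg.GU 3 F p) (T : GL (Fin 3) F) (hT : (T : Matrix (Fin 3) (Fin 3) F) = !![-1, 0, 0; 0, 0,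 -1; 0, -1, 0]) : ∃ (h : GL (Fin 3) F) (c : F), h ∈ Cfsg.GU 3 F p ⊓ Cfsg.Geo.specialLinear (Fin 3) F ∧ ((h⁻¹ * x * h : GL (Fin 3) F) : Matrix (Fin 3) (Fin 3) F) = c • ((g * T * g⁻¹ : GL (Fin 3) F) : Matrix (Fin 3) (Fin 3) F) := by
  obtain ⟨hxU, hxS⟩ := hx
  have hpodd : Odd p := (Fact.out : p.Prime).odd_of_ne_two (by omega)
  have h2 : (2 : F) ≠ 0 := by
    intro h
    have h1 : ((2 : ℕ) : F) = 0 := by exact_mod_cast h
    have h3 := (CharP.cast_eq_zero_iff F p 2).1 h1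
    have h4 := Nat.le_of_dvd (by norm_num) h3
    omega
  have hdet : (x : Matrix (Fin 3) (Fin 3) F).det = 1 := by
    have h1 : Matrix.GeneralLinearGroup.det x = 1 := hxS
    have h3 := congrArg Units.val h1
    rwa [Matrix.GeneralLinearGroup.val_det_apply, Units.val_one] at h3
  obtain ⟨z, hz⟩ := hx2
  obtain ⟨k, c, hk⟩ := Cfsg.Agent.Helper23.S5998p5.p5 h2 x hdet z hz hns
  have hXX : (x : Matrix (Fin 3) (Fin 3) F) * (x : Matrix (Fin 3) (Fin 3) F) = z • 1 := by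
    rw [← hz, pow_two]; rfl
  have hkdet : (k : Matrix (Fin 3) (Fin 3) F).det ≠ 0 := by
    have h1 := (Matrix.GeneralLinearGroup.det k).ne_zero
    rwa [Matrix.GeneralLinearGroup.val_det_apply] at h1
  have hc3 : c ^ 3 = 1 := by
    have h := congrArg Matrix.det hk
    rw [Matrix.det_mul, hdet, one_mul, Matrix.det_smul, Fintype.card_fin, Matrix.det_mul,
      Tm_det, mul_one] at h
    have h1 : (c ^ 3 - 1) * (k : Matrix (Fin 3) (Fin 3) F).det = 0 := by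
      rw [sub_mul, one_mul, ← h, sub_self]
    exact sub_eq_zero.1 ((mul_eq_zero.1 h1).resolve_right hkdet)
  have hk0 : (k : Matrix (Fin 3) (Fin 3) F) ≠ 0 := by
    intro h0
    rw [h0, Matrix.det_zero] at hkdet
    exact hkdet rfl
  have hc2 : c ^ 2 = z := by
    have h1 : (x : Matrix (Fin 3) (Fin 3) F) * ((x : Matrix (Fin 3) (Fin 3) F) *
        (k : Matrix (Fin 3) (Fin 3) F)) = (c ^ 2) • (k : Matrix (Fin 3) (Fin 3) F) := by
      rw [hk, Matrix.mul_smul, ← Matrix.mul_assoc, hk, Matrix.smul_mul, Matrix.mul_assoc, Tm_sq,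
        Matrix.mul_one, smul_smul, ← pow_two]
    rw [← Matrix.mul_assoc, hXX, Matrix.smul_mul, Matrix.one_mul] at h1
    have h3 : (z - c ^ 2) • (k : Matrix (Fin 3) (Fin 3) F) = 0 := by rw [sub_smul, h1, sub_self]
    exact (sub_eq_zero.1 ((smul_eq_zero.1 h3).resolve_right hk0)).symm
  have hzc : z * c = 1 := by rw [← hc2, ← hc3]; ring
  have hx3 : ((x ^ 3 : GL (Fin 3) F) : Matrix (Fin 3) (Fin 3) F) =
      z • (x : Matrix (Fin 3) (Fin 3) F) := by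
    have h1 : (x ^ 3 : GL (Fin 3) F) = x ^ 2 * x := by rw [pow_succ]
    rw [h1, Units.val_mul, hz, Matrix.smul_mul, Matrix.one_mul]
  have hconj1 : x ^ 3 * k = k * T := by
    apply Units.ext
    rw [Units.val_mul, Units.val_mul, hx3, hT, Matrix.smul_mul, hk, smul_smul, hzc, one_smul]
  have hTU : T ∈ Cfsg.GU 3 F p := by
    rw [Cfsg.Agent.S0783.mem_GU_iff]
    intro u v
    rw [hT, Tm_mulVec, Tm_mulVec]
    unfold Cfsg.hermForm
    rw [Fin.sum_univ_three, Fin.sum_univ_three]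
    simp only [Matrix.cons_val_zero, Matrix.cons_val_one, Matrix.cons_val_two, Matrix.head_cons,
      Matrix.tail_cons]
    rw [hpodd.neg_pow, hpodd.neg_pow, hpodd.neg_pow]
    ring
  have hBU : g * T * g⁻¹ ∈ Cfsg.GU 3 F p :=
    Subgroup.mul_mem _ (Subgroup.mul_mem _ hg hTU) (Subgroup.inv_mem _ hg)
  have hAU : x ^ 3 ∈ Cfsg.GU 3 F p := Subgroup.pow_mem _ hxU 3
  have hGL : IsConj (x ^ 3) (g * T * g⁻¹) := by
    rw [isConj_iff]
    refine ⟨g * k⁻¹, ?_⟩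
    rw [_root_.mul_inv_rev, inv_inv]
    calc g * k⁻¹ * x ^ 3 * (k * g⁻¹) = g * k⁻¹ * (x ^ 3 * k) * g⁻¹ := by group
      _ = g * T * g⁻¹ := by rw [hconj1]; group
  have hGU := (Cfsg.Agent.S2587.result hF (⟨x ^ 3, hAU⟩ : ↥(Cfsg.GU 3 F p))
    ⟨g * T * g⁻¹, hBU⟩).2 hGL
  obtain ⟨k', hk'⟩ := isConj_iff.1 hGU
  have hk'' : (k' : GL (Fin 3) F) * x ^ 3 * (k' : GL (Fin 3) F)⁻¹ = g * T * g⁻¹ := by
    have h1 := congrArg Subtype.val hk'
    exact h1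
  obtain ⟨k1, hk1def⟩ : ∃ k1 : GL (Fin 3) F, k1 = (k' : GL (Fin 3) F)⁻¹ := ⟨_, rfl⟩
  have hk1U : k1 ∈ Cfsg.GU 3 F p := by rw [hk1def]; exact Subgroup.inv_mem _ k'.2
  have hk1 : k1⁻¹ * x ^ 3 * k1 = g * T * g⁻¹ := by rw [hk1def, inv_inv]; exact hk''
  obtain ⟨ε, hε⟩ : ∃ ε : Fˣ, ε = (Matrix.GeneralLinearGroup.det k1)⁻¹ := ⟨_, rfl⟩
  have hεp : ε ^ (p + 1) = 1 := by
    rw [hε, inv_pow, Cfsg.Agent.S0783.det_pow_eq_one hF (by omega) k1 hk1U, inv_one]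
  obtain ⟨E, hEdef⟩ : ∃ E : GL (Fin 3) F,
    E = Cfsg.Agent.S0783.diagU (Function.update (fun _ : Fin 3 => (1 : Fˣ)) 0 ε) := ⟨_, rfl⟩
  have hEU : E ∈ Cfsg.GU 3 F p := by
    rw [hEdef]
    exact Cfsg.Agent.S0783.diagU_mem _ (fun i => Cfsg.Agent.S0783.update_pow 0 ε hεp i)
  have hEdet : Matrix.GeneralLinearGroup.det E = ε := by
    rw [hEdef, Cfsg.Agent.S0783.det_diagU, Cfsg.Agent.S0783.prod_update_one]
  have hET : E * T = T * E := by
    apply Units.ext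
    rw [Units.val_mul, Units.val_mul, hT, hEdef, Cfsg.Agent.S0783.diagU_val]
    ext i j
    fin_cases i <;> fin_cases j <;>
      simp [Matrix.mul_apply, Fin.sum_univ_three, Matrix.diagonal, Function.update]
  refine ⟨k1 * (g * E * g⁻¹), c, ⟨?_, ?_⟩, ?_⟩
  · exact Subgroup.mul_mem _ hk1U
      (Subgroup.mul_mem _ (Subgroup.mul_mem _ hg hEU) (Subgroup.inv_mem _ hg))
  · show Matrix.GeneralLinearGroup.det (k1 * (g * E * g⁻¹)) = 1
    rw [map_mul, map_mul, map_mul, map_inv, hEdet, hε,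
      mul_comm (Matrix.GeneralLinearGroup.det g), mul_assoc, mul_inv_cancel, mul_one,
      mul_inv_cancel]
  · have hh : (k1 * (g * E * g⁻¹))⁻¹ * x ^ 3 * (k1 * (g * E * g⁻¹)) = g * T * g⁻¹ := by
      calc (k1 * (g * E * g⁻¹))⁻¹ * x ^ 3 * (k1 * (g * E * g⁻¹))
          = (g * E * g⁻¹)⁻¹ * (k1⁻¹ * x ^ 3 * k1) * (g * E * g⁻¹) := by group
        _ = (g * E * g⁻¹)⁻¹ * (g * T * g⁻¹) * (g * E * g⁻¹) := by rw [hk1]
        _ = g * (E⁻¹ * (T * E)) * g⁻¹ := by group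
        _ = g * (E⁻¹ * (E * T)) * g⁻¹ := by rw [hET]
        _ = g * T * g⁻¹ := by group
    have hxc : (x : Matrix (Fin 3) (Fin 3) F) =
        c • ((x ^ 3 : GL (Fin 3) F) : Matrix (Fin 3) (Fin 3) F) := by
      rw [hx3, smul_smul, mul_comm, hzc, one_smul]
    rw [← hh]
    simp only [Units.val_mul]
    rw [hxc, Matrix.mul_smul, Matrix.smul_mul]

end Cfsg.Agent.Helper27.U3C
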