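import Mathlib
import Cfsg.Agent.Helper27.O6Adj

set_option autoImplicit false

namespace Cfsg.Agent.Helper27.U4Klein

open Matrix Cfsg.Agent.Helper27.O6Adj

variable {R : Type*} [Field R]

/-- The swap matrix (Gram matrix of the Klein pairing). -/
def Sm : Matrix (Fin 3 ⊕ Fin 3) (Fin 3 ⊕ Fin 3) R := fun I J => if I = Sum.swap J then 1 else 0

theorem Sm_mul (C : Matrix (Fin 3 ⊕ Fin 3) (Fin 3 ⊕ Fin 3) R) (I J : Fin 3 ⊕ Fin 3) :
    (Sm (R := R) * C) I J = C (Sum.swap I) J := by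
  rcases I with i | i <;> fin_cases i <;>
    simp [Sm, Matrix.mul_apply, Fintype.sum_sum_type, Fin.sum_univ_three]

theorem mul_Sm (C : Matrix (Fin 3 ⊕ Fin 3) (Fin 3 ⊕ Fin 3) R) (I J : Fin 3 ⊕ Fin 3) :
    (C * Sm (R := R)) I J = C I (Sum.swap J) := by
  rcases J with j | j <;> fin_cases j <;>
    simp [Sm, Matrix.mul_apply, Fintype.sum_sum_type, Fin.sum_univ_three]

theorem klein_gram (M : Matrix (Fin 4) (Fin 4) R) : (cM M)ᵀ * (Sm * cM M) = dF M • Sm := by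
  ext I J
  rw [Matrix.mul_apply]
  simp only [Sm_mul, Matrix.transpose_apply, Matrix.smul_apply, Fintype.sum_sum_type,
    Fin.sum_univ_three, Sum.swap_inl, Sum.swap_inr]
  rcases I with i | i <;> rcases J with j | j <;> fin_cases i <;> fin_cases j <;>
    simp [Sm, cM, pr, dF, e0, Cfsg.quadFormPlus, Matrix.mulVec, dotProduct, Fintype.sum_sum_type,
      Fin.sum_univ_three] <;> ring

theorem cM_map (σ : R →+* R) (M : Matrix (Fin 4) (Fin 4) R) : cM (M.map σ) = (cM M).map σ := by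
  ext I J
  simp [cM, Matrix.map_apply]

theorem cM_transpose (M : Matrix (Fin 4) (Fin 4) R) : cM Mᵀ = (cM M)ᵀ := by
  ext I J
  simp only [cM, Matrix.transpose_apply]
  ring

theorem cM_real (σ : R →+* R) (M : Matrix (Fin 4) (Fin 4) R) (hd : dF M = 1)
    (hU : Mᵀ * M.map σ = 1) (I J : Fin 3 ⊕ Fin 3) :
    cM M (Sum.swap I) J = σ (cM M I (Sum.swap J)) := by
  have h1 : (cM M)ᵀ * (cM M).map σ = 1 := by
    rw [← cM_transpose, ← cM_map, ← cM_mul, hU, cM_one]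
  have h2 : (cM M).map σ * (cM M)ᵀ = 1 := mul_eq_one_comm.1 h1
  have h3 := klein_gram M
  rw [hd, one_smul] at h3
  have h4 : Sm * cM M = (cM M).map σ * Sm := by
    calc Sm * cM M = ((cM M).map σ * (cM M)ᵀ) * (Sm * cM M) := by rw [h2, one_mul]
      _ = (cM M).map σ * ((cM M)ᵀ * (Sm * cM M)) := by rw [Matrix.mul_assoc]
      _ = (cM M).map σ * Sm := by rw [h3]
  have h5 := congrFun (congrFun h4 I) J
  rw [Sm_mul, mul_Sm] at h5
  exact h5

/-- The real vector attached to `p`. -/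
def vec (σ : R →+* R) (p : Fin 3 → R) : Fin 3 ⊕ Fin 3 → R := Sum.elim p (fun i => σ (p i))

theorem mulVec_vec (σ : R →+* R) (hσ : ∀ x, σ (σ x) = x)
    (C : Matrix (Fin 3 ⊕ Fin 3) (Fin 3 ⊕ Fin 3) R)
    (hreal : ∀ I J, C (Sum.swap I) J = σ (C I (Sum.swap J))) (p : Fin 3 → R) :
    C *ᵥ vec σ p = vec σ (fun i => (C *ᵥ vec σ p) (.inl i)) := by
  funext I
  rcases I with i | i
  · rfl
  · show (C *ᵥ vec σ p) (.inr i) = σ ((C *ᵥ vec σ p) (.inl i))
    have h1 : ∀ J, C (.inr i) J = σ (C (.inl i) (Sum.swap J)) := fun J => hreal (.inl i) J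
    simp only [Matrix.mulVec, dotProduct, Fintype.sum_sum_type, vec, Sum.elim_inl, Sum.elim_inr,
      h1, Sum.swap_inl, Sum.swap_inr, map_add, map_sum, map_mul, hσ]
    rw [add_comm]

theorem quad_vec (σ : R →+* R) (p : Fin 3 → R) :
    Cfsg.quadFormPlus 3 R (vec σ p) = ∑ i, p i * σ (p i) := by
  simp [Cfsg.quadFormPlus, vec]

end Cfsg.Agent.Helper27.U4Klein
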