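import Mathlib
import Cfsg.Prelude.Def_Classical
import Cfsg.Agent.Helper27.U4Klein

set_option autoImplicit false

namespace Cfsg.Agent.Helper27.U4Coord

open Matrix QuadraticAlgebra Cfsg.Agent.Helper27.O6Adj Cfsg.Agent.Helper27.U4Klein

variable {F : Type*} [Field F] (a b : F)

/-- The quadratic extension. -/
abbrev QA := QuadraticAlgebra F (-b) a

/-- The index type of the minus form. -/
abbrev Idx := (Fin 2 ⊕ Fin 2) ⊕ Fin 2

/-- First auxiliary coordinate. -/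
def zz1 (w : Idx → F) : F :=
  (2 * b * (w (.inl (.inr 0)) - w (.inl (.inl 0)) - a * w (.inl (.inl 1))) -
    a * (w (.inl (.inr 1)) - b * w (.inl (.inl 1)))) / (4 * b - a ^ 2)

/-- Second auxiliary coordinate. -/
def zz2 (w : Idx → F) : F :=
  (2 * (w (.inl (.inr 1)) - b * w (.inl (.inl 1))) -
    a * (w (.inl (.inr 0)) - w (.inl (.inl 0)) - a * w (.inl (.inl 1)))) / (4 * b - a ^ 2)

/-- Coordinates to triples. -/
def Afun (w : Idx → F) : Fin 3 → QA a b :=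
  ![⟨w (.inl (.inl 0)) + zz1 a b w, w (.inl (.inl 1)) + zz2 a b w⟩, ⟨zz1 a b w, zz2 a b w⟩,
    ⟨w (.inr 0), w (.inr 1)⟩]

/-- Triples to coordinates. -/
def Bfun (p : Fin 3 → QA a b) : Idx → F :=
  Sum.elim (Sum.elim ![(p 0 - p 1).re, (p 0 - p 1).im]
    ![(p 0 - p 1).re + a * (p 0 - p 1).im + 2 * (p 1).re + a * (p 1).im,
      b * (p 0 - p 1).im + a * (p 1).re + 2 * b * (p 1).im])
    ![(p 2).re, (p 2).im]

theorem zz1_mul (hD : 4 * b - a ^ 2 ≠ 0) (w : Idx → F) :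
    zz1 a b w * (4 * b - a ^ 2) =
      2 * b * (w (.inl (.inr 0)) - w (.inl (.inl 0)) - a * w (.inl (.inl 1))) -
        a * (w (.inl (.inr 1)) - b * w (.inl (.inl 1))) :=
  div_mul_cancel₀ _ hD

theorem zz2_mul (hD : 4 * b - a ^ 2 ≠ 0) (w : Idx → F) :
    zz2 a b w * (4 * b - a ^ 2) =
      2 * (w (.inl (.inr 1)) - b * w (.inl (.inl 1))) -
        a * (w (.inl (.inr 0)) - w (.inl (.inl 0)) - a * w (.inl (.inl 1))) :=
  div_mul_cancel₀ _ hD

theorem zz_sol1 (hD : 4 * b - a ^ 2 ≠ 0) (w : Idx → F) :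
    2 * zz1 a b w + a * zz2 a b w =
      w (.inl (.inr 0)) - w (.inl (.inl 0)) - a * w (.inl (.inl 1)) := by
  apply mul_right_cancel₀ hD
  linear_combination 2 * zz1_mul a b hD w + a * zz2_mul a b hD w

theorem zz_sol2 (hD : 4 * b - a ^ 2 ≠ 0) (w : Idx → F) :
    a * zz1 a b w + 2 * b * zz2 a b w = w (.inl (.inr 1)) - b * w (.inl (.inl 1)) := by
  apply mul_right_cancel₀ hD
  linear_combination a * zz1_mul a b hD w + 2 * b * zz2_mul a b hD w

theorem B_00 (p : Fin 3 → QA a b) : Bfun a b p (.inl (.inl 0)) = (p 0 - p 1).re := rfl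
theorem B_01 (p : Fin 3 → QA a b) : Bfun a b p (.inl (.inl 1)) = (p 0 - p 1).im := rfl
theorem B_10 (p : Fin 3 → QA a b) : Bfun a b p (.inl (.inr 0)) =
    (p 0 - p 1).re + a * (p 0 - p 1).im + 2 * (p 1).re + a * (p 1).im := rfl
theorem B_11 (p : Fin 3 → QA a b) : Bfun a b p (.inl (.inr 1)) =
    b * (p 0 - p 1).im + a * (p 1).re + 2 * b * (p 1).im := rfl
theorem B_20 (p : Fin 3 → QA a b) : Bfun a b p (.inr 0) = (p 2).re := rfl
theorem B_21 (p : Fin 3 → QA a b) : Bfun a b p (.inr 1) = (p 2).im := rfl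

theorem A_0 (w : Idx → F) : Afun a b w 0 =
    ⟨w (.inl (.inl 0)) + zz1 a b w, w (.inl (.inl 1)) + zz2 a b w⟩ := rfl
theorem A_1 (w : Idx → F) : Afun a b w 1 = ⟨zz1 a b w, zz2 a b w⟩ := rfl
theorem A_2 (w : Idx → F) : Afun a b w 2 = ⟨w (.inr 0), w (.inr 1)⟩ := rfl

theorem zz1_B (hD : 4 * b - a ^ 2 ≠ 0) (p : Fin 3 → QA a b) : zz1 a b (Bfun a b p) = (p 1).re := by
  apply mul_right_cancel₀ hD
  rw [zz1_mul a b hD, B_00, B_01, B_10, B_11]
  ring

theorem zz2_B (hD : 4 * b - a ^ 2 ≠ 0) (p : Fin 3 → QA a b) : zz2 a b (Bfun a b p) = (p 1).im := by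
  apply mul_right_cancel₀ hD
  rw [zz2_mul a b hD, B_00, B_01, B_10, B_11]
  ring

theorem AB (hD : 4 * b - a ^ 2 ≠ 0) (p : Fin 3 → QA a b) : Afun a b (Bfun a b p) = p := by
  funext i
  fin_cases i
  · show Afun a b (Bfun a b p) 0 = p 0
    rw [A_0, zz1_B a b hD, zz2_B a b hD, B_00, B_01]
    ext <;> simp
  · show Afun a b (Bfun a b p) 1 = p 1
    rw [A_1, zz1_B a b hD, zz2_B a b hD]
  · show Afun a b (Bfun a b p) 2 = p 2
    rw [A_2, B_20, B_21]

theorem BA (hD : 4 * b - a ^ 2 ≠ 0) (w : Idx → F) : Bfun a b (Afun a b w) = w := by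
  funext i
  rcases i with (i | i) | i <;> fin_cases i
  · show Bfun a b (Afun a b w) (.inl (.inl 0)) = w (.inl (.inl 0))
    rw [B_00, A_0, A_1]
    simp
  · show Bfun a b (Afun a b w) (.inl (.inl 1)) = w (.inl (.inl 1))
    rw [B_01, A_0, A_1]
    simp
  · show Bfun a b (Afun a b w) (.inl (.inr 0)) = w (.inl (.inr 0))
    rw [B_10, A_0, A_1]
    simp only [re_sub, im_sub]
    linear_combination zz_sol1 a b hD w
  · show Bfun a b (Afun a b w) (.inl (.inr 1)) = w (.inl (.inr 1))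
    rw [B_11, A_0, A_1]
    simp only [re_sub, im_sub]
    linear_combination zz_sol2 a b hD w
  · show Bfun a b (Afun a b w) (.inr 0) = w (.inr 0)
    rw [B_20, A_2]
  · show Bfun a b (Afun a b w) (.inr 1) = w (.inr 1)
    rw [B_21, A_2]

theorem quad_B (p : Fin 3 → QA a b) :
    algebraMap F (QA a b) (Cfsg.quadFormMinus 2 F a b (Bfun a b p)) =
      p 0 * star (p 0) - p 1 * star (p 1) + p 2 * star (p 2) := by
  have h : Cfsg.quadFormMinus 2 F a b (Bfun a b p) =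
      (p 0 - p 1).re * ((p 0 - p 1).re + a * (p 0 - p 1).im + 2 * (p 1).re + a * (p 1).im) +
      (p 0 - p 1).im * (b * (p 0 - p 1).im + a * (p 1).re + 2 * b * (p 1).im) +
      ((p 2).re * (p 2).re + a * (p 2).re * (p 2).im + b * ((p 2).im * (p 2).im)) := by
    simp only [Cfsg.quadFormMinus, Fin.sum_univ_two, B_00, B_01, B_10, B_11, B_20, B_21]
    ring
  rw [h]
  ext
  · simp
    ring
  · simp
    ring

/-- `Afun` as a linear map. -/
def Al : (Idx → F) →ₗ[F] (Fin 3 → QA a b) where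
  toFun := Afun a b
  map_add' w w' := by
    funext i
    fin_cases i <;> ext <;> simp [Afun, zz1, zz2] <;> ring
  map_smul' c w := by
    funext i
    fin_cases i <;> ext <;> simp [Afun, zz1, zz2] <;> ring

/-- `Bfun` as a linear map. -/
def Bl : (Fin 3 → QA a b) →ₗ[F] (Idx → F) where
  toFun := Bfun a b
  map_add' p p' := by
    funext i
    rcases i with (i | i) | i <;> fin_cases i <;> simp [Bfun] <;> ring
  map_smul' c p := by
    funext i
    rcases i with (i | i) | i <;> fin_cases i <;> simp [Bfun] <;> ring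

/-- The twist. -/
def twl (ν : QA a b) : (Fin 3 → QA a b) →ₗ[F] (Fin 3 → QA a b) where
  toFun p := ![p 0, ν * p 1, p 2]
  map_add' p p' := by
    funext i
    fin_cases i <;> simp [mul_add]
  map_smul' c p := by
    funext i
    fin_cases i <;> simp [mul_smul_comm]

theorem tw_tw (ν ν' : QA a b) (h : ν * ν' = 1) (p : Fin 3 → QA a b) :
    twl a b ν (twl a b ν' p) = p := by
  funext i
  fin_cases i
  · rfl
  · show ν * (ν' * p 1) = p 1
    rw [← mul_assoc, h, one_mul]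
  · rfl

theorem star_smul' (c : F) (z : QA a b) : star (c • z) = c • star z := by
  ext <;> simp <;> ring

variable [hfact : Fact (∀ r : F, r ^ 2 ≠ -b + a * r)]

/-- The semilinear action of a 6×6 matrix on triples. -/
def actl (C : Matrix (Fin 3 ⊕ Fin 3) (Fin 3 ⊕ Fin 3) (QA a b)) :
    (Fin 3 → QA a b) →ₗ[F] (Fin 3 → QA a b) where
  toFun p := fun i => (C *ᵥ U4Klein.vec (starRingEnd (QA a b)) p) (.inl i)
  map_add' p p' := by
    have h : U4Klein.vec (starRingEnd (QA a b)) (p + p') =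
        U4Klein.vec (starRingEnd (QA a b)) p + U4Klein.vec (starRingEnd (QA a b)) p' := by
      funext I
      rcases I with i | i <;> simp [U4Klein.vec]
    funext i
    simp only [h, Matrix.mulVec_add, Pi.add_apply]
  map_smul' c p := by
    have h : U4Klein.vec (starRingEnd (QA a b)) (c • p) = c • U4Klein.vec (starRingEnd (QA a b)) p := by
      funext I
      rcases I with i | i
      · simp [U4Klein.vec]
      · exact star_smul' a b c (p i)
    funext i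
    simp only [h, Matrix.mulVec_smul, Pi.smul_apply, RingHom.id_apply]

/-- Real matrices. -/
def IsReal (C : Matrix (Fin 3 ⊕ Fin 3) (Fin 3 ⊕ Fin 3) (QA a b)) : Prop :=
  ∀ I J, C (Sum.swap I) J = starRingEnd (QA a b) (C I (Sum.swap J))

theorem act_vec (C : Matrix (Fin 3 ⊕ Fin 3) (Fin 3 ⊕ Fin 3) (QA a b)) (hC : IsReal a b C)
    (p : Fin 3 → QA a b) :
    C *ᵥ U4Klein.vec (starRingEnd (QA a b)) p =
      U4Klein.vec (starRingEnd (QA a b)) (actl a b C p) :=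
  mulVec_vec (starRingEnd (QA a b)) (fun x => star_star x) C hC p

theorem act_mul (C D : Matrix (Fin 3 ⊕ Fin 3) (Fin 3 ⊕ Fin 3) (QA a b)) (hD : IsReal a b D)
    (p : Fin 3 → QA a b) : actl a b (C * D) p = actl a b C (actl a b D p) := by
  funext i
  show ((C * D) *ᵥ U4Klein.vec (starRingEnd (QA a b)) p) (.inl i) =
    (C *ᵥ U4Klein.vec (starRingEnd (QA a b)) (actl a b D p)) (.inl i)
  rw [← act_vec a b D hD p, Matrix.mulVec_mulVec]

theorem act_one (p : Fin 3 → QA a b) : actl a b 1 p = p := by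
  funext i
  show ((1 : Matrix (Fin 3 ⊕ Fin 3) (Fin 3 ⊕ Fin 3) (QA a b)) *ᵥ
    U4Klein.vec (starRingEnd (QA a b)) p) (.inl i) = p i
  rw [Matrix.one_mulVec]
  rfl

/-- The full map on coordinates. -/
def Lmap (ν ν' : QA a b) (C : Matrix (Fin 3 ⊕ Fin 3) (Fin 3 ⊕ Fin 3) (QA a b)) :
    (Idx → F) →ₗ[F] (Idx → F) :=
  Bl a b ∘ₗ twl a b ν ∘ₗ actl a b C ∘ₗ twl a b ν' ∘ₗ Al a b

theorem Lmap_apply (ν ν' : QA a b) (C : Matrix (Fin 3 ⊕ Fin 3) (Fin 3 ⊕ Fin 3) (QA a b))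
    (w : Idx → F) :
    Lmap a b ν ν' C w = Bfun a b (twl a b ν (actl a b C (twl a b ν' (Afun a b w)))) := rfl

theorem Lmap_one (hD : 4 * b - a ^ 2 ≠ 0) (ν ν' : QA a b) (h : ν * ν' = 1) :
    Lmap a b ν ν' 1 = LinearMap.id := by
  apply LinearMap.ext
  intro w
  rw [Lmap_apply, act_one, tw_tw a b ν ν' h, BA a b hD]
  rfl

theorem Lmap_mul (hD : 4 * b - a ^ 2 ≠ 0) (ν ν' : QA a b) (h : ν * ν' = 1)
    (C D : Matrix (Fin 3 ⊕ Fin 3) (Fin 3 ⊕ Fin 3) (QA a b)) (hDr : IsReal a b D) :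
    Lmap a b ν ν' (C * D) = Lmap a b ν ν' C ∘ₗ Lmap a b ν ν' D := by
  apply LinearMap.ext
  intro w
  rw [LinearMap.comp_apply, Lmap_apply, Lmap_apply, Lmap_apply, AB a b hD,
    tw_tw a b ν' ν (by rw [mul_comm]; exact h), act_mul a b C D hDr]

theorem quad_tw (ν : QA a b) (hν : ν * star ν = -1) (q : Fin 3 → QA a b) :
    algebraMap F (QA a b) (Cfsg.quadFormMinus 2 F a b (Bfun a b (twl a b ν q))) =
      Cfsg.quadFormPlus 3 (QA a b) (U4Klein.vec (starRingEnd (QA a b)) q) := by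
  rw [quad_B, quad_vec, Fin.sum_univ_three]
  show q 0 * star (q 0) - (ν * q 1) * star (ν * q 1) + q 2 * star (q 2) =
    q 0 * star (q 0) + q 1 * star (q 1) + q 2 * star (q 2)
  rw [star_mul']
  linear_combination (-(q 1 * star (q 1))) * hν

theorem Lmap_quad (hD : 4 * b - a ^ 2 ≠ 0) (ν : QA a b) (hν : ν * star ν = -1)
    (M : Matrix (Fin 4) (Fin 4) (QA a b)) (hd : dF M = 1) (hreal : IsReal a b (cM M))
    (w : Idx → F) :
    Cfsg.quadFormMinus 2 F a b (Lmap a b ν (-star ν) (cM M) w) =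
      Cfsg.quadFormMinus 2 F a b w := by
  apply (algebraMap F (QA a b)).injective
  have h1 : ν * (-star ν) = 1 := by linear_combination (-1 : QA a b) * hν
  rw [Lmap_apply, quad_tw a b ν hν, ← act_vec a b _ hreal, quad_cM, hd, one_mul,
    ← quad_tw a b ν hν, tw_tw a b ν (-star ν) h1, BA a b hD]

theorem Lmap_id_act (hD : 4 * b - a ^ 2 ≠ 0) (ν ν' : QA a b) (h : ν * ν' = 1)
    (C : Matrix (Fin 3 ⊕ Fin 3) (Fin 3 ⊕ Fin 3) (QA a b))
    (hL : Lmap a b ν ν' C = LinearMap.id) (q : Fin 3 → QA a b) : actl a b C q = q := by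
  have h' : ν' * ν = 1 := by rw [mul_comm]; exact h
  have h1 : Lmap a b ν ν' C (Bfun a b (twl a b ν q)) = Bfun a b (twl a b ν q) := by
    rw [hL]
    rfl
  rw [Lmap_apply, AB a b hD, tw_tw a b ν' ν h'] at h1
  have h2 := congrArg (fun x => twl a b ν' (Afun a b x)) h1
  simp only [AB a b hD, tw_tw a b ν' ν h'] at h2
  exact h2

/-- The matrix of the full map. -/
def Tm (ν ν' : QA a b) (C : Matrix (Fin 3 ⊕ Fin 3) (Fin 3 ⊕ Fin 3) (QA a b)) :
    Matrix Idx Idx F :=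
  LinearMap.toMatrix' (Lmap a b ν ν' C)

theorem Tm_mulVec (ν ν' : QA a b) (C : Matrix (Fin 3 ⊕ Fin 3) (Fin 3 ⊕ Fin 3) (QA a b))
    (w : Idx → F) : Tm a b ν ν' C *ᵥ w = Lmap a b ν ν' C w := by
  rw [Tm, ← Matrix.toLin'_apply, Matrix.toLin'_toMatrix']

theorem Tm_one (hD : 4 * b - a ^ 2 ≠ 0) (ν ν' : QA a b) (h : ν * ν' = 1) :
    Tm a b ν ν' 1 = 1 := by
  rw [Tm, Lmap_one a b hD ν ν' h, LinearMap.toMatrix'_id]

theorem Tm_mul (hD : 4 * b - a ^ 2 ≠ 0) (ν ν' : QA a b) (h : ν * ν' = 1)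
    (C D : Matrix (Fin 3 ⊕ Fin 3) (Fin 3 ⊕ Fin 3) (QA a b)) (hDr : IsReal a b D) :
    Tm a b ν ν' (C * D) = Tm a b ν ν' C * Tm a b ν ν' D := by
  rw [Tm, Lmap_mul a b hD ν ν' h C D hDr, LinearMap.toMatrix'_comp]
  rfl

theorem Lmap_of_Tm (ν ν' : QA a b) (C : Matrix (Fin 3 ⊕ Fin 3) (Fin 3 ⊕ Fin 3) (QA a b))
    (h : Tm a b ν ν' C = 1) : Lmap a b ν ν' C = LinearMap.id := by
  have h1 := congrArg Matrix.toLin' h
  rw [Tm, Matrix.toLin'_toMatrix', Matrix.toLin'_one] at h1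
  exact h1

end Cfsg.Agent.Helper27.U4Coord
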