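import Mathlib
import Cfsg.Agent.Helper4.OCenter

set_option autoImplicit false

namespace Cfsg.Agent.Helper27.U4Field

open QuadraticAlgebra

variable {F : Type*} [Field F]

theorem fact_of_aniso (a b : F)
    (hab : ∀ z₁ z₂ : F, z₁ ^ 2 + a * z₁ * z₂ + b * z₂ ^ 2 = 0 → z₁ = 0 ∧ z₂ = 0) :
    Fact (∀ r : F, r ^ 2 ≠ -b + a * r) :=
  ⟨fun r hr => by
    have h := hab r (-1) (by linear_combination hr)
    exact one_ne_zero (neg_eq_zero.1 h.2)⟩

theorem disc_ne_zero [Fintype F] (a b : F)
    (hab : ∀ z₁ z₂ : F, z₁ ^ 2 + a * z₁ * z₂ + b * z₂ ^ 2 = 0 → z₁ = 0 ∧ z₂ = 0) :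
    4 * b - a ^ 2 ≠ 0 := by
  intro h
  by_cases h2 : (2 : F) = 0
  · have ha : a = 0 := by
      have h4 : (4 : F) = 0 := by linear_combination (2 : F) * h2
      have : a ^ 2 = 0 := by linear_combination (-1 : F) * h + b * h4
      exact pow_eq_zero_iff (by norm_num) |>.1 this
    have : CharP F 2 := CharTwo.of_one_ne_zero_of_two_eq_zero one_ne_zero h2
    obtain ⟨c, hc⟩ := FiniteField.isSquare_of_char_two (ringChar.eq F 2) b
    have h3 := hab c 1 (by rw [ha, hc]; linear_combination (c * c) * h2)
    exact one_ne_zero h3.2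
  · have h3 := hab (-a / 2) 1 (by field_simp; linear_combination h)
    exact one_ne_zero h3.2

theorem exists_norm_neg_one [Fintype F] (a b : F)
    (hab : ∀ z₁ z₂ : F, z₁ ^ 2 + a * z₁ * z₂ + b * z₂ ^ 2 = 0 → z₁ = 0 ∧ z₂ = 0) :
    ∃ x y : F, x ^ 2 + a * x * y + b * y ^ 2 = -1 := by
  by_cases h2 : (2 : F) = 0
  · exact ⟨1, 0, by linear_combination h2⟩
  · have hcard : Fintype.card ((Fin 0 ⊕ Fin 0) ⊕ Fin 2) = 2 := by simp [Fintype.card_sum]
    obtain ⟨w, hw⟩ := Cfsg.Agent.Helper4.Spinor.univ (Cfsg.quadFormMinus 0 F a b)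
      (Cfsg.Agent.Helper4.Spinor.minus_nd F 0 a b h2 hab) h2 (by rw [hcard]) (-1)
    refine ⟨w (.inr 0), w (.inr 1), ?_⟩
    rw [← hw]
    simp [Cfsg.quadFormMinus]

section frob

variable [Fintype F] (a b : F)

theorem card_QA : Nat.card (QuadraticAlgebra F (-b) a) = Fintype.card F * Fintype.card F := by
  rw [Nat.card_congr (QuadraticAlgebra.equivProd (-b) a), Nat.card_prod, Nat.card_eq_fintype_card]

theorem finite_QA : Finite (QuadraticAlgebra F (-b) a) :=
  Finite.of_equiv (F × F) (QuadraticAlgebra.equivProd (-b) a).symm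

omit [Fintype F] in
theorem decomp (z : QuadraticAlgebra F (-b) a) :
    z = algebraMap F _ z.re + algebraMap F _ z.im * ω := by
  ext <;> simp

variable [hfact : Fact (∀ r : F, r ^ 2 ≠ -b + a * r)]

theorem pow_card_eq_star (z : QuadraticAlgebra F (-b) a) : z ^ Fintype.card F = star z := by
  obtain ⟨p, hp⟩ := CharP.exists F
  have := hp
  have : Fact p.Prime := ⟨CharP.char_is_prime F p⟩
  obtain ⟨n, -, hn⟩ := FiniteField.card F p
  have : CharP (QuadraticAlgebra F (-b) a) p :=
    charP_of_injective_algebraMap (algebraMap F (QuadraticAlgebra F (-b) a)).injective p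
  have hφz : ∀ z : QuadraticAlgebra F (-b) a,
      iterateFrobenius (QuadraticAlgebra F (-b) a) p n z = z ^ Fintype.card F := fun z => by
    rw [iterateFrobenius_def, hn]
  have hC : ∀ x : F, iterateFrobenius (QuadraticAlgebra F (-b) a) p n (algebraMap F _ x) =
      algebraMap F _ x := by
    intro x
    rw [hφz, ← map_pow, FiniteField.pow_card]
  have h1 : (ω : QuadraticAlgebra F (-b) a) * ω = algebraMap F _ (-b) + algebraMap F _ a * ω := by
    ext <;> simp
  have h2 : (ω : QuadraticAlgebra F (-b) a) + star ω = algebraMap F _ a := by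
    ext <;> simp
  have h3 : (ω : QuadraticAlgebra F (-b) a) * star ω = algebraMap F _ b := by
    ext <;> simp
  have h4 := congrArg (iterateFrobenius (QuadraticAlgebra F (-b) a) p n) h1
  rw [map_mul, map_add, map_mul, hC, hC] at h4
  have hω : iterateFrobenius (QuadraticAlgebra F (-b) a) p n ω = star ω := by
    have h5 : (iterateFrobenius (QuadraticAlgebra F (-b) a) p n ω - ω) *
        (iterateFrobenius (QuadraticAlgebra F (-b) a) p n ω - star ω) = 0 := by
      have e1 : algebraMap F (QuadraticAlgebra F (-b) a) (-b) = -algebraMap F _ b := map_neg _ _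
      rw [e1] at h4
      linear_combination h4 - (iterateFrobenius (QuadraticAlgebra F (-b) a) p n ω) * h2 + h3
    rcases mul_eq_zero.1 h5 with h6 | h6
    · exfalso
      have h7 : iterateFrobenius (QuadraticAlgebra F (-b) a) p n ω = ω := sub_eq_zero.1 h6
      have hall : ∀ z : QuadraticAlgebra F (-b) a, z ^ Fintype.card F = z := by
        intro z
        rw [← hφz]
        conv_lhs => rw [decomp a b z]
        rw [map_add, map_mul, hC, hC, h7]
        exact (decomp a b z).symm
      have := finite_QA a b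
      letI : Fintype (QuadraticAlgebra F (-b) a) := Fintype.ofFinite _
      have hq : 2 ≤ Fintype.card F := Fintype.one_lt_card
      have hu : ∀ x : (QuadraticAlgebra F (-b) a)ˣ, x ^ (Fintype.card F - 1) = 1 := by
        intro x
        apply Units.ext
        have h8 := hall x.1
        have h9 : (x.1) ^ (Fintype.card F - 1) * x.1 = 1 * x.1 := by
          rw [← pow_succ, Nat.sub_add_cancel (by omega), h8, one_mul]
        have h10 := mul_right_cancel₀ x.ne_zero h9
        rw [Units.val_pow_eq_pow_val, h10]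
        rfl
      have hdvd := (FiniteField.forall_pow_eq_one_iff (QuadraticAlgebra F (-b) a)
        (Fintype.card F - 1)).1 hu
      have hc : Fintype.card (QuadraticAlgebra F (-b) a) = Fintype.card F * Fintype.card F := by
        rw [← Nat.card_eq_fintype_card, card_QA]
      rw [hc] at hdvd
      have hle := Nat.le_of_dvd (by omega) hdvd
      have : Fintype.card F * 2 ≤ Fintype.card F * Fintype.card F := Nat.mul_le_mul_left _ hq
      omega
    · exact sub_eq_zero.1 h6
  rw [← hφz]
  conv_lhs => rw [decomp a b z]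
  rw [map_add, map_mul, hC, hC, hω]
  ext
  · simp
    ring
  · simp

end frob

end Cfsg.Agent.Helper27.U4Field
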