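import Mathlib
import Cfsg.Agent.Helper27.U4Coord
import Cfsg.Agent.Helper27.O6Hom
import Cfsg.Agent.S0278
import Cfsg.Agent.S0279

set_option autoImplicit false

namespace Cfsg.Agent.Helper27.U4Hom

open Matrix QuadraticAlgebra Cfsg.Agent.Helper27.O6Adj Cfsg.Agent.Helper27.U4Klein
  Cfsg.Agent.Helper27.U4Coord

/-- The data needed to build the map. -/
structure Dat (F K : Type*) [Field F] [Field K] [Fintype K] (q : ℕ) (a b : F)
    [Fact (∀ r : F, r ^ 2 ≠ -b + a * r)] where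
  hK : Fintype.card K = q ^ 2
  e : K →+* QA a b
  he : ∀ x, e (x ^ q) = star (e x)
  ν : QA a b
  hν : ν * star ν = -1
  hD : 4 * b - a ^ 2 ≠ 0

variable {F K : Type*} [Field F] [Field K] [Fintype K] {q : ℕ} {a b : F}
  [hfact : Fact (∀ r : F, r ^ 2 ≠ -b + a * r)] (d : Dat F K q a b)

theorem Dat.h1 : d.ν * (-star d.ν) = 1 := by linear_combination (-1 : QA a b) * d.hν

/-- The matrix of a unitary element over the quadratic algebra. -/
def Mg (g : Cfsg.SU 4 K q) : Matrix (Fin 4) (Fin 4) (QA a b) := (g.1.1).map d.e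

theorem Mg_one : Mg d 1 = 1 := by
  show (1 : Matrix (Fin 4) (Fin 4) K).map d.e = 1
  exact Matrix.map_one _ d.e.map_zero d.e.map_one

theorem Mg_mul (g h : Cfsg.SU 4 K q) : Mg d (g * h) = Mg d g * Mg d h := by
  show (g.1.1 * h.1.1).map d.e = _
  rw [Matrix.map_mul]
  rfl

theorem Mg_det (g : Cfsg.SU 4 K q) : (Mg d g).det = 1 := by
  rw [Mg, ← RingHom.mapMatrix_apply, ← RingHom.map_det, g.1.2, map_one]

theorem Mg_dF (g : Cfsg.SU 4 K q) : dF (Mg d g) = 1 :=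
  Cfsg.Agent.Helper27.O6Hom.dF_eq_one ⟨Mg d g, Mg_det d g⟩

theorem Mg_unit (g : Cfsg.SU 4 K q) :
    (Mg d g)ᵀ * (Mg d g).map (starRingEnd (QA a b)) = 1 := by
  have h1 := Cfsg.Agent.S0278.gram_eq_one d.hK 4 g.1.1 g.2
  have h2 := congrArg (fun M : Matrix (Fin 4) (Fin 4) K => M.map d.e) h1
  simp only [Matrix.map_mul] at h2
  rw [Matrix.map_one _ d.e.map_zero d.e.map_one, Matrix.map_map] at h2
  have hf : (⇑(starRingEnd (QA a b)) ∘ ⇑d.e) = (⇑d.e ∘ ⇑(Cfsg.Agent.S0284.frob d.hK)) :=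
    funext fun x => (d.he x).symm
  rw [Mg, Matrix.map_map, hf]
  exact h2

theorem Mg_real (g : Cfsg.SU 4 K q) : IsReal a b (cM (Mg d g)) :=
  fun I J => cM_real (starRingEnd (QA a b)) (Mg d g) (Mg_dF d g) (Mg_unit d g) I J

/-- The matrix-valued hom. -/
def psiHom : Cfsg.SU 4 K q →* Matrix Idx Idx F where
  toFun g := Tm a b d.ν (-star d.ν) (cM (Mg d g))
  map_one' := by
    rw [Mg_one, cM_one, Tm_one a b d.hD d.ν (-star d.ν) d.h1]
  map_mul' g h := by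
    rw [Mg_mul, cM_mul, Tm_mul a b d.hD d.ν (-star d.ν) d.h1 _ _ (Mg_real d h)]

/-- The hom `SU₄(K) → O₆⁻(F)`. -/
def psi : Cfsg.SU 4 K q →* ↥(Cfsg.isometryGroup F (Cfsg.quadFormMinus 2 F a b)) :=
  (psiHom d).toHomUnits.codRestrict _ (fun g => by
    intro u v
    show Cfsg.quadFormMinus 2 F a b (Tm a b d.ν (-star d.ν) (cM (Mg d g)) *ᵥ u) = _
    rw [Tm_mulVec, Lmap_quad a b d.hD d.ν d.hν _ (Mg_dF d g) (Mg_real d g)])

theorem psi_coe (g : Cfsg.SU 4 K q) :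
    ((psi d g).1 : Matrix Idx Idx F) = Tm a b d.ν (-star d.ν) (cM (Mg d g)) := rfl

theorem psi_eq_one (g : Cfsg.SU 4 K q) (h : psi d g = 1) (p : Fin 3 → QA a b) :
    actl a b (cM (Mg d g)) p = p := by
  have h1 : Tm a b d.ν (-star d.ν) (cM (Mg d g)) = 1 := by
    rw [← psi_coe, h]
    rfl
  exact Lmap_id_act a b d.hD d.ν (-star d.ν) d.h1 _ (Lmap_of_Tm a b _ _ _ h1) p

end Cfsg.Agent.Helper27.U4Hom
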