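import Mathlib
import Cfsg.Agent.Helper27.U4Hom
import Cfsg.Agent.Helper27.U4Field
import Cfsg.Agent.Helper27.O6Main
import Cfsg.Agent.Helper4.OCenter
import Cfsg.Agent.S0288
import Cfsg.Agent.S0283
import Cfsg.Agent.S0780
import Cfsg.Agent.S0781

set_option autoImplicit false

namespace Cfsg.Agent.Helper27.U4Main

open Matrix QuadraticAlgebra Cfsg.Agent.Helper27.O6Adj Cfsg.Agent.Helper27.U4Klein
  Cfsg.Agent.Helper27.U4Coord Cfsg.Agent.Helper27.U4Hom
open scoped commutatorElement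

variable {F K : Type*} [Field F] [Field K] [Fintype K] {q : ℕ} {a b : F}
  [hfact : Fact (∀ r : F, r ^ 2 ≠ -b + a * r)] (d : Dat F K q a b)

theorem perfect_su (hK : Fintype.card K = q ^ 2) : commutator ↥(Cfsg.SU 4 K q) = ⊤ := by
  rw [eq_top_iff, ← Cfsg.Agent.S0780.result hK 4 (by norm_num) (fun h => by omega)]
  apply (Subgroup.closure_le _).2
  rintro A ⟨v, c, hv, hA⟩
  rw [commutator_eq_closure]
  exact Subgroup.subset_closure
    (Cfsg.Agent.S0781.result hK 4 (Or.inl le_rfl) A v c hv hA)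

/-- A normal subgroup of `SU₄` is central or everything. -/
theorem normal_le_center (hK : Fintype.card K = q ^ 2) (N : Subgroup ↥(Cfsg.SU 4 K q))
    [N.Normal] : N ≤ Subgroup.center ↥(Cfsg.SU 4 K q) ∨ N = ⊤ := by
  have : IsSimpleGroup (Cfsg.PSU 4 K q) :=
    Cfsg.Agent.S0283.result hK 4 (by norm_num) (fun h => by omega)
  have hn : (N.map (QuotientGroup.mk' (Subgroup.center ↥(Cfsg.SU 4 K q)))).Normal :=
    Subgroup.Normal.map inferInstance _ (QuotientGroup.mk'_surjective _)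
  rcases hn.eq_bot_or_eq_top with h | h
  · left
    intro g hg
    have h1 : QuotientGroup.mk' (Subgroup.center ↥(Cfsg.SU 4 K q)) g ∈
        N.map (QuotientGroup.mk' (Subgroup.center ↥(Cfsg.SU 4 K q))) :=
      Subgroup.mem_map_of_mem _ hg
    rw [h, Subgroup.mem_bot] at h1
    exact (QuotientGroup.eq_one_iff g).1 h1
  · right
    have hsup : N ⊔ Subgroup.center ↥(Cfsg.SU 4 K q) = ⊤ := by
      rw [eq_top_iff]
      intro g _
      have h1 : QuotientGroup.mk' (Subgroup.center ↥(Cfsg.SU 4 K q)) g ∈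
          N.map (QuotientGroup.mk' (Subgroup.center ↥(Cfsg.SU 4 K q))) := by
        rw [h]; trivial
      obtain ⟨n, hn, hng⟩ := h1
      have h3 : n⁻¹ * g ∈ Subgroup.center ↥(Cfsg.SU 4 K q) := QuotientGroup.eq.1 hng
      have h4 : g = n * (n⁻¹ * g) := by group
      rw [h4]
      exact Subgroup.mul_mem_sup hn h3
    have hc := Subgroup.Normal.commutator_le_of_self_sup_commutative_eq_top hsup inferInstance
    rw [perfect_su hK] at hc
    exact eq_top_iff.2 hc

theorem act_single (C : Matrix (Fin 3 ⊕ Fin 3) (Fin 3 ⊕ Fin 3) (QA a b)) :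
    actl a b C (Pi.single 0 1) 0 = C (.inl 0) (.inl 0) + C (.inl 0) (.inr 0) := by
  show (C *ᵥ U4Klein.vec (starRingEnd (QA a b)) (Pi.single 0 1)) (.inl 0) = _
  simp [Matrix.mulVec, dotProduct, Fintype.sum_sum_type, Fin.sum_univ_three, U4Klein.vec,
    Pi.single_apply]

/-- A 3-cycle. -/
def sig : Equiv.Perm (Fin 4) := Equiv.swap 0 1 * Equiv.swap 1 2

theorem exists_not_ker : ∃ g : Cfsg.SU 4 K q, psi d g ≠ 1 := by
  classical
  have hdet : (Matrix.diagonal (fun _ : Fin 4 => (1 : K)) * sig.permMatrix K).det = 1 := by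
    rw [Matrix.det_mul, Matrix.det_diagonal, Finset.prod_const_one, one_mul,
      Matrix.det_permutation]
    have : Equiv.Perm.sign sig = 1 := by decide
    rw [this]
    simp
  obtain ⟨A, hA⟩ := Cfsg.Agent.S0279.mono_mem 4 q (fun _ : Fin 4 => (1 : K))
    sig (fun i => one_pow _) hdet
  refine ⟨A, fun h => ?_⟩
  have hent : ∀ i j, A.1.1 i j = if sig i = j then 1 else 0 := by
    intro i j
    have h1 := hA (Pi.single j 1) i
    rw [Matrix.mulVec_single_one, Matrix.col_apply, one_mul] at h1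
    rw [h1, Pi.single_apply]
  have h2 := congrFun (psi_eq_one d A h (Pi.single 0 1)) 0
  rw [act_single] at h2
  have e00 : A.1.1 0 0 = 0 := by rw [hent, if_neg (by decide)]
  have e10 : A.1.1 1 0 = 0 := by rw [hent, if_neg (by decide)]
  have e02 : A.1.1 0 2 = 0 := by rw [hent, if_neg (by decide)]
  have e03 : A.1.1 0 3 = 0 := by rw [hent, if_neg (by decide)]
  simp [cM, pr, Mg, Matrix.map_apply, e00, e10, e02, e03] at h2

theorem ker_ne_top : (psi d).ker ≠ ⊤ := by
  obtain ⟨g, hg⟩ := exists_not_ker d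
  intro h
  apply hg
  rw [← MonoidHom.mem_ker, h]
  trivial

theorem ker_le_center : (psi d).ker ≤ Subgroup.center ↥(Cfsg.SU 4 K q) :=
  (normal_le_center d.hK _).resolve_right (ker_ne_top d)

theorem cM_diag (c : QA a b) :
    cM (Matrix.diagonal (fun _ : Fin 4 => c)) = Matrix.diagonal (fun _ => c * c) := by
  apply Matrix.ext
  intro I J
  rcases I with i | i <;> rcases J with j | j <;> fin_cases i <;> fin_cases j <;>
    simp [cM, pr, Matrix.diagonal_apply]

theorem act_diag (c : QA a b) (p : Fin 3 → QA a b) (i : Fin 3) :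
    actl a b (Matrix.diagonal (fun _ => c)) p i = c * p i := by
  show (Matrix.diagonal (fun _ => c) *ᵥ U4Klein.vec (starRingEnd (QA a b)) p) (.inl i) = _
  rw [Matrix.mulVec_diagonal]
  rfl

theorem scalar_sq (g : Cfsg.SU 4 K q) (h : psi d g = 1)
    (hg : g ∈ Subgroup.center ↥(Cfsg.SU 4 K q)) :
    g.1.1 = Matrix.diagonal (fun _ => g.1.1 0 0) ∧ g.1.1 0 0 * g.1.1 0 0 = 1 := by
  obtain ⟨μ, hμ, -, -⟩ := Cfsg.Agent.S0279.center_scalar d.hK 4 (by norm_num) g hg
  have h00 : g.1.1 0 0 = μ := by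
    rw [hμ]
    simp
  rw [h00]
  refine ⟨hμ, ?_⟩
  have h1 := congrFun (psi_eq_one d g h (fun _ => 1)) 0
  have h2 : Mg d g = Matrix.diagonal (fun _ => d.e μ) := by
    rw [Mg, hμ]
    apply Matrix.ext
    intro i j
    by_cases hij : i = j
    · subst hij
      simp
    · simp [Matrix.diagonal_apply, hij]
  rw [h2, cM_diag, act_diag, mul_one, ← map_mul] at h1
  have h3 : d.e (μ * μ) = d.e 1 := by rw [h1, map_one]
  exact d.e.injective h3

theorem ker_card_le : Nat.card (psi d).ker ≤ Nat.card {x : K // x * x = 1} := by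
  apply Nat.card_le_card_of_injective
    (fun g : (psi d).ker =>
      (⟨g.1.1.1 0 0, (scalar_sq d g.1 (MonoidHom.mem_ker.1 g.2) (ker_le_center d g.2)).2⟩ :
        {x : K // x * x = 1}))
  intro g h hgh
  have h1 : g.1.1.1 0 0 = h.1.1.1 0 0 := congrArg Subtype.val hgh
  apply Subtype.ext
  apply Subtype.ext
  apply Subtype.ext
  rw [(scalar_sq d g.1 (MonoidHom.mem_ker.1 g.2) (ker_le_center d g.2)).1,
    (scalar_sq d h.1 (MonoidHom.mem_ker.1 h.2) (ker_le_center d h.2)).1, h1]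

theorem range_le : (psi d).range ≤
    commutator ↥(Cfsg.isometryGroup F (Cfsg.quadFormMinus 2 F a b)) := by
  rintro _ ⟨g, rfl⟩
  have hg : g ∈ commutator ↥(Cfsg.SU 4 K q) := by rw [perfect_su d.hK]; trivial
  have h1 : psi d g ∈ (commutator ↥(Cfsg.SU 4 K q)).map (psi d) :=
    Subgroup.mem_map_of_mem _ hg
  rw [commutator_def, Subgroup.map_commutator] at h1
  exact Subgroup.commutator_mono le_top le_top h1

omit hfact in
theorem card_O [Fintype F] (hF : Fintype.card F = q) (hK : Fintype.card K = q ^ 2)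
    (hab : ∀ z₁ z₂ : F, z₁ ^ 2 + a * z₁ * z₂ + b * z₂ ^ 2 = 0 → z₁ = 0 ∧ z₂ = 0) :
    Nat.card ↥(Cfsg.isometryGroup F (Cfsg.quadFormMinus 2 F a b)) =
      2 * Nat.card ↥(Cfsg.SU 4 K q) := by
  have hO : Nat.card ↥(Cfsg.isometryGroup F (Cfsg.quadFormMinus 2 F a b)) =
      2 * q ^ 6 * (q ^ 3 + 1) * ∏ i ∈ Finset.range 2, (q ^ (2 * (i + 1)) - 1) :=
    Cfsg.Agent.S0288.result hF 3 (by norm_num) a b hab
  rw [Finset.prod_range_succ, Finset.prod_range_one] at hO
  norm_num at hO
  have hS := Cfsg.Agent.S0278.result hK 4 (by norm_num)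
  rw [Finset.prod_range_succ, Finset.prod_range_succ, Finset.prod_range_succ,
    Finset.prod_range_one, if_pos (by decide : Even 0), if_neg (by decide : ¬ Even 1),
    if_pos (by decide : Even 2), if_neg (by decide : ¬ Even 3)] at hS
  norm_num at hS
  have hq : 0 < q + 1 := by omega
  apply Nat.eq_of_mul_eq_mul_left hq
  have e : (q + 1) * (2 * Nat.card ↥(Cfsg.SU 4 K q)) =
      2 * ((q + 1) * Nat.card ↥(Cfsg.SU 4 K q)) := by ring
  rw [hO, e, hS]
  ring

theorem range_eq [Fintype F] (hF : Fintype.card F = q)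
    (hab : ∀ z₁ z₂ : F, z₁ ^ 2 + a * z₁ * z₂ + b * z₂ ^ 2 = 0 → z₁ = 0 ∧ z₂ = 0) :
    (psi d).range = commutator ↥(Cfsg.isometryGroup F (Cfsg.quadFormMinus 2 F a b)) := by
  apply Subgroup.eq_of_le_of_card_ge (range_le d)
  have hO' := card_O (K := K) hF d.hK hab
  have hmul := Subgroup.card_mul_index
    (commutator ↥(Cfsg.isometryGroup F (Cfsg.quadFormMinus 2 F a b)))
  have hRK : Nat.card ↥(Cfsg.SU 4 K q) =
      Nat.card (psi d).range * Nat.card (psi d).ker := by
    rw [Subgroup.card_eq_card_quotient_mul_card_subgroup (psi d).ker,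
      Nat.card_congr (QuotientGroup.quotientKerEquivRange (psi d)).toEquiv]
  have hKer := ker_card_le d
  have hcard : Fintype.card Idx = 6 := by
    simp [Fintype.card_sum]
  rw [hO', hRK] at hmul
  by_cases hch : (2 : F) = 0
  · have hchK : (2 : K) = 0 := by
      apply d.e.injective
      rw [map_ofNat, map_zero]
      have h1 := congrArg (algebraMap F (QA a b)) hch
      rw [map_ofNat, map_zero] at h1
      exact h1
    have : CharP F 2 := CharTwo.of_one_ne_zero_of_two_eq_zero one_ne_zero hch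
    have hsq : ∀ c : F, ∃ s, s * s = c := fun c => by
      obtain ⟨s, hs⟩ := FiniteField.isSquare_of_char_two (ringChar.eq F 2) c
      exact ⟨s, hs.symm⟩
    have hidx := Cfsg.Agent.Helper4.OCenter.index_two (Cfsg.quadFormMinus 2 F a b)
      (Cfsg.Agent.Helper4.OCenter.minus_nd_two F 2 a b hch hsq hab) hch
      (Or.inr (by rw [hcard]; omega)) ⟨Sum.inr 0⟩
    have hK2 := hKer.trans (Cfsg.Agent.Helper27.O6Main.sq_card_char2 hchK)
    rw [hidx] at hmul
    have hT := Nat.mul_le_mul_left (Nat.card (psi d).range) hK2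
    generalize Nat.card (psi d).range * Nat.card (psi d).ker = T at hmul hT
    omega
  · have hidx := Cfsg.Agent.Helper4.OCenter.index_four (Cfsg.quadFormMinus 2 F a b)
      (Cfsg.Agent.Helper4.Spinor.minus_nd F 2 a b hch hab) hch (by rw [hcard]; omega)
    have hK2 := hKer.trans Cfsg.Agent.Helper27.O6Main.sq_card_le
    rw [hidx] at hmul
    have hT := Nat.mul_le_mul_left (Nat.card (psi d).range) hK2
    generalize Nat.card (psi d).range * Nat.card (psi d).ker = T at hmul hT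
    omega

include d in
theorem main_aux [Fintype F] (hF : Fintype.card F = q)
    (hab : ∀ z₁ z₂ : F, z₁ ^ 2 + a * z₁ * z₂ + b * z₂ ^ 2 = 0 → z₁ = 0 ∧ z₂ = 0) :
    Nonempty (Cfsg.POmega F (Cfsg.quadFormMinus 2 F a b) ≃* Cfsg.PSU 4 K q) := by
  have hrange := range_eq d hF hab
  obtain ⟨ψ', hψ'⟩ : ∃ ψ' : ↥(Cfsg.SU 4 K q) →*
      ↥(commutator ↥(Cfsg.isometryGroup F (Cfsg.quadFormMinus 2 F a b))),
      ∀ x, (ψ' x).1 = psi d x :=
    ⟨(psi d).codRestrict _ (fun x => by rw [← hrange]; exact ⟨x, rfl⟩), fun x => rfl⟩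
  have hsurj : Function.Surjective ψ' := by
    intro z
    have hz : z.1 ∈ (psi d).range := by rw [hrange]; exact z.2
    obtain ⟨x, hx⟩ := hz
    exact ⟨x, Subtype.ext ((hψ' x).trans hx)⟩
  obtain ⟨Φ, hΦ⟩ : ∃ Φ : ↥(Cfsg.SU 4 K q) →*
      Cfsg.POmega F (Cfsg.quadFormMinus 2 F a b), ∀ x, Φ x = QuotientGroup.mk (ψ' x) :=
    ⟨(QuotientGroup.mk' _).comp ψ', fun x => rfl⟩
  have hΦs : Function.Surjective Φ := by
    intro z
    obtain ⟨w, rfl⟩ := QuotientGroup.mk_surjective z
    obtain ⟨x, rfl⟩ := hsurj w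
    exact ⟨x, hΦ x⟩
  have hmem : ∀ x, x ∈ Φ.ker ↔ ψ' x ∈ Subgroup.center
      ↥(commutator ↥(Cfsg.isometryGroup F (Cfsg.quadFormMinus 2 F a b))) := by
    intro x
    rw [MonoidHom.mem_ker, hΦ, QuotientGroup.eq_one_iff]
  have hker : Φ.ker = Subgroup.center ↥(Cfsg.SU 4 K q) := by
    apply le_antisymm
    · rcases normal_le_center d.hK Φ.ker with h | h
      · exact h
      · exfalso
        apply ker_ne_top d
        rw [eq_top_iff, ← perfect_su d.hK, commutator_def, Subgroup.commutator_le]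
        intro g _ k _
        rw [MonoidHom.mem_ker, map_commutatorElement]
        have hg : ψ' g ∈ Subgroup.center
            ↥(commutator ↥(Cfsg.isometryGroup F (Cfsg.quadFormMinus 2 F a b))) := by
          rw [← hmem, h]; trivial
        have h4 := congrArg Subtype.val (Subgroup.mem_center_iff.1 hg (ψ' k))
        rw [Subgroup.coe_mul, Subgroup.coe_mul, hψ', hψ'] at h4
        rw [commutatorElement_def, ← h4]
        group
    · intro x hx
      rw [hmem, Subgroup.mem_center_iff]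
      intro z
      obtain ⟨y, rfl⟩ := hsurj z
      rw [← map_mul, ← map_mul, Subgroup.mem_center_iff.1 hx y]
  exact ⟨(QuotientGroup.quotientKerEquivOfSurjective Φ hΦs).symm.trans
    (QuotientGroup.quotientMulEquivOfEq hker)⟩

end Cfsg.Agent.Helper27.U4Main

namespace Cfsg.Agent.Helper27.U4Final

open Cfsg.Agent.Helper27.U4Coord Cfsg.Agent.Helper27.U4Hom

theorem main {F K : Type*} [Field F] [Fintype F] [Field K] [Fintype K] {q : ℕ}
    (hF : Fintype.card F = q) (hK : Fintype.card K = q ^ 2) (a b : F)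
    (hab : ∀ z₁ z₂ : F, z₁ ^ 2 + a * z₁ * z₂ + b * z₂ ^ 2 = 0 → z₁ = 0 ∧ z₂ = 0) :
    Nonempty (Cfsg.POmega F (Cfsg.quadFormMinus 2 F a b) ≃* Cfsg.PSU 4 K q) := by
  have hfact := Cfsg.Agent.Helper27.U4Field.fact_of_aniso a b hab
  have hD := Cfsg.Agent.Helper27.U4Field.disc_ne_zero a b hab
  obtain ⟨x, y, hxy⟩ := Cfsg.Agent.Helper27.U4Field.exists_norm_neg_one a b hab
  have hν : (⟨x, y⟩ : QA a b) * star (⟨x, y⟩ : QA a b) = -1 := by
    ext
    · simp [QuadraticAlgebra.re_one]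
      linear_combination hxy
    · simp [QuadraticAlgebra.im_one]
      ring
  have hfin := Cfsg.Agent.Helper27.U4Field.finite_QA a b
  let _ : Fintype (QA a b) := Fintype.ofFinite _
  have hc : Fintype.card K = Fintype.card (QA a b) := by
    rw [hK, ← Nat.card_eq_fintype_card (α := QA a b), Cfsg.Agent.Helper27.U4Field.card_QA, hF, sq]
  have he : ∀ z : K, ((FiniteField.ringEquivOfCardEq hc : K ≃+* QA a b) : K →+* QA a b) (z ^ q) =
      star (((FiniteField.ringEquivOfCardEq hc : K ≃+* QA a b) : K →+* QA a b) z) := by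
    intro z
    rw [map_pow, ← hF, Cfsg.Agent.Helper27.U4Field.pow_card_eq_star]
  exact Cfsg.Agent.Helper27.U4Main.main_aux
    (⟨hK, ((FiniteField.ringEquivOfCardEq hc : K ≃+* QA a b) : K →+* QA a b), he, ⟨x, y⟩, hν, hD⟩ :
      Dat F K q a b) hF hab

end Cfsg.Agent.Helper27.U4Final
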